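import Cfsg.Statements.S1615
import Cfsg.Agent.Lib.Fischer.S5
-- import your own Cfsg.Agent.* helpers here

set_option autoImplicit false
open Cfsg

namespace Cfsg.Agent.S1615

open Cfsg.Agent.Lib.Core Subgroup
open scoped Pointwise commutatorElement

open Cfsg.Agent.Lib.Fischer Cfsg.Agent.Lib.Invol

/-- If O(⟨D_x⟩) is not central in ⟨D_x⟩ for some transposition x, the 3-transposition group is the symmetric group of degree 5. -/
theorem result {G : Type*} [Group G] [Finite G] (hsol : ∀ N : Subgroup G, N.Normal → Group.IsSolvable ↥N → N = ⊥) (hperf : ⁅commutator G, commutator G⁆ = commutator G) {D : Set G} (hD : Cfsg.IsThreeTranspositionClass D) (x : G) (hx : x ∈ D) (h : ¬ Cfsg.oddCore ↥(Subgroup.closure {y : G | y ∈ D ∧ y ≠ x ∧ Commute x y}) ≤ Subgroup.center ↥(Subgroup.closure {y : G | y ∈ D ∧ y ≠ x ∧ Commute x y})) : Nonempty (G ≃* Equiv.Perm (Fin 5)) := by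
  have hF := Fi.of_hsol hD hsol hperf
  have : Fact (Nat.Prime 2) := ⟨Nat.prime_two⟩
  change ¬ pPrimeCore 2 (closure (perp D x)) ≤ center _ at h
  set H := closure (perp D x) with hH
  set O := pPrimeCore 2 H with hO
  obtain ⟨n, hn, hnc⟩ := SetLike.not_le_iff_exists.mp h
  obtain ⟨u, hu, hnu⟩ : ∃ u ∈ perp D x, ¬ Commute (n : G) u := by
    by_contra h1
    push Not at h1
    refine hnc (mem_center_iff.mpr fun g => Subtype.ext ?_)
    have : H ≤ centralizer {(n : G)} := (closure_le _).mpr
      fun y hy => mem_centralizer_singleton_iff.mpr (h1 y hy).symm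
    exact mem_centralizer_singleton_iff.mp (this g.2)
  let f := QuotientGroup.mk' O
  have key : ∀ a b : H, (a : G) ∈ D → (b : G) ∈ D → Commute a b → f a = f b → a = b :=
    fun a b ha hb hab h1 => by
      have h2 : a⁻¹ * b ∈ O := QuotientGroup.eq.mp h1
      by_contra hne
      have h3 : orderOf (a⁻¹ * b) = 2 := by
        refine orderOf_eq_prime ?_ fun h => hne (inv_mul_eq_one.mp h)
        rw [hab.inv_left.mul_pow, inv_pow, pow_two, pow_two]
        have e1 : a * a = 1 := Subtype.ext (threeTransp_mul_self hD.1 ha)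
        have e2 : b * b = 1 := Subtype.ext (threeTransp_mul_self hD.1 hb)
        rw [e1, e2, inv_one, one_mul]
      have h4 := O.orderOf_dvd_natCard h2
      rw [h3] at h4
      exact pPrimeCore_not_dvd (p := 2) (G := H) h4
  let u' : H := ⟨u, subset_closure hu⟩
  have hv : cj (n : G) u ∈ perp D x :=
    (cj_mem_perp_of_commute hD (commute_of_mem_closure_perp n.2)).mpr hu
  have h1 : f (cj n u') = f u' := by
    rw [map_cj, show f n = 1 from (QuotientGroup.eq_one_iff n).mpr hn, cj_one]
  refine hF.iso_five_of_theta hx hu hv (fun h2 => ?_) fun w hw hwu h2 => ?_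
  · have := key u' (cj n u') hu.1 hv.1 (Subtype.ext h2) h1.symm
    exact hnu (cj_eq_self_iff.mp (congrArg Subtype.val this).symm)
  · by_contra h3
    let w' : H := ⟨w, subset_closure hw⟩
    have h4 : cj n u' * w' * cj n u' = w' * cj n u' * w' :=
      Subtype.ext (threeTransp_braid hD.1 hv.1 hw.1 h3)
    have h5 : Commute u' w' := Subtype.ext h2
    have h6 := congrArg f h4
    rw [map_mul, map_mul, map_mul, map_mul, h1, (h5.map f).eq, mul_right_inj] at h6
    exact hwu (congrArg Subtype.val (key u' w' hu.1 hw.1 h5 h6)).symm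

end Cfsg.Agent.S1615
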