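import Cfsg.Statements.S0213
import Cfsg.Agent.Lib.Invol.BrauerFowler

set_option autoImplicit false
open Cfsg

namespace Cfsg.Agent.S0213

open Cfsg.Agent.Lib.Invol

theorem card_fiber_eq {G : Type*} [Group G] (x₁ x₂ : G) {w w' : G} (h : IsConj w w') :
    Nat.card {p : G × G // IsConj x₁ p.1 ∧ IsConj x₂ p.2 ∧ w ∈ Subgroup.zpowers (p.1 * p.2)} =
    Nat.card {p : G × G // IsConj x₁ p.1 ∧ IsConj x₂ p.2 ∧ w' ∈ Subgroup.zpowers (p.1 * p.2)} := by
  obtain ⟨c, rfl⟩ := isConj_iff.mp h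
  refine Nat.card_congr (Equiv.subtypeEquiv
    ((MulAut.conj c).toEquiv.prodCongr (MulAut.conj c).toEquiv) ?_)
  rintro ⟨u, v⟩
  have hc : ∀ a b : G, IsConj a b ↔ IsConj a (c * b * c⁻¹) := fun a b =>
    ⟨fun h => h.trans (isConj_iff.mpr ⟨c, rfl⟩), fun h => h.trans (isConj_iff.mpr ⟨c, rfl⟩).symm⟩
  refine and_congr (hc _ _) (and_congr (hc _ _) ?_)
  change w ∈ Subgroup.zpowers (u * v) ↔ c * w * c⁻¹ ∈ Subgroup.zpowers (c * u * c⁻¹ * (c * v * c⁻¹))
  rw [show c * u * c⁻¹ * (c * v * c⁻¹) = c * (u * v) * c⁻¹ by group]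
  simp only [Subgroup.mem_zpowers_iff, conj_zpow, mul_left_inj, mul_right_inj]

/-- Thompson Order Formula, two-class case: if every involution of the finite group G is conjugate to exactly one of the non-conjugate involutions x₁, x₂, and nᵢ is the number of pairs (u, v) with u conjugate to x₁, v conjugate to x₂ and xᵢ in the cyclic group generated by uv, then |G| = |C(x₂)| n₁ + |C(x₁)| n₂. -/
theorem result {G : Type*} [Group G] [Finite G] (x₁ x₂ : G) (h₁ : orderOf x₁ = 2) (h₂ : orderOf x₂ = 2) (hnc : ¬ IsConj x₁ x₂) (hall : ∀ t : G, orderOf t = 2 → IsConj x₁ t ∨ IsConj x₂ t) : Nat.card G = Nat.card (Subgroup.centralizer ({x₂} : Set G)) * Nat.card {p : G × G // IsConj x₁ p.1 ∧ IsConj x₂ p.2 ∧ x₁ ∈ Subgroup.zpowers (p.1 * p.2)} + Nat.card (Subgroup.centralizer ({x₁} : Set G)) * Nat.card {p : G × G // IsConj x₁ p.1 ∧ IsConj x₂ p.2 ∧ x₂ ∈ Subgroup.zpowers (p.1 * p.2)} := by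
  classical
  have := Fintype.ofFinite G
  set n₁ := Nat.card {p : G × G // IsConj x₁ p.1 ∧ IsConj x₂ p.2 ∧
    x₁ ∈ Subgroup.zpowers (p.1 * p.2)} with hn₁
  set n₂ := Nat.card {p : G × G // IsConj x₁ p.1 ∧ IsConj x₂ p.2 ∧
    x₂ ∈ Subgroup.zpowers (p.1 * p.2)} with hn₂
  have heven : ∀ u v : G, IsConj x₁ u → IsConj x₂ v → Even (orderOf (u * v)) := by
    intro u v hu hv
    rw [← Nat.not_odd_iff_even]
    intro ho
    exact hnc (hu.trans ((isConj_of_odd (mul_self_of_orderOf_two (orderOf_eq_of_isConj hu ▸ h₁))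
      (mul_self_of_orderOf_two (orderOf_eq_of_isConj hv ▸ h₂)) ho).trans hv.symm))
  have key : Nat.card {y : G // IsConj x₁ y} * Nat.card {y : G // IsConj x₂ y} =
      ∑ w : {t : G // orderOf t = 2}, Nat.card {p : G × G // IsConj x₁ p.1 ∧ IsConj x₂ p.2 ∧
        w.1 ∈ Subgroup.zpowers (p.1 * p.2)} := by
    rw [← Nat.card_prod, ← Nat.card_sigma]
    symm
    refine Nat.card_congr (Equiv.ofBijective (fun q => (⟨q.2.1.1, q.2.2.1⟩, ⟨q.2.1.2, q.2.2.2.1⟩))
      ⟨?_, ?_⟩)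
    · rintro ⟨⟨w, hw⟩, ⟨u, v⟩, a1, a2, a3⟩ ⟨⟨w', hw'⟩, ⟨u', v'⟩, b1, b2, b3⟩ h
      simp only [Prod.mk.injEq, Subtype.mk.injEq] at h
      obtain ⟨rfl, rfl⟩ := h
      obtain rfl : w = w' := involution_unique_of_isCyclic inferInstance a3 b3 hw hw'
      rfl
    · rintro ⟨⟨u, hu⟩, ⟨v, hv⟩⟩
      exact ⟨⟨⟨_, orderOf_half_pow (orderOf_pos (u * v)).ne' (heven u v hu hv)⟩, (u, v), hu, hv,
        Subgroup.npow_mem_zpowers _ _⟩, rfl⟩
  have key2 : ∑ w : {t : G // orderOf t = 2}, Nat.card {p : G × G // IsConj x₁ p.1 ∧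
      IsConj x₂ p.2 ∧ w.1 ∈ Subgroup.zpowers (p.1 * p.2)} =
      ∑ w : G, ((if IsConj x₁ w then n₁ else 0) + (if IsConj x₂ w then n₂ else 0)) := by
    rw [← Finset.sum_subtype (Finset.univ.filter fun t : G => orderOf t = 2) (by simp)
      (fun w => Nat.card {p : G × G // IsConj x₁ p.1 ∧
      IsConj x₂ p.2 ∧ w ∈ Subgroup.zpowers (p.1 * p.2)}), Finset.sum_filter]
    refine Finset.sum_congr rfl fun w _ => ?_
    by_cases a1 : IsConj x₁ w
    · have a2 : ¬ IsConj x₂ w := fun h => hnc (a1.trans h.symm)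
      rw [if_pos (orderOf_eq_of_isConj a1 ▸ h₁), if_pos a1, if_neg a2, add_zero,
        ← card_fiber_eq x₁ x₂ a1]
    · by_cases a2 : IsConj x₂ w
      · rw [if_pos (orderOf_eq_of_isConj a2 ▸ h₂), if_neg a1, if_pos a2, zero_add,
          ← card_fiber_eq x₁ x₂ a2]
      · rw [if_neg (fun h => (hall w h).elim a1 a2), if_neg a1, if_neg a2, add_zero]
  rw [key2, Finset.sum_add_distrib, ← Finset.sum_filter, ← Finset.sum_filter, Finset.sum_const,
    Finset.sum_const, smul_eq_mul, smul_eq_mul, ← Fintype.card_subtype, ← Fintype.card_subtype,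
    ← Nat.card_eq_fintype_card, ← Nat.card_eq_fintype_card] at key
  have e1 := card_conj_mul_card_centralizer x₁
  have e2 := card_conj_mul_card_centralizer x₂
  have hpos : 0 < Nat.card G := Nat.card_pos
  apply Nat.eq_of_mul_eq_mul_left hpos
  generalize Nat.card {y : G // IsConj x₁ y} = a at *
  generalize Nat.card {y : G // IsConj x₂ y} = b at *
  generalize Nat.card (Subgroup.centralizer ({x₁} : Set G)) = c at *
  generalize Nat.card (Subgroup.centralizer ({x₂} : Set G)) = d at *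
  calc Nat.card G * Nat.card G = (a * c) * (b * d) := by rw [e1, e2]
    _ = (a * b) * (c * d) := by ring
    _ = (a * c) * (d * n₁) + (b * d) * (c * n₂) := by rw [key]; ring
    _ = _ := by rw [e1, e2]; ring

end Cfsg.Agent.S0213
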