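import Cfsg.Statements.S0073
import Cfsg.Agent.Lib.Transfer.Frobenius

set_option autoImplicit false
open Cfsg

namespace Cfsg.Agent.S0073

open Subgroup Cfsg.Agent.Lib.Transfer Cfsg.Agent.Lib.PGroup
open scoped Pointwise commutatorElement

/-- For a finite non-abelian simple group, either the cube of the least prime divisor of the order divides the order, or 12 does. -/
theorem result {G : Type*} [Group G] [Finite G] [IsSimpleGroup G] (hG : ∃ x y : G, x * y ≠ y * x) : (Nat.card G).minFac ^ 3 ∣ Nat.card G ∨ 12 ∣ Nat.card G := by
  by_contra hne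
  push Not at hne
  obtain ⟨h3, h12⟩ := hne
  have hG1 : Nat.card G ≠ 1 := Finite.one_lt_card.ne'
  have hp := Nat.minFac_prime hG1
  set p := (Nat.card G).minFac with hpdef
  haveI := Fact.mk hp
  obtain ⟨P⟩ := Sylow.nonempty (p := p) (G := G)
  obtain ⟨n, hn⟩ := IsPGroup.iff_card.1 P.isPGroup'
  have hn2 : n ≤ 2 := by
    by_contra h
    exact h3 ((pow_dvd_pow p (by omega)).trans (hn ▸ card_subgroup_dvd_card (P : Subgroup G)))
  have hN : HasNormalPComplement p G := by
    apply hasNormalPComplement_of_arith P hn
    intro q hq hqG k hk1 hk2 hd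
    have hpq : p ≤ q := Nat.minFac_le_of_dvd hq.two_le hqG
    have hp2 := hp.two_le
    have hq1 : ¬ q ∣ p - 1 := fun h => by
      have := Nat.le_of_dvd (by omega) h
      omega
    obtain rfl | rfl : k = 1 ∨ k = 2 := by omega
    · exact hq1 (by simpa using hd)
    · have e : p ^ 2 - 1 = (p + 1) * (p - 1) := by
        have := Nat.sq_sub_sq p 1
        simpa using this
      rw [e] at hd
      have h4 := (hq.dvd_mul.1 hd).resolve_right hq1
      have h5 : q = p + 1 := by
        obtain ⟨c, hc⟩ := h4
        have hc1 : c = 1 := by
          rcases c with _ | _ | c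
          · omega
          · rfl
          · nlinarith
        rw [hc, hc1, mul_one]
      have hp2' : p = 2 := by
        rcases hp.eq_two_or_odd' with h | h
        · exact h
        · have h6 := hq.eq_two_or_odd'
          rw [h5] at h6
          rcases h6 with h6 | h6
          · omega
          · exact absurd h6 (by rw [Nat.odd_add_one]; simpa using h)
      apply h12
      have h4' : 4 ∣ Nat.card G := by
        have := hn ▸ card_subgroup_dvd_card (P : Subgroup G)
        have hn' : n = 2 := by omega
        rw [hn', hp2'] at this
        exact this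
      have h3' : 3 ∣ Nat.card G := by rw [h5, hp2'] at hqG; exact hqG
      exact Nat.Coprime.mul_dvd_of_dvd_of_dvd (by norm_num : Nat.Coprime 4 3) h4' h3'
  rcases (pResidual_normal (p := p) (G := G)).eq_bot_or_eq_top with h | h
  · have hPG : IsPGroup p G := isPGroup_quotient_pResidual.of_equiv
      ((QuotientGroup.quotientMulEquivOfEq h).trans QuotientGroup.quotientBot)
    haveI := hPG.isNilpotent
    obtain ⟨x, y, hxy⟩ := hG
    rcases (inferInstance : (center G).Normal).eq_bot_or_eq_top with h1 | h1
    · exact Group.IsNilpotent.center_ne_bot G h1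
    · exact hxy (mem_center_iff.1 (h1 ▸ mem_top y) x)
  · rw [hasNormalPComplement_iff_not_dvd, h, card_top] at hN
    exact hN (Nat.minFac_dvd _)

end Cfsg.Agent.S0073
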