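import Cfsg.Statements.S0078
import Cfsg.Agent.Lib.Transfer.Frobenius

set_option autoImplicit false
open Cfsg

namespace Cfsg.Agent.S0078

open Subgroup Cfsg.Agent.Lib.Transfer Cfsg.Agent.Lib.PGroup
open scoped Pointwise commutatorElement

/-- In a p-normal group, a Sylow p-subgroup P meets O^p(G) exactly where it meets O^p(V), for any subgroup V containing the normalizer of the centre of P. -/
theorem result {G : Type*} [Group G] [Finite G] {p : ℕ} [Fact p.Prime] (P : Sylow p G) (hn : ∀ Q : Sylow p G, (P : Subgroup G) ⊓ Subgroup.centralizer (P : Set G) ≤ (Q : Subgroup G) → (Q : Subgroup G) ⊓ Subgroup.centralizer (Q : Set G) = (P : Subgroup G) ⊓ Subgroup.centralizer (P : Set G)) (V : Subgroup G) (hV : Subgroup.normalizer (((P : Subgroup G) ⊓ Subgroup.centralizer (P : Set G) : Subgroup G) : Set G) ≤ V) : (P : Subgroup G) ⊓ Cfsg.pResidual p G = (P : Subgroup G) ⊓ (Cfsg.pResidual p V).map V.subtype := by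
  set Z : Subgroup G := (P : Subgroup G) ⊓ centralizer (P : Set G) with hZ
  have hW : IsWeaklyClosed Z P := by
    refine isWeaklyClosed_iff.2 ⟨inf_le_left, fun g hg => ?_⟩
    have h1 := hn (g⁻¹ • P) (by
      have := conj_smul_mono (g := g⁻¹) hg
      rwa [conj_inv_smul_conj_smul] at this)
    have h2 : MulAut.conj g⁻¹ • Z = Z := by
      rw [hZ, smul_inf]
      erw [conj_smul_centralizer]
      exact h1
    conv_lhs => rw [← h2, conj_smul_conj_inv_smul]
  have hPV : (P : Subgroup G) ≤ V :=
    (le_normalizer_of_isWeaklyClosed P hW P.isPGroup' inf_le_left).trans hV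
  have h3 := inf_pResidual_eq_of_control P hPV fun x hx g hg => by
    obtain ⟨k, hk, e⟩ := control_of_isWeaklyClosed_central P hW inf_le_right x hx g hg
    exact ⟨k, hV hk, e⟩
  rw [← h3, ← inf_assoc, inf_eq_left.2 hPV]

end Cfsg.Agent.S0078
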