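import Cfsg.Statements.S0079
import Cfsg.Agent.Lib.Transfer.Hall

set_option autoImplicit false
open Cfsg

namespace Cfsg.Agent.S0079

open Subgroup Cfsg.Agent.Lib.Transfer Cfsg.Agent.Lib.PGroup
open scoped Pointwise commutatorElement

/-- A nilpotent Hall subgroup has a normal complement exactly when elements of it that are conjugate in the whole group are already conjugate inside it. -/
theorem result {G : Type*} [Group G] [Finite G] (H : Subgroup G) (hH : Group.IsNilpotent H) (hHall : Nat.Coprime (Nat.card H) H.index) : (∃ N : Subgroup G, N.Normal ∧ N.IsComplement' H) ↔ ∀ x ∈ H, ∀ y ∈ H, (∃ g : G, g * x * g⁻¹ = y) → ∃ h ∈ H, h * x * h⁻¹ = y := by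
  constructor
  · rintro ⟨N, hN, hc⟩ x hx y hy ⟨g, rfl⟩
    obtain ⟨a, ha, b, hb, rfl⟩ := mem_sup_normal_left.1 (hc.sup_eq_top ▸ mem_top g)
    refine ⟨b, hb, ?_⟩
    have hy' : b * x * b⁻¹ ∈ H := mul_mem (mul_mem hb hx) (inv_mem hb)
    have h1 : (b * x * b⁻¹)⁻¹ * (a * b * x * (a * b)⁻¹) ∈ N ⊓ H := by
      refine mem_inf.2 ⟨?_, mul_mem (inv_mem hy') hy⟩
      have := mul_mem (hN.conj_mem' a ha (b * x * b⁻¹)) (inv_mem ha)
      simpa [mul_assoc] using this
    rw [hc.disjoint.eq_bot, mem_bot, inv_mul_eq_one] at h1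
    exact h1
  · intro h
    exact exists_normal_complement_of_nilpotent_hall hHall
      fun x hx g hg => h x hx _ hg ⟨g, rfl⟩

end Cfsg.Agent.S0079
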