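import Cfsg.Statements.S0083
import Cfsg.Agent.Lib.Transfer.Frobenius

set_option autoImplicit false
open Cfsg

namespace Cfsg.Agent.S0083

open Subgroup Cfsg.Agent.Lib.Transfer Cfsg.Agent.Lib.PGroup
open scoped Pointwise commutatorElement

/-- For an abelian Sylow p-subgroup P, a normal p-complement exists exactly when the normalizer of P is an internal direct product of P with some subgroup. -/
theorem result {G : Type*} [Group G] [Finite G] {p : ℕ} [Fact p.Prime] (P : Sylow p G) (hP : IsMulCommutative P) : Cfsg.HasNormalPComplement p G ↔ ∃ Q : Subgroup G, Q ≤ Subgroup.centralizer (P : Set G) ∧ Q ⊓ (P : Subgroup G) = ⊥ ∧ Q ⊔ (P : Subgroup G) = Subgroup.normalizer (P : Set G) := by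
  constructor
  · intro h
    have hPN : (P : Subgroup G) ≤ normalizer (P : Set G) := le_normalizer
    refine ⟨(pResidual p (normalizer (P : Set G))).map (Subgroup.subtype _), ?_, ?_, ?_⟩
    · rw [map_subtype_pResidual_eq_closure, closure_le]
      exact fun g hg => mem_centralizer_of_hasNormalPComplement h P.isPGroup' hg.1 hg.2
    · rw [eq_bot_iff, ← (hasNormalPComplement_iff_inf_eq_bot P).1 h, inf_comm]
      exact inf_le_inf_left _ (map_pResidual_le _)
    · refine le_antisymm (sup_le (map_subtype_le _) hPN) fun g hg => ?_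
      obtain ⟨a, ha, s, hs, rfl⟩ := (isSylowIn_sylow P hPN).exists_pResidual_mul hg
      exact mul_mem (mem_sup_left ha) (mem_sup_right hs)
  · rintro ⟨Q, h1, -, h3⟩
    apply hasNormalPComplement_of_normalizer_le_centralizer P
    rw [← h3]
    exact sup_le h1 (P : Subgroup G).le_centralizer

end Cfsg.Agent.S0083
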