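import Cfsg.Statements.S0087
import Cfsg.Agent.Lib.Transfer.Hall

set_option autoImplicit false
open Cfsg

namespace Cfsg.Agent.S0087

open Subgroup Cfsg.Agent.Lib.Transfer Cfsg.Agent.Lib.PGroup
open scoped Pointwise commutatorElement

/-- A Hall subgroup that is central in its normalizer has a normal complement. -/
theorem result {G : Type*} [Group G] [Finite G] (H : Subgroup G) (hHall : Nat.Coprime (Nat.card H) H.index) (h : Subgroup.normalizer (H : Set G) ≤ Subgroup.centralizer (H : Set G)) : ∃ N : Subgroup G, N.Normal ∧ N.IsComplement' H := by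
  have hc : H ≤ centralizer (H : Set G) := le_normalizer.trans h
  haveI : IsMulCommutative H := le_centralizer_iff_isMulCommutative.1 hc
  haveI : Group.IsNilpotent H := by
    open scoped IsMulCommutative in exact CommGroup.isNilpotent
  apply exists_normal_complement_of_nilpotent_hall hHall
  intro x hx g hg
  refine ⟨1, one_mem _, ?_⟩
  haveI : Group.IsNilpotent (MulAut.conj g⁻¹ • H : Subgroup G) :=
    Group.nilpotent_of_mulEquiv (H.equivSMul (MulAut.conj g⁻¹))
  obtain ⟨c, hc', e⟩ := exists_conj_eq_of_nilpotent_hall (H := H) (K := MulAut.conj g⁻¹ • H)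
    (L := centralizer {x}) (hc.trans (centralizer_le (Set.singleton_subset_iff.2 hx)))
    (by
      rw [conj_smul_le_iff]
      intro y hy
      rw [mem_centralizer_singleton_iff]
      have := mem_centralizer_iff.1 (hc hg) y hy
      have h2 := congrArg (fun t => g⁻¹ * t * g) this
      simpa [mul_assoc] using h2) hHall (card_conj_smul _ _).symm
  rw [conj_smul_conj_smul, conj_smul_eq_iff] at e
  have h1 := mem_centralizer_iff.1 (h e) _ hg
  rw [mem_centralizer_singleton_iff] at hc'
  have h2 : g * x * g⁻¹ = (c * g⁻¹) * (g * x * g⁻¹) * (c * g⁻¹)⁻¹ := by rw [← h1]; group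
  rw [h2]
  calc 1 * x * 1⁻¹ = (c * x) * c⁻¹ := by rw [hc']; group
    _ = _ := by group

end Cfsg.Agent.S0087
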