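import Cfsg.Statements.S0089
import Cfsg.Agent.Lib.Transfer.Frobenius

set_option autoImplicit false
open Cfsg

namespace Cfsg.Agent.S0089

open Subgroup Cfsg.Agent.Lib.Transfer Cfsg.Agent.Lib.PGroup
open scoped Pointwise commutatorElement

/-- When all Sylow subgroups are abelian, the derived subgroup meets the centre trivially. -/
theorem result {G : Type*} [Group G] [Finite G] (h : ∀ p : ℕ, p.Prime → ∀ P : Sylow p G, IsMulCommutative P) : commutator G ⊓ Subgroup.center G = ⊥ := by
  by_contra hne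
  have h1 : Nat.card (commutator G ⊓ center G : Subgroup G) ≠ 1 := fun e => hne (card_eq_one.1 e)
  obtain ⟨p, hp, hd⟩ := Nat.exists_prime_and_dvd h1
  haveI := Fact.mk hp
  obtain ⟨z, hz⟩ := exists_prime_orderOf_dvd_card' p hd
  have hz' : (z : G) ^ p ^ 1 = 1 := by rw [pow_one, ← hz, ← orderOf_coe, pow_orderOf_eq_one]
  obtain ⟨P, hP⟩ := (isPGroup_zpowers hz').exists_le_sylow
  haveI := h p hp P
  have h2 := abelian_hall_inf_commutator_inf_center (H := (P : Subgroup G)) P.card_coprime_index
  have h3 : (z : G) ∈ (P : Subgroup G) ⊓ commutator G ⊓ center G :=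
    ⟨⟨hP (mem_zpowers _), z.2.1⟩, z.2.2⟩
  rw [h2, mem_bot] at h3
  rw [← orderOf_coe, h3, orderOf_one] at hz
  exact hp.one_lt.ne hz

end Cfsg.Agent.S0089
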