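import Cfsg.Statements.S0092
import Cfsg.Agent.Lib.Transfer.Frobenius
import Cfsg.Agent.Lib.Core.Coprime

set_option autoImplicit false
open Cfsg

namespace Cfsg.Agent.S0092

open Subgroup Cfsg.Agent.Lib.Transfer Cfsg.Agent.Lib.PGroup
open scoped Pointwise commutatorElement

/-- If the Sylow p-subgroups of O^p(G) are abelian then G splits over O^p(G). -/
theorem result {G : Type*} [Group G] [Finite G] {p : ℕ} [Fact p.Prime] (h : ∀ Q : Sylow p (Cfsg.pResidual p G), IsMulCommutative Q) : ∃ K : Subgroup G, K.IsComplement' (Cfsg.pResidual p G) := by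
  set K := pResidual p G with hK
  obtain ⟨Q', hQ'⟩ : ∃ Q' : Sylow p K, True := ⟨default, trivial⟩
  haveI := h Q'
  set Q := (Q' : Subgroup K).map K.subtype with hQdef
  have hQ : IsSylowIn p Q K := isSylowIn_map_subtype Q'
  haveI : IsMulCommutative Q := inferInstance
  set M := K ⊓ normalizer (Q : Set G) with hM
  have hQM : Q ≤ M := le_inf hQ.le le_normalizer
  have hcop : Nat.Coprime (Nat.card Q) (Q.relIndex M) := by
    obtain ⟨n, hn⟩ := IsPGroup.iff_card.1 hQ.isPGroup
    rw [hn]
    exact ((Fact.out : p.Prime).coprime_iff_not_dvd.2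
      (hQ.of_le hQM inf_le_left).not_dvd_relIndex).pow_left n
  have hQQ : ⁅Q, M⁆ = Q := by
    have h1 := congrArg (map K.subtype) (abelian_sylow_inf_pResidual Q')
    rw [pResidual_pResidual, inf_top_eq, map_commutator,
      Cfsg.Agent.Lib.Core.map_subtype_normalizer] at h1
    exact h1.symm
  have hC : Q ⊓ centralizer (M : Set G) = ⊥ := by
    have := (commutator_sup_centralizer_of_abelian hQM inf_le_right hcop).2.1
    rwa [hQQ, ← inf_assoc, inf_idem] at this
  obtain ⟨L, hLM, hLQ, hLQ', hLc⟩ := Cfsg.Agent.Lib.Core.exists_complement hQM inf_le_right hcop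
  have hLn : L ≤ normalizer (Q : Set G) := hLM.trans inf_le_right
  -- Frattini argument for 
  have hfr : ∀ n ∈ normalizer (Q : Set G), ∃ q ∈ Q, q * n ∈ normalizer (L : Set G) := by
    intro n hn
    have hnM : n ∈ normalizer (M : Set G) :=
      inf_normalizer_le_normalizer_inf ⟨by simp [normalizer_eq_top], le_normalizer hn⟩
    obtain ⟨q, hq, e⟩ := Cfsg.Agent.Lib.Core.exists_conj_le_of_solvable_left (N := Q) (H := L)
      (K := MulAut.conj n • L)
      (Cfsg.Agent.Lib.Core.isSolvable_of_isPGroup hQ.isPGroup) hLn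
      (by rw [hLQ', ← conj_smul_eq_iff.2 hnM]; exact conj_smul_mono hLM) hLQ
      (by rw [card_conj_smul, hLc]; exact hcop.symm)
    refine ⟨q, hq, mem_normalizer_of_conj_le (conj_smul_le_iff.1 ?_)⟩
    rw [← conj_smul_conj_smul]
    exact e
  set N := normalizer (Q : Set G) ⊓ normalizer (L : Set G) with hN
  have hNQ : N ⊓ Q = ⊥ := by
    rw [eq_bot_iff, ← hC]
    refine le_inf inf_le_right ?_
    rw [← hLQ', le_centralizer_iff]
    refine sup_le ?_ (le_centralizer_iff.1 (inf_le_right.trans Q.le_centralizer))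
    rw [← commutator_eq_bot_iff_le_centralizer, eq_bot_iff, ← hLQ]
    refine le_inf (le_normalizer_iff_commutator_le_left.1 (inf_le_left.trans inf_le_right)) ?_
    exact (commutator_mono le_rfl inf_le_right).trans (le_normalizer_iff_commutator_le_right.1 hLn)
  obtain ⟨U, hU⟩ := exists_isSylowIn p N
  refine ⟨U, isComplement'_of_disjoint_and_mul_eq_univ ?_ ?_⟩
  · rw [disjoint_iff, eq_bot_iff, ← hNQ]
    refine le_inf (inf_le_left.trans hU.le) ?_
    exact hQ.le_of_normalizes hU.isPGroup.to_inf_left inf_le_right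
      (inf_le_left.trans (hU.le.trans inf_le_left))
  · rw [← mul_normal, coe_eq_univ, eq_top_iff]
    intro g _
    obtain ⟨k, hk, n, hn, rfl⟩ := hQ.frattini (g := g) (by simp [normalizer_eq_top])
    obtain ⟨q, hq, hqn⟩ := hfr n hn
    obtain ⟨a, ha, u, hu, e⟩ := hU.exists_pResidual_mul
      (⟨mul_mem (le_normalizer hq) hn, hqn⟩ : q * n ∈ N)
    have : n = q⁻¹ * (a * u) := by rw [e]; simp
    rw [this]
    exact mul_mem (mem_sup_right hk) (mul_mem (mem_sup_right (inv_mem (hQ.le hq)))
      (mul_mem (mem_sup_right (map_pResidual_le _ ha)) (mem_sup_left hu)))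

end Cfsg.Agent.S0092
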