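import Cfsg.Statements.S0097
import Cfsg.Agent.Lib.PGroup.Special

set_option autoImplicit false
open Cfsg

namespace Cfsg.Agent.S0097

open Subgroup Cfsg.Agent.Lib.Transfer Cfsg.Agent.Lib.PGroup
open scoped Pointwise commutatorElement

/-- For odd p and E extraspecial, the subgroup generated by the elements of order dividing p has exponent dividing p and index at most p. -/
theorem result {E : Type*} [Group E] [Finite E] {p : ℕ} [Fact p.Prime] (hp : p ≠ 2) (h : Cfsg.IsExtraspecial p E) : (Subgroup.closure {x : E | x ^ p = 1}).index ≤ p ∧ ∀ g ∈ Subgroup.closure {x : E | x ^ p = 1}, g ^ p = 1 := by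
  have hodd := (Fact.out : p.Prime).odd_of_ne_two hp
  refine ⟨?_, fun g hg => omega_pow_eq_one_of_class_two hodd h.1.2.2.le hg⟩
  let f := powHom hodd h.1.2.2.le
    (fun z hz => special_center_pow_eq_one h.1 (h.1.2.2.le hz))
  have h1 : f.ker ≤ closure {x : E | x ^ p = 1} := fun x hx => subset_closure hx
  have h2 : f.range ≤ center E := by
    rintro _ ⟨x, rfl⟩
    exact special_pow_mem_center h.1 x
  refine (index_antitone h1).trans ?_
  rw [index_ker, ← h.2]
  exact card_le_of_le h2

end Cfsg.Agent.S0097
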