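import Cfsg.Statements.S0099
import Cfsg.Agent.Lib.PGroup.Extraspecial2

set_option autoImplicit false
open Cfsg

namespace Cfsg.Agent.S0099

open Subgroup Cfsg.Agent.Lib.Transfer Cfsg.Agent.Lib.PGroup
open scoped Pointwise commutatorElement

/-- Among three extraspecial 2-groups of equal order, some two are isomorphic. -/
theorem result {E₁ : Type*} {E₂ : Type*} {E₃ : Type*} [Group E₁] [Group E₂] [Group E₃] [Finite E₁] [Finite E₂] [Finite E₃] (h₁ : Cfsg.IsExtraspecial 2 E₁) (h₂ : Cfsg.IsExtraspecial 2 E₂) (h₃ : Cfsg.IsExtraspecial 2 E₃) (h12 : Nat.card E₁ = Nat.card E₂) (h23 : Nat.card E₂ = Nat.card E₃) : Nonempty (E₁ ≃* E₂) ∨ Nonempty (E₂ ≃* E₃) ∨ Nonempty (E₁ ≃* E₃) := by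
  obtain ⟨m₁, -, a₁, b₁⟩ := extraspecial_two_count h₁
  obtain ⟨m₂, -, a₂, b₂⟩ := extraspecial_two_count h₂
  obtain ⟨m₃, -, a₃, b₃⟩ := extraspecial_two_count h₃
  have e1 : m₂ = m₁ := by
    have := Nat.pow_right_injective le_rfl (a₁.symm.trans (h12.trans a₂))
    omega
  have e2 : m₃ = m₂ := by
    have := Nat.pow_right_injective le_rfl (a₂.symm.trans (h23.trans a₃))
    omega
  subst e1 e2
  by_cases c1 : Nat.card {x : E₁ // x ^ 2 = 1} = Nat.card {x : E₂ // x ^ 2 = 1}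
  · exact Or.inl (extraspecial_two_nonempty_mulEquiv h₁ h₂ h12 c1)
  by_cases c2 : Nat.card {x : E₂ // x ^ 2 = 1} = Nat.card {x : E₃ // x ^ 2 = 1}
  · exact Or.inr (Or.inl (extraspecial_two_nonempty_mulEquiv h₂ h₃ h23 c2))
  exact Or.inr (Or.inr (extraspecial_two_nonempty_mulEquiv h₁ h₃ (h12.trans h23) (by omega)))

end Cfsg.Agent.S0099
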