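import Cfsg.Statements.S0102
import Cfsg.Agent.Lib.Transfer.Frobenius

set_option autoImplicit false
open Cfsg

namespace Cfsg.Agent.S0102

open Subgroup Cfsg.Agent.Lib.Transfer Cfsg.Agent.Lib.PGroup
open scoped Pointwise commutatorElement

/-- A finite perfect group with cyclic Sylow p-subgroups has no perfect central extension whose kernel has order divisible by p. -/
theorem result {G : Type*} {H : Type*} [Group G] [Group H] [Finite G] [Finite H] (hG : commutator G = ⊤) {p : ℕ} [Fact p.Prime] (hcyc : ∀ P : Sylow p G, IsCyclic P) (σ : H →* G) (hσ : Function.Surjective σ) (hz : σ.ker ≤ Subgroup.center H) (hH : commutator H = ⊤) : ¬ p ∣ Nat.card σ.ker := by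
  intro hd
  obtain ⟨P⟩ := Sylow.nonempty (p := p) (G := H)
  haveI := hcyc (P.mapSurjective hσ)
  haveI : IsCyclic ((P : Subgroup H).map σ) := hcyc (P.mapSurjective hσ)
  haveI : IsMulCommutative P :=
    (σ.subgroupMap (P : Subgroup H)).isMulCommutative_of_isCyclic_of_ker_le_center (by
      rw [ker_subgroupMap]
      intro x hx
      exact mem_center_iff.2 fun g => Subtype.ext (mem_center_iff.1 (hz hx) g))
  have h1 := abelian_hall_inf_commutator_inf_center (H := (P : Subgroup H)) P.card_coprime_index
  have h2 := (isSylowIn_sylow_inf_normal P σ.ker).not_dvd_relIndex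
  have h3 : (P : Subgroup H) ⊓ σ.ker = ⊥ := by
    rw [eq_bot_iff, ← h1, hH, inf_top_eq]
    exact inf_le_inf_left _ hz
  rw [h3, relIndex_bot_left] at h2
  exact h2 hd

end Cfsg.Agent.S0102
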