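import Cfsg.Statements.S0104
import Cfsg.Agent.Lib.Transfer.Frobenius

set_option autoImplicit false
open Cfsg

namespace Cfsg.Agent.S0104

open Subgroup Cfsg.Agent.Lib.Transfer Cfsg.Agent.Lib.PGroup
open scoped Pointwise commutatorElement

/-- A subgroup Z of a Sylow p-subgroup P that is normalized by N_G(P) is weakly closed in P exactly when it is normal in every Sylow p-subgroup containing it. -/
theorem result {G : Type*} [Group G] [Finite G] {p : ℕ} [Fact p.Prime] (P : Sylow p G) (Z : Subgroup G) (hZP : Z ≤ (P : Subgroup G)) (hZN : Subgroup.normalizer (P : Set G) ≤ Subgroup.normalizer (Z : Set G)) : Cfsg.IsWeaklyClosed Z P ↔ ∀ R : Sylow p G, Z ≤ (R : Subgroup G) → (R : Subgroup G) ≤ Subgroup.normalizer (Z : Set G) := by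
  constructor
  · intro h R hR
    exact le_normalizer_of_isWeaklyClosed P h R.isPGroup' hR
  · intro h
    refine isWeaklyClosed_iff.2 ⟨hZP, fun g hg => ?_⟩
    have h1 : Z ≤ (g⁻¹ • P : Sylow p G) := by
      have := conj_smul_mono (g := g⁻¹) hg
      rwa [conj_inv_smul_conj_smul] at this
    obtain ⟨c, hc, e⟩ := (isSylowIn_sylow P (h P hZP)).exists_conj_eq
      (isSylowIn_sylow _ (h _ h1))
    have h2 : g * c ∈ normalizer ((P : Subgroup G) : Set G) := by
      rw [← conj_smul_eq_iff, ← conj_smul_conj_smul, e, Sylow.coe_subgroup_smul,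
        conj_smul_conj_inv_smul]
    have h3 := mul_mem (hZN h2) (inv_mem hc)
    rw [mul_inv_cancel_right] at h3
    exact conj_smul_eq_iff.2 h3

end Cfsg.Agent.S0104
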