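import Cfsg.Statements.S0105
import Cfsg.Agent.Lib.Transfer.Frobenius

set_option autoImplicit false
open Cfsg

namespace Cfsg.Agent.S0105

open Subgroup Cfsg.Agent.Lib.Transfer Cfsg.Agent.Lib.PGroup
open scoped Pointwise commutatorElement

/-- With an abelian Sylow p-subgroup P, some quotient of G is isomorphic to the part of P central in N_G(P). -/
theorem result {G : Type*} [Group G] [Finite G] {p : ℕ} [Fact p.Prime] (P : Sylow p G) (hP : IsMulCommutative P) : ∃ (N : Subgroup G) (hN : N.Normal), Nonempty (G ⧸ N ≃* ((P : Subgroup G) ⊓ Subgroup.centralizer (Subgroup.normalizer (P : Set G) : Set G) : Subgroup G)) := by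
  refine ⟨(P : Subgroup G).transferFocal.ker, inferInstance, ⟨?_⟩⟩
  refine (transferFocal.quotientKerMulEquivQuotientFocalSubroupOf P).trans ?_
  obtain ⟨h1, h2, -⟩ := commutator_sup_centralizer_of_abelian (A := (P : Subgroup G))
    le_normalizer le_rfl (coprime_card_sylow_relIndex P le_normalizer)
  rw [← commutator_inf_abelian_sylow, commutator_inf_eq_focalSubgroup] at h1 h2
  set C : Subgroup G := (P : Subgroup G) ⊓ centralizer (normalizer (P : Set G) : Set G) with hC
  have hc : (C.subgroupOf P).IsComplement' (P : Subgroup G).focalSubgroupOf := by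
    apply isComplement'_of_disjoint_and_mul_eq_univ
    · rw [disjoint_iff, eq_bot_iff]
      rintro x ⟨hx1, hx2⟩
      have : (x : G) ∈ (⊥ : Subgroup G) := h2 ▸ ⟨hx2, hx1⟩
      rw [mem_bot] at this ⊢
      exact Subtype.ext this
    · rw [← mul_normal, coe_eq_univ, focalSubgroupOf_def,
        ← subgroupOf_sup inf_le_left (focalSubgroup_le _), sup_comm]
      erw [h1]
      exact subgroupOf_self _
  exact hc.QuotientMulEquiv.trans (subgroupOfEquivOfLe inf_le_left)

end Cfsg.Agent.S0105
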