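import Cfsg.Statements.S0106
import Cfsg.Agent.Lib.PGroup.PHom
import Cfsg.Agent.Lib.Transfer.Frobenius

set_option autoImplicit false
open Cfsg

namespace Cfsg.Agent.S0106

open Subgroup Cfsg.Agent.Lib.Transfer Cfsg.Agent.Lib.PGroup
open scoped Pointwise commutatorElement IsMulCommutative

/-- A finite group with generalized quaternion Sylow 2-subgroups either has a normal 2-complement or has a section isomorphic to SL(2,3). -/
theorem result {G : Type*} [Group G] [Finite G] (T : Sylow 2 G) (n : ℕ) (hn : 1 ≤ n) (hT : Nonempty ((T : Subgroup G) ≃* QuaternionGroup (2 ^ n))) : Cfsg.HasNormalPComplement 2 G ∨ ∃ (H K : Subgroup G) (hK : (K.subgroupOf H).Normal), Nonempty ((H ⧸ K.subgroupOf H) ≃* Matrix.SpecialLinearGroup (Fin 2) (ZMod 3)) := by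
  obtain ⟨m, rfl⟩ := Nat.exists_eq_add_of_le' hn
  obtain ⟨e⟩ := hT
  obtain ⟨a, b, h⟩ := exists_quatForm_of_mulEquiv e
  by_contra hc
  rw [not_or] at hc
  refine hc.1 (hasNormalPComplement_of_frobenius_sylow T fun Q hQ g hg ho => ?_)
  by_contra hgc
  exact hc.2 (h.exists_section hQ hg ho hgc)

end Cfsg.Agent.S0106
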