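import Cfsg.Statements.S0107
import Cfsg.Agent.Lib.PGroup.MaxClass2
import Cfsg.Agent.Lib.Transfer.Focal

set_option autoImplicit false
open Cfsg

namespace Cfsg.Agent.S0107

open Subgroup Cfsg.Agent.Lib.Transfer Cfsg.Agent.Lib.PGroup
open scoped Pointwise commutatorElement IsMulCommutative

/-- A finite group with no nontrivial 2-group quotient and dihedral Sylow 2-subgroups of order at least 8 has a single class of involutions. -/
theorem result {G : Type*} [Group G] [Finite G] (T : Sylow 2 G) (n : ℕ) (hn : 2 ≤ n) (hT : Nonempty ((T : Subgroup G) ≃* DihedralGroup (2 ^ n))) (hO : Cfsg.pResidual 2 G = ⊤) (x y : G) (hx : orderOf x = 2) (hy : orderOf y = 2) : ∃ g : G, g * x * g⁻¹ = y := by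
  obtain ⟨m, rfl⟩ := Nat.exists_eq_add_of_le' hn
  obtain ⟨e⟩ := hT
  obtain ⟨a, b, h⟩ := exists_dihForm_of_mulEquiv e
  have key : ∀ u : G, orderOf u = 2 → ∃ g : G, g * u * g⁻¹ = a ^ 2 ^ (m + 1) := by
    intro u hu
    have h0 : u ^ 2 = 1 := hu ▸ pow_orderOf_eq_one u
    obtain ⟨g, hg⟩ : ∃ g : G, g * u * g⁻¹ ∈ zpowers a := by
      by_contra hc
      push Not at hc
      obtain ⟨k, hk⟩ := sylow_exists_conj_le T (isPGroup_zpowers (k := 1) (by rwa [pow_one]))
      have h1 := conj_smul_le_iff.1 hk u (mem_zpowers u)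
      obtain ⟨M, hM, h2, -⟩ := thompson_transfer T h.maxCl.relIndex
        (by rw [conj_pow, h0, mul_one, mul_inv_cancel]) h1 (hc k) (fun g => by
          have := hc (g * k)
          rwa [show g * k * u * (g * k)⁻¹ = g * (k * u * k⁻¹) * g⁻¹ by group] at this)
      have h3 := pResidual_le_of_index_eq (p := 2) (k := 1) (M := M) h2
      rw [hO, top_le_iff] at h3
      rw [h3, index_top] at h2
      omega
    refine ⟨g, (eq_one_or_eq_half_pow h.ord hg
      (by rw [conj_pow, h0, mul_one, mul_inv_cancel])).resolve_left fun e => ?_⟩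
    rw [mul_inv_eq_one, mul_eq_left] at e
    rw [e, orderOf_one] at hu
    omega
  obtain ⟨g, hg⟩ := key x hx
  obtain ⟨k, hk⟩ := key y hy
  exact ⟨k⁻¹ * g, by rw [← hk] at hg; calc _ = k⁻¹ * (g * x * g⁻¹) * k := by group
    _ = y := by rw [hg]; group⟩

end Cfsg.Agent.S0107
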