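import Cfsg.Statements.S0109
import Cfsg.Agent.Lib.ZJ.SL2Free
import Cfsg.Agent.Lib.Core.PSolv
import Cfsg.Agent.S2004

set_option autoImplicit false
open Cfsg

namespace Cfsg.Agent.S0109

open Subgroup Cfsg.Agent.Lib Cfsg.Agent.Lib.Core Cfsg.Agent.Lib.Glaub Cfsg.Agent.Lib.ZJ

/-- The Thompson factorization Theorem for solvable groups states that, with p odd (and abelian Sylow 2-subgroups when p = 3) and no nontrivial normal subgroup of order prime to p, every element of G is a product of an element normalizing J(P) and an element centralizing the elements of order dividing p in the centre of P. -/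
theorem result {G : Type*} [Group G] [Finite G] {p : ℕ} [Fact p.Prime] (hp : p ≠ 2) (hs : Group.IsSolvable G) (h3 : p = 3 → ∀ T : Sylow 2 G, IsMulCommutative T) (hF : ∀ N : Subgroup G, N.Normal → Nat.Coprime (Nat.card N) p → N = ⊥) (P : Sylow p G) (g : G) : ∃ a ∈ Subgroup.normalizer (Cfsg.thompsonSubgroupOf p (P : Subgroup G) : Set G), ∃ c ∈ Subgroup.centralizer {x : G | x ∈ (P : Subgroup G) ∧ (∀ y ∈ (P : Subgroup G), x * y = y * x) ∧ x ^ p = 1}, g = a * c := by
  have hst := pStable_of_isSec (Cfsg.Agent.S2004.result (G := G) hp fun Q _ _ h =>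
    not_isSec_SL2_of_isSolvable hp hs h3 ((involves_iff_isSec.mp h).trans (IsSec.subgroup _)))
    IsSec.refl
  have hO : pPrimeCore p G = ⊥ := hF _ inferInstance (coprime_iff_not_dvd.mpr pPrimeCore_not_dvd)
  have hC := (psolv_of_isSolvable (H := (⊤ : Subgroup G)) inferInstance).centralizer_pCore_le hO
  obtain ⟨a, ha, c, hc, h⟩ := (nStable_of_pStable hst).factorization_center (n := p) dvd_rfl hC
    (isSyl_sylow P) g
  refine ⟨a, by rwa [thompsonSubgroupOf_eq], c, centralizer_le ?_ hc, h⟩
  intro x hx
  exact ⟨hx.1, fun y hy => (hx.2.1 y hy).symm⟩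

end Cfsg.Agent.S0109
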