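import Cfsg.Statements.S0112
import Cfsg.Agent.Lib.PGroup.MaxClass

set_option autoImplicit false
open Cfsg

namespace Cfsg.Agent.S0112

open Subgroup Cfsg.Agent.Lib.Transfer Cfsg.Agent.Lib.PGroup
open scoped Pointwise commutatorElement IsMulCommutative

/-- A p-group with a self-centralizing subgroup of order p^2 is of maximal class. -/
theorem result {X : Type*} [Group X] [Finite X] {p : ℕ} [Fact p.Prime] (n : ℕ) (hX : Nat.card X = p ^ n) (A : Subgroup X) (hA : Nat.card A = p ^ 2) (hC : Subgroup.centralizer (A : Set X) = A) : Group.nilpotencyClass X = n - 1 := by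
  have hp : p.Prime := Fact.out
  have hP := IsPGroup.of_card hX
  obtain ⟨m, rfl⟩ : ∃ m, n = m + 2 := by
    have := A.card_le_card_group
    rw [hA, hX] at this
    exact Nat.exists_eq_add_of_le' ((Nat.pow_le_pow_iff_right hp.one_lt).1 this)
  refine nilpotencyClass_eq_of_card_centralizer_le (p := p) m X hX ?_
  have h1 : center X ≤ A := hC ▸ center_le_centralizer _
  rcases h1.eq_or_lt with h2 | h2
  · refine ⟨1, ?_⟩
    rw [← hA, ← hC]
    exact card_le_of_le (le_top.trans (centralizer_eq_top_iff_subset.2 h2.ge).ge)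
  obtain ⟨x, hx, hxZ⟩ := SetLike.exists_of_lt h2
  have h3 : center X ⊔ zpowers x = A := by
    refine eq_of_le_of_card_ge (sup_le h1 (zpowers_le_of_mem hx)) ?_
    obtain ⟨k, hk0, hk⟩ := IsPGroup.card_center_eq_prime_pow hX (by omega)
    obtain ⟨l, hl⟩ := IsPGroup.iff_card.1 (hP.to_subgroup (center X ⊔ zpowers x))
    have h4 := card_lt_of_lt (lt_of_le_of_ne (le_sup_left : center X ≤ center X ⊔ zpowers x)
      fun e => hxZ (e ▸ mem_sup_right (mem_zpowers x)))
    rw [hk, hl] at h4
    have := (Nat.pow_lt_pow_iff_right hp.one_lt).1 h4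
    rw [hA, hl]
    exact Nat.pow_le_pow_right hp.pos (by omega)
  refine ⟨x, ?_⟩
  rw [← hA, ← hC, ← h3, centralizer_sup_zpowers, centralizer_eq_top_iff_subset.2 subset_rfl,
    top_inf_eq]

end Cfsg.Agent.S0112
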