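import Cfsg.Statements.S0114
import Cfsg.Agent.Lib.PGroup.MaxClass2

set_option autoImplicit false
open Cfsg

namespace Cfsg.Agent.S0114

open Subgroup Cfsg.Agent.Lib.Transfer Cfsg.Agent.Lib.PGroup
open scoped Pointwise commutatorElement IsMulCommutative

/-- The central quotient of a 2-group of maximal class is dihedral. -/
theorem result {X : Type*} [Group X] [Finite X] (n : ℕ) (hn : 3 ≤ n) (hX : Nat.card X = 2 ^ n) (hc : Group.nilpotencyClass X = n - 1) : Nonempty (X ⧸ Subgroup.center X ≃* DihedralGroup (2 ^ (n - 2))) := by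
  obtain ⟨m, rfl⟩ := Nat.exists_eq_add_of_le' hn
  obtain ⟨h1, h2⟩ := index_commutator_of_maxClass hX hc
  obtain ⟨a, b, k, h⟩ := exists_maxCl_of_index_commutator (IsPGroup.of_card hX) h2 h1
  have h3 := h.card
  rw [card_top, hX] at h3
  obtain rfl : m = k := by
    have := Nat.pow_right_injective le_rfl h3
    omega
  exact h.quotient_center

end Cfsg.Agent.S0114
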