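import Cfsg.Statements.S0115
import Cfsg.Agent.Lib.PGroup.MaxClass2

set_option autoImplicit false
open Cfsg

namespace Cfsg.Agent.S0115

open Subgroup Cfsg.Agent.Lib.Transfer Cfsg.Agent.Lib.PGroup
open scoped Pointwise commutatorElement IsMulCommutative

/-- A 2-group of order 2^n, n ≥ 3, is of maximal class exactly when its commutator quotient is a Klein four-group. -/
theorem result {X : Type*} [Group X] [Finite X] (n : ℕ) (hn : 3 ≤ n) (hX : Nat.card X = 2 ^ n) : Group.nilpotencyClass X = n - 1 ↔ IsKleinFour (X ⧸ commutator X) := by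
  obtain ⟨m, rfl⟩ := Nat.exists_eq_add_of_le' hn
  have hP := IsPGroup.of_card hX
  constructor
  · intro hc
    obtain ⟨h1, h2⟩ := index_commutator_of_maxClass hX hc
    have h3 : commutator X = frattini X := by
      refine eq_of_le_of_card_ge (commutator_le_frattini hP) (Nat.le_of_mul_le_mul_right ?_ four_pos)
      have h4 := Nat.le_of_dvd (Nat.pos_of_ne_zero index_ne_zero_of_finite)
        (sq_dvd_index_frattini hP fun h => h1 inferInstance)
      calc _ ≤ _ := Nat.mul_le_mul_left _ h4
        _ = _ := by rw [card_mul_index, ← (commutator X).card_mul_index, h2]; rfl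
    haveI : Nontrivial (X ⧸ commutator X) := Finite.one_lt_card_iff_nontrivial.1
      (by rw [← index_eq_card, h2]; norm_num)
    refine ⟨h2, (Monoid.exponent_eq_prime_iff Nat.prime_two).2 fun g hg => orderOf_eq_prime ?_ hg⟩
    obtain ⟨x, rfl⟩ := QuotientGroup.mk_surjective g
    exact (QuotientGroup.eq_one_iff _).2 (h3 ▸ pow_mem_frattini hP x)
  · intro hK
    have h2 : (commutator X).index = 4 := hK.card_four
    obtain ⟨a, b, k, h⟩ := exists_maxCl_of_index_commutator hP h2 (fun hc => by
      rw [(commutator_eq_bot_iff X).2 hc, index_bot, hX, pow_add] at h2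
      omega)
    have h3 := h.card
    rw [card_top, hX] at h3
    obtain rfl : m = k := by
      have := Nat.pow_right_injective le_rfl h3
      omega
    exact h.nilpotencyClass_eq

end Cfsg.Agent.S0115
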