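import Cfsg.Statements.S0118
import Cfsg.Agent.Lib.ZJ.Main
import Cfsg.Agent.S2004

set_option autoImplicit false
open Cfsg

namespace Cfsg.Agent.S0118

open Subgroup Cfsg.Agent.Lib Cfsg.Agent.Lib.Core Cfsg.Agent.Lib.Glaub Cfsg.Agent.Lib.ZJ

/-- Glauberman's ZJ-Theorem, in the case of groups with no section isomorphic to SL(2,p), p odd: conjugation of subsets of a Sylow p-subgroup P inside P is always induced from the normalizer of Z(J(P)). -/
theorem result {G : Type*} [Group G] [Finite G] {p : ℕ} [Fact p.Prime] (hp : p ≠ 2) (hfree : ¬ ∃ (H K : Subgroup G) (hK : (K.subgroupOf H).Normal), Nonempty ((H ⧸ K.subgroupOf H) ≃* Matrix.SpecialLinearGroup (Fin 2) (ZMod p))) (P : Sylow p G) (A : Set G) (hA : A ⊆ (P : Set G)) (g : G) (hAg : (fun a => g⁻¹ * a * g) '' A ⊆ (P : Set G)) : ∃ n ∈ Subgroup.normalizer (Cfsg.centerThompsonOf p (P : Subgroup G) : Set G), ∀ a ∈ A, n⁻¹ * a * n = g⁻¹ * a * g := by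
  have hst := Cfsg.Agent.S2004.result (G := G) hp fun Q _ _ h =>
    hfree (involves_iff_isSec.mpr ((involves_iff_isSec.mp h).trans (IsSec.subgroup _)))
  have h := sfa_zj_of_pStable hp (dvd_refl p) hst P (isSyl_sylow P)
  rw [famSteps_indFam_singleton, inducedFunctor_zjF, ctrl_subgroup_iff] at h
  obtain ⟨x, hx, h1⟩ := h A g⁻¹ (mem_top _) hA (by simpa using hAg)
  refine ⟨x⁻¹, by rw [centerThompsonOf_eq]; exact inv_mem hx.2, fun a ha => ?_⟩
  simpa using h1 a ha

end Cfsg.Agent.S0118
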