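import Cfsg.Statements.S0123
import Cfsg.Agent.Lib.PGroup.Special

set_option autoImplicit false
open Cfsg

namespace Cfsg.Agent.S0123

open Subgroup Cfsg.Agent.Lib.Transfer Cfsg.Agent.Lib.PGroup
open scoped Pointwise commutatorElement

/-- For a p-group of small class relative to p (class ≤ 2 with p odd, or class ≤ 3 with p > 3) whose derived subgroup is generated by elements of order dividing p, the p-th power map is multiplicative. -/
theorem result {R : Type*} [Group R] [Finite R] {p : ℕ} [Fact p.Prime] (hR : IsPGroup p R) (hcl : (p ≠ 2 ∧ ⁅commutator R, (⊤ : Subgroup R)⁆ = ⊥) ∨ (3 < p ∧ ⁅⁅commutator R, (⊤ : Subgroup R)⁆, (⊤ : Subgroup R)⁆ = ⊥)) (hder : commutator R ≤ Subgroup.closure {x : R | x ^ p = 1}) (x y : R) : (x * y) ^ p = x ^ p * y ^ p := by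
  have hp : p.Prime := Fact.out
  rcases hcl with ⟨h2, hcl⟩ | ⟨h3, hcl⟩
  · have hodd := hp.odd_of_ne_two h2
    have hc := commutator_le_center_iff.2 hcl
    exact (powHom hodd hc (fun z hz => omega_pow_eq_one_of_class_two hodd hc (hder hz))).map_mul x y
  · obtain ⟨c, d, e, h, hx, hy, hd, he, hc', hd', he'⟩ := class_three_data hcl x y
    exact mul_pow_eq_of_class_three hp h3 h hx hy hd he
      (omega_pow_eq_one_of_class_three hp h3 hcl (hder hc'))
      (omega_pow_eq_one_of_class_three hp h3 hcl (hder hd'))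
      (omega_pow_eq_one_of_class_three hp h3 hcl (hder he'))

end Cfsg.Agent.S0123
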