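import Cfsg.Statements.S0125
import Cfsg.Agent.Lib.Transfer.Frobenius

set_option autoImplicit false
open Cfsg

namespace Cfsg.Agent.S0125

open Subgroup Cfsg.Agent.Lib.Transfer Cfsg.Agent.Lib.PGroup
open scoped Pointwise commutatorElement

/-- The centralizer of a self-centralizing normal subgroup A of a Sylow p-subgroup is the direct product of A with a normal p'-subgroup. -/
theorem result {G : Type*} [Group G] [Finite G] {p : ℕ} [Fact p.Prime] (R : Sylow p G) (A : Subgroup G) (hAR : A ≤ (R : Subgroup G)) (hAn : (R : Subgroup G) ≤ Subgroup.normalizer (A : Set G)) (hC : (R : Subgroup G) ⊓ Subgroup.centralizer (A : Set G) = A) : ∃ H : Subgroup G, H ≤ Subgroup.centralizer (A : Set G) ∧ Nat.Coprime (Nat.card H) p ∧ Subgroup.centralizer (A : Set G) ≤ Subgroup.normalizer (H : Set G) ∧ H ⊓ A = ⊥ ∧ H ⊔ A = Subgroup.centralizer (A : Set G) := by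
  set C := centralizer (A : Set G) with hCdef
  have hAC : A ≤ C := hC ▸ inf_le_right
  have h1 : IsSylowIn p A C := by
    have := (isSylowIn_sylow R hAn).inf_of_le_normalizer (normalizer_le_normalizer_centralizer A)
    rwa [hC, inf_eq_right.2 (centralizer_le_normalizer _)] at this
  have h2 : HasNormalPComplement p C := by
    apply hasNormalPComplement_of_normalizer_le_centralizer h1.toSylow
    intro g _
    rw [mem_centralizer_iff]
    intro a ha
    exact Subtype.ext (mem_centralizer_iff.1 g.2 a ha)
  refine ⟨(pResidual p C).map C.subtype, map_subtype_le _, ?_,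
    le_normalizer.trans (normalizer_le_normalizer_map_of_characteristic C _), ?_, ?_⟩
  · rw [card_map_subtype, Nat.coprime_comm, (Fact.out : p.Prime).coprime_iff_not_dvd]
    exact hasNormalPComplement_iff_not_dvd.1 h2
  · have h3 := congrArg (map C.subtype) ((hasNormalPComplement_iff_inf_eq_bot h1.toSylow).1 h2)
    rwa [map_inf_eq _ _ _ C.subtype_injective, h1.map_toSylow, Subgroup.map_bot, inf_comm] at h3
  · refine le_antisymm (sup_le (map_subtype_le _) hAC) fun g hg => ?_
    obtain ⟨a, ha, s, hs, rfl⟩ := h1.exists_pResidual_mul hg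
    exact mul_mem (mem_sup_left ha) (mem_sup_right hs)

end Cfsg.Agent.S0125
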