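import Cfsg.Statements.S0201
import Cfsg.Agent.Lib.Char.BrauerSuzuki

set_option autoImplicit false
open Cfsg

namespace Cfsg.Agent.S0201

open Cfsg.Agent.Lib Cfsg.Agent.Lib.Char Cfsg.Agent.Lib.PGroup

/-- Brauer–Suzuki Theorem: if a Sylow 2-subgroup of a finite group is generalized quaternion (of order at least 8) and the group has no nontrivial normal subgroup of odd order, then its centre has order 2. -/
theorem result {G : Type*} [Group G] [Finite G] (S : Sylow 2 G) (n : ℕ) (e : (S : Subgroup G) ≃* QuaternionGroup (2 ^ (n + 1))) (hO : ∀ N : Subgroup G, N.Normal → Odd (Nat.card N) → N = ⊥) : Nat.card (Subgroup.center G) = 2 := by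
  obtain ⟨a, b, h⟩ := exists_quatForm_of_mulEquiv e
  have hz := PGroup.orderOf_half_pow h.ord
  have R : RankOne G := by
    intro x y hx hx1 hy hy1 hc
    obtain ⟨g, hg⟩ := Invol.exists_conj_le_sylow S (Invol.isPGroup_closure_pair_of_commute hx hy hc)
    have h1 := h.eq_of_sq_eq_one (hg x (Subgroup.subset_closure (by simp)))
      (by rw [conj_pow, sq, hx]; simp)
    have h2 := h.eq_of_sq_eq_one (hg y (Subgroup.subset_closure (by simp)))
      (by rw [conj_pow, sq, hy]; simp)
    have h3 := (h1.resolve_left (by simpa using hx1)).trans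
      (h2.resolve_left (by simpa using hy1)).symm
    simpa using h3
  obtain ⟨N, hN, hodd, hN2⟩ := brauerSuzuki R hz
  rw [hO N hN hodd] at hN2
  have hc : Subgroup.center G = Subgroup.zpowers (a ^ 2 ^ (n + 1)) := by
    refine le_antisymm (fun g hg => ?_) (Subgroup.zpowers_le.2 (Subgroup.mem_center_iff.2 fun g => ?_))
    · obtain ⟨u, y, hu, hy, -, ⟨k, hk⟩, hreg, rfl⟩ := exists_ppart (p := 2) g
      have hyc : y ∈ Subgroup.center G := Subgroup.zpowers_le.2 hg hy
      have huc : u ∈ Subgroup.center G := Subgroup.zpowers_le.2 hg hu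
      have hy1 : Subgroup.zpowers y = ⊥ := hO _ ⟨fun x hx g => by
          rw [Subgroup.mem_center_iff.1 (Subgroup.zpowers_le.2 hyc hx) g]; simpa using hx⟩ (by
        rw [Nat.card_zpowers, ← Nat.not_even_iff_odd, even_iff_two_dvd]; exact hreg)
      rw [Subgroup.zpowers_eq_bot.1 hy1, mul_one, ← h.maxCl.center_eq]
      obtain ⟨j, -, hj⟩ := (Nat.dvd_prime_pow Nat.prime_two).1 (orderOf_dvd_of_pow_eq_one hk)
      refine ⟨Invol.mem_sylow_of_le_centralizer S (Invol.isPGroup_zpowers_of_orderOf hj)
        (fun x _ => Subgroup.mem_centralizer_singleton_iff.2 (Subgroup.mem_center_iff.1 huc x)),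
        fun x _ => Subgroup.mem_center_iff.1 huc x⟩
    · have := Subgroup.mem_bot.1 (hN2 g)
      rw [mul_inv_eq_one, mul_inv_eq_iff_eq_mul] at this
      exact this.symm
  rw [hc, Nat.card_zpowers, hz]

end Cfsg.Agent.S0201
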