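import Cfsg.Statements.S0203
import Cfsg.Agent.Lib.Invol.KleinSylow

set_option autoImplicit false
open Cfsg

namespace Cfsg.Agent.S0203

open Cfsg.Agent.Lib.Invol

/-- If a Sylow 2-subgroup P of a finite group G is a Klein four-group, then G has three classes of involutions if and only if P has a normal complement in G. -/
theorem result {G : Type*} [Group G] [Finite G] (P : Sylow 2 G) (hP : IsKleinFour (P : Subgroup G)) : Nat.card {C : ConjClasses G // ∃ t : G, orderOf t = 2 ∧ ConjClasses.mk t = C} = 3 ↔ ∃ N : Subgroup G, N.Normal ∧ Subgroup.IsComplement' N (P : Subgroup G) := by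
  constructor
  · intro h
    by_cases hN : Subgroup.normalizer (P : Set G) ≤ Subgroup.centralizer (P : Set G)
    · exact ⟨_, inferInstance, MonoidHom.ker_transferSylow_isComplement' P hN⟩
    · rw [card_classes_eq_one_of_klein P hP hN] at h
      exact absurd h (by decide)
  · rintro ⟨N, hN, hc⟩
    exact card_classes_eq_three_of_klein P hP hc

end Cfsg.Agent.S0203
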