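import Cfsg.Statements.S0225
import Cfsg.Agent.Lib.Char.BrauerSuzuki

set_option autoImplicit false
open Cfsg

namespace Cfsg.Agent.S0225

open Cfsg.Agent.Lib Cfsg.Agent.Lib.Char

theorem rankOne_of_no_klein {G : Type*} [Group G] [Finite G]
    (hrank : ∀ E : Subgroup G, ¬ IsKleinFour E) : RankOne G := by
  intro x y hx hx1 hy hy1 hc
  by_contra hne
  have hxi : x⁻¹ = x := inv_eq_of_mul_eq_one_right hx
  have hyi : y⁻¹ = y := inv_eq_of_mul_eq_one_right hy
  have hxy1 : x * y ≠ 1 := fun e => hne (by rw [← hxi]; exact inv_eq_of_mul_eq_one_right e)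
  have hxyx : x * y ≠ x := fun e => hy1 (by simpa using e)
  have hxyy : x * y ≠ y := fun e => hx1 (by simpa using e)
  have e1 : x * (x * y) = y := by rw [← mul_assoc, hx, one_mul]
  have e2 : y * x = x * y := hc.eq.symm
  have e3 : y * (x * y) = x := by rw [← e2, ← mul_assoc, hy, one_mul]
  have e4 : x * y * x = y := by rw [mul_assoc, e2, e1]
  have e5 : x * y * y = x := by rw [mul_assoc, hy, mul_one]
  have e6 : x * y * (x * y) = 1 := by rw [← mul_assoc, e4, hy]
  let E : Subgroup G :=
    { carrier := {1, x, y, x * y}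
      one_mem' := by simp
      mul_mem' := by
        rintro a b (rfl | rfl | rfl | rfl) (rfl | rfl | rfl | rfl) <;>
          simp [hx, hy, e1, e2, e3, e4, e5, e6]
      inv_mem' := by
        rintro a (rfl | rfl | rfl | rfl) <;> simp [hxi, hyi, e2] }
  apply hrank E
  have hcard : Nat.card E = 4 := by
    show Nat.card ({1, x, y, x * y} : Set G) = 4
    rw [Nat.card_coe_set_eq, Set.ncard_insert_of_notMem (by simp [hx1.symm, hy1.symm, hxy1.symm]),
      Set.ncard_insert_of_notMem (by simp [hne, hxyx.symm]), Set.ncard_pair hxyy.symm]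
  haveI : Nontrivial E := Finite.one_lt_card_iff_nontrivial.1 (by omega)
  refine ⟨hcard, ?_⟩
  rw [Monoid.exponent_eq_prime_iff Nat.prime_two]
  rintro ⟨a, ha⟩ ha1
  refine orderOf_eq_prime (Subtype.ext ?_) ha1
  rcases ha with rfl | rfl | rfl | rfl <;> simp [sq, hx, hy, e6]

/-- If a finite group G has even order but contains no Klein four-subgroup (2-rank 1), then some involution z of G is central modulo a normal subgroup of odd order: there is a normal subgroup N of odd order containing every commutator z g z⁻¹ g⁻¹. -/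
theorem result {G : Type*} [Group G] [Finite G] (heven : Even (Nat.card G)) (hrank : ∀ E : Subgroup G, ¬ IsKleinFour E) : ∃ z : G, orderOf z = 2 ∧ ∃ N : Subgroup G, N.Normal ∧ Odd (Nat.card N) ∧ ∀ g : G, z * g * z⁻¹ * g⁻¹ ∈ N := by
  obtain ⟨z, hz⟩ := exists_prime_orderOf_dvd_card' (G := G) 2 heven.two_dvd
  exact ⟨z, hz, brauerSuzuki (rankOne_of_no_klein hrank) hz⟩

end Cfsg.Agent.S0225
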