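import Cfsg.Statements.S0204
import Cfsg.Agent.S0225
import Cfsg.Agent.FT.Main
import Cfsg.Agent.FT.Cons.Basic

set_option autoImplicit false
open Cfsg

namespace Cfsg.Agent.S0204

/-- A non-cyclic finite simple group contains a subgroup which is a Klein four-group; this combines the Odd Order Theorem, Burnside's transfer argument for cyclic Sylow 2-subgroups and the Brauer–Suzuki Theorem. -/
theorem result {G : Type*} [Group G] [Finite G] [IsSimpleGroup G] (hG : ¬ IsCyclic G) : ∃ E : Subgroup G, IsKleinFour E := by
  by_contra h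
  have he := FT.Cons.even_of_simple FT.feit_thompson hG
  obtain ⟨z, hz, N, hN, hodd, hc⟩ := S0225.result he fun E hE => h ⟨E, hE⟩
  rcases hN.eq_bot_or_eq_top with rfl | rfl
  · have hn : (Subgroup.zpowers z).Normal := ⟨fun n hn g => by
      have e : g * z * g⁻¹ = z := by
        have := Subgroup.mem_bot.mp (hc g)
        rw [mul_inv_eq_one, mul_inv_eq_iff_eq_mul] at this
        rw [← this, mul_inv_cancel_right]
      obtain ⟨k, rfl⟩ := hn
      exact ⟨k, by simp only [← conj_zpow, e]⟩⟩
    rcases hn.eq_bot_or_eq_top with e | e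
    · rw [Subgroup.zpowers_eq_bot] at e
      simp [e] at hz
    · exact hG ⟨z, fun x => (e ▸ Subgroup.mem_top x : x ∈ Subgroup.zpowers z)⟩
  · rw [Subgroup.card_top] at hodd
    exact Nat.not_even_iff_odd.mpr hodd he

end Cfsg.Agent.S0204
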