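import Cfsg.Statements.S0212
import Cfsg.Agent.Lib.Invol.BrauerFowler

set_option autoImplicit false
open Cfsg

namespace Cfsg.Agent.S0212

open Cfsg.Agent.Lib.Invol

/-- The Brauer–Fowler bound: if G is a finite simple group and t an involution of G whose centralizer has order n, then |G| ≤ (2n^2)!. -/
theorem result {G : Type*} [Group G] [Finite G] [IsSimpleGroup G] (t : G) (ht : orderOf t = 2) : Nat.card G ≤ Nat.factorial (2 * (Nat.card (Subgroup.centralizer ({t} : Set G))) ^ 2) := by
  have hc : 0 < Nat.card (Subgroup.centralizer ({t} : Set G)) := Nat.card_pos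
  rcases (inferInstance : (Subgroup.center G).Normal).eq_bot_or_eq_top with hZ | hZ
  · obtain ⟨H, h1, h2⟩ := brauer_fowler_centralizer (by rw [hZ]; simp) ht
    refine (Nat.le_of_dvd (Nat.factorial_pos _) (card_dvd_factorial_index h1)).trans
      (Nat.factorial_le ?_)
    rcases h2 with h2 | h2 <;> nlinarith
  · have : Subgroup.centralizer ({t} : Set G) = ⊤ :=
      eq_top_iff.mpr (hZ ▸ Subgroup.center_le_centralizer _)
    rw [this, Subgroup.card_top] at *
    exact le_trans (by nlinarith) (Nat.self_le_factorial _)

end Cfsg.Agent.S0212
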