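import Cfsg.Statements.S0216
import Cfsg.Agent.Lib.Invol.SylowAux

set_option autoImplicit false
open Cfsg

namespace Cfsg.Agent.S0216

open Cfsg.Agent.Lib.Invol

/-- For an involution u in a Sylow 2-subgroup P of a finite group G, the following are equivalent: no G-conjugate of u other than u lies in P; every commutator of u with an element of G has odd order. -/
theorem result {G : Type*} [Group G] [Finite G] (P : Sylow 2 G) (u : G) (hu : orderOf u = 2) (huP : u ∈ P) : (∀ g : G, g * u * g⁻¹ ∈ P → g * u * g⁻¹ = u) ↔ (∀ g : G, Odd (orderOf (u * g * u⁻¹ * g⁻¹))) := by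
  have hu' := inv_eq_of_orderOf_two hu
  constructor
  · intro hiso g
    have := odd_orderOf_mul_of_isolated P hu hiso (IsConj.refl u) (isConj_iff.mpr ⟨g, rfl⟩)
    rw [hu']
    simpa [mul_assoc] using this
  · intro h g hg
    have h1 : u * (g * u * g⁻¹) ∈ (P : Subgroup G) := P.1.mul_mem huP hg
    have h2 := eq_one_of_mem_two_group_of_odd P.2 h1 (by
      have := h g
      rw [hu'] at this
      simpa [mul_assoc] using this)
    rw [mul_eq_one_iff_inv_eq, hu'] at h2
    exact h2.symm

end Cfsg.Agent.S0216
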