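import Cfsg.Statements.S0218
import Cfsg.Agent.Lib.Invol.SylowAux

set_option autoImplicit false
open Cfsg

namespace Cfsg.Agent.S0218

open Cfsg.Agent.Lib.Invol

theorem quaternion_orderOf_two_iff {m : ℕ} [NeZero m] (x : QuaternionGroup m) :
    orderOf x = 2 ↔ x = QuaternionGroup.a (m : ZMod (2 * m)) := by
  have hm : (m : ZMod (2 * m)) ≠ 0 := by
    rw [Ne, ZMod.natCast_eq_zero_iff]
    intro h
    have := Nat.le_of_dvd (Nat.pos_of_ne_zero (NeZero.ne m)) h
    have := NeZero.ne m
    omega
  have hm2 : orderOf (QuaternionGroup.a (m : ZMod (2 * m)) : QuaternionGroup m) = 2 := by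
    refine orderOf_two_of ?_ ?_
    · rw [QuaternionGroup.a_mul_a, QuaternionGroup.one_def]
      congr 1
      have : ((2 * m : ℕ) : ZMod (2 * m)) = 0 := ZMod.natCast_self _
      push_cast at this
      linear_combination this
    · rw [QuaternionGroup.one_def]
      intro h
      exact hm (by injection h)
  constructor
  · intro hx
    rcases x with i | i
    · have hc : IsCyclic (Subgroup.zpowers (QuaternionGroup.a (1 : ZMod (2 * m)) :
          QuaternionGroup m)) := inferInstance
      have hmem : ∀ j : ZMod (2 * m), (QuaternionGroup.a j : QuaternionGroup m) ∈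
          Subgroup.zpowers (QuaternionGroup.a (1 : ZMod (2 * m)) : QuaternionGroup m) := by
        intro j
        have : NeZero (2 * m) := ⟨by have := NeZero.ne m; omega⟩
        refine ⟨(j.val : ℕ), ?_⟩
        simp only [zpow_natCast, QuaternionGroup.a_one_pow]
        simp
      exact involution_unique_of_isCyclic hc (hmem _) (hmem _) hx hm2
    · rw [QuaternionGroup.orderOf_xa] at hx
      omega
  · rintro rfl
    exact hm2

/-- The generalized quaternion group of order 2^(n+3) contains exactly one element of order 2. -/
theorem result (n : ℕ) : Nat.card {x : QuaternionGroup (2 ^ (n + 1)) // orderOf x = 2} = 1 := by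
  have : NeZero (2 ^ (n + 1)) := ⟨by positivity⟩
  simp only [quaternion_orderOf_two_iff]
  simp

end Cfsg.Agent.S0218
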