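import Cfsg.Statements.S0220
import Cfsg.Agent.Lib.Invol.SylowAux

set_option autoImplicit false
open Cfsg

namespace Cfsg.Agent.S0220

open Cfsg.Agent.Lib.Invol

/-- If x is an involution of a finite group G and a Sylow 2-subgroup of the centralizer of x is cyclic, then G has a subgroup of index 2; in particular G is not simple unless it has order 2. -/
theorem result {G : Type*} [Group G] [Finite G] (x : G) (hx : orderOf x = 2) (S : Sylow 2 ↥(Subgroup.centralizer ({x} : Set G))) (hS : IsCyclic (S : Subgroup ↥(Subgroup.centralizer ({x} : Set G)))) : ∃ H : Subgroup G, H.index = 2 := by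
  revert S
  set C := Subgroup.centralizer ({x} : Set G) with hC
  intro S hS
  obtain ⟨T, hT⟩ := S.exists_comap_subtype_eq
  have hxC : x ∈ C := Subgroup.mem_centralizer_singleton_iff.mpr rfl
  have hmap : (S : Subgroup C).map C.subtype = (T : Subgroup G) ⊓ C := by
    rw [← hT, Subgroup.comap_subtype, Subgroup.subgroupOf_map_subtype]
  have hcyc : IsCyclic ↥((T : Subgroup G) ⊓ C) := by
    rw [← hmap]
    exact isCyclic_of_surjective _ ((S : Subgroup C).equivMapOfInjective C.subtype
      C.subtype_injective).surjective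
  have hxS : (⟨x, hxC⟩ : C) ∈ S := by
    obtain ⟨g, hg⟩ := exists_conj_involution_mem_sylow S (x := ⟨x, hxC⟩) (by simpa using hx)
    have : g * ⟨x, hxC⟩ * g⁻¹ = ⟨x, hxC⟩ := by
      apply Subtype.ext
      have := Subgroup.mem_centralizer_singleton_iff.mp g.2
      simp [this]
    rwa [this] at hg
  have hxT : x ∈ (T : Subgroup G) ⊓ C := by
    rw [← hmap]
    exact ⟨_, hxS, rfl⟩
  have hTC : (T : Subgroup G) ⊓ C = T := by
    by_contra hne
    obtain ⟨y, hyT, hyD, hyN⟩ := exists_mem_normalizer_of_lt T.2 (lt_of_le_of_ne inf_le_left hne)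
    have h1 := (hyN x).mp hxT
    have h2 := involution_unique_of_isCyclic hcyc h1 hxT (by rw [orderOf_conj', hx]) hx
    exact hyD ⟨hyT, Subgroup.mem_centralizer_singleton_iff.mpr (mul_inv_eq_iff_eq_mul.mp h2)⟩
  rw [hTC] at hcyc
  exact exists_index_two_of_isCyclic_sylow
    (even_iff_two_dvd.mpr (hx ▸ orderOf_dvd_natCard x)) T hcyc

end Cfsg.Agent.S0220
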