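import Cfsg.Statements.S0221
import Cfsg.Agent.Lib.Invol.NormalFour
import Cfsg.Agent.Lib.Transfer.Focal

set_option autoImplicit false
open Cfsg

namespace Cfsg.Agent.S0221

open Cfsg.Agent.Lib.Invol Cfsg.Agent.Lib.PGroup
open scoped commutatorElement

theorem commute_of_sq {G : Type*} [Group G] {E : Subgroup G} (h : ∀ e ∈ E, e ^ 2 = 1) {a b : G}
    (ha : a ∈ E) (hb : b ∈ E) : a * b = b * a := by
  have h1 := inv_eq_of_mul_eq_one_right (pow_two (a * b) ▸ h _ (E.mul_mem ha hb))
  have h2 : a * a = 1 := pow_two a ▸ h a ha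
  have h3 : b * b = 1 := pow_two b ▸ h b hb
  rw [mul_inv_rev, inv_eq_of_mul_eq_one_right h2, inv_eq_of_mul_eq_one_right h3] at h1
  exact h1.symm

theorem elem_eight {G : Type*} [Group G] [Finite G] {z v y : G} (hz : orderOf z = 2)
    (hv : orderOf v = 2) (hy : y * y = 1) (hzv : z * v = v * z) (hzy : z * y = y * z)
    (hvy : v * y = y * v) (h1 : z ≠ v) (h2 : y ∉ Subgroup.closure ({z, v} : Set G)) {x : G}
    (hx : x ∈ Subgroup.closure ({z, v} : Set G) ∨ x = y) :
    ∃ E : Subgroup G, E ≤ Subgroup.centralizer ({x} : Set G) ∧ Nat.card E = 8 ∧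
      ∀ e ∈ E, e ^ 2 = 1 := by
  have hz2 := mul_self_of_orderOf_two hz
  have hv2 := mul_self_of_orderOf_two hv
  have e1 : Subgroup.closure ({z, v} : Set G) ⊔ Subgroup.zpowers y =
      Subgroup.closure ({z, v, y} : Set G) := by
    rw [Subgroup.zpowers_eq_closure, ← Subgroup.closure_union]
    congr 1
    ext; simp; tauto
  have hc : IsMulCommutative (Subgroup.closure ({z, v, y} : Set G)) := by
    apply Subgroup.isMulCommutative_closure
    rintro a (rfl | rfl | rfl) b (rfl | rfl | rfl) <;> simp [*]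
  have hcomm : ∀ a ∈ Subgroup.closure ({z, v, y} : Set G),
      ∀ b ∈ Subgroup.closure ({z, v, y} : Set G), a * b = b * a := fun a ha b hb =>
    congrArg Subtype.val (hc.is_comm.comm (⟨a, ha⟩ : Subgroup.closure ({z, v, y} : Set G)) ⟨b, hb⟩)
  have hzv2 : orderOf (z * v) = 2 := orderOf_two_of
    (by rw [← Commute.mul_mul_mul_comm hzv, hz2, hv2, one_mul])
    (fun h => h1 (by rwa [mul_eq_one_iff_eq_inv, inv_eq_of_orderOf_two hv] at h))
  obtain ⟨e⟩ := nonempty_mulEquiv_dihedral hz hv h1
  have h4 : Nat.card (Subgroup.closure ({z, v} : Set G)) = 4 := by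
    rw [Nat.card_congr e.toEquiv, DihedralGroup.nat_card, hzv2]
  refine ⟨Subgroup.closure ({z, v, y} : Set G), fun a ha => ?_, ?_, fun a ha => ?_⟩
  · refine Subgroup.mem_centralizer_singleton_iff.mpr (hcomm a ha x ?_)
    rw [← e1]
    rcases hx with hx | rfl
    · exact Subgroup.mem_sup_left hx
    · exact Subgroup.mem_sup_right (Subgroup.mem_zpowers _)
  · rw [← e1, card_sup_zpowers (p := 2) ?_ h2 (by rw [pow_two, hy]; exact Subgroup.one_mem _), h4]
    apply Subgroup.centralizer_le_normalizer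
    rw [Subgroup.centralizer_closure]
    rintro a (rfl | rfl)
    · exact hzy
    · exact hvy
  · refine pow_eq_one_of_mem_closure ?_ (fun a ha b hb h1 h2 => ?_) ha
    · rintro a (rfl | rfl | rfl) <;> rwa [pow_two]
    · rw [Commute.mul_pow (hcomm a ha b hb), h1, h2, one_mul]

/-- Let G be a finite group with no subgroup of index 2 whose 2-rank is at least 3 (it contains an elementary abelian subgroup of order 8). Then the centralizer of every involution of G also contains an elementary abelian subgroup of order 8. -/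
theorem result {G : Type*} [Group G] [Finite G] (hno : ∀ H : Subgroup G, H.index ≠ 2) (hrank : ∃ E : Subgroup G, Nat.card E = 8 ∧ ∀ e ∈ E, e ^ 2 = 1) (x : G) (hx : orderOf x = 2) : ∃ E : Subgroup G, E ≤ Subgroup.centralizer ({x} : Set G) ∧ Nat.card E = 8 ∧ ∀ e ∈ E, e ^ 2 = 1 := by
  obtain ⟨E, hE, hE2⟩ := hrank
  obtain ⟨S, hES⟩ := (IsPGroup.of_card (p := 2) (n := 3) hE).exists_le_sylow
  obtain ⟨⟨z, hzS⟩, ⟨v, hvS⟩, hzc, hz, hv, hvz, hvc⟩ := exists_normal_four S.2
    (E := E.subgroupOf S) (by rw [Nat.card_congr (Subgroup.subgroupOfEquivOfLe hES).toEquiv, hE])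
    (fun e he => Subtype.ext (by simpa [pow_two] using hE2 e he))
  rw [Subgroup.orderOf_mk] at hz hv
  have hzc' : ∀ g ∈ (S : Subgroup G), g * z = z * g := fun g hg =>
    congrArg Subtype.val (Subgroup.mem_center_iff.mp hzc ⟨g, hg⟩)
  have hzv : z ≠ v := by
    rintro rfl
    exact hvz (Subgroup.mem_zpowers _)
  have hrel : (Subgroup.centralizer ({v} : Set G)).relIndex S ≤ 2 := by
    have := relIndex_centralizer_le (H := (S : Subgroup G)) (N := Subgroup.zpowers z) (x := v)
      (fun g hg => by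
        obtain ⟨k, hk⟩ := hvc ⟨g, hg⟩
        exact ⟨k, by simpa [commutatorElement_def] using congrArg Subtype.val hk⟩)
    rwa [Nat.card_zpowers, hz] at this
  obtain ⟨g, hgS, hgv⟩ : ∃ g : G, g * x * g⁻¹ ∈ (S : Subgroup G) ∧
      g * x * g⁻¹ ∈ Subgroup.centralizer ({v} : Set G) := by
    obtain ⟨g, hg⟩ := exists_conj_involution_mem_sylow S hx
    by_contra hcon
    push Not at hcon
    have h2 : (Subgroup.centralizer ({v} : Set G) ⊓ S).relIndex S = 2 := by
      rw [Subgroup.inf_relIndex_right]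
      have h3 : (Subgroup.centralizer ({v} : Set G)).relIndex S ≠ 1 := fun h =>
        hcon g hg (Subgroup.relIndex_eq_one.mp h hg)
      have h4 : (Subgroup.centralizer ({v} : Set G)).relIndex S ≠ 0 :=
        Subgroup.index_ne_zero_of_finite
      omega
    obtain ⟨M, -, hM, -⟩ := Cfsg.Agent.Lib.Transfer.thompson_transfer S h2 (u := g * x * g⁻¹)
      (by rw [conj_pow, pow_two, mul_self_of_orderOf_two hx]; simp) hg (fun h => hcon g hg h.1)
      (fun c h => by
        rw [show c * (g * x * g⁻¹) * c⁻¹ = (c * g) * x * (c * g)⁻¹ by group] at h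
        exact hcon (c * g) h.2 h.1)
    exact hno M hM
  have hx' : orderOf (g * x * g⁻¹) = 2 := by rw [orderOf_conj', hx]
  obtain ⟨F, hF1, hF2, hF3⟩ : ∃ F : Subgroup G, F ≤ Subgroup.centralizer ({g * x * g⁻¹} : Set G) ∧
      Nat.card F = 8 ∧ ∀ e ∈ F, e ^ 2 = 1 := by
    by_cases h1 : g * x * g⁻¹ ∈ Subgroup.closure ({z, v} : Set G)
    · obtain ⟨y, hyE, hyv, hy⟩ : ∃ y ∈ E, v * y = y * v ∧
          y ∉ Subgroup.closure ({z, v} : Set G) := by
        by_contra hcon
        push Not at hcon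
        have hzv2 : orderOf (z * v) = 2 := orderOf_two_of
          (by rw [← Commute.mul_mul_mul_comm (hzc' v hvS).symm, mul_self_of_orderOf_two hz,
            mul_self_of_orderOf_two hv, one_mul])
          (fun h => hzv (by rwa [mul_eq_one_iff_eq_inv, inv_eq_of_orderOf_two hv] at h))
        obtain ⟨e⟩ := nonempty_mulEquiv_dihedral hz hv hzv
        have h4 : Nat.card (Subgroup.closure ({z, v} : Set G)) = 4 := by
          rw [Nat.card_congr e.toEquiv, DihedralGroup.nat_card, hzv2]
        have a1 := card_inf_mul_relIndex (Subgroup.centralizer ({v} : Set G)) E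
        have a2 := (Subgroup.relIndex_le_of_le_right hES Subgroup.index_ne_zero_of_finite).trans hrel
        have a3 : Subgroup.centralizer ({v} : Set G) ⊓ E ≤ Subgroup.closure ({z, v} : Set G) :=
          fun y hy => hcon y hy.2 (Subgroup.mem_centralizer_singleton_iff.mp hy.1).symm
        have a4 := Subgroup.eq_of_le_of_card_ge a3 (by rw [h4]; rw [hE] at a1; nlinarith)
        have hvE : v ∈ E := (a4.ge (Subgroup.subset_closure (by simp))).2
        have a5 : E ≤ Subgroup.closure ({z, v} : Set G) := fun y hy => hcon y hy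
          (commute_of_sq hE2 hvE hy)
        have a6 := Subgroup.card_le_of_le a5
        omega
      exact elem_eight hz hv (by rw [← pow_two, hE2 y hyE]) (hzc' v hvS).symm
        (hzc' y (hES hyE)).symm hyv hzv hy (Or.inl h1)
    · exact elem_eight hz hv (mul_self_of_orderOf_two hx') (hzc' v hvS).symm (hzc' _ hgS).symm
        (Subgroup.mem_centralizer_singleton_iff.mp hgv).symm hzv h1 (Or.inr rfl)
  refine ⟨F.map (MulAut.conj g⁻¹).toMonoidHom, ?_, ?_, ?_⟩
  · rintro _ ⟨f, hf, rfl⟩
    have := Subgroup.mem_centralizer_singleton_iff.mp (hF1 hf)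
    rw [Subgroup.mem_centralizer_singleton_iff]
    change g⁻¹ * f * g⁻¹⁻¹ * x = x * (g⁻¹ * f * g⁻¹⁻¹)
    calc g⁻¹ * f * g⁻¹⁻¹ * x = g⁻¹ * (f * (g * x * g⁻¹)) * g := by group
      _ = _ := by rw [this]; group
  · rw [Subgroup.card_map_of_injective (MulAut.conj g⁻¹).injective, hF2]
  · rintro _ ⟨f, hf, rfl⟩
    rw [← map_pow, hF3 f hf, map_one]

end Cfsg.Agent.S0221
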