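import Cfsg.Statements.S0228
import Cfsg.Agent.Lib.Invol.BrauerFowler

set_option autoImplicit false
open Cfsg

namespace Cfsg.Agent.S0228

open Cfsg.Agent.Lib.Invol

/-- A group of order 12 in which no involution is central is isomorphic to the alternating group on four letters. -/
theorem result {G : Type*} [Group G] [Finite G] (hG : Nat.card G = 12) (hz : ∀ z : G, orderOf z = 2 → z ∉ Subgroup.center G) : Nonempty (G ≃* alternatingGroup (Fin 4)) := by
  classical
  obtain ⟨q, hq⟩ := exists_prime_orderOf_dvd_card' (G := G) 3 (by rw [hG]; decide)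
  set Q := Subgroup.zpowers q with hQ
  have hQc : Nat.card Q = 3 := by rw [hQ, Nat.card_zpowers, hq]
  have hQi : Q.index = 4 := by
    have := Q.index_mul_card
    rw [hQc, hG] at this
    omega
  have hcore : Q.normalCore = ⊥ := by
    by_contra hne
    have hQn : Q.normalCore = Q := by
      have h1 := Subgroup.card_dvd_of_le Q.normalCore_le
      rw [hQc] at h1
      rcases (Nat.dvd_prime Nat.prime_three).mp h1 with h | h
      · exact absurd (Subgroup.card_eq_one.mp h) hne
      · exact Subgroup.eq_of_le_of_card_ge Q.normalCore_le (by rw [h, hQc])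
    have hN : Q.Normal := hQn ▸ Q.normalCore_normal
    have hcl : Nat.card {y : G // IsConj q y} ≤ 2 := by
      have h1 : Nat.card {y : G // IsConj q y} ≤ Nat.card {y : Q // y ≠ 1} := by
        refine Nat.card_le_card_of_injective (fun y => ⟨⟨y.1, ?_⟩, ?_⟩) ?_
        · obtain ⟨c, hc⟩ := isConj_iff.mp y.2
          exact hc ▸ hN.conj_mem q (Subgroup.mem_zpowers q) c
        · intro h
          have h2 := orderOf_eq_of_isConj y.2
          rw [show y.1 = 1 from congrArg Subtype.val h, hq] at h2
          simp at h2
        · intro a b h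
          exact Subtype.ext (congrArg (fun z => z.1.1) h :)
      have := Fintype.ofFinite Q
      rw [Nat.card_eq_fintype_card (α := {y : Q // y ≠ 1}), Fintype.card_subtype_compl,
        ← Nat.card_eq_fintype_card, hQc] at h1
      simpa using h1
    have h1 := card_conj_mul_card_centralizer q
    have hev : Even (Nat.card (Subgroup.centralizer ({q} : Set G))) := by
      rw [hG] at h1
      generalize Nat.card {y : G // IsConj q y} = a at *
      rw [Nat.even_iff]
      interval_cases a <;> omega
    obtain ⟨t, htC, ht⟩ := exists_involution_mem_of_even hev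
    obtain ⟨P, htP⟩ := exists_sylow_mem_of_involution ht
    have hPc : Nat.card P = 2 ^ 2 := by
      rw [P.card_eq_multiplicity, hG]
      have : (12 : ℕ).factorization 2 = 2 := by
        rw [show (12 : ℕ) = 2 ^ 2 * 3 by norm_num, Nat.factorization_mul (by norm_num) (by norm_num),
          Nat.factorization_pow]
        simp [Nat.prime_two.factorization, Nat.prime_three.factorization]
      rw [this]
    have hPcomm := IsPGroup.isMulCommutative_of_card_eq_prime_sq hPc
    have a1 : (P : Subgroup G) ≤ Subgroup.centralizer ({t} : Set G) := fun x hx =>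
      Subgroup.mem_centralizer_singleton_iff.mpr
        (congrArg Subtype.val (hPcomm.is_comm.comm (⟨x, hx⟩ : P) ⟨t, htP⟩) :)
    have a2 : Q ≤ Subgroup.centralizer ({t} : Set G) := by
      rw [hQ, Subgroup.zpowers_le, Subgroup.mem_centralizer_singleton_iff]
      exact (Subgroup.mem_centralizer_singleton_iff.mp htC).symm
    have b1 := Subgroup.card_dvd_of_le a1
    have b2 := Subgroup.card_dvd_of_le a2
    rw [hQc] at b2
    have b1' : 4 ∣ Nat.card (Subgroup.centralizer ({t} : Set G)) := by
      have : Nat.card (P : Subgroup G) = 4 := hPc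
      rwa [this] at b1
    have b3 : Subgroup.centralizer ({t} : Set G) = ⊤ := by
      apply Subgroup.eq_top_of_le_card
      rw [hG]
      exact Nat.le_of_dvd Nat.card_pos (by omega)
    exact hz t ht (center_eq_of_centralizer_eq_top b3)
  have := Fintype.ofFinite (G ⧸ Q)
  let e : (G ⧸ Q) ≃ Fin 4 := Fintype.equivFinOfCardEq (by rw [← Nat.card_eq_fintype_card]; exact hQi)
  let φ : G →* Equiv.Perm (Fin 4) :=
    e.permCongrHom.toMonoidHom.comp (MulAction.toPermHom G (G ⧸ Q))
  have hφ : Function.Injective φ := by
    have hker : (MulAction.toPermHom G (G ⧸ Q)).ker = ⊥ := by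
      rw [← Subgroup.normalCore_eq_ker, hcore]
    exact e.permCongrHom.injective.comp ((MonoidHom.ker_eq_bot_iff _).mp hker)
  have hr : φ.range = alternatingGroup (Fin 4) := by
    apply Equiv.Perm.eq_alternatingGroup_of_index_eq_two
    have h1 := φ.range.index_mul_card
    rw [← Nat.card_congr (MonoidHom.ofInjective hφ).toEquiv, hG, Nat.card_eq_fintype_card,
      Fintype.card_perm, Fintype.card_fin] at h1
    simp [Nat.factorial] at h1
    omega
  exact ⟨(MonoidHom.ofInjective hφ).trans (MulEquiv.subgroupCongr hr)⟩

end Cfsg.Agent.S0228
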