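import Cfsg.Statements.S0229
import Cfsg.Agent.Lib.Invol.SylowAux

set_option autoImplicit false
open Cfsg

namespace Cfsg.Agent.S0229

open Cfsg.Agent.Lib.Invol

/-- Let t be an involution of a Sylow 2-subgroup S of a finite group G, conjugate in G to no other element of S, and let s be an involution of G not conjugate to t. Then the order of st is twice an odd number. -/
theorem result {G : Type*} [Group G] [Finite G] (S : Sylow 2 G) (t : G) (ht : orderOf t = 2) (htS : t ∈ S) (hiso : ∀ g : G, g * t * g⁻¹ ∈ S → g * t * g⁻¹ = t) (s : G) (hs : orderOf s = 2) (hns : ¬ IsConj s t) : orderOf (s * t) % 4 = 2 := by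
  have hs2 := mul_self_of_orderOf_two hs
  have ht2 := mul_self_of_orderOf_two ht
  have heven : Even (orderOf (s * t)) := by
    rw [← Nat.not_odd_iff_even]
    exact fun ho => hns (isConj_of_odd hs2 ht2 ho)
  by_contra hne
  obtain ⟨m, hm⟩ : 4 ∣ orderOf (s * t) := by
    obtain ⟨k, hk⟩ := heven
    omega
  obtain ⟨hz2, -, hzt⟩ := half_pow_central hs2 ht2 heven
  have e : orderOf (s * t) / 2 = 2 * m := by omega
  rw [e] at hz2 hzt
  have hinv := conj_right_mul_eq_inv hs2 ht2
  have hQ := isPGroup_closure_pair_of_commute ht2 (mul_self_of_orderOf_two hz2) hzt.symm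
  have hm1 : t ∈ Subgroup.closure ({t, (s * t) ^ (2 * m)} : Set G) :=
    Subgroup.subset_closure (by simp)
  have hm2 : (s * t) ^ (2 * m) ∈ Subgroup.closure ({t, (s * t) ^ (2 * m)} : Set G) :=
    Subgroup.subset_closure (by simp)
  have hconj : IsConj t (t * (s * t) ^ (2 * m)) := by
    refine isConj_iff.mpr ⟨_, (mul_zpow_conj_of_inverts ht2 hinv m).trans ?_⟩
    rw [← zpow_natCast]
    push_cast
    rfl
  have := eq_of_isolated S hiso hQ hm1 (Subgroup.mul_mem _ hm1 hm2) (IsConj.refl t) hconj
  exact ne_one_of_orderOf_two hz2 (by simpa using this)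

end Cfsg.Agent.S0229
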