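import Cfsg.Statements.S0230
import Cfsg.Agent.Lib.Invol.BrauerFowler

set_option autoImplicit false
open Cfsg

namespace Cfsg.Agent.S0230

open Cfsg.Agent.Lib.Invol

/-- Let G be a finite group with two non-conjugate involutions, and let t be an involution whose centralizer has maximal order among centralizers of involutions. Then |G| < |C_G(t)|^3. -/
theorem result {G : Type*} [Group G] [Finite G] (s t : G) (hs : orderOf s = 2) (ht : orderOf t = 2) (hnc : ¬ IsConj s t) (hmax : ∀ u : G, orderOf u = 2 → Nat.card (Subgroup.centralizer ({u} : Set G)) ≤ Nat.card (Subgroup.centralizer ({t} : Set G))) : Nat.card G < Nat.card (Subgroup.centralizer ({t} : Set G)) ^ 3 := by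
  classical
  have := Fintype.ofFinite G
  set m := Nat.card (Subgroup.centralizer ({t} : Set G)) with hm
  let A : Finset G := Finset.univ.filter fun y => IsConj s y
  let Z : Finset G := Finset.univ.filter fun z => orderOf z = 2 ∧ Commute z t
  let B : G → Finset G := fun z => Finset.univ.filter fun y => orderOf y = 2 ∧ Commute y z
  have hB : ∀ z : G, (B z).card + 1 ≤ Nat.card (Subgroup.centralizer ({z} : Set G)) := by
    intro z
    have := card_commuting_involutions_lt z
    rwa [Nat.card_eq_fintype_card (α := {t : G // _}), Fintype.card_subtype] at this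
  have hsub : A ⊆ Z.biUnion B := by
    intro y hy
    have hy' : IsConj s y := by simpa [A, -isConj_iff] using hy
    have hy2 : orderOf y = 2 := orderOf_eq_of_isConj hy' ▸ hs
    obtain ⟨z, -, hz, hzy, hzt⟩ := exists_involution_commute_of_not_isConj
      (mul_self_of_orderOf_two hy2) (mul_self_of_orderOf_two ht) (fun h => hnc (hy'.trans h))
    rw [Finset.mem_biUnion]
    exact ⟨z, by simp [Z, hz, hzt], by simp [B, hy2, hzy.symm]⟩
  have h1 : A.card ≤ Z.card * (m - 1) := by
    refine (Finset.card_le_card hsub).trans (Finset.card_biUnion_le_card_mul _ _ _ ?_)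
    intro z hz
    have hz2 : orderOf z = 2 := (Finset.mem_filter.mp hz).2.1
    have := hB z
    have := hmax z hz2
    omega
  have h2 : Z.card + 1 ≤ m := hB t
  have h3 := card_conj_mul_card_centralizer s
  rw [Nat.card_eq_fintype_card (α := {t : G // _}), Fintype.card_subtype] at h3
  have h4 := hmax s hs
  obtain ⟨k, hk⟩ : ∃ k, m = k + 1 := ⟨m - 1, by omega⟩
  have h5 : A.card ≤ k * k := by
    refine h1.trans (Nat.mul_le_mul (by omega) (by omega))
  have h6 : Nat.card G ≤ k * k * m := h3 ▸ Nat.mul_le_mul h5 h4
  rw [hk] at h6 ⊢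
  nlinarith [Nat.zero_le k]

end Cfsg.Agent.S0230
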