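import Cfsg.Statements.S0231
import Cfsg.Agent.Lib.Invol.SylowAux

set_option autoImplicit false
open scoped Pointwise
open Cfsg

namespace Cfsg.Agent.S0231

open Cfsg.Agent.Lib.Invol

/-- Let T be a Sylow 2-subgroup of the finite group G which is not normal and which intersects every other Sylow 2-subgroup trivially. Then G has a single conjugacy class of involutions. -/
theorem result {G : Type*} [Group G] [Finite G] (T : Sylow 2 G) (hnn : ¬ (T : Subgroup G).Normal) (hTI : ∀ g : G, MulAut.conj g • (T : Subgroup G) ≠ T → MulAut.conj g • (T : Subgroup G) ⊓ T = ⊥) (s t : G) (hs : orderOf s = 2) (ht : orderOf t = 2) : IsConj s t := by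
  have key : ∀ P Q : Sylow 2 G, ∀ x : G, x ∈ P → x ∈ Q → x ≠ 1 → P = Q := by
    intro P Q x hxP hxQ hx
    obtain ⟨a, rfl⟩ := MulAction.exists_smul_eq G T Q
    obtain ⟨b, rfl⟩ := MulAction.exists_smul_eq G T P
    by_contra hne
    have h1 : MulAut.conj (a⁻¹ * b) • (T : Subgroup G) ≠ T := by
      intro h
      apply hne
      have h2 : (a⁻¹ * b) • T = T := Sylow.ext h
      rw [mul_smul, inv_smul_eq_iff] at h2
      exact h2
    have h2 := hTI _ h1
    have h3 : a⁻¹ * x * a ∈ MulAut.conj (a⁻¹ * b) • (T : Subgroup G) ⊓ T := by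
      refine ⟨?_, mem_sylow_smul_iff.mp hxQ⟩
      have : a⁻¹ * x * a ∈ (a⁻¹ * b) • T := by
        rw [mem_sylow_smul_iff]
        simpa [mul_assoc] using mem_sylow_smul_iff.mp hxP
      exact this
    rw [h2, Subgroup.mem_bot] at h3
    apply hx
    calc x = a * (a⁻¹ * x * a) * a⁻¹ := by group
      _ = 1 := by rw [h3]; group
  by_contra hnc
  obtain ⟨P, hsP⟩ := exists_sylow_mem_of_involution hs
  obtain ⟨Q, hQ⟩ : ∃ Q : Sylow 2 G, Q ≠ P := by
    by_contra hall
    push Not at hall
    have : Subsingleton (Sylow 2 G) := ⟨fun a b => (hall a).trans (hall b).symm⟩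
    exact hnn (Sylow.normal_of_subsingleton T)
  obtain ⟨g, hg⟩ := exists_conj_involution_mem_sylow Q ht
  have ht' : orderOf (g * t * g⁻¹) = 2 := by rw [orderOf_conj', ht]
  have hnc' : ¬ IsConj s (g * t * g⁻¹) := fun h =>
    hnc (h.trans (isConj_iff.mpr ⟨g, rfl⟩).symm)
  obtain ⟨z, -, hz, hzs, hzt⟩ := exists_involution_commute_of_not_isConj
    (mul_self_of_orderOf_two hs) (mul_self_of_orderOf_two ht') hnc'
  obtain ⟨R, hzR, hsR⟩ := exists_sylow_mem_of_commute (mul_self_of_orderOf_two hz)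
    (mul_self_of_orderOf_two hs) hzs
  obtain ⟨R', hzR', htR'⟩ := exists_sylow_mem_of_commute (mul_self_of_orderOf_two hz)
    (mul_self_of_orderOf_two ht') hzt
  have e1 := key _ _ _ hsR hsP (ne_one_of_orderOf_two hs)
  have e2 := key _ _ _ htR' hg (ne_one_of_orderOf_two ht')
  have e3 := key _ _ _ hzR hzR' (ne_one_of_orderOf_two hz)
  exact hQ (e2.symm.trans (e3.symm.trans e1))

end Cfsg.Agent.S0231
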