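import Cfsg.Statements.S0232
import Cfsg.Agent.Lib.Invol.BrauerFowler

set_option autoImplicit false
open Cfsg

namespace Cfsg.Agent.S0232

open Cfsg.Agent.Lib.Invol

theorem of_index_two {G : Type*} [Group G] [Finite G] (hgt : 2 < Nat.card G) (H : Subgroup G)
    (hH : H.index = 2) : H ≠ ⊤ ∧ Nat.card G < (Nat.card H) ^ 3 := by
  refine ⟨?_, ?_⟩
  · rintro rfl
    simp at hH
  · have h1 := H.index_mul_card
    rw [hH] at h1
    have h2 : 2 ≤ Nat.card H := by omega
    rw [← h1]
    nlinarith [Nat.mul_le_mul h2 h2]

universe u in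
theorem aux (n : ℕ) : ∀ {G : Type u} [Group G] [Finite G], Nat.card G = n → Even (Nat.card G) →
    2 < Nat.card G → ∃ H : Subgroup G, H ≠ ⊤ ∧ Nat.card G < (Nat.card H) ^ 3 := by
  induction n using Nat.strong_induction_on with
  | _ n ih =>
  intro G _ _ hn heven hgt
  by_cases h2 : ∃ H : Subgroup G, H.index = 2
  · obtain ⟨H, hH⟩ := h2
    exact ⟨H, of_index_two hgt H hH⟩
  rcases Nat.even_or_odd (Nat.card (Subgroup.center G)) with hZ | hZ
  · obtain ⟨z, hzZ, hz⟩ := exists_involution_mem_of_even hZ
    have hN : (Subgroup.zpowers z).Normal := ⟨fun x hx g => by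
      have := Subgroup.mem_center_iff.mp ((Subgroup.zpowers_le.mpr hzZ) hx) g
      rwa [this, mul_inv_cancel_right]⟩
    have hcard := Subgroup.card_eq_card_quotient_mul_card_subgroup (Subgroup.zpowers z)
    rw [Nat.card_zpowers, hz] at hcard
    rcases Nat.even_or_odd (Nat.card (G ⧸ Subgroup.zpowers z)) with hQ | hQ
    · have hgt' : 2 < Nat.card (G ⧸ Subgroup.zpowers z) := by
        by_contra hle
        exact h2 ⟨Subgroup.zpowers z, by
          change Nat.card (G ⧸ Subgroup.zpowers z) = 2
          omega⟩
      obtain ⟨H, hH1, hH2⟩ := ih _ (by omega) rfl hQ hgt'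
      have hi := Subgroup.index_comap_of_surjective H
        (QuotientGroup.mk'_surjective (Subgroup.zpowers z))
      refine ⟨H.comap (QuotientGroup.mk' _), ?_, ?_⟩
      · intro h
        rw [h, Subgroup.index_top, eq_comm, Subgroup.index_eq_one] at hi
        exact hH1 hi
      · have e1 := (H.comap (QuotientGroup.mk' (Subgroup.zpowers z))).index_mul_card
        have e2 := H.index_mul_card
        rw [hi, hcard, ← e2, mul_assoc] at e1
        have e3 := Nat.eq_of_mul_eq_mul_left (Nat.pos_of_ne_zero H.index_ne_zero_of_finite) e1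
        rw [e3, hcard]
        nlinarith
    · exfalso
      obtain ⟨T, hT⟩ := (isPGroup_zpowers_of_involution hz).exists_le_sylow
      have hT' : (T : Subgroup G) = Subgroup.zpowers z := by
        symm
        apply Subgroup.eq_of_le_of_card_ge hT
        obtain ⟨k, hk⟩ := T.2.exists_card_eq
        have h3 := Subgroup.card_subgroup_dvd_card (T : Subgroup G)
        rw [Nat.card_zpowers, hz, hk]
        rw [hk, hcard] at h3
        have h4 : 2 ^ k ∣ 2 := (Nat.Coprime.pow_left k
          (Nat.coprime_two_left.mpr hQ)).dvd_of_dvd_mul_left h3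
        exact Nat.le_of_dvd two_pos h4
      exact h2 (exists_index_two_of_isCyclic_sylow heven T (hT' ▸ inferInstance))
  · obtain ⟨t, ht⟩ := exists_involution_of_even heven
    obtain ⟨H, h1, h3 | h3⟩ := brauer_fowler_centralizer hZ ht
    · exact absurd ⟨H, h3⟩ h2
    have hC : Subgroup.centralizer ({t} : Set G) ≠ ⊤ := fun h =>
      odd_card_iff_no_involution.mp hZ t (center_eq_of_centralizer_eq_top h) ht
    have e := H.index_mul_card
    have hpos : 0 < Nat.card H := Nat.card_pos
    set c := Nat.card (Subgroup.centralizer ({t} : Set G))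
    have hcpos : 0 < c := Nat.card_pos
    have h4 : H.index < c * c := by nlinarith
    rcases le_total c (Nat.card H) with hle | hle
    · refine ⟨H, h1, ?_⟩
      rw [← e]
      nlinarith [Nat.mul_le_mul hle hle]
    · refine ⟨_, hC, ?_⟩
      rw [← e]
      change _ < c ^ 3
      nlinarith [Nat.mul_le_mul hle hle]

/-- A finite group G of even order greater than 2 has a proper subgroup H with |G| < |H|^3. -/
theorem result {G : Type*} [Group G] [Finite G] (heven : Even (Nat.card G)) (hgt : 2 < Nat.card G) : ∃ H : Subgroup G, H ≠ ⊤ ∧ Nat.card G < (Nat.card H) ^ 3 := by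
  exact aux _ rfl heven hgt

end Cfsg.Agent.S0232
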