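import Cfsg.Statements.S0234
import Cfsg.Agent.Lib.Invol.BrauerFowler

set_option autoImplicit false
open Cfsg

namespace Cfsg.Agent.S0234

open Cfsg.Agent.Lib.Invol

theorem card_inv_five : (Finset.univ.filter fun t : Equiv.Perm (Fin 5) =>
    Equiv.Perm.sign t = 1 ∧ t * t = 1 ∧ t ≠ 1).card = 15 := by
  decide +kernel

theorem aux {G : Type*} [Group G] [Finite G] [IsSimpleGroup G] (p k j : ℕ) [Fact p.Prime]
    (h : Nat.card G = j * p ^ k) (hj : j ≠ 1) : Nat.card G ∣ j.factorial := by
  obtain ⟨H, hH⟩ := Sylow.exists_subgroup_card_pow_prime (G := G) p (n := k)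
    (h ▸ Dvd.intro_left _ rfl)
  have h1 := H.index_mul_card
  rw [hH, h] at h1
  have h2 : H.index = j := Nat.eq_of_mul_eq_mul_right (pow_pos (Fact.out : p.Prime).pos k) h1
  have := card_dvd_factorial_index (H := H) (by
    rintro rfl
    exact hj (by simpa using h2.symm))
  rwa [h2] at this

/-- In a finite simple group G of even order greater than 2, the number n of involutions satisfies 3n < |G|. -/
theorem result {G : Type*} [Group G] [Finite G] [IsSimpleGroup G] (heven : Even (Nat.card G)) (hgt : 2 < Nat.card G) : 3 * Nat.card {t : G // orderOf t = 2} < Nat.card G := by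
  classical
  have h2 : ∀ H : Subgroup G, H.index ≠ 2 := by
    intro H hH
    have := card_dvd_factorial_index (H := H) (by
      rintro rfl
      simp at hH)
    rw [hH] at this
    exact absurd (Nat.le_of_dvd (by decide) this) (by simpa using hgt)
  obtain ⟨t, ht⟩ := exists_involution_of_even heven
  have hZ : Subgroup.center G = ⊥ := by
    rcases (inferInstance : (Subgroup.center G).Normal).eq_bot_or_eq_top with hZ | hZ
    · exact hZ
    · exfalso
      have hN : (Subgroup.zpowers t).Normal := ⟨fun x hx g => by
        have := Subgroup.mem_center_iff.mp (hZ ▸ Subgroup.mem_top x) g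
        rwa [this, mul_inv_cancel_right]⟩
      rcases hN.eq_bot_or_eq_top with h | h
      · exact ne_one_of_orderOf_two ht (Subgroup.zpowers_eq_bot.mp h)
      · have := Nat.card_zpowers t
        rw [h, Subgroup.card_top] at this
        omega
  obtain ⟨H, hH, h3 | h3⟩ := brauer_fowler_index heven (by rw [hZ]; simp)
  · exact absurd h3 (h2 H)
  by_contra hle
  push Not at hle
  set n := Nat.card {t : G // orderOf t = 2} with hn
  have hj : H.index ≤ 5 := by
    by_contra hj
    push Not at hj
    have a1 : Nat.card G * (Nat.card G + n) ≤ (3 * n) * (3 * n + n) :=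
      Nat.mul_le_mul hle (Nat.add_le_add_right hle _)
    have a2 : 6 * n ^ 2 ≤ H.index * n ^ 2 := Nat.mul_le_mul_right _ hj
    nlinarith
  have := Fintype.ofFinite (G ⧸ H)
  obtain ⟨ι⟩ : Nonempty ((G ⧸ H) ↪ Fin 5) :=
    Function.Embedding.nonempty_of_card_le (by
      rw [← Nat.card_eq_fintype_card, Fintype.card_fin]; exact hj)
  let φ : G →* Equiv.Perm (Fin 5) :=
    (Equiv.Perm.viaEmbeddingHom ι).comp (MulAction.toPermHom G (G ⧸ H))
  have hφ : Function.Injective φ := by
    have hker : (MulAction.toPermHom G (G ⧸ H)).ker = ⊥ := by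
      rw [← Subgroup.normalCore_eq_ker]
      rcases (H.normalCore_normal).eq_bot_or_eq_top with h | h
      · exact h
      · exact absurd (eq_top_iff.mpr (h ▸ H.normalCore_le)) hH
    exact (Equiv.Perm.viaEmbeddingHom_injective ι).comp ((MonoidHom.ker_eq_bot_iff _).mp hker)
  have hsign : ∀ g : G, Equiv.Perm.sign (φ g) = 1 := by
    rcases (inferInstance : (Equiv.Perm.sign.comp φ).ker.Normal).eq_bot_or_eq_top with h | h
    · have := Nat.card_le_card_of_injective _ ((MonoidHom.ker_eq_bot_iff _).mp h)
      rw [Nat.card_eq_fintype_card (α := ℤˣ), Fintype.card_units_int] at this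
      omega
    · intro g
      exact (h ▸ Subgroup.mem_top g : g ∈ (Equiv.Perm.sign.comp φ).ker)
  have hn15 : n ≤ 15 := by
    rw [← card_inv_five, ← Fintype.card_subtype, ← Nat.card_eq_fintype_card]
    refine Nat.card_le_card_of_injective (fun s => ⟨φ s.1, hsign _, ?_, ?_⟩) ?_
    · rw [← map_mul, mul_self_of_orderOf_two s.2, map_one]
    · exact fun h => ne_one_of_orderOf_two s.2 (hφ (h.trans (map_one φ).symm))
    · intro a b h
      exact Subtype.ext (hφ (congrArg Subtype.val h :))
  have h60 : Nat.card G ∣ 60 := by
    have := Subgroup.card_dvd_of_injective (φ.codRestrict (alternatingGroup (Fin 5)) hsign)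
      (fun a b h => hφ (congrArg Subtype.val h :))
    rwa [nat_card_alternatingGroup, Nat.card_eq_fintype_card (α := Fin 5), Fintype.card_fin] at this
  have h45 : Nat.card G ≤ 45 := by omega
  have : Fact (Nat.Prime 5) := ⟨by norm_num⟩
  have hcases : Nat.card G = 4 ∨ Nat.card G = 6 ∨ Nat.card G = 10 ∨ Nat.card G = 12 ∨
      Nat.card G = 20 ∨ Nat.card G = 30 := by
    obtain ⟨r, hr⟩ := heven
    generalize Nat.card G = m at *
    interval_cases m <;> omega
  rcases hcases with h | h | h | h | h | h
  · have := aux (G := G) 2 1 2 h (by decide)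
    rw [h] at this; revert this; decide
  · have := aux (G := G) 3 1 2 h (by decide)
    rw [h] at this; revert this; decide
  · have := aux (G := G) 5 1 2 h (by decide)
    rw [h] at this; revert this; decide
  · have := aux (G := G) 2 2 3 h (by decide)
    rw [h] at this; revert this; decide
  · have := aux (G := G) 5 1 4 h (by decide)
    rw [h] at this; revert this; decide
  · obtain ⟨T⟩ := (inferInstance : Nonempty (Sylow 2 G))
    have : IsZGroup G := IsZGroup.of_squarefree (by rw [h]; decide +kernel)
    obtain ⟨K, hK⟩ := exists_index_two_of_isCyclic_sylow heven T inferInstance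
    exact h2 K hK

end Cfsg.Agent.S0234
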