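import Cfsg.Statements.S0439
import Cfsg.Agent.Lib.Invol.ThreeTransp

set_option autoImplicit false
open Cfsg

namespace Cfsg.Agent.S0439

open Cfsg.Agent.Lib.Invol

/-- In the symmetric group of degree n ≥ 2, the set of transpositions is a conjugacy class of 3-transpositions which generates the group. -/
theorem result (n : ℕ) (hn : 2 ≤ n) : Cfsg.IsThreeTranspositionClass {σ : Equiv.Perm (Fin n) | σ.IsSwap} := by
  refine ⟨⟨fun d hd => Equiv.Perm.IsSwap.orderOf hd, ?_⟩, ?_, Equiv.Perm.closure_isSwap⟩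
  · rintro _ ⟨a, b, hab, rfl⟩ _ ⟨c, d, hcd, rfl⟩
    exact swap_mul_swap_order hab hcd
  · have h01 : (⟨0, by omega⟩ : Fin n) ≠ ⟨1, by omega⟩ := by simp
    refine ⟨_, ⟨_, _, h01, rfl⟩, ?_⟩
    ext σ
    constructor
    · rintro ⟨a, b, hab, rfl⟩
      exact Equiv.Perm.isConj_swap h01 hab
    · intro h
      obtain ⟨c, rfl⟩ := isConj_iff.mp h
      exact ⟨_, _, c.injective.ne h01, (Equiv.swap_apply_apply _ _ _).symm⟩

end Cfsg.Agent.S0439
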