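import Cfsg.Statements.S0440
import Cfsg.Agent.Lib.Invol.SpTransvection

set_option autoImplicit false
open Cfsg

namespace Cfsg.Agent.S0440

open Cfsg.Agent.Lib.Invol Matrix Cfsg.Agent.Lib.GL.Alt Cfsg.Agent.Lib.Forms

/-- In the symplectic group in dimension 2n ≥ 2 over the field with two elements, the elements g for which g - 1 has rank one (the symplectic transvections) form a conjugacy class of 3-transpositions generating the group. -/
theorem result (n : ℕ) (hn : 1 ≤ n) : Cfsg.IsThreeTranspositionClass {g : Matrix.symplecticGroup (Fin n) (ZMod 2) | ((g : Matrix (Fin n ⊕ Fin n) (Fin n ⊕ Fin n) (ZMod 2)) - 1).rank = 1} := by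
  have e : {g : Matrix.symplecticGroup (Fin n) (ZMod 2) |
      ((g : Matrix (Fin n ⊕ Fin n) (Fin n ⊕ Fin n) (ZMod 2)) - 1).rank = 1} =
      {g | ∃ v ≠ 0, g = spT v 1} := by
    ext g
    refine ⟨eq_spT_of_rank_two, ?_⟩
    rintro ⟨v, hv, rfl⟩
    exact rank_spT_sub_one hv one_ne_zero
  have h2 : ∀ x : Fin n ⊕ Fin n → ZMod 2, x + x = 0 := fun x => by
    ext i
    exact CharTwo.add_self_eq_zero _
  have hsq : ∀ v : Fin n ⊕ Fin n → ZMod 2, spT v 1 * spT v 1 = 1 := fun v => sp_ext fun x => by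
    rw [sp_mul_mulVec, spT_mulVec, spT_mulVec, sp_one_mulVec]
    simp [sympBilin_self, add_assoc, h2]
  rw [e]
  refine ⟨⟨?_, ?_⟩, ?_, ?_⟩
  · rintro _ ⟨v, hv, rfl⟩
    refine orderOf_two_of (hsq v) fun h => ?_
    have := rank_spT_sub_one hv one_ne_zero
    rw [h] at this
    simp at this
  · rintro _ ⟨u, hu, rfl⟩ _ ⟨v, hv, rfl⟩
    have hinv : ∀ v : Fin n ⊕ Fin n → ZMod 2, (spT v 1)⁻¹ = spT v 1 := fun v =>
      inv_eq_of_mul_eq_one_right (hsq v)
    have c1 := conj_spT (spT u 1) v 1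
    have c2 := conj_spT (spT v 1) u 1
    rw [hinv, spT_mulVec] at c1 c2
    rw [sympBilin_swap] at c2
    have : sympBilin n _ v u = 0 ∨ sympBilin n _ v u = 1 := by
      generalize sympBilin n _ v u = a
      revert a; decide
    rcases this with h | h
    · left
      rw [h] at c1
      rw [pow_two, ← mul_assoc, c1]
      simpa using hsq v
    · right
      rw [h] at c1 c2
      have c3 : spT u 1 * spT v 1 * spT u 1 = spT v 1 * spT u 1 * spT v 1 := by
        rw [c1, c2, add_comm]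
        simp [CharTwo.neg_eq]
      calc (spT u 1 * spT v 1) ^ 3 = (spT u 1 * spT v 1 * spT u 1) * (spT v 1 * spT u 1 * spT v 1) := by
            rw [pow_succ, pow_two]; simp only [mul_assoc]
        _ = spT u 1 * (spT v 1 * (spT u 1 * spT u 1) * spT v 1) * spT u 1 := by
            rw [← c3]; simp only [mul_assoc]
        _ = 1 := by rw [hsq, mul_one, hsq, mul_one, hsq]
  · have hv0 : (fun _ => 1 : Fin n ⊕ Fin n → ZMod 2) ≠ 0 := fun h =>
      one_ne_zero (congrFun h (Sum.inl ⟨0, hn⟩))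
    refine ⟨_, ⟨_, hv0, rfl⟩, ?_⟩
    ext g
    constructor
    · rintro ⟨v, hv, rfl⟩
      obtain ⟨A, hA⟩ := witt_symp (F := ZMod 2) (ι := Unit) (fun _ => fun _ => 1) (fun _ => v)
        (linearIndependent_unique_iff.mpr hv0) (linearIndependent_unique_iff.mpr hv)
        (fun _ _ => by rw [← sympBilin_apply, ← sympBilin_apply, sympBilin_self, sympBilin_self])
      exact isConj_iff.mpr ⟨A, by rw [conj_spT, hA ()]⟩
    · intro h
      obtain ⟨A, rfl⟩ := isConj_iff.mp h
      refine ⟨_, fun h => hv0 ?_, conj_spT _ _ _⟩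
      rw [← sp_one_mulVec (fun _ => 1), ← inv_mul_cancel A, sp_mul_mulVec, h, mulVec_zero]
  · rw [← closure_spT]
    congr 1
    ext g
    constructor
    · rintro ⟨v, hv, rfl⟩
      exact ⟨v, hv, 1, one_ne_zero, rfl⟩
    · rintro ⟨v, hv, c, hc, rfl⟩
      obtain rfl : c = 1 := by revert c; decide
      exact ⟨v, hv, rfl⟩

end Cfsg.Agent.S0440
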