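import Cfsg.Statements.S0442
import Cfsg.Agent.Lib.Invol.ThreeTransp

set_option autoImplicit false
open Cfsg

namespace Cfsg.Agent.S0442

open Cfsg.Agent.Lib.Invol

/-- A standard trick for producing elements of an involution centraliser: for an involution a and an element g, let b be the conjugate g⁻¹ * a * g. If a * b has odd order 2m + 1 then g * (a * b) ^ m commutes with a; if a * b has even order 2m then (a * b) ^ m and (a * (g * a * g⁻¹)) ^ m commute with a. -/
theorem result {G : Type*} [Group G] (a g : G) (ha : orderOf a = 2) : (∀ m : ℕ, orderOf (a * (g⁻¹ * a * g)) = 2 * m + 1 → Commute (g * (a * (g⁻¹ * a * g)) ^ m) a) ∧ (∀ m : ℕ, orderOf (a * (g⁻¹ * a * g)) = 2 * m → Commute ((a * (g⁻¹ * a * g)) ^ m) a ∧ Commute ((a * (g * a * g⁻¹)) ^ m) a) := by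
  have ha2 := mul_self_of_orderOf_two ha
  have hb2 : (g⁻¹ * a * g) * (g⁻¹ * a * g) = 1 := by
    calc (g⁻¹ * a * g) * (g⁻¹ * a * g) = g⁻¹ * (a * a) * g := by group
      _ = 1 := by rw [ha2]; group
  have hc2 : (g * a * g⁻¹) * (g * a * g⁻¹) = 1 := by
    calc (g * a * g⁻¹) * (g * a * g⁻¹) = g * (a * a) * g⁻¹ := by group
      _ = 1 := by rw [ha2]; group
  have hinv := conj_mul_eq_inv ha2 hb2
  constructor
  · intro m hm
    have h1 := pow_orderOf_eq_one (a * (g⁻¹ * a * g))
    rw [hm] at h1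
    have h2 := conj_pow_of_inverts hinv m
    have h3 : g⁻¹ * a * g = a * (a * (g⁻¹ * a * g)) := by rw [← mul_assoc a a, ha2, one_mul]
    generalize a * (g⁻¹ * a * g) = r at *
    have h4 : r ^ m * a * (r ^ m)⁻¹ = a * r := by
      have h5 : r ^ m * a = a * (r ^ m)⁻¹ := by
        rw [← h2, ← mul_assoc, ← mul_assoc, ha2, one_mul, inv_eq_of_mul_eq_one_right ha2]
      have h6 : (r ^ m)⁻¹ * (r ^ m)⁻¹ = r := by
        rw [← mul_inv_rev, inv_eq_iff_mul_eq_one, ← h1]
        group
      rw [h5, mul_assoc, h6]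
    rw [Commute, SemiconjBy]
    calc g * r ^ m * a = g * (r ^ m * a * (r ^ m)⁻¹) * r ^ m := by group
      _ = a * (g * r ^ m) := by rw [h4, ← h3]; group
  · intro m hm
    have h1 := pow_orderOf_eq_one (a * (g⁻¹ * a * g))
    rw [hm] at h1
    refine ⟨commute_of_inverts hinv m (by rw [← pow_add, ← two_mul, h1]),
      commute_of_inverts (conj_mul_eq_inv ha2 hc2) m ?_⟩
    have e : a * (g * a * g⁻¹) = g * (a * (g⁻¹ * a * g))⁻¹ * g⁻¹ := by
      simp only [mul_inv_rev, inv_inv, inv_eq_of_mul_eq_one_right ha2]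
      group
    rw [← pow_add, ← two_mul, e, conj_pow, inv_pow, h1]
    simp

end Cfsg.Agent.S0442
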