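import Cfsg.Statements.S0443
import Cfsg.Agent.Lib.Invol.ThreeTransp

set_option autoImplicit false
open Cfsg

namespace Cfsg.Agent.S0443

open Cfsg.Agent.Lib.Invol

/-- Two definitions of a 2-central involution agree: an element t of order 2 of a finite group lies in the centre of some Sylow 2-subgroup if and only if its centraliser contains some Sylow 2-subgroup. -/
theorem result {G : Type*} [Group G] [Finite G] (t : G) (ht : orderOf t = 2) : Cfsg.IsTwoCentralInvolution t ↔ ∃ P : Sylow 2 G, (P : Subgroup G) ≤ Subgroup.centralizer ({t} : Set G) := by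
  constructor
  · rintro ⟨-, P, -, h⟩
    exact ⟨P, fun x hx => Subgroup.mem_centralizer_singleton_iff.mpr (h x hx)⟩
  · rintro ⟨P, h⟩
    exact ⟨ht, P, mem_sylow_of_le_centralizer P (isPGroup_zpowers_of_involution ht) h,
      fun x hx => Subgroup.mem_centralizer_singleton_iff.mp (h hx)⟩

end Cfsg.Agent.S0443
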