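import Cfsg.Statements.S0444
import Cfsg.Agent.Lib.Invol.ThreeTransp

set_option autoImplicit false
open Cfsg

namespace Cfsg.Agent.S0444

open Cfsg.Agent.Lib.Invol

/-- Two members of a set of 3-transpositions which do not commute generate a subgroup isomorphic to the symmetric group on three letters. -/
theorem result {G : Type*} [Group G] {E : Set G} (hE : Cfsg.IsThreeTranspositionSet E) {d e : G} (hd : d ∈ E) (he : e ∈ E) (h : ¬ Commute d e) : Nonempty (Subgroup.closure ({d, e} : Set G) ≃* Equiv.Perm (Fin 3)) := by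
  obtain ⟨e1⟩ := nonempty_mulEquiv_dihedral (hE.1 d hd) (hE.1 e he)
    (fun hde => h (hde ▸ Commute.refl d))
  rw [threeTransp_orderOf_mul hE hd he h] at e1
  obtain ⟨e2⟩ := nonempty_dihedral_three_mulEquiv_perm
  exact ⟨e1.trans e2⟩

end Cfsg.Agent.S0444
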