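import Cfsg.Statements.S2572
import Cfsg.Agent.Lib.GL.Jordan3

set_option autoImplicit false
open Cfsg

namespace Cfsg.Agent.S2572

open Module Matrix Cfsg.Agent.Lib.GL.Jordan Cfsg.Agent.Lib.GL.Sim

/-- Centraliser of a transvection in GL_n(q), n ≥ 2: if t − 1 has rank one and square zero, the centraliser of t in GL_n(q) has order q^(2n−3) (q − 1) |GL_(n−2)(q)| (a group of order q^(2n−3) extended by GL_1(q) × GL_(n−2)(q)). -/
theorem result {F : Type*} [Field F] [Fintype F] {q n : ℕ} (hF : Fintype.card F = q) (hn : 2 ≤ n) (t : GL (Fin n) F) (ht : Cfsg.IsTransvection (t : Matrix (Fin n) (Fin n) F)) : Nat.card ↥(Subgroup.centralizer ({t} : Set (GL (Fin n) F))) = q ^ (2 * n - 3) * (q - 1) * ∏ i : Fin (n - 2), (q ^ (n - 2) - q ^ (i : ℕ)) := by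
  obtain ⟨b, hb⟩ := exists_isJordan_transvection hn ht
  have h := hb.card_isUnit_commute (s := {1, 2}) (by rintro (_ | k) <;> simp [trType])
  have hq : 0 < q := hF ▸ Fintype.card_pos
  obtain ⟨m, rfl⟩ := Nat.exists_eq_add_of_le' hn
  have h1 : Fintype.card {k // trType (m + 2 - 2) k = 1} = m := by
    rw [Fintype.card_subtype, Finset.card_filter, Fintype.sum_option]; simp [trType]
  have h2 : Fintype.card {k // trType (m + 2 - 2) k = 2} = 1 := by
    rw [Fintype.card_subtype, Finset.card_filter, Fintype.sum_option]; simp [trType]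
  rw [← card_centralizer_GL, hF, Finset.sum_pair (by simp), Finset.prod_pair (by simp), h1, h2] at h
  simp [trType, Fintype.sum_option, glOrder] at h
  refine Nat.eq_of_mul_eq_mul_right (pow_pos hq (m ^ 2 + 1)) ?_
  rw [h, show 2 * (m + 2) - 3 = 2 * m + 1 by omega]
  change _ = q ^ (2 * m + 1) * (q - 1) * (∏ i : Fin m, (q ^ m - q ^ (i : ℕ))) * _
  ring

end Cfsg.Agent.S2572
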