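import Cfsg.Statements.S0445
import Cfsg.Agent.S2572

set_option autoImplicit false
open Cfsg

namespace Cfsg.Agent.S0445

open Matrix Matrix.SpecialLinearGroup

/-- In the special linear group of dimension 5 over the field with two elements, the centraliser of a transvection has order 21504 = 2 ^ 7 · 168 (it is an extension of an extraspecial group of order 2 ^ 7 by the simple group of order 168). -/
theorem result (s : Matrix.SpecialLinearGroup (Fin 5) (ZMod 2)) (hs : (s : Matrix (Fin 5) (Fin 5) (ZMod 2)) = Matrix.transvection 0 1 1) : Nat.card (Subgroup.centralizer ({s} : Set (Matrix.SpecialLinearGroup (Fin 5) (ZMod 2)))) = 21504 := by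
  have h := Cfsg.Agent.S2572.result (F := ZMod 2) (q := 2) (n := 5) (by simp) (by simp) (toGL s) (by
    change Cfsg.IsTransvection s.1
    rw [hs]
    refine ⟨?_, by simp [Matrix.transvection, sq]⟩
    rw [Matrix.transvection, add_sub_cancel_left, single_eq_single_vecMulVec_single]
    refine le_antisymm (rank_vecMulVec_le _ _) (Nat.pos_of_ne_zero fun h => ?_)
    rw [Matrix.rank, Submodule.finrank_eq_zero, LinearMap.range_eq_bot] at h
    simpa [vecMulVec_apply] using congrFun (LinearMap.congr_fun h (Pi.single 1 1)) 0)
  have h1 : Function.Surjective (toGL : SpecialLinearGroup (Fin 5) (ZMod 2) → _) := fun g =>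
    ⟨⟨g.1, (by decide : ∀ a : ZMod 2, a ≠ 0 → a = 1) _ g.det_ne_zero⟩, Units.ext (coe_GL_coe_matrix _)⟩
  refine (Nat.card_congr ((Equiv.ofBijective toGL ⟨toGL_injective, h1⟩).subtypeEquiv
    fun g => ?_)).trans (h.trans (by decide))
  rw [Subgroup.mem_centralizer_singleton_iff, Subgroup.mem_centralizer_singleton_iff,
    ← toGL_inj, map_mul, map_mul]
  exact Iff.rfl

end Cfsg.Agent.S0445
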