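import Cfsg.Statements.S0446
import Cfsg.Agent.Lib.Invol.ThreeTransp

set_option autoImplicit false
open Cfsg

namespace Cfsg.Agent.S0446

open Cfsg.Agent.Lib.Invol

/-- Every finite group of even order contains a 2-central involution, i.e. an element of order 2 in the centre of some Sylow 2-subgroup. -/
theorem result {G : Type*} [Group G] [Finite G] (h : Even (Nat.card G)) : ∃ t : G, Cfsg.IsTwoCentralInvolution t := by
  obtain ⟨P⟩ := (inferInstance : Nonempty (Sylow 2 G))
  have h1 : Nontrivial (P : Subgroup G) :=
    (Subgroup.nontrivial_iff_ne_bot _).mpr (P.ne_bot_of_dvd_card h.two_dvd)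
  have h2 := P.2.bot_lt_center
  have h3 : Even (Nat.card (Subgroup.center (P : Subgroup G))) := by
    rcases (P.2.to_subgroup (Subgroup.center (P : Subgroup G))).card_eq_or_dvd with h | h
    · exact absurd (Subgroup.card_eq_one.mp h) h2.ne'
    · exact even_iff_two_dvd.mpr h
  obtain ⟨t, htZ, ht⟩ := exists_involution_mem_of_even h3
  refine ⟨t, by simpa using ht, P, t.2, fun x hx => ?_⟩
  exact congrArg Subtype.val (Subgroup.mem_center_iff.mp htZ ⟨x, hx⟩)

end Cfsg.Agent.S0446
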