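import Cfsg.Statements.S0455
import Cfsg.Agent.Lib.Jk.Fin3
import Cfsg.Agent.Lib.Jk.J2

set_option autoImplicit false
open Cfsg

namespace Cfsg.Agent.S0455

/-- Janko's second and third groups: let G be finite simple with a 2-central involution t whose centraliser C contains a normal extraspecial subgroup E of order 32 with C/E isomorphic to the alternating group of degree 5. Then G has order 604800 or 50232960. -/
theorem result {G : Type*} [Group G] [Finite G] [IsSimpleGroup G] (t : G) (ht : Cfsg.IsTwoCentralInvolution t) (E : Subgroup (Subgroup.centralizer ({t} : Set G))) [E.Normal] (hE : Nat.card E = 32) (hX : Cfsg.IsExtraspecial 2 E) (e : (Subgroup.centralizer ({t} : Set G)) ⧸ E ≃* alternatingGroup (Fin 5)) : Cfsg.IsJ2 G ∨ Cfsg.IsJ3 G := by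
  obtain ⟨φ, h, g, g1, g2⟩ := Lib.Jk.exists_emb ht E hE hX e
  have hx := h.fuse_x g1 g2
  obtain ⟨r, hr⟩ := h.exists_base hx
  have hall : ∀ s, orderOf s = 2 → IsConj t s ∨ IsConj (φ Lib.Jk.v1) s := fun s hs => by
    obtain ⟨-, P, -, hP⟩ := ht
    obtain ⟨c, hc⟩ := Lib.Invol.exists_conj_involution_mem_sylow P hs
    have i : Lib.Root.J1.Iv s := ⟨by rintro rfl; simp at hs, by
      rw [← pow_two, ← hs, pow_orderOf_eq_one]⟩
    have k := (Lib.Jk.cj (a := s) (c := c) rfl).symm
    rcases h.iv_cases (i.conj c) (hP _ hc) with e | ⟨d, e⟩ | ⟨d, e⟩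
    exacts [.inl (e ▸ k), .inl ((hx.trans (Lib.Jk.cj e)).trans k), .inr ((Lib.Jk.cj e).trans k)]
  by_cases hv : IsConj t (φ Lib.Jk.v1)
  · exact .inr ⟨inferInstance, Lib.Jk.J3.card_eq
      ⟨hr, fun u hu => (hall u hu.orderOf).elim id hv.trans⟩⟩
  · exact .inl ⟨inferInstance, Lib.Jk.J2.card_eq ⟨hr, hv⟩ hall⟩

end Cfsg.Agent.S0455
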