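import Cfsg.Statements.S0456
import Cfsg.Agent.Lib.Jk.Fin3
import Cfsg.Agent.S0446

set_option autoImplicit false
open Cfsg

namespace Cfsg.Agent.S0456

/-- Janko's third group: let G be finite simple with all involutions conjugate, and let t be an involution whose centraliser C has a normal extraspecial subgroup E of order 32 with C/E isomorphic to the alternating group of degree 5. Then G has order 50232960. -/
theorem result {G : Type*} [Group G] [Finite G] [IsSimpleGroup G] (hone : ∀ x y : G, orderOf x = 2 → orderOf y = 2 → IsConj x y) (t : G) (ht : orderOf t = 2) (E : Subgroup (Subgroup.centralizer ({t} : Set G))) [E.Normal] (hE : Nat.card E = 32) (hX : Cfsg.IsExtraspecial 2 E) (e : (Subgroup.centralizer ({t} : Set G)) ⧸ E ≃* alternatingGroup (Fin 5)) : Cfsg.IsJ3 G := by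
  have h2 : Cfsg.IsTwoCentralInvolution t := by
    obtain ⟨s, hs, P, hP, hc⟩ := Cfsg.Agent.S0446.result (G := G)
      (even_iff_two_dvd.2 (ht ▸ orderOf_dvd_natCard t))
    obtain ⟨g, rfl⟩ := isConj_iff.1 (hone s t hs ht)
    refine ⟨ht, g • P, Lib.Invol.conj_mem_sylow_smul g hP, fun x hx => ?_⟩
    have := Lib.Root.J1.comm_conj g (hc _ (Lib.Invol.mem_sylow_smul_iff.1 hx))
    simpa [mul_assoc] using this
  obtain ⟨φ, h, g, g1, g2⟩ := Lib.Jk.exists_emb h2 E hE hX e
  obtain ⟨r, hr⟩ := h.exists_base (h.fuse_x g1 g2)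
  exact ⟨inferInstance, Lib.Jk.J3.card_eq ⟨hr, fun u hu => hone t u ht hu.orderOf⟩⟩

end Cfsg.Agent.S0456
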