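import Cfsg.Statements.S0458
import Cfsg.Agent.Lib.Spor.J3p.Main
import Cfsg.Agent.Lib.Spor.Glue

set_option autoImplicit false
open Cfsg

namespace Cfsg.Agent.S0458

/-- Janko's third group exists as a transitive permutation group of degree 6156 with point stabiliser of order 8160: a simple group of order 50232960. -/
theorem result : ∃ H : Subgroup (Equiv.Perm (Fin 6156)), Cfsg.IsJ3 H ∧ MulAction.IsPretransitive H (Fin 6156) ∧ Nat.card (MulAction.stabilizer H (0 : Fin 6156)) = 8160 := by
  have := Spor.J3p.simple0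
  obtain ⟨H, ⟨e⟩, h1, ⟨f⟩⟩ := Spor.exists_perm_sub (PG.K_mono Spor.J3p.A (Nat.zero_le 1))
    (n := 6156) (m := 8160) (by rw [Spor.J3p.card0]) Spor.J3p.card1 (by norm_num) (by norm_num)
  exact ⟨H, Spor.simple_card_congr e ⟨this, Spor.J3p.card0⟩, h1,
    by rw [← Spor.J3p.card1]; exact Nat.card_congr f.symm.toEquiv⟩

end Cfsg.Agent.S0458
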