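import Cfsg.Statements.S0459
import Cfsg.Agent.Lib.Spor.Ru.Link

set_option autoImplicit false
open Cfsg

namespace Cfsg.Agent.S0459

open Cfsg.Agent.PG Cfsg.Agent.Spor Cfsg.Agent.Spor.RuL

/-- The Rudvalis group exists as a transitive permutation group of degree 4060: simple of order 145926144000, with point stabiliser of order 35942400 containing a simple subgroup of order 17971200 (the order of the Tits group). -/
theorem result : ∃ H : Subgroup (Equiv.Perm (Fin 4060)), Cfsg.IsRu H ∧ MulAction.IsPretransitive H (Fin 4060) ∧ Nat.card (MulAction.stabilizer H (0 : Fin 4060)) = 35942400 ∧ ∃ T : Subgroup (MulAction.stabilizer H (0 : Fin 4060)), Cfsg.IsTits T := by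
  have := Ru.simple0
  obtain ⟨H, ⟨e⟩, h1, ⟨f⟩⟩ := exists_perm_sub (K_mono Ru.A (Nat.zero_le 1))
    (n := 4060) (m := 35942400) (by rw [Ru.card0]) Ru.card1 (by norm_num) (by norm_num)
  obtain ⟨S, hS, ⟨g⟩⟩ := sub
  obtain ⟨T, ⟨g'⟩⟩ := exists_sub_of_equiv hS f
  refine ⟨H, simple_card_congr e ⟨this, Ru.card0⟩, h1, ?_,
    ⟨T, simple_card_congr (g.symm.trans g') ⟨RuT.simple0, RuT.card0⟩⟩⟩
  rw [← Nat.card_congr f.toEquiv, Ru.card1]

end Cfsg.Agent.S0459
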