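import Cfsg.Statements.S0460
import Cfsg.Agent.Lib.Spor.ON.Link

set_option autoImplicit false
open Cfsg

namespace Cfsg.Agent.S0460


open Cfsg.Agent.PG Cfsg.Agent.Spor Cfsg.Agent.Spor.ONL

/-- The O'Nan group exists as a transitive permutation group of degree 122760: simple of order 460815505920, point stabiliser of order 3753792, and containing simple subgroups of orders 175560 and 7920. -/
theorem result : ∃ H : Subgroup (Equiv.Perm (Fin 122760)), Cfsg.IsON H ∧ MulAction.IsPretransitive H (Fin 122760) ∧ Nat.card (MulAction.stabilizer H (0 : Fin 122760)) = 3753792 ∧ (∃ K : Subgroup H, Cfsg.IsJ1 K) ∧ (∃ K : Subgroup H, Cfsg.IsM11 K) := by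
  have := ON.simple0
  obtain ⟨H, ⟨e⟩, h1, ⟨f⟩⟩ := exists_perm_sub (K_mono ON.A (Nat.zero_le 1))
    (n := 122760) (m := 3753792) (by rw [ON.card0]) ON.card1 (by norm_num) (by norm_num)
  obtain ⟨S, hS, ⟨g⟩⟩ := subONJ
  obtain ⟨T, ⟨g'⟩⟩ := exists_sub_of_equiv hS e
  obtain ⟨S2, hS2, ⟨g2⟩⟩ := subONM
  obtain ⟨T2, ⟨g2'⟩⟩ := exists_sub_of_equiv hS2 e
  refine ⟨H, simple_card_congr e ⟨this, ON.card0⟩, h1, ?_,
    ⟨T, simple_card_congr (g.symm.trans g') ⟨ONJ.simple0, ONJ.card0⟩⟩,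
    ⟨T2, simple_card_congr (g2.symm.trans g2') ⟨ONM.simple0, ONM.card0⟩⟩⟩
  rw [← Nat.card_congr f.toEquiv, ON.card1]

end Cfsg.Agent.S0460
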