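import Cfsg.Statements.S0462
import Cfsg.Agent.Lib.Spor.He.Link
import Cfsg.Agent.Lib.GL.AltBasis

set_option autoImplicit false
open Cfsg

namespace Cfsg.Agent.S0462

open Cfsg.Agent.PG Cfsg.Agent.Spor Cfsg.Agent.Spor.HeL

/-- position of a coordinate -/
def idx : Fin 2 ⊕ Fin 2 → ℕ := Sum.elim (fun i => i.val) (fun i => 2 + i.val)

/-- the coordinates -/
def lst : List (Fin 2 ⊕ Fin 2) := [.inl 0, .inl 1, .inr 0, .inr 1]

theorem lst_enum : Enum lst :=
  ⟨by decide, by rintro (a | a) <;> fin_cases a <;> simp [lst]⟩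

/-- the matrices -/
noncomputable def mat (j : ℕ) : Matrix (Fin 2 ⊕ Fin 2) (Fin 2 ⊕ Fin 2) F4 :=
  mxc idx 4 (nthD 0 codes j)

/-- the vectors -/
noncomputable def W (r : Fin 2 ⊕ Fin 2) : BP := bpAt planes (idx r)

theorem mat_mem : ∀ j < 5, mat j * Matrix.J (Fin 2) F4 * (mat j).transpose =
    Matrix.J (Fin 2) F4 := by decide +kernel

theorem lin_ok : allL (List.range' 0 5) (fun j =>
    linB lst (mat j) W ⟨ivl 136 391, 0⟩ (papp1 HeS.A [gw j]) (ivl 136 391)) = true := by
  decide +kernel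

theorem iso_sp : Nonempty (Matrix.symplecticGroup (Fin 2) F4 ≃* K HeS.A 0) := by
  have := finite_K HeS.hA 0
  refine iso_of_acts (acts_vec_list (ρ := (Matrix.symplecticGroup (Fin 2) F4).subtype) lst_enum
    HeS.hA (by rw [HeS.hlen]; norm_num) (m := ivl 136 391) (W := W) (M := mat) (by decide +kernel)
    (fun j _ h => ⟨⟨mat j, mat_mem j h⟩, rfl⟩) (allL_spec lin_ok))
    (vecAt_injOn (l := lst) (by decide +kernel)) fix2
    (eq_one_of_fix_basis Subtype.val_injective (fun s => 135 + 4 ^ idx s) (by decide +kernel)) ?_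
  rw [Lib.GL.Alt.card_symplecticGroup, HeS.card0]
  decide +kernel

/-- The Held group exists as a transitive permutation group of degree 2058: simple of order 4030387200, with point stabiliser containing, with index 2, a copy of the 4-dimensional symplectic group over the field with four elements. -/
theorem result : ∃ H : Subgroup (Equiv.Perm (Fin 2058)), Cfsg.IsHe H ∧ MulAction.IsPretransitive H (Fin 2058) ∧ ∃ (F : Type) (_ : Field F) (_ : Fintype F), Fintype.card F = 4 ∧ ∃ N : Subgroup (MulAction.stabilizer H (0 : Fin 2058)), N.index = 2 ∧ Nonempty (N ≃* Matrix.symplecticGroup (Fin 2) F) := by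
  have := He.simple0
  obtain ⟨H, ⟨e⟩, h1, ⟨f⟩⟩ := exists_perm_sub (K_mono He.A (Nat.zero_le 1))
    (n := 2058) (m := 1958400) (by rw [He.card0]) He.card1 (by norm_num) (by norm_num)
  obtain ⟨S, hS, ⟨g⟩⟩ := sub
  obtain ⟨T, ⟨g'⟩⟩ := exists_sub_of_equiv hS f
  obtain ⟨g''⟩ := iso_sp
  refine ⟨H, simple_card_congr e ⟨this, He.card0⟩, h1, F4, inferInstance, inferInstance, rfl, T,
    index_of_card (a := 979200) ?_ ?_, ⟨(g'.symm.trans g).trans g''.symm⟩⟩
  · rw [← HeS.card0]; exact Nat.card_congr (g'.symm.trans g).toEquiv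
  · rw [← Nat.card_congr f.toEquiv, He.card1]

end Cfsg.Agent.S0462
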