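import Cfsg.Statements.S0463
import Cfsg.Agent.Lib.Spor.HN.Main

set_option autoImplicit false
open Cfsg

namespace Cfsg.Agent.S0463

open Cfsg.Agent.PG Cfsg.Agent.Spor Cfsg.Agent.Spor.HN

theorem alt : Nonempty (K HNA.A 63 ≃* alternatingGroup (Fin 12)) :=
  haveI := HNA.simple0
  iso_alt (by norm_num) (fun σ hσ i => by
    simpa [mem_bset_ivl] using K_bset HNA.hA (HNA.hlen ▸ by norm_num) (t := 63)
      (v := ivl 0 12) (by decide +kernel) σ hσ i)
    ⟨_, pp_mem (l := [gw 63]) (by decide +kernel), 0, by norm_num,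
      moved_of_not_mapsB HNA.hA (by decide +kernel)⟩ (by rw [HNA.card0]; decide +kernel)

theorem main {Γ : Type} [Group Γ] {γ : ℕ → Γ} (h0 : ∀ j, 72 ≤ j → γ j = 1)
    (lift0 : Lift HNA.A γ 63) (clT : ∀ c ∈ dcClaims 62 64 cjT repsT, HoldsG γ c)
    (mxc : ∀ c ∈ mxClaims mxT, HoldsG γ c) (gn : ∀ c ∈ genClaims gn_g, HoldsG γ c)
    (pc2p : ∀ c ∈ pcPos 2 10 pc2, HoldsG γ c)
    (pc2n : ∀ c ∈ (pcNeg 10 pc2).map Prod.fst, ¬ HoldsG γ c)
    (pc3p : ∀ c ∈ pcPos 3 24 pc3, HoldsG γ c)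
    (pc3n : ∀ c ∈ (pcNeg 24 pc3).map Prod.fst, ¬ HoldsG γ c)
    (pc5p : ∀ c ∈ pcPos 5 30 pc5, HoldsG γ c)
    (pc5n : ∀ c ∈ (pcNeg 30 pc5).map Prod.fst, ¬ HoldsG γ c)
    (cme : ∀ c ∈ cmLet [gw 48] 63 72, HoldsG γ c)
    (sm : ∀ c ∈ [(powP [gw 36] 19, []), (powP (gw 36 :: uw) (2 * 5 + 1), []), (uw ++ uw, [])],
      HoldsG γ c) (ng : ∀ c ∈ ng_l.map Prod.fst, ¬ HoldsG γ c) :
    ∃ H : Subgroup (Equiv.Perm (Fin 1140000)), IsHN H ∧ MulAction.IsPretransitive H (Fin 1140000) ∧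
      Nonempty (MulAction.stabilizer H (0 : Fin 1140000) ≃* alternatingGroup (Fin 12)) := by
  have top : TopOK HNA.A γ 62 64 12 OT cjT repsT := ⟨HNA.stab0, shT, rok, clT⟩
  have inG : ∀ j, 0 ≤ j → j < 37 → γ j ∈ KG γ 62 :=
    mem_of_genRun (a := 62) (b := 72) (fun _ h _ => mem_KG γ h) (by decide +kernel) gn
  obtain ⟨φ, hφ⟩ := lift0
  have := HNA.simple0
  obtain ⟨e⟩ := iso_of_lift hφ (inj_of_lift hφ le_rfl (by norm_num) (ng _ (by decide +kernel)))
  obtain ⟨hs, hc⟩ := simple_card_congr e ⟨this, HNA.card0⟩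
  obtain ⟨hf, hle⟩ := top_card_le HNA.hA hφ top (by decide +kernel) lbr HNA.card0
  have hle' : KG γ 63 ≤ KG γ 62 := KG_mono γ (by norm_num)
  have y1 : γ 36 ^ 19 = 1 := by
    simpa [HoldsG, ppG_powP, spG_gw] using sm _ List.mem_cons_self
  have y2 : γ 36 ≠ 1 := by simpa [HoldsG, spG_gw] using ng ([gw 36], []) (by decide +kernel)
  have u1 : (γ 36 * Spor.ppG γ uw) ^ (2 * 5 + 1) = 1 := by
    simpa [HoldsG, ppG_powP, spG_gw] using sm _ (List.mem_cons_of_mem _ List.mem_cons_self)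
  have u2 : Spor.ppG γ uw * Spor.ppG γ uw = 1 := by
    simpa [HoldsG, ppG_append] using sm (uw ++ uw, []) (by simp)
  have u3 : Spor.ppG γ uw ∈ KG γ 63 := ppG_mem (by decide +kernel)
  have hS : IsSimpleGroup (KG γ 62) := simple_of_top hle' (top_max HNA.hA hφ top mxok mxc)
    (core_of_simple hle' (mem_KG γ le_rfl) (mem_KG γ le_rfl) (comm_KG (by norm_num) h0 cme) (by
      have := ng ([gw 62, gw 63, gw 62 + 1, gw 48], [gw 48, gw 62, gw 63, gw 62 + 1])
        (by decide +kernel)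
      simpa [HoldsG, spG_gw, spG_gw_inv, Commute, SemiconjBy, mul_assoc] using this))
    (p := 19) (by norm_num) (by rw [hc]; norm_num)
    (inG 36 (by norm_num) (by norm_num)) y1 y2 fun M hM hy =>
      le_of_simple (fun g hg => hM g (hle' hg)) u3 (mem_of_odd hM hy (hle' u3) u1 u2)
        (ng (uw, []) (by decide +kernel))
  have hC : Nat.card (KG γ 62) = 273030912000000 := by
    have d1 := pc_dvd (p := 2) (by norm_num) (fun j _ h => inG j (Nat.zero_le _)
      (lt_trans h (by decide))) pc2ok pc2p pc2n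
    have d2 := pc_dvd (p := 3) (by norm_num) (fun j _ h => inG j (Nat.zero_le _)
      (lt_trans h (by decide))) pc3ok pc3p pc3n
    have d3 := pc_dvd (p := 5) (by norm_num) (fun j _ h => inG j (Nat.zero_le _)
      (lt_of_lt_of_le h (by decide))) pc5ok pc5p pc5n
    have d4 := prime_dvd_card (by norm_num) (inG 36 (by norm_num) (by norm_num)) y1 y2
    have d5 := Subgroup.card_dvd_of_le hle'
    rw [hc] at d5
    have d := Nat.lcm_dvd (Nat.lcm_dvd (Nat.lcm_dvd (Nat.lcm_dvd d1 d2) d3) d4) d5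
    exact le_antisymm (hle.trans (by decide +kernel))
      (le_trans (by decide +kernel) (Nat.le_of_dvd Nat.card_pos d))
  obtain ⟨a⟩ := alt
  obtain ⟨H, ⟨f⟩, h1, ⟨g⟩⟩ := exists_perm_sub hle' (n := 1140000) (m := 239500800)
    (hC.trans (by norm_num)) hc (by norm_num) (by norm_num)
  exact ⟨H, simple_card_congr f ⟨hS, hC⟩, h1, ⟨g.symm.trans (e.symm.trans a)⟩⟩


/-- The Harada–Norton group exists as a transitive permutation group of degree 1140000: simple of order 273030912000000 with point stabiliser isomorphic to the alternating group of degree 12. -/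
theorem result : ∃ H : Subgroup (Equiv.Perm (Fin 1140000)), Cfsg.IsHN H ∧ MulAction.IsPretransitive H (Fin 1140000) ∧ Nonempty (MulAction.stabilizer H (0 : Fin 1140000) ≃* alternatingGroup (Fin 12)) := by
  exact main (fun _ hj => γ_of_le (lenL ▸ hj)) lift0 clT mxc gn pc2p pc2n pc3p pc3n pc5p pc5n cme
    sm ng

end Cfsg.Agent.S0463
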