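import Cfsg.Statements.S0471
import Cfsg.Agent.Lib.Spor.Fi22.Link

set_option autoImplicit false
open Cfsg

namespace Cfsg.Agent.S0471

open Cfsg.Agent.PG Cfsg.Agent.Spor Cfsg.Agent.Spor.Fi22 Cfsg.Agent.Spor.Fi22L

/-- the matrices -/
noncomputable def mat (j : ℕ) : Matrix (Fin 6) (Fin 6) F4 :=
  mxc Fin.val 6 (nthD (0, 0, 0, 0) codes (j - 1)).1

/-- the vectors -/
noncomputable def W (r : Fin 6) : BP := nthD ⟨0, 0⟩ vecs r.val

theorem su_ok : ∀ j < 11, SuOK 6 (nthD (0, 0, 0, 0) codes j) := by decide +kernel

theorem lin_ok : allL (List.range' 1 11) (fun j =>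
    linB (List.finRange 6) (mat j) W (nthD ⟨0, 0⟩ scal (j - 1)) (papp1 A [gw j]) B1) = true := by
  decide +kernel

theorem hl : A.length ≤ 128 := by rw [hlen]; norm_num

theorem acts : ∀ σ ∈ K A 1, ∃ g : SU 6 F4 2,
    Acts (fun i => line (suRep 6 F4 2) (vecAt W i)) (bset B1) g σ :=
  acts_line_list (enum_finRange 6) hA hl (M := mat) (by decide +kernel) inv1
    (fun j _ h => (su_ok (j - 1) (by rw [hlen] at h; omega)).exists) (allL_spec lin_ok)

theorem b_mem {i : ℕ} (h : bit B1 i = true) : i ∈ bset B1 := by rw [bit_eq] at h; exact h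

theorem inj : Set.InjOn (fun i => line (suRep 6 F4 2) (vecAt W i)) (bset B1) :=
  injOn_of_max acts (b_mem (by decide +kernel)) (trans_of_cover hA hl cov1) stab1.2.1
    (K_mono A (by norm_num)) max1 ⟨10, b_mem (by decide +kernel), line_ne_of (by decide +kernel)⟩

theorem cover : IsNonsplitDoubleCover (K A 1) (PSU 6 F4 2) := by
  have := finite_SU_F4 6
  have := finite_K hA 1
  obtain ⟨z, hz⟩ := exists_su (M := F4.w • (1 : Matrix (Fin 6) (Fin 6) F4))
    (by rw [Matrix.det_smul, Matrix.det_one]; decide) (by decide +kernel)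
  obtain ⟨-, h2, ⟨e⟩⟩ := quot_center_iso acts inj (b_mem (by decide +kernel))
    (trans_of_cover hA hl cov1) (selfB_spec hA self1) (Subgroup.zpowers z)
    (scalar_central (suRep_injective _ _ _) hz)
    (fun g hg i _ => scalar_fixes (by decide) hz _ g hg) (K A 11) (K_mono A (by norm_num))
    (last_central hl rfl tcomm)
    (fix_chain_step stab1 (b_mem (by decide +kernel)) <|
      fix_chain_step stab2 (b_mem (by decide +kernel)) <|
      fix_chain_step stab3 (b_mem (by decide +kernel)) <|
      fix_chain_step stab4 (b_mem (by decide +kernel)) <|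
      fix_chain_step stab5 (b_mem (by decide +kernel)) <|
      fix_chain_step stab6 (b_mem (by decide +kernel)) <|
      fix_chain_step stab7 (b_mem (by decide +kernel)) <| fun _ h _ => h) (by
      have h1 := card_SU_F4 6 (by norm_num)
      have h2 := Lib.GL.Herm.card_GU (K := F4) (q := 2) rfl 6
      have h3 : Lib.GL.Herm.guOrder 2 6 = 82771476480 := by decide +kernel
      rw [card_scalar (suRep_injective _ _ _) hz, card8, card1]
      omega)
  exact nonsplit_K (by norm_num) h2 card8 e.symm (by decide +kernel) (by decide +kernel)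
    (by decide +kernel) tne tns

/-- The Fischer group of order 64561751654400 exists as a 3-transposition group: a simple group of that order generated by a conjugacy class of 3510 3-transpositions, the centraliser of each being a non-split double cover of PSU(6, 2). -/
theorem result : ∃ (G : Type) (_ : Group G) (_ : Finite G), Cfsg.IsFi22 G ∧ ∃ D : Set G, Cfsg.IsThreeTranspositionClass D ∧ Nat.card D = 3510 ∧ ∀ d ∈ D, ∃ (F : Type) (_ : Field F) (_ : Fintype F), Fintype.card F = 4 ∧ Cfsg.IsNonsplitDoubleCover (Subgroup.centralizer ({d} : Set G)) (Cfsg.PSU 6 F 2) := by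
  have := simple0
  have hd : pp A td ∈ K A 0 := pp_mem_K_zero A td
  have hd1 : (⟨_, hd⟩ : K A 0) ≠ 1 := fun e => tne (congrArg Subtype.val e)
  obtain ⟨h1, h2⟩ := transp_K hA hl (ge := tge) stab0 maxok0 hd tne (pow_of_claim tsq) tcomm
    (by decide +kernel) ttr (exists_moved hA (j := 0) (by decide +kernel))
    (exists_not_comm_of_simple hd1 (by rw [card0]; norm_num)) (closure_conjugatesOf_of_simple hd1)
  have e : K A 1 ≃* Subgroup.centralizer ({⟨_, hd⟩} : Set (K A 0)) :=
    (Subgroup.subgroupOfEquivOfLe (K_mono A (Nat.zero_le 1))).symm.trans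
      (MulEquiv.subgroupCongr h2.symm)
  have := finite_K hA 0
  refine ⟨K A 0, inferInstance, inferInstance, ⟨simple0, card0⟩, _, h1, ?_, fun d hd' =>
    ⟨F4, inferInstance, inferInstance, rfl, nonsplit_all e cover d hd'⟩⟩
  rw [card_conjugatesOf]
  exact index_of_card (a := 18393661440) (by rw [← card1]; exact Nat.card_congr e.symm.toEquiv)
    (by rw [card0])

end Cfsg.Agent.S0471
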