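import Cfsg.Statements.S0478
import Cfsg.Agent.Lib.Spor.J3c.Link

set_option autoImplicit false
open Cfsg

namespace Cfsg.Agent.S0478

open Cfsg.Agent.Spor Cfsg.Agent.Spor.J3c Cfsg.Spor Matrix Subgroup

/-- renumbering -/
noncomputable def R : GL F9 F4 →* GL (Fin 9) F4 :=
  Units.map (reindexAlgEquiv F4 F4 e9).toRingEquiv.toRingHom.toMonoidHom

theorem le_GU : threeJ3 F4 F4.w ≤ (Cfsg.GU 9 F4 2).comap R := (closure_le _).2 fun g hg => by
  obtain ⟨j, hj, e⟩ := mem_gens.1 hg
  refine (Lib.GL.Herm.mem_GU_iff' F4.frob_eq _).2 ?_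
  show (g.1.submatrix e9.symm e9.symm)ᵀ * (g.1.submatrix e9.symm e9.symm).map F4.frob = 1
  rw [transpose_submatrix, ← submatrix_map, submatrix_mul_equiv, ← e, unitary j hj,
    submatrix_one_equiv]


/-- A triple cover of Janko's third group inside a unitary group: for a field F with four elements, the special unitary group of dimension 9 (with respect to the form with q = 2) has a subgroup whose centre has order 3 and whose quotient by its centre is simple of order 50232960. -/
theorem result : ∃ (F : Type) (_ : Field F) (_ : Fintype F), Fintype.card F = 4 ∧ ∃ H : Subgroup (Cfsg.SU 9 F 2), Nat.card (Subgroup.center H) = 3 ∧ Cfsg.IsJ3 (H ⧸ Subgroup.center H) := by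
  obtain ⟨h1, h2, h3⟩ := cover4
  let ι : Cfsg.SU 9 F4 2 →* GL (Fin 9) F4 := SpecialLinearGroup.toGL.comp (Cfsg.SU 9 F4 2).subtype
  have hι : Function.Injective ι := fun _ _ h => Subtype.ext (SpecialLinearGroup.toGL_injective h)
  have hR : Function.Injective R := Units.map_injective (reindexAlgEquiv F4 F4 e9).injective
  have hle : (threeJ3 F4 F4.w).map R ≤ ι.range := by
    rintro _ ⟨g, hg, rfl⟩
    obtain ⟨s, hs⟩ := exists_su (M := (R g).1)
      ((det_reindex_self e9 g.1).trans (by
        rw [← GeneralLinearGroup.val_det_apply, h3 g hg, Units.val_one]))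
      ((Lib.GL.Herm.mem_GU_iff' F4.frob_eq _).1 (le_GU hg))
    exact ⟨s, Units.ext hs⟩
  let e := (equivMapOfInjective _ _ hR).trans ((equivMapOfInjective _ _ hι).trans
    (MulEquiv.subgroupCongr (map_comap_eq_self hle))).symm
  exact ⟨F4, inferInstance, inferInstance, rfl, _, (card_center_congr e).symm.trans h1,
    simple_card_congr (quotCenterCongr e) h2⟩

end Cfsg.Agent.S0478
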