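import Cfsg.Statements.S0479
import Cfsg.Agent.Lib.Spor.ON3.Main

set_option autoImplicit false
open Cfsg

namespace Cfsg.Agent.S0479

open Cfsg.Agent.PG Cfsg.Agent.Spor Cfsg.Agent.Spor.ON3 Matrix

theorem nc : chkN P L [(([gw 0, gw 1], [gw 1, gw 0]), 0, 0)] = true := by decide +kernel

theorem ne0 : γ 0 ≠ 1 := fun h => by
  have h1 := Subgroup.mem_center_iff.1 (Z_le ((QuotientGroup.eq_one_iff _).1 h)) (gam P L 1)
  apply chkN_spec good nc _ List.mem_cons_self
  unfold HoldsG
  simp only [ppG_cons, ppG_nil, mul_one, spG_gw _ (show 0 < 128 by omega),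
    spG_gw _ (show 1 < 128 by omega), h1]

theorem ord_u : orderOf u = 3 :=
  haveI : Fact (Nat.Prime 3) := ⟨by norm_num⟩
  orderOf_eq_prime (by decide) (by decide)

/-- A triple cover of the O'Nan group as 45 × 45 matrices over the field with seven elements: SL(45, 7) has a subgroup whose centre has order 3 and whose quotient by its centre is simple of order 460815505920. -/
theorem result : ∃ H : Subgroup (Matrix.SpecialLinearGroup (Fin 45) (ZMod 7)), Nat.card (Subgroup.center H) = 3 ∧ Cfsg.IsON (H ⧸ Subgroup.center H) := by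
  obtain ⟨φ, hφ⟩ := lift0
  have := ON.simple0
  have := finite_K ON.hA 0
  have : Nonempty (Fin P.n) := ⟨⟨0, by decide⟩⟩
  obtain ⟨H, h1, ⟨e⟩⟩ := sl_cover (by rw [Fintype.card_fin]; decide)
    (not_comm_of_simple (by rw [ON.card0]; norm_num)) φ ⟨_, hφ 0 le_rfl ▸ ne0⟩
  exact ⟨H, h1.trans ord_u, simple_card_congr e ⟨ON.simple0, ON.card0⟩⟩

end Cfsg.Agent.S0479
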