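import Cfsg.Statements.S0480
import Cfsg.Agent.Lib.Fis.Ind
import Cfsg.Agent.Lib.Fis.SymSign
import Cfsg.Agent.Lib.Fis.OrthIso
import Cfsg.Agent.Lib.Fischer.Symp
import Cfsg.Agent.Lib.Fischer.Unit3
-- import your own Cfsg.Agent.* helpers here

set_option autoImplicit false
open Cfsg

namespace Cfsg.Agent.S0480

open Subgroup Cfsg.Agent.Lib.Fischer Cfsg.Agent.Spor Cfsg.Agent.Fis

/-- The simple 3-transposition groups: if a finite non-abelian simple group G is generated by a conjugacy class of 3-transpositions, then G is isomorphic to a symplectic group Sp(2n, 2), or to a projective special unitary group PSU(n, 2) (defined over the field with four elements), or to the projective commutator subgroup of an orthogonal group in odd dimension over the field with three elements, or G has order 64561751654400, or G has order 4089470473293004800. -/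
theorem result {G : Type*} [Group G] [Finite G] [IsSimpleGroup G] (hna : ∃ x y : G, x * y ≠ y * x) {D : Set G} (hD : Cfsg.IsThreeTranspositionClass D) : (∃ n : ℕ, Nonempty (G ≃* Matrix.symplecticGroup (Fin n) (ZMod 2))) ∨ (∃ (F : Type) (_ : Field F) (_ : Fintype F) (n : ℕ), Fintype.card F = 4 ∧ Nonempty (G ≃* Cfsg.PSU n F 2)) ∨ (∃ m : ℕ, Nonempty (G ≃* Cfsg.POmega (ZMod 3) (Cfsg.quadFormOdd m (ZMod 3)))) ∨ Cfsg.IsFi22 G ∨ Cfsg.IsFi23 G := by
  obtain ⟨p, q, hpq⟩ := id hna
  have nosign : ∀ ε : G →* ℤˣ, ¬ ∃ d, ε d = -1 := by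
    rintro ε ⟨d, hd⟩
    rcases ε.normal_ker.eq_bot_or_eq_top with k | k
    · exact hpq ((MonoidHom.ker_eq_bot_iff ε).mp k (by rw [map_mul, map_mul, mul_comm]))
    · have : ε d = 1 := (k ▸ mem_top d : d ∈ ε.ker)
      rw [hd] at this
      exact absurd this (by decide)
  have hc : commutator G = ⊤ := by
    rcases (inferInstance : (commutator G).Normal).eq_bot_or_eq_top with k | k
    · refine (hpq ?_).elim
      have := commutator_mem_commutator (mem_top p) (mem_top q)
      rw [← commutator_def, k, mem_bot, commutatorElement_eq_one_iff_mul_comm] at this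
      exact this
    · exact k
  have h : Good D := by
    refine ⟨hD, fun N hN hs => hN.eq_bot_or_eq_top.resolve_right ?_, by rw [hc]; exact hc⟩
    rintro rfl
    have : Group.IsSolvable G := Group.isSolvable_of_surjective (f := (⊤ : Subgroup G).subtype)
      fun g => ⟨⟨g, mem_top g⟩, rfl⟩
    exact hpq (IsSimpleGroup.comm_iff_isSolvable.mpr this p q)
  obtain ⟨x, hx, -⟩ := hD.2.1
  by_cases hT : Thick D
  · rcases h.fi.thin_or_base hT h.cen with h3 | ⟨y, b, hB⟩
    · obtain ⟨m, a, -, -, -, -, -, k⟩ := h.fi.exists_sp_model hT h3 h.cen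
      exact Or.inl ⟨m, k⟩
    · obtain ⟨n, v, -, -, -, -, -, k⟩ := hB.exists_u_model
      exact Or.inr (Or.inl ⟨F4, inferInstance, inferInstance, n, F4.card_eq, k⟩)
  have h5 : ¬ Nonempty (G ≃* Equiv.Perm (Fin 5)) := by
    rintro ⟨e⟩
    exact nosign (Equiv.Perm.sign.comp e.toMonoidHom) ⟨e.symm (Equiv.swap 0 1), by simp⟩
  have top : closure (D ∪ ∅) = ⊤ := by rw [Set.union_empty]; exact hD.2.2
  rcases ty0 h hT h5 with t | t | t | t | t
  · obtain ⟨ε, k⟩ := sign_of_sym h hT h5 t
    exact (nosign ε ⟨x, k x hx⟩).elim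
  · exact Or.inr (Or.inr (Or.inl (iso_of_orth hna hD (t.mono (by norm_num)))))
  · have := t.card (B := ∅) (fun _ k => k.elim) h.cb
    rw [top, Subgroup.closure_empty, card_top, card_bot, one_mul] at this
    exact Or.inr (Or.inr (Or.inr (Or.inl ⟨inferInstance, this⟩)))
  · have := t.card (B := ∅) (fun _ k => k.elim) h.cb
    rw [top, Subgroup.closure_empty, card_top, card_bot, one_mul] at this
    exact Or.inr (Or.inr (Or.inr (Or.inr ⟨inferInstance, this⟩)))
  · obtain ⟨ε, k⟩ := sign_of_g24 h t
    exact (nosign ε ⟨x, k x hx⟩).elim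

end Cfsg.Agent.S0480
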