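import Cfsg.Statements.S0481
import Cfsg.Agent.Lib.Invol.ThreeTransp

set_option autoImplicit false
open Cfsg

namespace Cfsg.Agent.S0481

open Cfsg.Agent.Lib.Invol

/-- Large extraspecial subgroups: let z be an involution of a finite group G whose centraliser C contains a normal 2-subgroup Q with centre of order 2 and all squares central, such that every element of G centralising Q lies in Q. Then C contains a Sylow 2-subgroup of G, and any involution of G whose centraliser contains a Sylow 2-subgroup of G is conjugate to z. -/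
theorem result {G : Type*} [Group G] [Finite G] (z : G) (hz : orderOf z = 2) (Q : Subgroup G) (hQC : Q ≤ Subgroup.centralizer ({z} : Set G)) (hQn : ∀ g ∈ Subgroup.centralizer ({z} : Set G), ∀ q ∈ Q, g * q * g⁻¹ ∈ Q) (hQ2 : IsPGroup 2 Q) (hZ : Nat.card (Subgroup.center Q) = 2) (hsq : ∀ x : Q, x ^ 2 ∈ Subgroup.center Q) (hlarge : Subgroup.centralizer (Q : Set G) ≤ Q) : (∃ P : Sylow 2 G, (P : Subgroup G) ≤ Subgroup.centralizer ({z} : Set G)) ∧ ∀ u : G, orderOf u = 2 → (∃ P : Sylow 2 G, (P : Subgroup G) ≤ Subgroup.centralizer ({u} : Set G)) → IsConj z u := by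
  have key : ∀ u : G, orderOf u = 2 → (∀ q ∈ Q, q * u = u * q) → u = z := by
    have aux : ∀ u : G, orderOf u = 2 → (∀ q ∈ Q, q * u = u * q) →
        ∃ v : Subgroup.center Q, v ≠ 1 ∧ (v.1.1 : G) = u := by
      intro u hu h
      have huQ : u ∈ Q := hlarge h
      refine ⟨⟨⟨u, huQ⟩, Subgroup.mem_center_iff.mpr fun q => Subtype.ext (h q q.2)⟩, ?_, rfl⟩
      intro e
      exact ne_one_of_orderOf_two hu (congrArg (fun v : Subgroup.center Q => (v.1.1 : G)) e)
    intro u hu h
    obtain ⟨v, hv, rfl⟩ := aux u hu h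
    obtain ⟨w, hw, hwz⟩ := aux z hz fun q hq => Subgroup.mem_centralizer_singleton_iff.mp (hQC hq)
    obtain ⟨y, -, hy⟩ := (Nat.card_eq_two_iff' (1 : Subgroup.center Q)).mp hZ
    rw [← hwz, hy v hv, hy w hw]
  revert hQC hQn
  set C := Subgroup.centralizer ({z} : Set G) with hC
  intro hQC hQn
  obtain ⟨S⟩ := (inferInstance : Nonempty (Sylow 2 C))
  obtain ⟨T, hT⟩ := S.exists_comap_subtype_eq
  have hQN : (Q.comap C.subtype).Normal := ⟨fun q hq g => hQn g g.2 q hq⟩
  have hQT : Q ≤ T := by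
    have h1 := (hQ2.comap_subtype (K := C)).le_sylow_of_normal S
    rw [← hT] at h1
    intro q hq
    exact h1 (show (⟨q, hQC hq⟩ : C) ∈ Q.comap C.subtype from hq)
  have hTC : (T : Subgroup G) ≤ C := by
    rw [← inf_eq_left]
    by_contra hne
    obtain ⟨y, hyT, hyD, hyN⟩ := exists_mem_normalizer_of_lt T.2 (lt_of_le_of_ne inf_le_left hne)
    have h1 := key (y * z * y⁻¹) (by rw [orderOf_conj', hz]) (fun q hq => by
      have h2 : y⁻¹ * q * y ∈ (T : Subgroup G) ⊓ C :=
        (Subgroup.mem_normalizer_iff''.mp hyN q).mp ⟨hQT hq, hQC hq⟩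
      have h3 := Subgroup.mem_centralizer_singleton_iff.mp h2.2
      calc q * (y * z * y⁻¹) = y * (y⁻¹ * q * y * z) * y⁻¹ := by group
        _ = y * z * y⁻¹ * q := by rw [h3]; group)
    exact hyD ⟨hyT, Subgroup.mem_centralizer_singleton_iff.mpr (mul_inv_eq_iff_eq_mul.mp h1)⟩
  refine ⟨⟨T, hTC⟩, ?_⟩
  rintro u hu ⟨P, hP⟩
  obtain ⟨g, rfl⟩ := MulAction.exists_smul_eq G P T
  have h1 := key (g * u * g⁻¹) (by rw [orderOf_conj', hu]) (fun q hq => by
    have h3 := Subgroup.mem_centralizer_singleton_iff.mp (hP (mem_sylow_smul_iff.mp (hQT hq)))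
    calc q * (g * u * g⁻¹) = g * (g⁻¹ * q * g * u) * g⁻¹ := by group
      _ = g * u * g⁻¹ * q := by rw [h3]; group)
  exact (isConj_iff.mpr ⟨g, h1⟩).symm

end Cfsg.Agent.S0481
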