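import Cfsg.Statements.S1551
import Cfsg.Agent.Lib.Golay.Small
import Cfsg.Agent.Lib.Golay.H1551.Main

set_option autoImplicit false
open scoped Pointwise
open Cfsg

set_option maxRecDepth 100000

namespace Cfsg.Agent.S1551

open Cfsg.Agent.PG Cfsg.Agent.Golay Cfsg.Agent.Golay.H1551 MulAction

theorem hm : m24OK A = true := by decide +kernel

theorem hf : FixTriv (K A 0) I24 :=
  fixTriv_of_lb hA (l := 3) (lv := [(0, [[0x200], [0x204]], 6, 24),
  (4, [[0x2040a10], [0x22a]], 8, 20),
  (5, [[0x200180c0208], [0x2160e]], 4, 16),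
  (6, [[0x2061800160204], [0x21202062e040008]], 3, 9),
  (1, [[0x214060c042e1e0812]], 2, 2)]) (by decide +kernel) (by rw [card0]; decide)
    (by simp only [I24, Set.mem_ofPred_eq]; decide)

noncomputable def S : List ℕ := [0x1c1000001, 0x1c1000002, 0x1c1000004, 0x1c1000008, 0xe02000010, 0xe00020000020, 0x1c0010000040, 0xe02000080, 0x7004000100, 0x1c0010000200, 0xe02000400, 0x1c0010000800, 0xe02001000, 0x38008002000, 0xe00020004000, 0x7004008000, 0x7004010000, 0xe00020020000, 0x38008040000, 0x7004080000, 0x38008100000, 0x38008200000, 0x1c0010400000, 0xe00020800000]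

theorem hS : subOK A S = true := by decide +kernel
theorem hts : (List.range 6).map (fun k => colVal S (24 + k)) = [15, 5264, 622848, 3416064, 4196928, 8536096] := by decide +kernel
theorem S0 : famOf [15, 5264, 622848, 3416064, 4196928, 8536096] ∈ sextets := famOf_sextet (by decide +kernel)
theorem inj : Set.InjOn (XS S) (bset (ivl 24 (24 + 6))) := injOn_XS rfl (by decide +kernel)
theorem hB : invB A (kgens A 0) (ivl 24 (24 + 6)) = true := by decide +kernel

theorem iso : ∃ e : K A 0 ≃* stabilizer M24 (famOf [15, 5264, 622848, 3416064, 4196928, 8536096]),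
    ∀ σ : K A 0, ((e σ : M24) : Equiv.Perm GolayPt) = toG σ :=
  exists_iso_Kt hA hm (fun _ hσ => smul_famOf hA hm hS hts hB hσ) hf
    (by rw [card_stab_sextet S0, card0])

theorem ker : Nat.card (fixFam (famOf [15, 5264, 622848, 3416064, 4196928, 8536096])) = 192 := by
  rw [← card5]
  have h5 : FixIs A 0 (bset (ivl 24 (24 + 6))) 5 := FixIs.step stab0 (mem_bset_ivl.2 (by omega)) <| FixIs.step stab1 (mem_bset_ivl.2 (by omega)) <| FixIs.step stab2 (mem_bset_ivl.2 (by omega)) <| FixIs.step stab3 (mem_bset_ivl.2 (by omega)) <| FixIs.step stab4 (mem_bset_ivl.2 (by omega)) <| FixIs.refl _ _ _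
  refine card_eq_K hA hm (fun σ hσ => ?_) (fun σ hσ => hf σ (K_mono A h5.1 hσ)) fun g hg => ?_
  · exact (fix_block_of_fix hA hm hS hts hB inj (K_mono A h5.1 hσ)).2
      (fixIvl_spec hA (by decide +kernel) σ hσ)
  · obtain ⟨e, he⟩ := iso
    obtain ⟨σ, h⟩ := e.surjective ⟨g, fixFam_le _ hg⟩
    have h2 : (g : Equiv.Perm GolayPt) = toG σ := by rw [← he, h]
    exact ⟨σ, h5.2 σ σ.2 ((fix_block_of_fix hA hm hS hts hB inj σ.2).1 (h2 ▸ hg)), h2⟩

theorem nrm : ((K A 6).subgroupOf (K A 0)).Normal :=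
  normal_of_fixIs (B := bset (ivl 24 (24 + 24))) (fun σ hσ i => by
      have := K_le_stabB hA (by decide) (t := 0) (v := ivl 24 (24 + 24)) (by decide +kernel) hσ i
      show Nat.testBit _ _ = true ↔ Nat.testBit _ _ = true
      rw [this])
    (FixIs.step stab0 (mem_bset_ivl.2 (by omega)) <| FixIs.step stab1 (mem_bset_ivl.2 (by omega)) <| FixIs.step stab2 (mem_bset_ivl.2 (by omega)) <| FixIs.step stab3 (mem_bset_ivl.2 (by omega)) <| FixIs.step stab4 (mem_bset_ivl.2 (by omega)) <| FixIs.step stab5 (mem_bset_ivl.2 (by omega)) <| FixIs.refl _ _ _) (fixIvl_spec hA (by decide +kernel))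

theorem el2 : ∀ σ ∈ K A 6, σ * σ = 1 :=
  sq_eq_one_of_claims (by decide) (chk_spec hA (by decide +kernel))


/-- Structure of a sextet stabiliser: it induces every permutation of the six tetrads, the subgroup fixing each tetrad setwise has order 192, and there is a normal subgroup of order 64 consisting of elements squaring to the identity. -/
theorem result (S : Finset (Finset Cfsg.GolayPt)) (hS : S ∈ Cfsg.sextets) : (∀ e : Equiv.Perm ↥S, ∃ g ∈ MulAction.stabilizer Cfsg.M24 S, ∀ t : ↥S, (g : Equiv.Perm Cfsg.GolayPt) • (t : Finset Cfsg.GolayPt) = ((e t : ↥S) : Finset Cfsg.GolayPt)) ∧ Nat.card {g : ↥(MulAction.stabilizer Cfsg.M24 S) // ∀ t ∈ S, ((g : Cfsg.M24) : Equiv.Perm Cfsg.GolayPt) • t = t} = 192 ∧ ∃ N : Subgroup ↥(MulAction.stabilizer Cfsg.M24 S), N.Normal ∧ Nat.card N = 64 ∧ ∀ x ∈ N, x * x = 1 := by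
  obtain ⟨k, hk, rfl⟩ := sextet_transitive S0 hS
  have h192 := (card_fixFam_smul ⟨k, hk⟩ _).trans ker
  refine ⟨induces_all _ (by rw [card_stab_sextet hS, hS.1]; exact h192 ▸ rfl),
    (card_fix_sub _).trans h192, ?_⟩
  obtain ⟨e, _⟩ := iso
  let e' := e.trans (conjEquiv (G := M24) ⟨k, hk⟩ (fun g => conj_mem_stab _ g (famOf [15, 5264, 622848, 3416064, 4196928, 8536096])))
  have := nrm
  obtain ⟨N, h1, h2, h3, _⟩ := transport_normal e' (QuotientGroup.mk' ((K A 6).subgroupOf (K A 0)))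
    (QuotientGroup.mk'_surjective _)
  rw [QuotientGroup.ker_mk'] at h2 h3
  refine ⟨N, h1, h2.trans (by rw [card_subgroupOf_K (by omega), card6]), fun x hx => ?_⟩
  apply e'.symm.injective
  rw [map_mul, map_one]
  exact Subtype.ext (el2 _ (h3 x hx))

end Cfsg.Agent.S1551
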