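import Cfsg.Statements.S1552
import Cfsg.Agent.Lib.Golay.Sx

set_option autoImplicit false
open scoped Pointwise
open Cfsg

set_option maxRecDepth 100000

namespace Cfsg.Agent.S1552

open Cfsg.Agent.PG Cfsg.Agent.Golay Cfsg.Agent.Golay.Sx

theorem o1662 : orbCardB A 8 1 1662 7 90 = true := by decide +kernel
theorem o464 : orbCardB A 8 1 464 9 240 = true := by decide +kernel
theorem o279 : orbCardB A 8 1 279 11 1440 = true := by decide +kernel

theorem X_mem {a : ℕ} (ha : a ∈ bset B) : X a ∈ sextets := fam_eq ▸ ⟨a, ha, rfl⟩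

theorem base : sextets = {X 1794} ∪ MulAction.orbit (MulAction.stabilizer M24 (X 1794)) (X 1662) ∪ MulAction.orbit (MulAction.stabilizer M24 (X 1794)) (X 464) ∪ MulAction.orbit (MulAction.stabilizer M24 (X 1794)) (X 279) := by
  apply Set.Subset.antisymm
  · intro y hy
    rw [← fam_eq] at hy
    obtain ⟨i, hi, rfl⟩ := hy
    obtain ⟨a, ha, σ, hσ, rfl⟩ := cov1 i hi
    simp only [Set.mem_union, Set.mem_singleton_iff, orbit_eq]
    have h : X (σ a) ∈ X '' {i | ∃ σ ∈ K A 1, σ a = i} := ⟨_, ⟨σ, hσ, rfl⟩, rfl⟩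
    simp only [List.mem_cons, List.not_mem_nil, or_false] at ha
    rcases ha with rfl | rfl | rfl | rfl
    · rw [fix0 σ hσ]; simp only [true_or]
    all_goals simp only [h, true_or, or_true]
  · have h : ∀ a ∈ bset B, MulAction.orbit (MulAction.stabilizer M24 (X 1794)) (X a) ⊆ sextets := by
      rintro a ha _ ⟨g, rfl⟩
      exact smul_mem_sextets (g : M24).2 (X_mem ha)
    simp only [Set.union_subset_iff, Set.singleton_subset_iff, and_assoc]
    exact ⟨X0_mem, h _ (mem_bset_ivl.2 (by omega)), h _ (mem_bset_ivl.2 (by omega)), h _ (mem_bset_ivl.2 (by omega))⟩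


/-- A sextet stabiliser has four orbits on the 1771 sextets, of sizes 1, 90, 240, 1440; and the stabiliser is a maximal proper subgroup. -/
theorem result (S : Finset (Finset Cfsg.GolayPt)) (hS : S ∈ Cfsg.sextets) : ∃ X₁ ∈ Cfsg.sextets, ∃ X₂ ∈ Cfsg.sextets, ∃ X₃ ∈ Cfsg.sextets, (MulAction.orbit ↥(MulAction.stabilizer Cfsg.M24 S) X₁).ncard = 90 ∧ (MulAction.orbit ↥(MulAction.stabilizer Cfsg.M24 S) X₂).ncard = 240 ∧ (MulAction.orbit ↥(MulAction.stabilizer Cfsg.M24 S) X₃).ncard = 1440 ∧ Cfsg.sextets = {S} ∪ MulAction.orbit ↥(MulAction.stabilizer Cfsg.M24 S) X₁ ∪ MulAction.orbit ↥(MulAction.stabilizer Cfsg.M24 S) X₂ ∪ MulAction.orbit ↥(MulAction.stabilizer Cfsg.M24 S) X₃ ∧ IsCoatom (MulAction.stabilizer Cfsg.M24 S) := by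
  rw [← fam_eq] at hS
  obtain ⟨i, hi, rfl⟩ := hS
  obtain ⟨σ, hσ, rfl⟩ := cov i hi
  rw [← act hσ]
  have ho : ∀ a, MulAction.orbit (MulAction.stabilizer M24 (toG σ • X 1794)) (toG σ • X a) =
      toG σ • MulAction.orbit (MulAction.stabilizer M24 (X 1794)) (X a) := fun a =>
    orbit_conj (G := M24) ⟨toG σ, mem hσ⟩ (fun g => conj_mem_stab _ g (X 1794)) (X a)
  refine ⟨toG σ • X 1662, smul_mem_sextets (mem hσ) (X_mem (mem_bset_ivl.2 (by omega))),
    toG σ • X 464, smul_mem_sextets (mem hσ) (X_mem (mem_bset_ivl.2 (by omega))),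
    toG σ • X 279, smul_mem_sextets (mem hσ) (X_mem (mem_bset_ivl.2 (by omega))), ?_, ?_, ?_, ?_,
    isCoatom_stabilizer_smul (G := M24) ⟨toG σ, mem hσ⟩ coatom⟩
  · rw [ho, Set.ncard_smul_set, ncard_orb (mem_bset_ivl.2 (by omega)) o1662]
  · rw [ho, Set.ncard_smul_set, ncard_orb (mem_bset_ivl.2 (by omega)) o464]
  · rw [ho, Set.ncard_smul_set, ncard_orb (mem_bset_ivl.2 (by omega)) o279]
  · simp only [ho]
    rw [← Set.smul_set_singleton, ← Set.smul_set_union, ← Set.smul_set_union, ← Set.smul_set_union, ← base]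
    refine (Set.eq_of_subset_of_ncard_le ?_ (by rw [Set.ncard_smul_set]) (Set.toFinite _)).symm
    rintro _ ⟨y, hy, rfl⟩
    exact smul_mem_sextets (mem hσ) hy

end Cfsg.Agent.S1552
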