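import Cfsg.Statements.S1553
import Cfsg.Agent.Lib.Golay.Stab

set_option autoImplicit false
open scoped Pointwise
open Cfsg

set_option maxRecDepth 100000

namespace Cfsg.Agent.S1553

open Cfsg.Agent.PG Cfsg.Agent.Golay Cfsg.Agent.Golay.SB


/-- The stabiliser of an octad in the group of the length-24 code induces on the octad exactly its alternating group. -/
theorem result (o : Finset Cfsg.GolayPt) (ho : o ∈ Cfsg.octads) : {e : Equiv.Perm ↥o | ∃ g : Equiv.Perm Cfsg.GolayPt, g ∈ Cfsg.M24 ∧ ∃ h : (∀ x, g x ∈ o ↔ x ∈ o), g.subtypePerm h = e} = (alternatingGroup ↥o : Set (Equiv.Perm ↥o)) := by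
  rw [← range_resHom_octad ho]
  ext e
  constructor
  · rintro ⟨g, hg, h, rfl⟩
    exact ⟨⟨⟨g, hg⟩, smul_eq_of_mem_iff h⟩, rfl⟩
  · rintro ⟨g, rfl⟩
    exact ⟨g, (g : M24).2, mem_iff_of_smul_eq g.2, rfl⟩

end Cfsg.Agent.S1553
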