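import Cfsg.Statements.S1554
import Cfsg.Agent.Lib.Golay.Stab

set_option autoImplicit false
open scoped Pointwise
open Cfsg

set_option maxRecDepth 100000

namespace Cfsg.Agent.S1554

open Cfsg.Agent.PG Cfsg.Agent.Golay Cfsg.Agent.Golay.SB


/-- An octad stabiliser is a split extension: the joint stabiliser of the octad and a point outside it is a complement to the pointwise stabiliser of the octad, and is isomorphic to the alternating group of degree 8. -/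
theorem result (o : Finset Cfsg.GolayPt) (ho : o ∈ Cfsg.octads) (p : Cfsg.GolayPt) (hp : p ∉ o) : (Cfsg.M24 ⊓ fixingSubgroup (Equiv.Perm Cfsg.GolayPt) (o : Set Cfsg.GolayPt)) ⊓ (Cfsg.M24 ⊓ MulAction.stabilizer (Equiv.Perm Cfsg.GolayPt) o ⊓ MulAction.stabilizer (Equiv.Perm Cfsg.GolayPt) p) = ⊥ ∧ (Cfsg.M24 ⊓ fixingSubgroup (Equiv.Perm Cfsg.GolayPt) (o : Set Cfsg.GolayPt)) ⊔ (Cfsg.M24 ⊓ MulAction.stabilizer (Equiv.Perm Cfsg.GolayPt) o ⊓ MulAction.stabilizer (Equiv.Perm Cfsg.GolayPt) p) = (Cfsg.M24 ⊓ MulAction.stabilizer (Equiv.Perm Cfsg.GolayPt) o) ∧ Nonempty (↥(Cfsg.M24 ⊓ MulAction.stabilizer (Equiv.Perm Cfsg.GolayPt) o ⊓ MulAction.stabilizer (Equiv.Perm Cfsg.GolayPt) p) ≃* alternatingGroup (Fin 8)) := by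
  have hfix : ∀ g : Equiv.Perm GolayPt,
      g ∈ fixingSubgroup (Equiv.Perm GolayPt) (o : Set GolayPt) ↔ ∀ x ∈ o, g x = x :=
    fun g => mem_fixingSubgroup_iff _
  have hst : ∀ g : Equiv.Perm GolayPt, (∀ x ∈ o, g x = x) → g • o = o := fun g h =>
    smul_eq_of_mem_iff fun p => ⟨fun hp => by rwa [g.injective (h _ hp)] at hp,
      fun hp => by rwa [h p hp]⟩
  have hdec : ∀ g ∈ M24, g • o = o → ∃ n ∈ M24, (∀ x ∈ o, n x = x) ∧ (n⁻¹ * g) • o = o ∧
      (n⁻¹ * g) p = p := by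
    intro g hg h
    obtain ⟨n, hn, h1, h2⟩ := octad_move ho hp (q := g p) fun hc => hp ((mem_iff_of_smul_eq h p).1 hc)
    exact ⟨n, hn, h1, by rw [mul_smul, h, inv_smul_eq_iff, hst n h1],
      by rw [Equiv.Perm.mul_apply, ← h2]; simp⟩
  refine ⟨?_, ?_, ?_⟩
  · rw [eq_bot_iff]
    intro g hg
    exact octad_rigid ho hp hg.1.1 ((hfix g).1 hg.1.2) hg.2.2
  · apply le_antisymm
    · exact sup_le (fun g hg => ⟨hg.1, hst g ((hfix g).1 hg.2)⟩) inf_le_left
    · intro g hg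
      obtain ⟨n, hn, h1, h2, h3⟩ := hdec g hg.1 hg.2
      have := Subgroup.mul_mem_sup
        (S := M24 ⊓ fixingSubgroup (Equiv.Perm GolayPt) (o : Set GolayPt))
        (T := M24 ⊓ MulAction.stabilizer (Equiv.Perm GolayPt) o ⊓
          MulAction.stabilizer (Equiv.Perm GolayPt) p) (x := n) (y := n⁻¹ * g)
        ⟨hn, (hfix n).2 h1⟩ ⟨⟨M24.mul_mem (M24.inv_mem hn) hg.1, h2⟩, h3⟩
      simpa using this
  · let C := M24 ⊓ MulAction.stabilizer (Equiv.Perm GolayPt) o ⊓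
      MulAction.stabilizer (Equiv.Perm GolayPt) p
    let ι : C →* MulAction.stabilizer M24 o :=
      MonoidHom.mk' (fun g => ⟨⟨g, g.2.1.1⟩, g.2.1.2⟩) fun _ _ => rfl
    let φ := (resHom o).comp ι
    have hi : Function.Injective φ := by
      rw [injective_iff_map_eq_one]
      intro g hg
      exact Subtype.ext (octad_rigid ho hp g.2.1.1 (fun x hx =>
        congrArg (fun e : Equiv.Perm o => (e ⟨x, hx⟩ : GolayPt)) hg) g.2.2)
    have hr : φ.range = alternatingGroup o := by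
      rw [← range_resHom_octad ho]
      apply le_antisymm
      · rintro _ ⟨g, rfl⟩; exact ⟨_, rfl⟩
      · rintro _ ⟨g, rfl⟩
        obtain ⟨n, hn, h1, h2, h3⟩ := hdec g (g : M24).2 g.2
        refine ⟨⟨n⁻¹ * g, ⟨M24.mul_mem (M24.inv_mem hn) (g : M24).2, h2⟩, h3⟩, ?_⟩
        refine Equiv.ext fun x => Subtype.ext ?_
        show (n⁻¹ * ((g : M24) : Equiv.Perm GolayPt)) x = ((g : M24) : Equiv.Perm GolayPt) x
        rw [Equiv.Perm.mul_apply, Equiv.Perm.inv_eq_iff_eq,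
          h1 _ ((mem_iff_of_smul_eq g.2 _).2 x.2)]
    exact ⟨((MonoidHom.ofInjective hi).trans (MulEquiv.subgroupCongr hr)).trans
      (Finset.equivFinOfCardEq ho.2).altCongrHom⟩

end Cfsg.Agent.S1554
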