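import Cfsg.Statements.S1555
import Cfsg.Agent.Lib.Golay.Sextet

set_option autoImplicit false
open scoped Pointwise
open Cfsg

set_option maxRecDepth 100000

namespace Cfsg.Agent.S1555

open Cfsg.Agent.PG Cfsg.Agent.Golay Cfsg.Agent.Golay.SB


/-- Bottom row of the Leech triangle: an octad is met in a prescribed pair of its points by exactly 16 octads and in a prescribed 4-subset by exactly 4 octads. -/
theorem result (o : Finset Cfsg.GolayPt) (ho : o ∈ Cfsg.octads) (s : Finset Cfsg.GolayPt) (hs : s ⊆ o) : (s.card = 2 → {o' : Finset Cfsg.GolayPt | o' ∈ Cfsg.octads ∧ o ∩ o' = s}.ncard = 16) ∧ (s.card = 4 → {o' : Finset Cfsg.GolayPt | o' ∈ Cfsg.octads ∧ o ∩ o' = s}.ncard = 4) := by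
  refine ⟨fun h => ?_, fun h => ?_⟩
  · obtain ⟨p, q, hpq, rfl⟩ := Finset.card_eq_two.1 h
    obtain ⟨k, hk, rfl, rfl, rfl⟩ := std_oct_in_in ho (hs (Finset.mem_insert_self _ _))
      (hs (Finset.mem_insert_of_mem (Finset.mem_singleton_self _))) hpq
    have h : cntN 759 (fun i => force (colVal S (Nat.add 2324 i)) fun m =>
      Nat.beq (Nat.land 0x149f m) 3) = 16 := by decide +kernel
    have e : ({k (pt 0), k (pt 1)} : Finset GolayPt) = k • ofMask 3 := by
      rw [show ofMask 3 = {pt 0, pt 1} by decide, Finset.smul_finset_insert, smul_singleton']; rfl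
    rw [← h, ← ncard_blk (lo := 2324) (n := 759) octads_eq inj_oct
      (P := fun x => X 2324 ∩ x = ofMask 3) (fun m _ _ => by
        rw [X_oct0, ← ofMask_and, ofMask_eq_iff (lt_of_le_of_lt Nat.and_le_left (by norm_num))
          (by norm_num), Nat.beq_eq]; rfl), e]
    exact ncard_eq_smul k fun y => by
      simp only [Set.mem_ofPred_eq, smul_mem_octads hk, ← smul_inter', smul_eq_smul_iff']
  · have h1 : {o' | o' ∈ octads ∧ o ∩ o' = s} = {o' | o' ∈ octads ∧ s ⊆ o'} \ {o} := by
      ext o'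
      simp only [Set.mem_ofPred_eq, Set.mem_diff, Set.mem_singleton_iff]
      constructor
      · rintro ⟨a, b⟩
        refine ⟨⟨a, b ▸ Finset.inter_subset_right⟩, fun e => ?_⟩
        rw [e, Finset.inter_self] at b
        have := ho.2
        rw [b, h] at this
        omega
      · rintro ⟨⟨a, b⟩, c⟩
        exact ⟨a, inter_eq_of_sup4 h ho a hs b (Ne.symm c)⟩
    rw [h1, Set.ncard_diff_singleton_of_mem (by exact ⟨ho, hs⟩), ncard_octads_sup4 h]

end Cfsg.Agent.S1555
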