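import Cfsg.Statements.S1556
import Cfsg.Agent.Lib.Golay.Util2

set_option autoImplicit false
open scoped Pointwise
open Cfsg

set_option maxRecDepth 100000

namespace Cfsg.Agent.S1556

open Cfsg.Agent.PG Cfsg.Agent.Golay Cfsg.Agent.Golay.SB

theorem c_orb : andB (fixB A [[0x20a000606000a02040400], [0x2060a02020600060208]] [2324])
    (coverB A [[0x20a000606000a02040400], [0x2060a02020600060208]] 10 [2324, 2325, 2329, 2453] BOct) = true := by
  decide +kernel

theorem orb {k : Equiv.Perm GolayPt} (hk : k ∈ M24) {x y : Finset GolayPt} (hx : x ∈ octads) (hy : y ∈ octads)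
     
    (e : (k • X 2324 ∩ x).card = (k • X 2324 ∩ y).card) :
    ∃ g : Equiv.Perm GolayPt, g ∈ M24 ∧ g • k • X 2324 = k • X 2324 ∧ g • x = y := by
  obtain ⟨x, rfl⟩ := MulAction.surjective k x
  obtain ⟨y, rfl⟩ := MulAction.surjective k y
  simp only [smul_mem_octads hk, apply_mem_smul, card_smul_inter] at *
  obtain ⟨g, hg, h1, h2⟩ := orb_iv octads_eq c_orb (fun l => l.drop 1 = []) (by decide +kernel) hx hy
    (by simp [ivS, card_pt_inter, *]) (by simp [ivS, card_pt_inter, *])
  exact ⟨k * g * k⁻¹, conj_mem_M24 hk hg, (conj_smul_iff k g _ _).2 (h1 _ (by simp)), (conj_smul_iff k g _ _).2 h2⟩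


/-- Two octads meeting a fixed octad in equally many points are in the same orbit of its stabiliser. -/
theorem result (o o' o'' : Finset Cfsg.GolayPt) (ho : o ∈ Cfsg.octads) (ho' : o' ∈ Cfsg.octads) (ho'' : o'' ∈ Cfsg.octads) (h : (o ∩ o').card = (o ∩ o'').card) : ∃ g : Equiv.Perm Cfsg.GolayPt, g ∈ Cfsg.M24 ∧ g • o = o ∧ g • o' = o'' := by
  obtain ⟨k, hk, rfl⟩ := std_oct ho
  exact orb hk ho' ho'' h

end Cfsg.Agent.S1556
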