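import Cfsg.Statements.S1558
import Cfsg.Agent.Lib.Golay.Small
import Cfsg.Agent.Lib.Golay.H1558.Main
import Cfsg.Agent.S1556

set_option autoImplicit false
open scoped Pointwise
open Cfsg

set_option maxRecDepth 100000

namespace Cfsg.Agent.S1558

open Cfsg.Agent.PG Cfsg.Agent.Golay Cfsg.Agent.Golay.H1558 MulAction

theorem hm : m24OK A = true := by decide +kernel

theorem hf : FixTriv (K A 0) I24 :=
  fixTriv_of_lb hA (l := 3) (lv := [(0, [[0x200], [0x204]], 6, 24),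
  (5, [[0x204200e], [0x22a]], 4, 16),
  (6, [[0x22c02140008], [0x2202608]], 3, 8),
  (1, [[0x2040e0a160408]], 7, 7),
  (2, [[0x2240a100a1e0a0e]], 3, 3)]) (by decide +kernel) (by rw [card0]; decide)
    (by simp only [I24, Set.mem_ofPred_eq]; decide)

noncomputable def S : List ℕ := [0x1000001, 0x1000002, 0x1000004, 0x1000008, 0x1000010, 0x4000020, 0x2000040, 0x1000080, 0x4000100, 0x4000200, 0x1000400, 0x2000800, 0x1001000, 0x2002000, 0x2004000, 0x4008000, 0x2010000, 0x2020000, 0x2040000, 0x2080000, 0x4100000, 0x4200000, 0x4400000, 0x4800000]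

/-- nonzero vectors -/
def Xv (i : ℕ) : Fin 3 → ZMod 2 := [![0, 0, 1], ![0, 1, 0], ![0, 1, 1], ![1, 0, 0], ![1, 0, 1], ![1, 1, 0], ![1, 1, 1]].getD i 0
/-- points -/
def Xp (i : ℕ) : Fin 3 := [0, 1, 2].getD i 0

theorem acts : ∀ σ ∈ K A 0, ∃ g : GL (Fin 3) (ZMod 2), Acts (fun i => Xv (i - 27)) (bset (ivl 27 (27 + 7))) g σ := by
  refine acts_K_of_gens fun j h1 hj => ?_
  have : j < 12 := hj
  interval_cases j
  · exact ⟨⟨!![1, 0, 1; 0, 0, 1; 1, 1, 1], !![1, 1, 0; 1, 0, 1; 0, 1, 0], by decide, by decide⟩, acts_of_imgs hA (imgs := [6, 0, 5, 4, 1, 3, 2]) (by decide +kernel) (by decide +kernel)⟩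
  · exact ⟨⟨!![1, 0, 1; 0, 1, 0; 1, 0, 0], !![0, 0, 1; 0, 1, 0; 1, 0, 1], by decide, by decide⟩, acts_of_imgs hA (imgs := [3, 1, 5, 4, 0, 6, 2]) (by decide +kernel) (by decide +kernel)⟩
  · exact ⟨⟨!![1, 0, 1; 0, 0, 1; 0, 1, 0], !![1, 1, 0; 0, 0, 1; 0, 1, 0], by decide, by decide⟩, acts_of_imgs hA (imgs := [5, 0, 6, 3, 1, 4, 2]) (by decide +kernel) (by decide +kernel)⟩
  · exact ⟨⟨!![0, 1, 0; 1, 0, 0; 0, 0, 1], !![0, 1, 0; 1, 0, 0; 0, 0, 1], by decide, by decide⟩, acts_of_imgs hA (imgs := [0, 3, 4, 1, 2, 5, 6]) (by decide +kernel) (by decide +kernel)⟩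
  · exact ⟨⟨!![1, 0, 0; 1, 1, 0; 0, 0, 1], !![1, 0, 0; 1, 1, 0; 0, 0, 1], by decide, by decide⟩, acts_of_imgs hA (imgs := [0, 1, 2, 5, 6, 3, 4]) (by decide +kernel) (by decide +kernel)⟩
  · exact ⟨⟨!![1, 0, 0; 1, 1, 0; 1, 0, 1], !![1, 0, 0; 1, 1, 0; 1, 0, 1], by decide, by decide⟩, acts_of_imgs hA (imgs := [0, 1, 2, 6, 5, 4, 3]) (by decide +kernel) (by decide +kernel)⟩
  · exact ⟨⟨!![1, 0, 0; 0, 1, 0; 0, 0, 1], !![1, 0, 0; 0, 1, 0; 0, 0, 1], by decide, by decide⟩, acts_of_imgs hA (imgs := [0, 1, 2, 3, 4, 5, 6]) (by decide +kernel) (by decide +kernel)⟩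
  · exact ⟨⟨!![1, 0, 0; 0, 1, 0; 0, 0, 1], !![1, 0, 0; 0, 1, 0; 0, 0, 1], by decide, by decide⟩, acts_of_imgs hA (imgs := [0, 1, 2, 3, 4, 5, 6]) (by decide +kernel) (by decide +kernel)⟩
  · exact ⟨⟨!![1, 0, 0; 0, 1, 0; 0, 0, 1], !![1, 0, 0; 0, 1, 0; 0, 0, 1], by decide, by decide⟩, acts_of_imgs hA (imgs := [0, 1, 2, 3, 4, 5, 6]) (by decide +kernel) (by decide +kernel)⟩
  · exact ⟨⟨!![1, 0, 0; 0, 1, 0; 0, 0, 1], !![1, 0, 0; 0, 1, 0; 0, 0, 1], by decide, by decide⟩, acts_of_imgs hA (imgs := [0, 1, 2, 3, 4, 5, 6]) (by decide +kernel) (by decide +kernel)⟩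
  · exact ⟨⟨!![1, 0, 0; 0, 1, 0; 0, 0, 1], !![1, 0, 0; 0, 1, 0; 0, 0, 1], by decide, by decide⟩, acts_of_imgs hA (imgs := [0, 1, 2, 3, 4, 5, 6]) (by decide +kernel) (by decide +kernel)⟩
  · exact ⟨⟨!![1, 0, 0; 0, 1, 0; 0, 0, 1], !![1, 0, 0; 0, 1, 0; 0, 0, 1], by decide, by decide⟩, acts_of_imgs hA (imgs := [0, 1, 2, 3, 4, 5, 6]) (by decide +kernel) (by decide +kernel)⟩

theorem acts2 : ∀ σ ∈ K A 0, ∃ g : Equiv.Perm (Fin 3), Acts (fun i => Xp (i - 24)) (bset (ivl 24 (24 + 3))) g σ := by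
  refine acts_K_of_gens fun j h1 hj => ?_
  have : j < 12 := hj
  interval_cases j
  · exact ⟨⟨![2, 0, 1], ![1, 2, 0], by decide, by decide⟩, acts_of_imgs hA (imgs := [2, 0, 1]) (by decide +kernel) (by decide +kernel)⟩
  · exact ⟨⟨![0, 2, 1], ![0, 2, 1], by decide, by decide⟩, acts_of_imgs hA (imgs := [0, 2, 1]) (by decide +kernel) (by decide +kernel)⟩
  · exact ⟨⟨![0, 1, 2], ![0, 1, 2], by decide, by decide⟩, acts_of_imgs hA (imgs := [0, 1, 2]) (by decide +kernel) (by decide +kernel)⟩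
  · exact ⟨⟨![0, 1, 2], ![0, 1, 2], by decide, by decide⟩, acts_of_imgs hA (imgs := [0, 1, 2]) (by decide +kernel) (by decide +kernel)⟩
  · exact ⟨⟨![0, 1, 2], ![0, 1, 2], by decide, by decide⟩, acts_of_imgs hA (imgs := [0, 1, 2]) (by decide +kernel) (by decide +kernel)⟩
  · exact ⟨⟨![0, 1, 2], ![0, 1, 2], by decide, by decide⟩, acts_of_imgs hA (imgs := [0, 1, 2]) (by decide +kernel) (by decide +kernel)⟩
  · exact ⟨⟨![0, 1, 2], ![0, 1, 2], by decide, by decide⟩, acts_of_imgs hA (imgs := [0, 1, 2]) (by decide +kernel) (by decide +kernel)⟩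
  · exact ⟨⟨![0, 1, 2], ![0, 1, 2], by decide, by decide⟩, acts_of_imgs hA (imgs := [0, 1, 2]) (by decide +kernel) (by decide +kernel)⟩
  · exact ⟨⟨![0, 1, 2], ![0, 1, 2], by decide, by decide⟩, acts_of_imgs hA (imgs := [0, 1, 2]) (by decide +kernel) (by decide +kernel)⟩
  · exact ⟨⟨![0, 1, 2], ![0, 1, 2], by decide, by decide⟩, acts_of_imgs hA (imgs := [0, 1, 2]) (by decide +kernel) (by decide +kernel)⟩
  · exact ⟨⟨![0, 1, 2], ![0, 1, 2], by decide, by decide⟩, acts_of_imgs hA (imgs := [0, 1, 2]) (by decide +kernel) (by decide +kernel)⟩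
  · exact ⟨⟨![0, 1, 2], ![0, 1, 2], by decide, by decide⟩, acts_of_imgs hA (imgs := [0, 1, 2]) (by decide +kernel) (by decide +kernel)⟩

theorem hS : subOK A S = true := by decide +kernel
theorem hts : (List.range 3).map (fun k => colVal S (24 + k)) = [5279, 1009728, 15762208] := by decide +kernel
theorem T0 : famOf [5279, 1009728, 15762208] ∈ trios := famOf_trio (by decide +kernel)
theorem inj : Set.InjOn (XS S) (bset (ivl 24 (24 + 3))) := injOn_XS rfl (by decide +kernel)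
theorem hB : invB A (kgens A 0) (ivl 24 (24 + 3)) = true := by decide +kernel

theorem trans {T T' : Finset (Finset GolayPt)} (hT : T ∈ trios) (hT' : T' ∈ trios) :
    ∃ g ∈ M24, g • T = T' := trio_transitive hT hT' S1556.result

theorem card_stab {T : Finset (Finset GolayPt)} (hT : T ∈ trios) :
    Nat.card (stabilizer M24 T) = 64512 := by
  have := ncard_mul_card_stab (G := M24) T (O := trios) fun z =>
    ⟨fun hz => (trans hT hz).elim fun g h => ⟨⟨g, h.1⟩, h.2⟩,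
      fun ⟨g, h⟩ => h ▸ smul_mem_trios g.2 hT⟩
  rw [ncard_trios, card_M24] at this
  omega

theorem iso : ∃ e : K A 0 ≃* stabilizer M24 (famOf [5279, 1009728, 15762208]),
    ∀ σ : K A 0, ((e σ : M24) : Equiv.Perm GolayPt) = toG σ :=
  exists_iso_Kt hA hm (fun _ hσ => smul_famOf hA hm hS hts hB hσ) hf
    (by rw [card_stab T0, card0])

theorem ker : Nat.card (fixFam (famOf [5279, 1009728, 15762208])) = 10752 := by
  rw [← card2]
  have h5 : FixIs A 0 (bset (ivl 24 (24 + 3))) 2 := FixIs.step stab0 (mem_bset_ivl.2 (by omega)) <| FixIs.step stab1 (mem_bset_ivl.2 (by omega)) <| FixIs.refl _ _ _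
  refine card_eq_K hA hm (fun σ hσ => ?_) (fun σ hσ => hf σ (K_mono A h5.1 hσ)) fun g hg => ?_
  · exact (fix_block_of_fix hA hm hS hts hB inj (K_mono A h5.1 hσ)).2
      (fixIvl_spec hA (by decide +kernel) σ hσ)
  · obtain ⟨e, he⟩ := iso
    obtain ⟨σ, h⟩ := e.surjective ⟨g, fixFam_le _ hg⟩
    have h2 : (g : Equiv.Perm GolayPt) = toG σ := by rw [← he, h]
    exact ⟨σ, h5.2 σ σ.2 ((fix_block_of_fix hA hm hS hts hB inj σ.2).1 (h2 ▸ hg)), h2⟩

theorem el2 : ∀ σ ∈ K A 6, σ * σ = 1 :=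
  sq_eq_one_of_claims (by decide) (chk_spec hA (by decide +kernel))

theorem f1 (g : GL (Fin 3) (ZMod 2))
    (h : ∀ i ∈ bset (ivl 27 (27 + 7)), g • Xv (i - 27) = Xv (i - 27)) : g = 1 := by
  ext i j
  have h0 : ∀ j : Fin 3, ∃ k ∈ [30, 28, 27], Xv (k - 27) = Pi.single j 1 := by decide
  obtain ⟨k, hk, e⟩ := h0 j
  have h1 := congrFun (h k (mem_bset_ivl.2 (by simp at hk; omega))) i
  rw [e] at h1
  have h2 : (g.1.mulVec (Pi.single j 1)) i = (Pi.single j 1 : Fin 3 → ZMod 2) i := h1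
  rw [Matrix.mulVec_single_one] at h2
  rw [Units.val_one, Matrix.one_apply, ← Pi.single_apply, ← h2]; rfl

theorem f2 (g : Equiv.Perm (Fin 3))
    (h : ∀ i ∈ bset (ivl 24 (24 + 3)), g • Xp (i - 24) = Xp (i - 24)) : g = 1 := by
  refine Equiv.ext fun j => ?_
  fin_cases j
  · exact h 24 (mem_bset_ivl.2 (by omega))
  · exact h 25 (mem_bset_ivl.2 (by omega))
  · exact h 26 (mem_bset_ivl.2 (by omega))

theorem hom : ∃ φ : K A 0 →* GL (Fin 3) (ZMod 2) × Equiv.Perm (Fin 3),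
    φ.ker = (K A 6).subgroupOf (K A 0) ∧ Function.Surjective φ := by
  obtain ⟨φ1, h1⟩ := hom_of_acts acts f1
  obtain ⟨φ2, h2⟩ := hom_of_acts acts2 f2
  have h5 : FixIs A 0 (bset (ivl 24 (24 + 10))) 6 := FixIs.step stab0 (mem_bset_ivl.2 (by omega)) <| FixIs.step stab1 (mem_bset_ivl.2 (by omega)) <| FixIs.step stab2 (mem_bset_ivl.2 (by omega)) <| FixIs.step stab3 (mem_bset_ivl.2 (by omega)) <| FixIs.step stab4 (mem_bset_ivl.2 (by omega)) <| FixIs.refl _ _ _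
  have h6 := fixIvl_spec hA (t := 6) (lo := 24) (n := 10) (by decide +kernel)
  have hk : (φ1.prod φ2).ker = (K A 6).subgroupOf (K A 0) := by
    ext σ
    rw [MonoidHom.ker_prod, Subgroup.mem_inf,
      mem_ker_of_acts h1 (injOn_shift (by decide)) (fun g _ => f1 g),
      mem_ker_of_acts h2 (injOn_shift (by decide)) (fun g _ => f2 g), Subgroup.mem_subgroupOf]
    simp only [mem_bset_ivl] at h6 ⊢
    refine ⟨fun h => h5.2 σ σ.2 fun i hi => ?_,
      fun h => ⟨fun i hi => h6 _ h i (by omega), fun i hi => h6 _ h i (by omega)⟩⟩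
    rw [mem_bset_ivl] at hi
    by_cases h7 : i < 27
    · exact h.2 i (by omega)
    · exact h.1 i (by omega)
  refine ⟨_, hk, ?_⟩
  have := finite_K hA 0
  apply surj_of_card_ker
  rw [hk, card_subgroupOf_K (by omega), card0, card5, Nat.card_prod, Matrix.card_GL_field,
    Nat.card_perm]
  simp [Fin.prod_univ_succ, Nat.factorial]


/-- Structure of a trio stabiliser: every permutation of the three octads is induced, and there is a normal subgroup of order 64 of elements squaring to the identity whose quotient is isomorphic to the product of GL(3, 2) with the symmetric group of degree 3. -/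
theorem result (T : Finset (Finset Cfsg.GolayPt)) (hT : T ∈ Cfsg.trios) : (∀ e : Equiv.Perm ↥T, ∃ g ∈ MulAction.stabilizer Cfsg.M24 T, ∀ o : ↥T, (g : Equiv.Perm Cfsg.GolayPt) • (o : Finset Cfsg.GolayPt) = ((e o : ↥T) : Finset Cfsg.GolayPt)) ∧ ∃ (N : Subgroup ↥(MulAction.stabilizer Cfsg.M24 T)) (_ : N.Normal), Nat.card N = 64 ∧ (∀ x ∈ N, x * x = 1) ∧ Nonempty (↥(MulAction.stabilizer Cfsg.M24 T) ⧸ N ≃* GL (Fin 3) (ZMod 2) × Equiv.Perm (Fin 3)) := by
  obtain ⟨k, hk, rfl⟩ := trans T0 hT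
  have h192 := (card_fixFam_smul ⟨k, hk⟩ _).trans ker
  refine ⟨induces_all _ (by rw [card_stab hT, hT.1]; exact h192 ▸ rfl), ?_⟩
  obtain ⟨e, _⟩ := iso
  let e' := e.trans (conjEquiv (G := M24) ⟨k, hk⟩ (fun g => conj_mem_stab _ g (famOf [5279, 1009728, 15762208])))
  obtain ⟨φ, a1, a2⟩ := hom
  obtain ⟨N, h1, h2, h3, h4⟩ := transport_normal e' φ a2
  rw [a1] at h2 h3
  refine ⟨N, h1, h2.trans (by rw [card_subgroupOf_K (by omega), card5]), fun x hx => ?_, h4⟩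
  apply e'.symm.injective
  rw [map_mul, map_one]
  exact Subtype.ext (el2 _ (h3 x hx))

end Cfsg.Agent.S1558
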