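import Cfsg.Statements.S1559
import Cfsg.Agent.Lib.Golay.Tr

set_option autoImplicit false
open scoped Pointwise
open Cfsg

set_option maxRecDepth 100000

namespace Cfsg.Agent.S1559

open Cfsg.Agent.PG Cfsg.Agent.Golay Cfsg.Agent.Golay.Tr

theorem o2108 : orbCardB A 9 1 2108 7 42 = true := by decide +kernel
theorem o1416 : orbCardB A 9 1 1416 6 56 = true := by decide +kernel
theorem o2019 : orbCardB A 9 1 2019 10 1008 = true := by decide +kernel
theorem o3817 : orbCardB A 9 1 3817 11 2688 = true := by decide +kernel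

theorem X_mem {a : ℕ} (ha : a ∈ bset B) : X a ∈ trios := fam_eq ▸ ⟨a, ha, rfl⟩

theorem base : trios = {X 38} ∪ MulAction.orbit (MulAction.stabilizer M24 (X 38)) (X 2108) ∪ MulAction.orbit (MulAction.stabilizer M24 (X 38)) (X 1416) ∪ MulAction.orbit (MulAction.stabilizer M24 (X 38)) (X 2019) ∪ MulAction.orbit (MulAction.stabilizer M24 (X 38)) (X 3817) := by
  apply Set.Subset.antisymm
  · intro y hy
    rw [← fam_eq] at hy
    obtain ⟨i, hi, rfl⟩ := hy
    obtain ⟨a, ha, σ, hσ, rfl⟩ := cov1 i hi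
    simp only [Set.mem_union, Set.mem_singleton_iff, orbit_eq]
    have h : X (σ a) ∈ X '' {i | ∃ σ ∈ K A 1, σ a = i} := ⟨_, ⟨σ, hσ, rfl⟩, rfl⟩
    simp only [List.mem_cons, List.not_mem_nil, or_false] at ha
    rcases ha with rfl | rfl | rfl | rfl | rfl
    · rw [fix0 σ hσ]; simp only [true_or]
    all_goals simp only [h, true_or, or_true]
  · have h : ∀ a ∈ bset B, MulAction.orbit (MulAction.stabilizer M24 (X 38)) (X a) ⊆ trios := by
      rintro a ha _ ⟨g, rfl⟩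
      exact smul_mem_trios (g : M24).2 (X_mem ha)
    simp only [Set.union_subset_iff, Set.singleton_subset_iff, and_assoc]
    exact ⟨X0_mem, h _ (mem_bset_ivl.2 (by omega)), h _ (mem_bset_ivl.2 (by omega)), h _ (mem_bset_ivl.2 (by omega)), h _ (mem_bset_ivl.2 (by omega))⟩


/-- A trio stabiliser has five orbits on the 3795 trios, of sizes 1, 42, 56, 1008, 2688; and the stabiliser is a maximal proper subgroup. -/
theorem result (T : Finset (Finset Cfsg.GolayPt)) (hT : T ∈ Cfsg.trios) : ∃ X₁ ∈ Cfsg.trios, ∃ X₂ ∈ Cfsg.trios, ∃ X₃ ∈ Cfsg.trios, ∃ X₄ ∈ Cfsg.trios, (MulAction.orbit ↥(MulAction.stabilizer Cfsg.M24 T) X₁).ncard = 42 ∧ (MulAction.orbit ↥(MulAction.stabilizer Cfsg.M24 T) X₂).ncard = 56 ∧ (MulAction.orbit ↥(MulAction.stabilizer Cfsg.M24 T) X₃).ncard = 1008 ∧ (MulAction.orbit ↥(MulAction.stabilizer Cfsg.M24 T) X₄).ncard = 2688 ∧ Cfsg.trios = {T} ∪ MulAction.orbit ↥(MulAction.stabilizer Cfsg.M24 T) X₁ ∪ MulAction.orbit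 ↥(MulAction.stabilizer Cfsg.M24 T) X₂ ∪ MulAction.orbit ↥(MulAction.stabilizer Cfsg.M24 T) X₃ ∪ MulAction.orbit ↥(MulAction.stabilizer Cfsg.M24 T) X₄ ∧ IsCoatom (MulAction.stabilizer Cfsg.M24 T) := by
  rw [← fam_eq] at hT
  obtain ⟨i, hi, rfl⟩ := hT
  obtain ⟨σ, hσ, rfl⟩ := cov i hi
  rw [← act hσ]
  have ho : ∀ a, MulAction.orbit (MulAction.stabilizer M24 (toG σ • X 38)) (toG σ • X a) =
      toG σ • MulAction.orbit (MulAction.stabilizer M24 (X 38)) (X a) := fun a =>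
    orbit_conj (G := M24) ⟨toG σ, mem hσ⟩ (fun g => conj_mem_stab _ g (X 38)) (X a)
  refine ⟨toG σ • X 2108, smul_mem_trios (mem hσ) (X_mem (mem_bset_ivl.2 (by omega))),
    toG σ • X 1416, smul_mem_trios (mem hσ) (X_mem (mem_bset_ivl.2 (by omega))),
    toG σ • X 2019, smul_mem_trios (mem hσ) (X_mem (mem_bset_ivl.2 (by omega))),
    toG σ • X 3817, smul_mem_trios (mem hσ) (X_mem (mem_bset_ivl.2 (by omega))), ?_, ?_, ?_, ?_, ?_,
    isCoatom_stabilizer_smul (G := M24) ⟨toG σ, mem hσ⟩ coatom⟩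
  · rw [ho, Set.ncard_smul_set, ncard_orb (mem_bset_ivl.2 (by omega)) o2108]
  · rw [ho, Set.ncard_smul_set, ncard_orb (mem_bset_ivl.2 (by omega)) o1416]
  · rw [ho, Set.ncard_smul_set, ncard_orb (mem_bset_ivl.2 (by omega)) o2019]
  · rw [ho, Set.ncard_smul_set, ncard_orb (mem_bset_ivl.2 (by omega)) o3817]
  · simp only [ho]
    rw [← Set.smul_set_singleton, ← Set.smul_set_union, ← Set.smul_set_union, ← Set.smul_set_union, ← Set.smul_set_union, ← base]
    refine (Set.eq_of_subset_of_ncard_le ?_ (by rw [Set.ncard_smul_set]) (Set.toFinite _)).symm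
    rintro _ ⟨y, hy, rfl⟩
    exact smul_mem_trios (mem hσ) hy

end Cfsg.Agent.S1559
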