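import Cfsg.Statements.S1560
import Cfsg.Agent.Lib.Golay.Util2

set_option autoImplicit false
open scoped Pointwise
open Cfsg

set_option maxRecDepth 100000

namespace Cfsg.Agent.S1560

open Cfsg.Agent.PG Cfsg.Agent.Golay Cfsg.Agent.Golay.SB

theorem cnt (c n : ℕ) (h : cntN 2576 (fun i => force (colVal S (Nat.add 3083 i)) fun m =>
    (Nat.beq (pc (Nat.land 0x6fdd m)) c)) = n)
    {k : Equiv.Perm GolayPt} (hk : k ∈ M24) :
    {x | x ∈ dodecads ∧ (k • X 3083 ∩ x).card = c}.ncard = n := by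
  rw [← h, ← ncard_blk (lo := 3083) (n := 2576) dodecads_eq inj_dod
    (P := fun x => (X 3083 ∩ x).card = c) (fun m _ _ => by
      simp only [X_dod0, andB_eq, Bool.and_eq_true, card_inter_iff])]
  exact ncard_eq_smul k fun y => by
    simp only [Set.mem_ofPred_eq, smul_mem_dodecads hk, apply_mem_smul, card_smul_inter, and_assoc]


/-- Intersection numbers of dodecads: a dodecad meets every other dodecad in 0, 4, 6 or 8 points, meeting 495 of them in 4 points, 1584 in 6 points and 495 in 8 points. -/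
theorem result (d : Finset Cfsg.GolayPt) (hd : d ∈ Cfsg.dodecads) : (∀ d' ∈ Cfsg.dodecads, d' ≠ d → (d ∩ d').card = 0 ∨ (d ∩ d').card = 4 ∨ (d ∩ d').card = 6 ∨ (d ∩ d').card = 8) ∧ {d' : Finset Cfsg.GolayPt | d' ∈ Cfsg.dodecads ∧ (d ∩ d').card = 4}.ncard = 495 ∧ {d' : Finset Cfsg.GolayPt | d' ∈ Cfsg.dodecads ∧ (d ∩ d').card = 6}.ncard = 1584 ∧ {d' : Finset Cfsg.GolayPt | d' ∈ Cfsg.dodecads ∧ (d ∩ d').card = 8}.ncard = 495 := by
  refine ⟨fun d' hd' hne => ?_, ?_⟩
  · have h1 := card_symmDiff_add d d'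
    have h2 := (Cw.symmDiff hd.1 hd'.1).card'
    have h3 : (symmDiff d d').card ≠ 0 := fun e =>
      hne (symmDiff_eq_bot.1 (Finset.card_eq_zero.1 e)).symm
    rw [hd.2, hd'.2] at h1
    omega
  obtain ⟨k, hk, rfl⟩ := std_dod hd
  exact ⟨cnt 4 _ (by decide +kernel) hk, cnt 6 _ (by decide +kernel) hk, cnt 8 _ (by decide +kernel) hk⟩

end Cfsg.Agent.S1560
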