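import Cfsg.Statements.S1561
import Cfsg.Agent.Lib.Golay.Util2

set_option autoImplicit false
open scoped Pointwise
open Cfsg

set_option maxRecDepth 100000

namespace Cfsg.Agent.S1561

open Cfsg.Agent.PG Cfsg.Agent.Golay Cfsg.Agent.Golay.SB

theorem c_orb : andB (fixB A [[0x200040008020804000a0008], [0x204020a0202060802040006]] [3083])
    (coverB A [[0x200040008020804000a0008], [0x204020a0202060802040006]] 13 [3083, 3084, 3096, 3200, 5658] BDod) = true := by
  decide +kernel

theorem orb {k : Equiv.Perm GolayPt} (hk : k ∈ M24) {x y : Finset GolayPt} (hx : x ∈ dodecads) (hy : y ∈ dodecads)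
     
    (e : (k • X 3083 ∩ x).card = (k • X 3083 ∩ y).card) :
    ∃ g : Equiv.Perm GolayPt, g ∈ M24 ∧ g • k • X 3083 = k • X 3083 ∧ g • x = y := by
  obtain ⟨x, rfl⟩ := MulAction.surjective k x
  obtain ⟨y, rfl⟩ := MulAction.surjective k y
  simp only [smul_mem_dodecads hk, apply_mem_smul, card_smul_inter] at *
  obtain ⟨g, hg, h1, h2⟩ := orb_iv dodecads_eq c_orb (fun l => l.drop 1 = []) (by decide +kernel) hx hy
    (by simp [ivS, card_pt_inter, *]) (by simp [ivS, card_pt_inter, *])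
  exact ⟨k * g * k⁻¹, conj_mem_M24 hk hg, (conj_smul_iff k g _ _).2 (h1 _ (by simp)), (conj_smul_iff k g _ _).2 h2⟩


/-- Two dodecads meeting a fixed dodecad in equally many points lie in one orbit of its stabiliser. -/
theorem result (d d' d'' : Finset Cfsg.GolayPt) (hd : d ∈ Cfsg.dodecads) (hd' : d' ∈ Cfsg.dodecads) (hd'' : d'' ∈ Cfsg.dodecads) (h : (d ∩ d').card = (d ∩ d'').card) : ∃ g : Equiv.Perm Cfsg.GolayPt, g ∈ Cfsg.M24 ∧ g • d = d ∧ g • d' = d'' := by
  obtain ⟨k, hk, rfl⟩ := std_dod hd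
  exact orb hk hd' hd'' h

end Cfsg.Agent.S1561
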