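import Cfsg.Statements.S1562
import Cfsg.Agent.Lib.Golay.Sextet

set_option autoImplicit false
open scoped Pointwise
open Cfsg

set_option maxRecDepth 100000

namespace Cfsg.Agent.S1562

open Cfsg.Agent.PG Cfsg.Agent.Golay Cfsg.Agent.Golay.SB

theorem c : andB (fixB A [[0x2020a0202020a0402080004000a], [0x2020600040a06000806]] [300])
    (coverB A [[0x2020a0202020a0402080004000a], [0x2020600040a06000806]] 11 [300, 301, 307, 319, 344] BTriad) = true := by
  decide +kernel

theorem cnt (f : Bool → Bool) (n : ℕ) (h : cntN 2024 (fun i => force (colVal S (Nat.add 300 i)) fun m =>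
    andB (Nat.beq (pc (Nat.land 7 m)) 0) (f (inOct (Nat.lor 7 m)))) = n) {F : Prop → Prop}
    (hF : ∀ b : Bool, F (b = true) ↔ f b = true) {k : Equiv.Perm GolayPt} (hk : k ∈ M24) :
    {U : Finset GolayPt | U.card = 3 ∧ Disjoint (k • X 300) U ∧
      F (∃ o ∈ octads, k • X 300 ∪ U ⊆ o)}.ncard = n := by
  rw [← h, ← ncard_blk (lo := 300) (n := 2024) triads_eq inj_triad
    (P := fun U => Disjoint (X 300) U ∧ F (∃ o ∈ octads, X 300 ∪ U ⊆ o)) (fun m _ _ => by
      rw [X_triad0, ← ofMask_or, inOct_iff, hF, andB_eq, Bool.and_eq_true, disjoint_iff']; rfl)]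
  exact ncard_eq_smul k fun y => by
    have := exists_octad_smul hk (P := fun o => k • X 300 ∪ k • y ⊆ o) (Q := fun o => X 300 ∪ y ⊆ o)
      (fun o => by rw [← smul_union', smul_subset_smul'])
    simp only [Set.mem_ofPred_eq, Finset.card_smul_finset, disjoint_smul', this]


/-- Orbits of a triad stabiliser on the triads disjoint from it: the 210 triads inside a common octad with it form one orbit and the remaining 1120 another. -/
theorem result (T : Finset Cfsg.GolayPt) (hT : T.card = 3) : {U : Finset Cfsg.GolayPt | U.card = 3 ∧ Disjoint T U ∧ (∃ o ∈ Cfsg.octads, T ∪ U ⊆ o)}.ncard = 210 ∧ {U : Finset Cfsg.GolayPt | U.card = 3 ∧ Disjoint T U ∧ ¬ (∃ o ∈ Cfsg.octads, T ∪ U ⊆ o)}.ncard = 1120 ∧ ∀ U U' : Finset Cfsg.GolayPt, U.card = 3 → U'.card = 3 → Disjoint T U → Disjoint T U' → ((∃ o ∈ Cfsg.octads, T ∪ U ⊆ o) ↔ (∃ o ∈ Cfsg.octads, T ∪ U' ⊆ o)) → ∃ g : Equiv.Perm Cfsg.GolayPt, g ∈ Cfsg.M24 ∧ g • T = T ∧ g • U = U' := by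
  obtain ⟨k, hk, rfl⟩ := exists_smul_eq_of_card (s := X 300) (t := T)
    (by rw [X_triad0]; decide) (by rw [X_triad0, hT]; decide)
  refine ⟨cnt id _ (by decide +kernel) (F := id) (by simp) hk,
    cnt not _ (by decide +kernel) (F := Not) (by simp) hk, fun x y hx hy a b e => ?_⟩
  obtain ⟨x, rfl⟩ := MulAction.surjective k x
  obtain ⟨y, rfl⟩ := MulAction.surjective k y
  have inv : ∀ g ∈ M24, ∀ z, (∃ o ∈ octads, g • X 300 ∪ g • z ⊆ o) ↔ ∃ o ∈ octads, X 300 ∪ z ⊆ o :=
    fun g hg z => exists_octad_smul hg (fun o => by rw [← smul_union', smul_subset_smul'])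
  simp only [Finset.card_smul_finset, disjoint_smul', inv k hk] at hx hy a b e
  obtain ⟨g, hg, h1, h2⟩ := orb_inv triads_eq c
    (fun z => (Disjoint (X 300) z, ∃ o ∈ octads, X 300 ∪ z ⊆ o)) (fun g hg h z => by
      have h0 := h 300 (by simp)
      rw [Prod.mk.injEq, ← inv g hg z, ← disjoint_smul' (g := g) (t := z), h0]
      exact ⟨rfl, rfl⟩) hx hy (by simp [a, b, e]) (fun i hi j hj e1 e2 => by
      have h3 : ∀ i ∈ [300, 301, 307, 319, 344], ∀ j ∈ [300, 301, 307, 319, 344], pc (7 &&& colVal S i) = 0 → pc (7 &&& colVal S j) = 0 →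
        (inOct (7 ||| colVal S i) = true ↔ inOct (7 ||| colVal S j) = true) → i = j := by
        decide +kernel
      simp only [Prod.mk.injEq, a, eq_iff_iff, iff_true] at e1 e2
      rw [X_triad0] at e1 e2
      refine h3 i hi j hj (disjoint_ofMask.1 e1.1) (disjoint_ofMask.1 e2.1) ?_
      rw [← inOct_iff, ← inOct_iff, ofMask_or, ofMask_or]
      exact e1.2.trans e2.2.symm)
  exact ⟨k * g * k⁻¹, conj_mem_M24 hk hg, (conj_smul_iff k g _ _).2 (h1 _ (by simp)),
    (conj_smul_iff k g _ _).2 h2⟩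

end Cfsg.Agent.S1562
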