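import Cfsg.Statements.S1563
import Cfsg.Agent.Lib.Golay.SB

set_option autoImplicit false
open scoped Pointwise
open Cfsg

set_option maxRecDepth 100000

namespace Cfsg.Agent.S1563

open Cfsg.Agent.PG Cfsg.Agent.Golay Cfsg.Agent.Golay.SB

theorem cert : primB A [[0x2020206020800000a], [0x2040006060206]]
    [[0x208], [0x206]] 24 8 6 BDuad = true := by
  decide +kernel

theorem base : IsCoatom (MulAction.stabilizer M24 (X 24)) :=
  coatom duads_eq (fun g _ s hs => by simpa using hs) inv_duad (mem_bset_ivl.2 (by omega))
    ⟨gp A 0, gp_mem_K A (Nat.zero_le _), fun e => by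
      have h1 : img A 0 24 = 26 := by decide +kernel
      rw [← img_eq hA (by omega), h1] at e
      have := inj_duad (mem_bset_ivl.2 (by omega)) (mem_bset_ivl.2 (by omega)) e
      omega⟩ cert


/-- The stabiliser of a pair of points (setwise) is a maximal proper subgroup of the group of the length-24 code. -/
theorem result (s : Finset Cfsg.GolayPt) (hs : s.card = 2) : IsCoatom (MulAction.stabilizer Cfsg.M24 s) := by
  have h : s ∈ X '' bset BDuad := by rw [duads_eq]; exact hs
  obtain ⟨i, hi, rfl⟩ := h
  obtain ⟨σ, hσ, rfl⟩ := cov_duad i hi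
  rw [← act hσ]
  exact isCoatom_stabilizer_smul (G := M24) ⟨toG σ, mem hσ⟩ base

end Cfsg.Agent.S1563
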