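import Cfsg.Statements.S1565
import Cfsg.Agent.Lib.Golay.SB

set_option autoImplicit false
open scoped Pointwise
open Cfsg

set_option maxRecDepth 100000

namespace Cfsg.Agent.S1565

open Cfsg.Agent.PG Cfsg.Agent.Golay Cfsg.Agent.Golay.SB

theorem cert : primB A [[0x202020802020204000802], [0x2040a020206]]
    [[0x202], [0x20004], [0x204]] 2324 9 7 BOct = true := by
  decide +kernel

theorem base : IsCoatom (MulAction.stabilizer M24 (X 2324)) :=
  coatom octads_eq (fun g hg s hs => (smul_mem_octads hg).2 hs) inv_oct (mem_bset_ivl.2 (by omega))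
    ⟨gp A 0, gp_mem_K A (Nat.zero_le _), fun e => by
      have h1 : img A 0 2324 = 2325 := by decide +kernel
      rw [← img_eq hA (by omega), h1] at e
      have := inj_oct (mem_bset_ivl.2 (by omega)) (mem_bset_ivl.2 (by omega)) e
      omega⟩ cert


/-- The stabiliser of an octad is a maximal proper subgroup of the group of the length-24 code. -/
theorem result (o : Finset Cfsg.GolayPt) (ho : o ∈ Cfsg.octads) : IsCoatom (MulAction.stabilizer Cfsg.M24 o) := by
  have h : o ∈ X '' bset BOct := by rw [octads_eq]; exact ho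
  obtain ⟨i, hi, rfl⟩ := h
  obtain ⟨σ, hσ, rfl⟩ := cov_oct i hi
  rw [← act hσ]
  exact isCoatom_stabilizer_smul (G := M24) ⟨toG σ, mem hσ⟩ base

end Cfsg.Agent.S1565
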