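import Cfsg.Statements.S1566
import Cfsg.Agent.Lib.Golay.Stab

set_option autoImplicit false
open scoped Pointwise
open Cfsg

set_option maxRecDepth 100000

namespace Cfsg.Agent.S1566

open Cfsg.Agent.PG Cfsg.Agent.Golay Cfsg.Agent.Golay.SB

/-- complementary pairs -/
noncomputable def Z (i : ℕ) : Finset (Finset GolayPt) := {X i, (X i)ᶜ}

theorem smul_pair (g : Equiv.Perm GolayPt) (d : Finset GolayPt) :
    g • ({d, dᶜ} : Finset (Finset GolayPt)) = {g • d, (g • d)ᶜ} := by
  rw [Finset.smul_finset_insert, Finset.smul_finset_singleton, smul_compl']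

theorem cert : primB' A [[0x2080000060a020202020404000a], [0x20006000006080602020606], [0x202040400040004]]
    [[0x202], [0x20a]] [3083, 5658] 3083 6 5 BDod = true := by decide +kernel

theorem Zc : Z 5658 = Z 3083 := by
  have h : X 5658 = (X 3083)ᶜ := by
    rw [X_dod0, ← ofMask_compl]; exact X_eq (by decide +kernel)
  unfold Z
  rw [h, compl_compl, Finset.pair_comm]

theorem base : IsCoatom (MulAction.stabilizer M24 (Z 3083)) := by
  refine isCoatom_of_primB' (G := M24) hA (fun σ hσ => ⟨⟨toG σ, mem hσ⟩, fun i _ => ?_⟩) inv_dod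
    (mem_bset_ivl.2 (by omega)) (fun g => ?_) ?_ ?_ ?_ cert
  · rw [coe_smul_M24, Z, smul_pair, act hσ]; rfl
  · have : (g : Equiv.Perm GolayPt) • X 3083 ∈ X '' bset BDod := by
      rw [dodecads_eq, smul_mem_dodecads g.2, X_dod0]; exact dodecad0
    obtain ⟨i, hi, e⟩ := this
    exact ⟨i, hi, by rw [coe_smul_M24, Z, smul_pair, ← e]; rfl⟩
  · refine ⟨⟨toG (gp A 0), mem (gp_mem_K A (Nat.zero_le _))⟩, fun e => ?_⟩
    have h1 : img A 0 3083 = 3084 := by decide +kernel
    rw [coe_smul_M24, Z, smul_pair, act (gp_mem_K A (Nat.zero_le _)), ← img_eq hA (by omega), h1] at e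
    have h2 : X 3084 ∈ ({X 3083, (X 3083)ᶜ} : Finset (Finset GolayPt)) := e ▸ Finset.mem_insert_self _ _
    rw [X_dod0, show X 3084 = ofMask 0xdfba from X_eq (by decide +kernel), ← ofMask_compl,
      Finset.mem_insert, Finset.mem_singleton, ofMask_eq_iff (by norm_num) (by norm_num),
      ofMask_eq_iff (by norm_num) (by decide)] at h2
    revert h2; decide
  · intro e he
    simp only [List.mem_cons, List.not_mem_nil, or_false] at he
    rcases he with rfl | rfl
    · exact ⟨mem_bset_ivl.2 (by omega), rfl⟩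
    · exact ⟨mem_bset_ivl.2 (by omega), Zc⟩
  · intro w hw
    simp only [List.mem_cons, List.not_mem_nil, or_false] at hw
    rcases hw with rfl | rfl | rfl
    · rw [(mapsB_iff hA (b' := 3083)).1 (by decide +kernel)]
    · rw [(mapsB_iff hA (b' := 3083)).1 (by decide +kernel)]
    · rw [(mapsB_iff hA (b' := 5658)).1 (by decide +kernel), Zc]


/-- The setwise stabiliser of a dodecad together with its complement is a maximal proper subgroup of the group of the length-24 code. -/
theorem result (d : Finset Cfsg.GolayPt) (hd : d ∈ Cfsg.dodecads) : IsCoatom (MulAction.stabilizer Cfsg.M24 ({d, dᶜ} : Finset (Finset Cfsg.GolayPt))) := by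
  obtain ⟨k, hk, rfl⟩ := std_dod hd
  rw [← smul_pair]
  exact isCoatom_stabilizer_smul (G := M24) ⟨k, hk⟩ base

end Cfsg.Agent.S1566
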