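import Cfsg.Statements.S1568
import Cfsg.Agent.Lib.Leech.Count

set_option autoImplicit false
open Cfsg

set_option maxRecDepth 100000

namespace Cfsg.Agent.S1568

open Cfsg.Agent.Leech Cfsg.Agent.Golay

attribute [-simp] Fintype.sum_option

theorem diff {S T : List ℤ} {P : V → Prop} {a b c : ℕ} (hS : S.Nodup) (hl : S.length ≤ 17)
    (hT : T.Nodup) (hl' : T.length ≤ 17) (h1 : cntM S 48 0 + cntM S 48 1 = a)
    (h2 : cntM T 48 0 + cntM T 48 1 = b) (h3 : a = b + c) (hTS : ∀ s ∈ T, s ∈ S)
    (h : ∀ x ∈ leechLattice, sqNorm x = 48 → (P x ↔ (∀ p, x p ∈ S) ∧ ¬ ∀ p, x p ∈ T)) :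
    {x : V | x ∈ leechLattice ∧ sqNorm x = 48 ∧ P x}.ncard = c := by
  rw [← count_list hS hl] at h1
  rw [← count_list hT hl'] at h2
  have := Set.ncard_sdiff (s := {x : V | x ∈ leechLattice ∧ sqNorm x = (48 : ℕ) ∧ ∀ p, x p ∈ T})
    (t := {x : V | x ∈ leechLattice ∧ sqNorm x = (48 : ℕ) ∧ ∀ p, x p ∈ S})
    (fun x hx => ⟨hx.1, hx.2.1, fun p => hTS _ (hx.2.2 p)⟩)
    ((finite_norm _).subset fun x hx => hx.2.1)
  rw [h1, h2, h3, Nat.add_sub_cancel_left] at this
  rw [← this]
  congr 1
  ext x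
  simp only [Set.mem_ofPred_eq, Set.mem_sdiff, Nat.cast_ofNat]
  constructor
  · rintro ⟨a1, a2, a3⟩
    rw [h x a1 a2] at a3
    exact ⟨⟨a1, a2, a3.1⟩, fun a4 => a3.2 a4.2.2⟩
  · rintro ⟨⟨a1, a2, a3⟩, a4⟩
    exact ⟨a1, a2, (h x a1 a2).2 ⟨a3, fun a5 => a4 ⟨a1, a2, a5⟩⟩⟩

theorem bound {x : V} (h : sqNorm x = 48) (p : GolayPt) : -6 ≤ x p ∧ x p ≤ 6 := by
  have h1 := sq_le_sqNorm x p
  constructor <;> nlinarith

theorem par {x : V} (hx : x ∈ leechLattice) (p q : GolayPt) : x p % 2 = x q % 2 := by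
  obtain ⟨m, h⟩ := mem_L.1 hx
  rw [h.par, h.par]

theorem norm_odd {x : V} (h : ∀ p, x p % 2 = 1) (hb : ∀ p, -6 ≤ x p ∧ x p ≤ 6) :
    sqNorm x = 24 + 8 * (Finset.univ.filter fun p => |x p| = 3).card +
      24 * (Finset.univ.filter fun p => |x p| = 5).card := by
  have : ∀ p, x p ^ 2 = 1 + 8 * (if |x p| = 3 then 1 else 0) + 24 * (if |x p| = 5 then 1 else 0) := by
    intro p
    have h1 := h p
    obtain ⟨h2, h3⟩ := hb p
    generalize x p = a at *
    interval_cases a <;> first | rfl | omega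
  unfold sqNorm
  simp only [this, Finset.sum_add_distrib, ← Finset.mul_sum, Finset.sum_boole]
  simp [card_pt]


/-- Shape census of the lattice vectors of sum of squares 48 (customary norm 6): the four families (2^12, 0^12), (±3^3, ±1^21), (±4, ±2^8, 0^15) and (±5, ±1^23) have 5275648, 8290304, 3108864 and 98304 members. -/
theorem result : {x : Cfsg.GolayPt → ℤ | x ∈ Cfsg.leechLattice ∧ Cfsg.sqNorm x = 48 ∧ ∀ i, x i = 0 ∨ x i = 2 ∨ x i = -2}.ncard = 5275648 ∧ {x : Cfsg.GolayPt → ℤ | x ∈ Cfsg.leechLattice ∧ Cfsg.sqNorm x = 48 ∧ ∃ i j k, i ≠ j ∧ j ≠ k ∧ i ≠ k ∧ |x i| = 3 ∧ |x j| = 3 ∧ |x k| = 3}.ncard = 8290304 ∧ {x : Cfsg.GolayPt → ℤ | x ∈ Cfsg.leechLattice ∧ Cfsg.sqNorm x = 48 ∧ ∃ i, |x i| = 4}.ncard = 3108864 ∧ {x : Cfsg.GolayPt → ℤ | x ∈ Cfsg.leechLattice ∧ Cfsg.sqNorm x = 48 ∧ ∃ i, |x i| = 5}.ncard = 98304 := by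
  refine ⟨?_, ?_, ?_, ?_⟩
  · have := count_list (S := [0, 2, -2]) (by decide) (by decide) 48
    simp only [List.mem_cons, List.not_mem_nil, or_false, Nat.cast_ofNat] at this
    exact this.trans (by decide +kernel)
  · refine diff (S := [1, -1, 3, -3]) (T := []) (a := 8290304) (b := 0) (by decide) (by decide)
      (by decide) (by decide) (by decide +kernel) (by decide +kernel) rfl (by simp) fun x hx hn => ?_
    simp only [List.mem_cons, List.not_mem_nil, or_false, forall_const, not_false_eq_true, and_true]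
    constructor
    · rintro ⟨i, j, k, a1, a2, a3, hi, hj, hk⟩
      have ho : ∀ p, x p % 2 = 1 := fun p => by
        have := par hx p i; rw [abs_eq (by norm_num)] at hi; omega
      have h1 := norm_odd ho (bound hn)
      have h2 : 2 < (Finset.univ.filter fun p => |x p| = 3).card :=
        Finset.two_lt_card_iff.2 ⟨i, j, k, by simpa using hi, by simpa using hj, by simpa using hk,
          a1, a3, a2⟩
      have h3 : (Finset.univ.filter fun p => |x p| = 5) = ∅ := Finset.card_eq_zero.1 (by omega)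
      intro p
      have h4 : ¬ |x p| = 5 := fun e => Finset.notMem_empty p (h3 ▸ by simpa using e)
      rw [abs_eq (by norm_num)] at h4
      have := ho p; have := bound hn p; omega
    · intro h
      have ho : ∀ p, x p % 2 = 1 := fun p => by have := h p; omega
      have h1 := norm_odd ho (bound hn)
      have h3 : (Finset.univ.filter fun p => |x p| = 5) = ∅ := by
        refine Finset.filter_eq_empty_iff.2 fun p _ => ?_
        have := h p
        rw [abs_eq (by norm_num)]; omega
      rw [h3, Finset.card_empty] at h1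
      obtain ⟨i, j, k, hi, hj, hk, a1, a2, a3⟩ := Finset.two_lt_card_iff.1
        (show 2 < (Finset.univ.filter fun p => |x p| = 3).card by omega)
      exact ⟨i, j, k, a1, a3, a2, by simpa using hi, by simpa using hj, by simpa using hk⟩
  · refine diff (S := [0, 2, -2, 4, -4, 6, -6]) (T := [0, 2, -2, 6, -6]) (a := 8384512)
      (b := 5275648) (by decide) (by decide)
      (by decide) (by decide) (by decide +kernel) (by decide +kernel) rfl (by simp) fun x hx hn => ?_
    simp only [List.mem_cons, List.not_mem_nil, or_false, not_forall]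
    constructor
    · rintro ⟨i, hi⟩
      rw [abs_eq (by norm_num)] at hi
      exact ⟨fun p => by have := par hx p i; have := bound hn p; omega, i, by omega⟩
    · rintro ⟨h1, i, hi⟩
      exact ⟨i, by have := h1 i; rw [abs_eq (by norm_num)]; omega⟩
  · refine diff (S := [1, -1, 3, -3, 5, -5]) (T := [1, -1, 3, -3]) (a := 8388608)
      (b := 8290304) (by decide) (by decide)
      (by decide) (by decide) (by decide +kernel) (by decide +kernel) rfl (by simp) fun x hx hn => ?_
    simp only [List.mem_cons, List.not_mem_nil, or_false, not_forall]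
    constructor
    · rintro ⟨i, hi⟩
      rw [abs_eq (by norm_num)] at hi
      exact ⟨fun p => by have := par hx p i; have := bound hn p; omega, i, by omega⟩
    · rintro ⟨h1, i, hi⟩
      exact ⟨i, by have := h1 i; rw [abs_eq (by norm_num)]; omega⟩

end Cfsg.Agent.S1568
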