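import Cfsg.Statements.S1569
import Cfsg.Agent.Lib.Leech.Co0

set_option autoImplicit false
open scoped Pointwise
open Cfsg

set_option maxRecDepth 100000

namespace Cfsg.Agent.S1569

open Cfsg.Agent.Leech


/-- The cross through a lattice vector of customary norm 8 has exactly 48 members. -/
theorem result (x : Cfsg.GolayPt → ℤ) (hx : x ∈ Cfsg.leechLattice) (hxn : Cfsg.sqNorm x = 64) : (Cfsg.cross x).ncard = 48 := by
  have h := ncard_L fun y => sqNorm y = sqNorm x ∧ ∃ z ∈ leechLattice, x - y = 2 • z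
  refine h.symm.trans (Eq.trans ?_ ((classes_L ⟨x, hx⟩).2 hxn))
  congr 1
  ext y
  simp only [Set.mem_ofPred_eq, hxn]
  refine and_congr_right fun _ => ⟨fun ⟨z, hz, e⟩ => ⟨⟨z, hz⟩, Subtype.ext ?_⟩,
    fun ⟨z, e⟩ => ⟨z, z.2, ?_⟩⟩
  · simpa [two_smul] using e
  · simpa [two_smul] using congrArg Subtype.val e

end Cfsg.Agent.S1569
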