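import Cfsg.Statements.S1573
import Cfsg.Agent.Lib.Leech.Order

set_option autoImplicit false
open Cfsg

set_option maxRecDepth 100000

namespace Cfsg.Agent.S1573

open Cfsg.Agent.Leech Cfsg.Agent.Leech.M


/-- Census of minimal vectors by inner product with a fixed minimal vector: 4600 have customary inner product −2, 47104 have −1, and 93150 are orthogonal. -/
theorem result (v : Cfsg.GolayPt → ℤ) (hv : v ∈ Cfsg.leechLattice) (hvn : Cfsg.sqNorm v = 32) : {w : Cfsg.GolayPt → ℤ | w ∈ Cfsg.leechLattice ∧ Cfsg.sqNorm w = 32 ∧ Cfsg.dotInt v w = -16}.ncard = 4600 ∧ {w : Cfsg.GolayPt → ℤ | w ∈ Cfsg.leechLattice ∧ Cfsg.sqNorm w = 32 ∧ Cfsg.dotInt v w = -8}.ncard = 47104 ∧ {w : Cfsg.GolayPt → ℤ | w ∈ Cfsg.leechLattice ∧ Cfsg.sqNorm w = 32 ∧ Cfsg.dotInt v w = 0}.ncard = 93150 := by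
  obtain ⟨g, hg⟩ := min_trans (x := ⟨v, hv⟩) hvn
  have h : ∀ k : ℤ, {w : V | w ∈ leechLattice ∧ sqNorm w = 32 ∧ dotInt v w = k}.ncard =
      (FL [(mkL U, k)]).ncard := fun k => by
    rw [← ncard_FL1 g, hg, ← ncard_L fun w => sqNorm w = 32 ∧ dotInt v w = k]
    congr 1; ext x; rw [mem_FL1]; rfl
  exact ⟨(h _).trans cntW16, (h _).trans cntW8, (h _).trans cntU2⟩

end Cfsg.Agent.S1573
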