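import Cfsg.Statements.S1574
import Cfsg.Agent.Lib.Leech.Order

set_option autoImplicit false
open Cfsg

set_option maxRecDepth 100000

namespace Cfsg.Agent.S1574

open Cfsg.Agent.Leech Cfsg.Agent.Leech.M


/-- The stabiliser of a minimal vector is transitive on the minimal vectors of customary inner product −2 with it. -/
theorem result (v w w' : ↥Cfsg.leechLattice) (hv : Cfsg.sqNorm (v : Cfsg.GolayPt → ℤ) = 32) (hw : Cfsg.sqNorm (w : Cfsg.GolayPt → ℤ) = 32) (hw' : Cfsg.sqNorm (w' : Cfsg.GolayPt → ℤ) = 32) (hd : Cfsg.dotInt (v : Cfsg.GolayPt → ℤ) (w : Cfsg.GolayPt → ℤ) = -16) (hd' : Cfsg.dotInt (v : Cfsg.GolayPt → ℤ) (w' : Cfsg.GolayPt → ℤ) = -16) : ∃ g : ↥Cfsg.Co0, g • v = v ∧ g • w = w' := by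
  obtain ⟨k, a1, a2⟩ := pair_std trW16 hv hw hd
  obtain ⟨k', b1, b2⟩ := pair_std trW16 hv hw' hd'
  exact ⟨_, quot_co a1 b1, quot_co a2 b2⟩

end Cfsg.Agent.S1574
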