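import Cfsg.Statements.S1577
import Cfsg.Agent.Lib.Spor.LU62.Iso

set_option autoImplicit false
open Cfsg

namespace Cfsg.Agent.S1577

open Cfsg.Agent.Leech Cfsg.Agent.Leech.L3 MulAction

/-- The joint stabiliser of two minimal vectors of customary inner product −2 is isomorphic to PSU(6, 2). -/
theorem result (v w : ↥Cfsg.leechLattice) (hv : Cfsg.sqNorm (v : Cfsg.GolayPt → ℤ) = 32) (hw : Cfsg.sqNorm (w : Cfsg.GolayPt → ℤ) = 32) (hd : Cfsg.dotInt (v : Cfsg.GolayPt → ℤ) (w : Cfsg.GolayPt → ℤ) = -16) (F : Type) [Field F] [Fintype F] (hF : Fintype.card F = 4) : Nonempty (↥(MulAction.stabilizer ↥Cfsg.Co0 v ⊓ MulAction.stabilizer ↥Cfsg.Co0 w) ≃* Cfsg.PSU 6 F 2) := by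
  obtain ⟨k, rfl, rfl⟩ := M.pair_std M.trW16 hv hw hd
  exact Spor.LU62.main hF k

end Cfsg.Agent.S1577
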