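import Cfsg.Statements.S1581
import Cfsg.Agent.Lib.Leech.Conf

set_option autoImplicit false
open Cfsg

set_option maxRecDepth 100000

namespace Cfsg.Agent.S1581

open Cfsg.Agent.Leech Cfsg.Agent.Leech.L3 MulAction
open Cfsg.Agent.Leech.M (U W8 u0 nU nW8 nu0 sum_std trans48 sub_iff pair_std trW8 u0_eq)


/-- The McLaughlin group acts with rank 3 and subdegrees 1, 112, 162 on its 275 points: the point stabiliser has two orbits on the remaining points, distinguished by customary inner product 1 or 2 with the fixed point. -/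
theorem result (u v x : ↥Cfsg.leechLattice) (hu : Cfsg.sqNorm (u : Cfsg.GolayPt → ℤ) = 48) (hv : Cfsg.sqNorm (v : Cfsg.GolayPt → ℤ) = 32 ∧ Cfsg.sqNorm ((u - v) : Cfsg.GolayPt → ℤ) = 32) (hx : x ∈ {x : ↥Cfsg.leechLattice | Cfsg.sqNorm (x : Cfsg.GolayPt → ℤ) = 32 ∧ Cfsg.sqNorm ((u - x) : Cfsg.GolayPt → ℤ) = 32 ∧ Cfsg.dotInt (v : Cfsg.GolayPt → ℤ) (x : Cfsg.GolayPt → ℤ) = 16}) : {y : ↥Cfsg.leechLattice | y ∈ {x : ↥Cfsg.leechLattice | Cfsg.sqNorm (x : Cfsg.GolayPt → ℤ) = 32 ∧ Cfsg.sqNorm ((u - x) : Cfsg.GolayPt → ℤ) = 32 ∧ Cfsg.dotInt (v : Cfsg.GolayPt → ℤ) (x : Cfsg.GolayPt → ℤ) = 16} ∧ Cfsg.dotInt (x : Cfsg.GolayPt → ℤ) (y : Cfsg.GolayPt → ℤ) = 8}.ncard = 112 ∧ {y : ↥Cfsg.leechLattice | y ∈ {x : ↥Cfsg.leechLattice | Cfsg.sqNorm (x : Cfsg.GolayPt → ℤ) = 32 ∧ Cfsg.sqNorm ((u - x) : Cfsg.GolayPt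 → ℤ) = 32 ∧ Cfsg.dotInt (v : Cfsg.GolayPt → ℤ) (x : Cfsg.GolayPt → ℤ) = 16} ∧ y ≠ x ∧ Cfsg.dotInt (x : Cfsg.GolayPt → ℤ) (y : Cfsg.GolayPt → ℤ) = 16}.ncard = 162 ∧ ∀ y ∈ {x : ↥Cfsg.leechLattice | Cfsg.sqNorm (x : Cfsg.GolayPt → ℤ) = 32 ∧ Cfsg.sqNorm ((u - x) : Cfsg.GolayPt → ℤ) = 32 ∧ Cfsg.dotInt (v : Cfsg.GolayPt → ℤ) (x : Cfsg.GolayPt → ℤ) = 16}, ∀ y' ∈ {x : ↥Cfsg.leechLattice | Cfsg.sqNorm (x : Cfsg.GolayPt → ℤ) = 32 ∧ Cfsg.sqNorm ((u - x) : Cfsg.GolayPt → ℤ) = 32 ∧ Cfsg.dotInt (v : Cfsg.GolayPt → ℤ) (x : Cfsg.GolayPt → ℤ) = 16}, y ≠ x → y' ≠ x → Cfsg.dotInt (x : Cfsg.GolayPt → ℤ) (y : Cfsg.GolayPt → ℤ) = Cfsg.dotInt (x : Cfsg.GolayPt → ℤ) (y' : Cfsg.GolayPt → ℤ) → ∃ g : ↥Cfsg.Co0, g • u = u ∧ g • v = v ∧ g • x = x ∧ g • y = y' := by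
  rw [set275 hu] at hx ⊢
  obtain ⟨k, a1, a2, a3⟩ := std3 tr275 (sum_std hu hv.1 ((sub_iff hu hv.1).1 hv.2)) hx
  have r := fun y => rank3 (y := y) tra_all nx0 dx0_a_8 dx0_a_16 a1 a2 a3
  subst a1 a2 a3
  refine ⟨Eq.trans (congrArg _ (Set.ext fun _ => mem_FL3'.symm)) ((ncard_FL3 ..).trans cnta_8),
    Eq.trans (congrArg _ (Set.ext fun y => ?_)) ((ncard_FL3 k ..).trans cnta_16),
    fun y hy y' hy' h1 h2 e => ?_⟩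
  · rw [mem_FL3']
    exact ⟨fun h => ⟨h.1, h.2.2⟩, fun h => ⟨h.1, ne_of_dot hx.1 h.2, h.2⟩⟩
  · rcases r y hy h1 with h | h
    · obtain ⟨g, b1, b2⟩ := trans_std tra_8 k (mem_FL3'.2 ⟨hy, h⟩) (mem_FL3'.2 ⟨hy', e ▸ h⟩)
      exact ⟨g, b1 _ (by simp), b1 _ (by simp), b1 _ (by simp), b2⟩
    · obtain ⟨g, b1, b2⟩ := trans_std tra_16 k (mem_FL3'.2 ⟨hy, h⟩) (mem_FL3'.2 ⟨hy', e ▸ h⟩)
      exact ⟨g, b1 _ (by simp), b1 _ (by simp), b1 _ (by simp), b2⟩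

end Cfsg.Agent.S1581
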