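import Cfsg.Statements.S1583
import Cfsg.Agent.Lib.Leech.Conf

set_option autoImplicit false
open Cfsg

set_option maxRecDepth 100000

namespace Cfsg.Agent.S1583

open Cfsg.Agent.Leech Cfsg.Agent.Leech.L3 MulAction
open Cfsg.Agent.Leech.M (U W8 u0 nU nW8 nu0 sum_std trans48 sub_iff pair_std trW8 u0_eq)


/-- The Higman–Sims configuration: for two vectors of customary norm 6 with inner product −4, exactly 100 minimal vectors have customary inner products 3 and −3 with them, and the joint stabiliser permutes these transitively. -/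
theorem result (v w : ↥Cfsg.leechLattice) (hv : Cfsg.sqNorm (v : Cfsg.GolayPt → ℤ) = 48) (hw : Cfsg.sqNorm (w : Cfsg.GolayPt → ℤ) = 48) (hvw : Cfsg.dotInt (v : Cfsg.GolayPt → ℤ) (w : Cfsg.GolayPt → ℤ) = -32) : {x : ↥Cfsg.leechLattice | Cfsg.sqNorm (x : Cfsg.GolayPt → ℤ) = 32 ∧ Cfsg.dotInt (v : Cfsg.GolayPt → ℤ) (x : Cfsg.GolayPt → ℤ) = 24 ∧ Cfsg.dotInt (w : Cfsg.GolayPt → ℤ) (x : Cfsg.GolayPt → ℤ) = -24}.ncard = 100 ∧ ∀ x ∈ {x : ↥Cfsg.leechLattice | Cfsg.sqNorm (x : Cfsg.GolayPt → ℤ) = 32 ∧ Cfsg.dotInt (v : Cfsg.GolayPt → ℤ) (x : Cfsg.GolayPt → ℤ) = 24 ∧ Cfsg.dotInt (w : Cfsg.GolayPt → ℤ) (x : Cfsg.GolayPt → ℤ) = -24}, ∀ x' ∈ {x : ↥Cfsg.leechLattice | Cfsg.sqNorm (x : Cfsg.GolayPt → ℤ) = 32 ∧ Cfsg.dotInt (v : Cfsg.GolayPt → ℤ) (x : Cfsg.GolayPt → ℤ) = 24 ∧ Cfsg.dotInt (w : Cfsg.GolayPt → ℤ) (x : Cfsg.GolayPt → ℤ) = -24}, ∃ g : ↥Cfsg.Co0,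 g • v = v ∧ g • w = w ∧ g • x = x' := by
  rw [set_add v w 24 (-24) 0 rfl]
  obtain ⟨k, a1, a2⟩ := hs_std' hv hw hvw
  rw [← a2]; subst a1
  refine ⟨(ncard_FL2 ..).trans cnt100, fun x hx x' hx' => ?_⟩
  obtain ⟨g, h1, h2⟩ := trans_std tr100 k hx hx'
  exact ⟨g, h1 _ (by simp), fix_of_add (h1 _ (by simp)) (a2 ▸ h1 _ (by simp)), h2⟩

end Cfsg.Agent.S1583
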