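import Cfsg.Statements.S1584
import Cfsg.Agent.Lib.Leech.Conf

set_option autoImplicit false
open Cfsg

set_option maxRecDepth 100000

namespace Cfsg.Agent.S1584

open Cfsg.Agent.Leech Cfsg.Agent.Leech.L3 MulAction
open Cfsg.Agent.Leech.M (U W8 u0 nU nW8 nu0 sum_std trans48 sub_iff pair_std trW8 u0_eq)


/-- The Higman–Sims group acts with rank 3 and subdegrees 1, 22, 77 on its 100 points, the orbits of a point stabiliser being distinguished by customary inner product 1 with the fixed point. -/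
theorem result (v w x : ↥Cfsg.leechLattice) (hv : Cfsg.sqNorm (v : Cfsg.GolayPt → ℤ) = 48) (hw : Cfsg.sqNorm (w : Cfsg.GolayPt → ℤ) = 48) (hvw : Cfsg.dotInt (v : Cfsg.GolayPt → ℤ) (w : Cfsg.GolayPt → ℤ) = -32) (hx : x ∈ {x : ↥Cfsg.leechLattice | Cfsg.sqNorm (x : Cfsg.GolayPt → ℤ) = 32 ∧ Cfsg.dotInt (v : Cfsg.GolayPt → ℤ) (x : Cfsg.GolayPt → ℤ) = 24 ∧ Cfsg.dotInt (w : Cfsg.GolayPt → ℤ) (x : Cfsg.GolayPt → ℤ) = -24}) : {y : ↥Cfsg.leechLattice | y ∈ {x : ↥Cfsg.leechLattice | Cfsg.sqNorm (x : Cfsg.GolayPt → ℤ) = 32 ∧ Cfsg.dotInt (v : Cfsg.GolayPt → ℤ) (x : Cfsg.GolayPt → ℤ) = 24 ∧ Cfsg.dotInt (w : Cfsg.GolayPt → ℤ) (x : Cfsg.GolayPt → ℤ) = -24} ∧ Cfsg.dotInt (x : Cfsg.GolayPt → ℤ) (y : Cfsg.GolayPt → ℤ) = 8}.ncard = 22 ∧ {y : ↥Cfsg.leechLattice | y ∈ {x : ↥Cfsg.leechLattice | Cfsg.sqNorm (x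 : Cfsg.GolayPt → ℤ) = 32 ∧ Cfsg.dotInt (v : Cfsg.GolayPt → ℤ) (x : Cfsg.GolayPt → ℤ) = 24 ∧ Cfsg.dotInt (w : Cfsg.GolayPt → ℤ) (x : Cfsg.GolayPt → ℤ) = -24} ∧ y ≠ x ∧ Cfsg.dotInt (x : Cfsg.GolayPt → ℤ) (y : Cfsg.GolayPt → ℤ) ≠ 8}.ncard = 77 ∧ ∀ y ∈ {x : ↥Cfsg.leechLattice | Cfsg.sqNorm (x : Cfsg.GolayPt → ℤ) = 32 ∧ Cfsg.dotInt (v : Cfsg.GolayPt → ℤ) (x : Cfsg.GolayPt → ℤ) = 24 ∧ Cfsg.dotInt (w : Cfsg.GolayPt → ℤ) (x : Cfsg.GolayPt → ℤ) = -24}, ∀ y' ∈ {x : ↥Cfsg.leechLattice | Cfsg.sqNorm (x : Cfsg.GolayPt → ℤ) = 32 ∧ Cfsg.dotInt (v : Cfsg.GolayPt → ℤ) (x : Cfsg.GolayPt → ℤ) = 24 ∧ Cfsg.dotInt (w : Cfsg.GolayPt → ℤ) (x : Cfsg.GolayPt → ℤ) = -24}, y ≠ x → y' ≠ x → (Cfsg.dotInt (x : Cfsg.GolayPt → ℤ) (y : Cfsg.GolayPt → ℤ) = 8 ↔ Cfsg.dotInt (x : Cfsg.GolayPt → ℤ) (y' : Cfsg.GolayPt → ℤ) =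 8) → ∃ g : ↥Cfsg.Co0, g • v = v ∧ g • w = w ∧ g • x = x ∧ g • y = y' := by
  rw [set_add v w 24 (-24) 0 rfl] at hx ⊢
  obtain ⟨k, a1, a2, a3⟩ := std3 tr100 (hs_std' hv hw hvw) hx
  have r := fun y => rank3 (y := y) tre_all nx2 dx2_e_8 dx2_e_16 a1 a2 a3
  rw [← a2] at r hx ⊢
  subst a1 a3
  refine ⟨Eq.trans (congrArg _ (Set.ext fun _ => mem_FL3'.symm)) ((ncard_FL3 ..).trans cnte_8),
    Eq.trans (congrArg _ (Set.ext fun y => ?_)) ((ncard_FL3 k ..).trans cnte_16),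
    fun y hy y' hy' h1 h2 e => ?_⟩
  · rw [mem_FL3']
    exact ⟨fun h => ⟨h.1, (r y h.1 h.2.1).resolve_left h.2.2⟩,
      fun h => ⟨h.1, ne_of_dot hx.1 h.2, by rw [h.2]; decide⟩⟩
  · rcases r y hy h1 with h | h
    · obtain ⟨g, b1, b2⟩ := trans_std tre_8 k (mem_FL3'.2 ⟨hy, h⟩) (mem_FL3'.2 ⟨hy', e.1 h⟩)
      exact ⟨g, b1 _ (by simp), fix_of_add (b1 _ (by simp)) (a2 ▸ b1 _ (by simp)),
        b1 _ (by simp), b2⟩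
    · obtain ⟨g, b1, b2⟩ := trans_std tre_16 k (mem_FL3'.2 ⟨hy, h⟩) (mem_FL3'.2 ⟨hy',
        (r y' hy' h2).resolve_left fun c => by have := e.2 c; omega⟩)
      exact ⟨g, b1 _ (by simp), fix_of_add (b1 _ (by simp)) (a2 ▸ b1 _ (by simp)),
        b1 _ (by simp), b2⟩

end Cfsg.Agent.S1584
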