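import Cfsg.Statements.S1585
import Cfsg.Agent.Lib.Leech.Conf

set_option autoImplicit false
open Cfsg

set_option maxRecDepth 100000

namespace Cfsg.Agent.S1585

open Cfsg.Agent.Leech Cfsg.Agent.Leech.L3 MulAction
open Cfsg.Agent.Leech.M (U W8 u0 nU nW8 nu0 sum_std trans48 sub_iff pair_std trW8 u0_eq)


/-- Two vectors of customary norm 6 with inner product −4 are exchanged by some automorphism of the lattice. -/
theorem result (v w : ↥Cfsg.leechLattice) (hv : Cfsg.sqNorm (v : Cfsg.GolayPt → ℤ) = 48) (hw : Cfsg.sqNorm (w : Cfsg.GolayPt → ℤ) = 48) (hvw : Cfsg.dotInt (v : Cfsg.GolayPt → ℤ) (w : Cfsg.GolayPt → ℤ) = -32) : ∃ g : ↥Cfsg.Co0, g • v = w ∧ g • w = v := by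
  obtain ⟨k, a1, a2⟩ := hs_std' hv hw hvw
  obtain ⟨k', b1, b2⟩ := hs_std' hw hv ((dot_comm _ _).trans hvw)
  have h1 := quot_co a1 b1
  have h2 := quot_co a2 b2
  rw [co_add, h1, add_right_inj] at h2
  exact ⟨_, h1, h2⟩

end Cfsg.Agent.S1585
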