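import Cfsg.Statements.S1589
import Cfsg.Agent.Lib.Golay.Eleven

set_option autoImplicit false
open scoped Pointwise
open Cfsg

set_option maxRecDepth 100000

namespace Cfsg.Agent.S1589

open Cfsg.Agent.PG Cfsg.Agent.Golay MulAction Equiv

theorem two {H : Subgroup M24} (h : 2 ^ 10 ∣ Nat.card H) : ∃ k, Odd.T0 ≤ cj k H := by
  obtain ⟨k, _, hk⟩ := exists_conj_into (S := ⊤) Nat.prime_two le_top le_top h
    (by rw [Subgroup.card_top, card_M24]; decide) Odd.T0_p
  exact ⟨k, hk⟩


/-- Subgroups of the group of the length-24 code of index 759, 276 and 1771 are exactly the octad, duad and sextet stabilisers, and no subgroup has index 253. -/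
theorem result : (∀ H : Subgroup ↥Cfsg.M24, H.index = 759 → ∃ o ∈ Cfsg.octads, H = MulAction.stabilizer Cfsg.M24 o) ∧ (∀ H : Subgroup ↥Cfsg.M24, H.index = 276 → ∃ s : Finset Cfsg.GolayPt, s.card = 2 ∧ H = MulAction.stabilizer Cfsg.M24 s) ∧ (∀ H : Subgroup ↥Cfsg.M24, H.index = 1771 → ∃ S ∈ Cfsg.sextets, H = MulAction.stabilizer Cfsg.M24 S) ∧ ∀ H : Subgroup ↥Cfsg.M24, H.index ≠ 253 := by
  refine ⟨fun H hH => ?_, fun H hH => ?_, fun H hH => ?_, fun H hH => ?_⟩ <;>
    have hc := H.card_mul_index <;> rw [hH, card_M24] at hc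
  · have hc' : Nat.card H = 322560 := by omega
    obtain ⟨k, hk⟩ := two (H := H) (by rw [hc']; decide)
    exact ⟨_, (smul_mem_octads k.2).2 octad0,
      eq_of_cj_eq (Odd.index759 hk (by rw [card_cj, hc']))⟩
  · have hc' : Nat.card H = 887040 := by omega
    obtain ⟨k, _, hk⟩ := exists_conj_into (S := ⊤) (p := 11) (a := 1) (H := H) (by norm_num) le_top
      le_top (by rw [hc']; decide) (by rw [Subgroup.card_top, card_M24]; decide)
      (isPGroup_zpowers Elv.ub_pow)
    exact ⟨_, by rw [Finset.card_smul_finset]; decide,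
      eq_of_cj_eq (Elv.index276 (hk (Subgroup.mem_zpowers _)) (by rw [card_cj, hc']))⟩
  · have hc' : Nat.card H = 138240 := by omega
    obtain ⟨k, hk⟩ := two (H := H) (by rw [hc']; decide)
    exact ⟨_, smul_mem_sextets k.2 (sextetOf_mem Odd.card_t),
      eq_of_cj_eq (Odd.index1771 hk (by rw [card_cj, hc']))⟩
  · have hc' : Nat.card H = 967680 := by omega
    obtain ⟨k, hk⟩ := two (H := H) (by rw [hc']; decide)
    exact Odd.index253 hk (by rw [card_cj, hc'])

end Cfsg.Agent.S1589
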