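import Cfsg.Statements.S1595
import Cfsg.Agent.Lib.Steiner.Basic

set_option autoImplicit false
open Cfsg

set_option maxRecDepth 100000

namespace Cfsg.Agent.S1595

open Cfsg.Agent.Steiner


/-- Leech triangle of S(5, 6, 12): blocks meet in 0, 2, 3 or 4 points, and a block is met exactly in a given 2-, 3- or 4-subset by 3, 2, 3 blocks respectively. -/
theorem result {α : Type*} [Fintype α] [DecidableEq α] (hα : Fintype.card α = 12) {B : Set (Finset α)} (hB : Cfsg.IsSteinerSystem 5 6 B) (b : Finset α) (hb : b ∈ B) : (∀ c ∈ B, c ≠ b → (b ∩ c).card = 0 ∨ (b ∩ c).card = 2 ∨ (b ∩ c).card = 3 ∨ (b ∩ c).card = 4) ∧ ∀ s ⊆ b, (s.card = 2 → {c : Finset α | c ∈ B ∧ b ∩ c = s}.ncard = 3) ∧ (s.card = 3 → {c : Finset α | c ∈ B ∧ b ∩ c = s}.ncard = 2) ∧ (s.card = 4 → {c : Finset α | c ∈ B ∧ b ∩ c = s}.ncard = 3) := by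
  have h5 : ∀ s : Finset α, s.card = 5 → (blk B (s ⊆ ·)).card = 1 := fun s hs => lam_top hB hs
  have h4 := lam_of (l' := 4) hB.1 h5 (by omega) (by rw [hα])
  have h3 := lam_of (l' := 12) hB.1 h4 (by omega) (by rw [hα])
  have h2 := lam_of (l' := 30) hB.1 h3 (by omega) (by rw [hα])
  have h1 := lam_of (l' := 66) hB.1 h2 (by omega) (by rw [hα])
  have h0 := lam_of (l' := 132) hB.1 h1 (by omega) (by rw [hα])
  have h6 := hB.1 b hb
  have key := triangle (B := B) b (fun j => [132, 66, 30, 12, 4, 1, 1].getD j 0)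
    (fun j => [1, 0, 3, 2, 3, 0, 1].getD j 0) (fun s hs => by
      have hc := Finset.card_le_card hs
      rw [h6] at hc
      generalize e : s.card = j at hc
      interval_cases j
      · exact h0 s e
      · exact h1 s e
      · exact h2 s e
      · exact h3 s e
      · exact h4 s e
      · exact h5 s e
      · rw [Finset.eq_of_subset_of_card_le hs (by omega)]
        exact lam_block hB.1 hb) (by rw [h6]; decide)
  refine ⟨fun c hc hne => ?_, fun s hs => ?_⟩
  · have h7 := key (b ∩ c) Finset.inter_subset_left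
    have h8 : 0 < (blk B (b ∩ · = b ∩ c)).card := Finset.card_pos.2 ⟨c, mem_blk.2 ⟨hc, rfl⟩⟩
    have h9 : (b ∩ c).card < 6 := by
      rw [← hB.1 c hc]
      refine Finset.card_lt_card ⟨Finset.inter_subset_right, fun h => hne ?_⟩
      exact Finset.eq_of_subset_of_card_le (h.trans Finset.inter_subset_left)
        (by rw [h6, hB.1 c hc])
    rw [h7] at h8
    generalize (b ∩ c).card = j at h8 h9
    interval_cases j <;> simp at h8 ⊢
  · rw [ncard_eq_blk, key s hs]
    refine ⟨fun h => ?_, fun h => ?_, fun h => ?_⟩ <;> rw [h] <;> rfl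

end Cfsg.Agent.S1595
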