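import Cfsg.Statements.S1596
import Cfsg.Agent.Lib.Golay.Quartet

set_option autoImplicit false
open scoped Pointwise
open Cfsg

set_option maxRecDepth 100000

namespace Cfsg.Agent.S1596

open Cfsg.Agent.PG Cfsg.Agent.Golay


/-- A quartet of a dodecad is determined by any two of its triples: two disjoint triples uniting to a hexad extend to exactly one quartet. -/
theorem result (d : Finset Cfsg.GolayPt) (hd : d ∈ Cfsg.dodecads) (t u : Finset Cfsg.GolayPt) (ht : t.card = 3) (hu : u.card = 3) (htu : Disjoint t u) (hh : t ∪ u ∈ Cfsg.hexadsOn d) : ∃! Q : Finset (Finset Cfsg.GolayPt), Q ∈ Cfsg.quartets d ∧ t ∈ Q ∧ u ∈ Q := by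
  obtain ⟨k, hk, rfl, rfl, rfl⟩ := std_quartet hd ht hu hh
  refine ⟨k • famOf [13, 448, 9728, 18448], ⟨smul_mem_quartets hk Q0_mem,
    mem_smul_fam.2 (mem_famOf.2 ⟨_, List.mem_cons_self .., rfl⟩),
    mem_smul_fam.2 (mem_famOf.2 ⟨_, List.mem_cons_of_mem _ (List.mem_cons_self ..), rfl⟩)⟩,
    fun Q hQ => ?_⟩
  obtain ⟨Q, rfl⟩ := MulAction.surjective k Q
  rw [smul_mem_quartets_iff hk, mem_smul_fam, mem_smul_fam] at hQ
  rw [Q0_unique hQ.1 hQ.2.1 hQ.2.2]

end Cfsg.Agent.S1596
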