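import Cfsg.Statements.S1598
import Cfsg.Agent.Lib.Golay.Qt
import Cfsg.Agent.Lib.Golay.H1598.Main

set_option autoImplicit false
open scoped Pointwise
open Cfsg

set_option maxRecDepth 100000

namespace Cfsg.Agent.S1598

open Cfsg.Agent.PG Cfsg.Agent.Golay Cfsg.Agent.Golay.H1598 MulAction

theorem hm : m24OK A = true := by decide +kernel

theorem hf : FixTriv (K A 0) I24 :=
  fixTriv_of_lb hA (l := 3) (lv := [(0, [[0x208], [0x200], [0x204]], 3, 12),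
  (4, [[0x2040206], [0x20e00]], 4, 9),
  (6, [[0x212020c], [0x2080012080208]], 2, 4)]) (by decide +kernel) (by rw [card0]; decide)
    (by simp only [I24, Set.mem_ofPred_eq]; decide)

noncomputable def S : List ℕ := [0x1000001, 0x2, 0x1000004, 0x1000008, 0x8000010, 0x20, 0x2000040, 0x2000080, 0x2000100, 0x4000200, 0x4000400, 0x8000800, 0x1000, 0x4002000, 0x8004000, 0x8000, 0x10000, 0x20000, 0x40000, 0x80000, 0x100000, 0x200000, 0x400000, 0x800000]

/-- nonzero vectors -/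
def Xv (i : ℕ) : Fin 2 → ZMod 3 := [![0, 1], ![0, 2], ![1, 0], ![1, 1], ![1, 2], ![2, 0], ![2, 1], ![2, 2]].getD i 0

theorem acts : ∀ σ ∈ K A 0, ∃ g : GL (Fin 2) (ZMod 3), Acts (fun i => Xv (i - 28)) (bset (ivl 28 (28 + 8))) g σ := by
  refine acts_K_of_gens fun j h1 hj => ?_
  have : j < 5 := hj
  interval_cases j
  · exact ⟨⟨!![0, 1; 1, 0], !![0, 1; 1, 0], by decide, by decide⟩, acts_of_imgs hA (imgs := [2, 5, 0, 3, 6, 1, 4, 7]) (by decide +kernel) (by decide +kernel)⟩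
  · exact ⟨⟨!![1, 2; 0, 1], !![1, 1; 0, 1], by decide, by decide⟩, acts_of_imgs hA (imgs := [6, 4, 2, 0, 7, 5, 3, 1]) (by decide +kernel) (by decide +kernel)⟩
  · exact ⟨⟨!![1, 1; 0, 2], !![1, 1; 0, 2], by decide, by decide⟩, acts_of_imgs hA (imgs := [4, 6, 2, 7, 0, 5, 1, 3]) (by decide +kernel) (by decide +kernel)⟩
  · exact ⟨⟨!![1, 0; 0, 1], !![1, 0; 0, 1], by decide, by decide⟩, acts_of_imgs hA (imgs := [0, 1, 2, 3, 4, 5, 6, 7]) (by decide +kernel) (by decide +kernel)⟩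
  · exact ⟨⟨!![1, 0; 0, 1], !![1, 0; 0, 1], by decide, by decide⟩, acts_of_imgs hA (imgs := [0, 1, 2, 3, 4, 5, 6, 7]) (by decide +kernel) (by decide +kernel)⟩

theorem f1 (g : GL (Fin 2) (ZMod 3))
    (h : ∀ i ∈ bset (ivl 28 (28 + 8)), g • Xv (i - 28) = Xv (i - 28)) : g = 1 := by
  ext i j
  have h0 : ∀ j : Fin 2, ∃ k ∈ [30, 28], Xv (k - 28) = Pi.single j 1 := by decide
  obtain ⟨k, hk, e⟩ := h0 j
  have h1 := congrFun (h k (mem_bset_ivl.2 (by simp at hk; omega))) i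
  rw [e] at h1
  have h2 : (g.1.mulVec (Pi.single j 1)) i = (Pi.single j 1 : Fin 2 → ZMod 3) i := h1
  rw [Matrix.mulVec_single_one] at h2
  rw [Units.val_one, Matrix.one_apply, ← Pi.single_apply, ← h2]; rfl

theorem cardGL : Nat.card (GL (Fin 2) (ZMod 3)) = 48 := by
  rw [Matrix.card_GL_field]; simp [Fin.prod_univ_succ]

theorem hS : subOK A S = true := by decide +kernel
theorem hts : (List.range 4).map (fun k => colVal S (24 + k)) = [13, 448, 9728, 18448] := by decide +kernel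
theorem hB : invB A (kgens A 0) (ivl 24 (24 + 4)) = true := by decide +kernel

theorem memH (σ : Equiv.Perm ℕ) (hσ : σ ∈ K A 0) : (⟨toG σ, (K_E24 hA hm hσ).2⟩ : M24) ∈
    stabilizer M24 (ofMask 0x6fdd) ⊓ stabilizer M24 (famOf [13, 448, 9728, 18448]) :=
  ⟨fix_mask hA hm (m := 0x6fdd) (by decide +kernel) hσ, smul_famOf hA hm hS hts hB hσ⟩

theorem hom : ∃ φ : K A 0 →* GL (Fin 2) (ZMod 3),
    φ.ker = (K A 3).subgroupOf (K A 0) ∧ Function.Surjective φ := by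
  obtain ⟨φ, h1⟩ := hom_of_acts acts f1
  have hk := ker_eq_of_fixIs h1 (injOn_shift (by decide)) (fun g _ => f1 g)
    (FixIs.step stab0 (mem_bset_ivl.2 (by omega)) <| FixIs.step stab1 (mem_bset_ivl.2 (by omega)) <| FixIs.refl _ _ _) (fixIvl_spec hA (by decide +kernel))
  refine ⟨φ, hk, ?_⟩
  have := finite_K hA 0
  apply surj_of_card_ker
  rw [hk, card_subgroupOf_K (by omega), card0, card2, cardGL]

theorem trans0 : ∀ p ∈ ofMask 0x6fdd, ∃ σ ∈ K A 0, toG σ (pt 0) = p := by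
  intro p hp
  obtain ⟨σ, hσ, e⟩ := cover_K hA (by decide) (t := 0) (r := 10) (i0 := 0) (B := 0x6fdd)
    (by decide +kernel) _ (mem_ofMask.1 hp)
  exact ⟨σ, hσ, by rw [(K_E24 hA hm hσ).1.apply, idx_pt 0 (by omega), e, pt_idx]⟩


/-- A quartet stabiliser inside the dodecad stabiliser has order 432, a normal subgroup of order 9 with quotient GL(2, 3), and is transitive on the dodecad. -/
theorem result (d : Finset Cfsg.GolayPt) (hd : d ∈ Cfsg.dodecads) (Q : Finset (Finset Cfsg.GolayPt)) (hQ : Q ∈ Cfsg.quartets d) : Nat.card ↥(MulAction.stabilizer Cfsg.M24 d ⊓ MulAction.stabilizer Cfsg.M24 Q) = 432 ∧ (∃ (N : Subgroup ↥(MulAction.stabilizer Cfsg.M24 d ⊓ MulAction.stabilizer Cfsg.M24 Q)) (_ : N.Normal), Nat.card N = 9 ∧ Nonempty (↥(MulAction.stabilizer Cfsg.M24 d ⊓ MulAction.stabilizer Cfsg.M24 Q) ⧸ N ≃* GL (Fin 2) (ZMod 3))) ∧ ∀ p ∈ d, ∀ q ∈ d, ∃ g ∈ (MulAction.stabilizer Cfsg.M24 d ⊓ MulAction.stabilizer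 Cfsg.M24 Q), ((g : ↥Cfsg.M24) : Equiv.Perm Cfsg.GolayPt) p = q := by
  refine ⟨Qt.card_stab hd hQ, ?_⟩
  obtain ⟨k, hk, rfl, rfl⟩ := quartet_std hd hQ
  have hc : ∀ g : M24, (⟨k, hk⟩ : M24) * g * (⟨k, hk⟩ : M24)⁻¹ ∈ stabilizer M24 (k • ofMask 0x6fdd) ⊓
      stabilizer M24 (k • famOf [13, 448, 9728, 18448]) ↔ g ∈ stabilizer M24 (ofMask 0x6fdd) ⊓
      stabilizer M24 (famOf [13, 448, 9728, 18448]) := (fun g => by simp only [Subgroup.mem_inf]; exact and_congr (conj_mem_stab _ g _) (conj_mem_stab _ g _))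
  refine ⟨?_, fun p hp q hq => ?_⟩
  · obtain ⟨e, _⟩ := exists_iso_Kt hA hm memH hf (by rw [Qt.card_stab SB.dodecad0 Q0_mem, card0])
    obtain ⟨φ, a1, a2⟩ := hom
    obtain ⟨N, h1, h2, _, h4⟩ := transport_normal (e.trans (conjEquiv (G := M24) ⟨k, hk⟩ hc)) φ a2
    rw [a1] at h2
    exact ⟨N, h1, h2.trans (by rw [card_subgroupOf_K (by omega), card2]), h4⟩
  · obtain ⟨p, rfl⟩ := k.surjective p
    obtain ⟨q, rfl⟩ := k.surjective q
    obtain ⟨σ, hσ, a⟩ := trans0 p (apply_mem_smul.1 hp)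
    obtain ⟨τ, hτ, b⟩ := trans0 q (apply_mem_smul.1 hq)
    exact ⟨_, (hc _).2 (Subgroup.mul_mem _ (memH τ hτ) (Subgroup.inv_mem _ (memH σ hσ))),
      conj_apply (quot_apply a b)⟩

end Cfsg.Agent.S1598
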