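import Cfsg.Statements.S1599
import Cfsg.Agent.Lib.Golay.Qt

set_option autoImplicit false
open scoped Pointwise
open Cfsg

set_option maxRecDepth 100000

namespace Cfsg.Agent.S1599

open Cfsg.Agent.PG Cfsg.Agent.Golay Cfsg.Agent.Golay.Qt

theorem o39 : orbCardB A 5 1 39 4 12 = true := by decide +kernel
theorem o24 : orbCardB A 5 1 24 6 27 = true := by decide +kernel
theorem o26 : orbCardB A 5 1 26 7 72 = true := by decide +kernel
theorem o25 : orbCardB A 5 1 25 8 108 = true := by decide +kernel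

theorem X_mem {a : ℕ} (ha : a ∈ bset B) : X a ∈ quartets (ofMask 0x6fdd) := fam_eq ▸ ⟨a, ha, rfl⟩

theorem base : quartets (ofMask 0x6fdd) = {X 69} ∪ MulAction.orbit H (X 39) ∪ MulAction.orbit H (X 24) ∪ MulAction.orbit H (X 26) ∪ MulAction.orbit H (X 25) := by
  apply Set.Subset.antisymm
  · intro y hy
    rw [← fam_eq] at hy
    obtain ⟨i, hi, rfl⟩ := hy
    obtain ⟨a, ha, σ, hσ, rfl⟩ := cov1 i hi
    simp only [Set.mem_union, Set.mem_singleton_iff, orbit_eq]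
    have h : X (σ a) ∈ X '' {i | ∃ σ ∈ K A 1, σ a = i} := ⟨_, ⟨σ, hσ, rfl⟩, rfl⟩
    simp only [List.mem_cons, List.not_mem_nil, or_false] at ha
    rcases ha with rfl | rfl | rfl | rfl | rfl
    · rw [fix0 σ hσ]; simp only [true_or]
    all_goals simp only [h, true_or, or_true]
  · have h : ∀ a ∈ bset B, MulAction.orbit H (X a) ⊆ quartets (ofMask 0x6fdd) := by
      rintro a ha _ ⟨g, rfl⟩
      have := smul_mem_quartets (g : M24).2 (X_mem ha)
      rwa [mem_stab_M24.1 g.2.1] at this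
    simp only [Set.union_subset_iff, Set.singleton_subset_iff, and_assoc]
    exact ⟨X0_mem, h _ (mem_bset_ivl.2 (by omega)), h _ (mem_bset_ivl.2 (by omega)), h _ (mem_bset_ivl.2 (by omega)), h _ (mem_bset_ivl.2 (by omega))⟩


/-- A quartet stabiliser has five orbits on the quartets of its dodecad, of sizes 1, 12, 27, 72, 108. -/
theorem result (d : Finset Cfsg.GolayPt) (hd : d ∈ Cfsg.dodecads) (Q : Finset (Finset Cfsg.GolayPt)) (hQ : Q ∈ Cfsg.quartets d) : ∃ X₁ ∈ Cfsg.quartets d, ∃ X₂ ∈ Cfsg.quartets d, ∃ X₃ ∈ Cfsg.quartets d, ∃ X₄ ∈ Cfsg.quartets d, (MulAction.orbit ↥(MulAction.stabilizer Cfsg.M24 d ⊓ MulAction.stabilizer Cfsg.M24 Q) X₁).ncard = 12 ∧ (MulAction.orbit ↥(MulAction.stabilizer Cfsg.M24 d ⊓ MulAction.stabilizer Cfsg.M24 Q) X₂).ncard = 27 ∧ (MulAction.orbit ↥(MulAction.stabilizer Cfsg.M24 d ⊓ MulAction.stabilizer Cfsg.M24 Q) X₃).ncard = 72 ∧ (MulAction.orbit ↥(MulAction.stabilizer Cfsg.M24 d ⊓ MulAction.stabilizer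 Cfsg.M24 Q) X₄).ncard = 108 ∧ Cfsg.quartets d = {Q} ∪ MulAction.orbit ↥(MulAction.stabilizer Cfsg.M24 d ⊓ MulAction.stabilizer Cfsg.M24 Q) X₁ ∪ MulAction.orbit ↥(MulAction.stabilizer Cfsg.M24 d ⊓ MulAction.stabilizer Cfsg.M24 Q) X₂ ∪ MulAction.orbit ↥(MulAction.stabilizer Cfsg.M24 d ⊓ MulAction.stabilizer Cfsg.M24 Q) X₃ ∪ MulAction.orbit ↥(MulAction.stabilizer Cfsg.M24 d ⊓ MulAction.stabilizer Cfsg.M24 Q) X₄ := by
  obtain ⟨k, hk, rfl, rfl⟩ := quartet_std hd hQ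
  rw [← X0]
  have ho : ∀ a, MulAction.orbit ↥(MulAction.stabilizer M24 (k • ofMask 0x6fdd) ⊓
      MulAction.stabilizer M24 (k • X 69)) (k • X a) = k • MulAction.orbit H (X a) := fun a =>
    orbit_conj (G := M24) ⟨k, hk⟩ (fun g => by simp only [Subgroup.mem_inf]; exact and_congr (conj_mem_stab _ g _) (conj_mem_stab _ g _)) (X a)
  refine ⟨k • X 39, smul_mem_quartets hk (X_mem (mem_bset_ivl.2 (by omega))),
    k • X 24, smul_mem_quartets hk (X_mem (mem_bset_ivl.2 (by omega))),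
    k • X 26, smul_mem_quartets hk (X_mem (mem_bset_ivl.2 (by omega))),
    k • X 25, smul_mem_quartets hk (X_mem (mem_bset_ivl.2 (by omega))), ?_, ?_, ?_, ?_, ?_⟩
  · rw [ho, Set.ncard_smul_set, ncard_orb (mem_bset_ivl.2 (by omega)) o39]
  · rw [ho, Set.ncard_smul_set, ncard_orb (mem_bset_ivl.2 (by omega)) o24]
  · rw [ho, Set.ncard_smul_set, ncard_orb (mem_bset_ivl.2 (by omega)) o26]
  · rw [ho, Set.ncard_smul_set, ncard_orb (mem_bset_ivl.2 (by omega)) o25]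
  · simp only [ho]
    rw [← Set.smul_set_singleton, ← Set.smul_set_union, ← Set.smul_set_union, ← Set.smul_set_union, ← Set.smul_set_union, ← base]
    ext y
    obtain ⟨y, rfl⟩ := MulAction.surjective k y
    rw [Set.smul_mem_smul_set_iff, smul_mem_quartets_iff hk]

end Cfsg.Agent.S1599
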