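import Cfsg.Statements.S1600
import Cfsg.Agent.Lib.Golay.Stab

set_option autoImplicit false
open scoped Pointwise
open Cfsg

set_option maxRecDepth 100000

namespace Cfsg.Agent.S1600

open Cfsg.Agent.PG Cfsg.Agent.Golay Cfsg.Agent.Golay.SB

theorem c : andB (fixB A [[0x20a000000060202060a0008060000000800080204020800], [0x200000404020a02020602020a02020a0600080004020600]] [3083, 0, 2, 3])
    (coverB A [[0x20a000000060202060a0008060000000800080204020800], [0x200000404020a02020602020a02020a0600080004020600]] 4 [0, 1, 2, 3, 4] (ivl 0 24)) = true := by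
  decide +kernel


/-- The pointwise stabiliser of three points of a dodecad inside the dodecad stabiliser (order 72) is transitive on the complementary dodecad. -/
theorem result (d : Finset Cfsg.GolayPt) (hd : d ∈ Cfsg.dodecads) (p q r : Cfsg.GolayPt) (hp : p ∈ d) (hq : q ∈ d) (hr : r ∈ d) (hpq : p ≠ q) (hpr : p ≠ r) (hqr : q ≠ r) : Nat.card ↥(MulAction.stabilizer Cfsg.M24 d ⊓ MulAction.stabilizer Cfsg.M24 p ⊓ MulAction.stabilizer Cfsg.M24 q ⊓ MulAction.stabilizer Cfsg.M24 r) = 72 ∧ ∀ x ∉ d, ∀ y ∉ d, ∃ g ∈ (MulAction.stabilizer Cfsg.M24 d ⊓ MulAction.stabilizer Cfsg.M24 p ⊓ MulAction.stabilizer Cfsg.M24 q ⊓ MulAction.stabilizer Cfsg.M24 r), ((g : ↥Cfsg.M24) : Equiv.Perm Cfsg.GolayPt) x = y := by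
  refine ⟨card_stab_dod_in3 hd hp hq hr hpq hpr hqr, fun x hx y hy => ?_⟩
  obtain ⟨k, hk, a1, a2, a3, a4⟩ := std_dod_in3 hd hp hq hr hpq hpr hqr
  have key : ∀ z ∉ d, ∃ k' ∈ M24, k' • X 3083 = d ∧ k' (pt 0) = p ∧ k' (pt 2) = q ∧
      k' (pt 3) = r ∧ k' (pt 1) = z := by
    intro z hz
    have n0 : z ≠ p := fun e => hz (e ▸ hp)
    have n1 : z ≠ q := fun e => hz (e ▸ hq)
    have n2 : z ≠ r := fun e => hz (e ▸ hr)
    obtain ⟨k', b1, b2, b3⟩ := std_pt c (a := 1) (by omega) (by decide +kernel) hk z (by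
      rw [show ivN [3083, 0, 2, 3] 1 = [0, 0, 0, 0] by decide +kernel]
      simp [a1, a2, a3, a4, hz, n0, n1, n2, smul_X_pt k (show 0 < 24 by omega),
        smul_X_pt k (show 2 < 24 by omega), smul_X_pt k (show 3 < 24 by omega)])
    exact ⟨k', b1, (b2 _ (by simp)).trans a1, (pt_of_X (by omega) (b2 _ (by simp))).trans a2,
      (pt_of_X (by omega) (b2 _ (by simp))).trans a3,
      (pt_of_X (by omega) (b2 _ (by simp))).trans a4, b3⟩
  obtain ⟨k1, h1, b1, b2, b3, b4, b5⟩ := key x hx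
  obtain ⟨k2, h2, c1, c2, c3, c4, c5⟩ := key y hy
  exact ⟨⟨_, quot_mem h1 h2⟩, ⟨⟨⟨quot_smul b1 c1, quot_apply b2 c2⟩, quot_apply b3 c3⟩,
    quot_apply b4 c4⟩, quot_apply b5 c5⟩

end Cfsg.Agent.S1600
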