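import Cfsg.Statements.S1602
import Cfsg.Agent.Lib.Golay.Small
import Cfsg.Agent.Lib.Golay.H1602.Main

set_option autoImplicit false
open scoped Pointwise
open Cfsg

set_option maxRecDepth 100000

namespace Cfsg.Agent.S1602

open Cfsg.Agent.PG Cfsg.Agent.Golay Cfsg.Agent.Golay.H1602 MulAction

theorem hm : m24OK A = true := by decide +kernel

theorem hf : FixTriv (K A 0) I24 :=
  fixTriv_of_lb hA (l := 2) (lv := [(12, [[0x204], [0x200]], 4, 10),
  (2, [[0x204000e04]], 6, 6),
  (3, [[0x2060a000a04]], 2, 2)]) (by decide +kernel) (by rw [card0]; decide)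
    (by simp only [I24, Set.mem_ofPred_eq]; decide)

/-- points -/
def Xp (i : ℕ) : Fin 5 := [0, 1, 2, 3, 4].getD i 0

theorem acts : ∀ σ ∈ K A 0, ∃ g : Equiv.Perm (Fin 5), Acts (fun i => Xp (i - 24)) (bset (ivl 24 (24 + 5))) g σ := by
  refine acts_K_of_gens fun j h1 hj => ?_
  have : j < 4 := hj
  interval_cases j
  · exact ⟨⟨![1, 0, 2, 4, 3], ![1, 0, 2, 4, 3], by decide, by decide⟩, acts_of_imgs hA (imgs := [1, 0, 2, 4, 3]) (by decide +kernel) (by decide +kernel)⟩
  · exact ⟨⟨![0, 2, 4, 3, 1], ![0, 4, 1, 3, 2], by decide, by decide⟩, acts_of_imgs hA (imgs := [0, 2, 4, 3, 1]) (by decide +kernel) (by decide +kernel)⟩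
  · exact ⟨⟨![0, 1, 3, 4, 2], ![0, 1, 4, 2, 3], by decide, by decide⟩, acts_of_imgs hA (imgs := [0, 1, 3, 4, 2]) (by decide +kernel) (by decide +kernel)⟩
  · exact ⟨⟨![0, 1, 3, 2, 4], ![0, 1, 3, 2, 4], by decide, by decide⟩, acts_of_imgs hA (imgs := [0, 1, 3, 2, 4]) (by decide +kernel) (by decide +kernel)⟩

theorem card_H {d : Finset GolayPt} (hd : d ∈ dodecads) {p q q' : GolayPt} (hp : p ∈ d)
    (hq : q ∉ d) (hq' : q' ∉ d) (hqq' : q ≠ q') : Nat.card ↥(stabilizer M24 d ⊓ stabilizer M24 p ⊓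
      stabilizer M24 ({q, q'} : Finset GolayPt)) = 120 := by
  have := ncard_mul_card_inf (stabilizer M24 d ⊓ stabilizer M24 p) ({q, q'} : Finset GolayPt)
    (O := ↑(Finset.powersetCard 2 dᶜ)) (fun z => by
      rw [Finset.mem_coe, Finset.mem_powersetCard]
      constructor
      · rintro ⟨h1, h2⟩
        obtain ⟨x, y, hxy, rfl⟩ := Finset.card_eq_two.1 h2
        obtain ⟨k, hk, a1, a2, a3, a4⟩ := SB.std_dod_in_out_out hd hp hq hq' hqq'
        obtain ⟨k', hk', b1, b2, b3, b4⟩ := SB.std_dod_in_out_out hd hp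
          (Finset.mem_compl.1 (h1 (Finset.mem_insert_self _ _)))
          (Finset.mem_compl.1 (h1 (Finset.mem_insert_of_mem (Finset.mem_singleton_self _)))) hxy
        refine ⟨⟨_, quot_mem hk hk'⟩, ⟨quot_smul a1 b1, quot_apply a2 b2⟩, ?_⟩
        rw [coe_smul_M24, Finset.smul_finset_insert, smul_singleton', quot_apply a4 b4]
        exact congrArg (insert · ({y} : Finset GolayPt)) (quot_apply a3 b3)
      · rintro ⟨g, hg, rfl⟩
        refine ⟨?_, by rw [Finset.card_smul_finset, Finset.card_pair hqq']⟩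
        rw [← mem_stab_M24.1 hg.1, ← smul_compl', coe_smul_M24, smul_subset_smul']
        simp [Finset.insert_subset_iff, hq, hq'])
  rw [card_stab_dod_in hd hp, Set.ncard_coe_finset, Finset.card_powersetCard, Finset.card_compl,
    card_pt, hd.2] at this
  have h66 : Nat.choose (24 - 12) 2 = 66 := by decide
  rw [h66] at this
  omega


/-- In the 12-point action of the smallest Mathieu group the setwise stabiliser of a pair is isomorphic to the symmetric group of degree 5. -/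
theorem result (d : Finset Cfsg.GolayPt) (hd : d ∈ Cfsg.dodecads) (p q q' : Cfsg.GolayPt) (hp : p ∈ d) (hq : q ∉ d) (hq' : q' ∉ d) (hqq' : q ≠ q') : Nonempty (↥(MulAction.stabilizer Cfsg.M24 d ⊓ MulAction.stabilizer Cfsg.M24 p ⊓ MulAction.stabilizer Cfsg.M24 ({q, q'} : Finset Cfsg.GolayPt)) ≃* Equiv.Perm (Fin 5)) := by
  obtain ⟨k, hk, rfl, rfl, rfl, rfl⟩ := SB.std_dod_in_out_out hd hp hq hq' hqq'
  have e1 : ({k (pt 1), k (pt 5)} : Finset GolayPt) = k • ofMask 0x22 := by
    rw [show ofMask 0x22 = {pt 1, pt 5} by decide, Finset.smul_finset_insert, smul_singleton']; rfl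
  rw [e1, SB.X_dod0]
  obtain ⟨e, _⟩ := exists_iso_Kt hA hm (t := 0) (H := stabilizer M24 (ofMask 0x6fdd) ⊓
    stabilizer M24 (pt 0) ⊓ stabilizer M24 (ofMask 0x22))
    (fun _ hσ => ⟨⟨fix_mask hA hm (m := 0x6fdd) (by decide +kernel) hσ, fix_point hA hm (p := 0) (by omega) (by decide +kernel) hσ⟩, fix_mask hA hm (m := 0x22) (by decide +kernel) hσ⟩) hf (by
      rw [show ofMask 0x22 = {pt 1, pt 5} by decide,
        card_H SB.dodecad0 (by decide) (by decide) (by decide) (by decide), card0])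
  obtain ⟨e2⟩ := iso_of_acts_card acts (injOn_shift (by decide))
    (by apply fixTriv0 <;> exact mem_bset_ivl.2 (by omega))
    (by rw [card0, Nat.card_perm]; simp [Nat.factorial])
  exact ⟨((conjEquiv (G := M24) ⟨k, hk⟩ (fun g => by simp only [Subgroup.mem_inf]; exact and_congr (and_congr (conj_mem_stab _ g _) (conj_mem_stab _ g _)) (conj_mem_stab _ g _))).symm.trans e.symm).trans e2⟩

end Cfsg.Agent.S1602
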