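import Cfsg.Statements.S1603
import Cfsg.Agent.Lib.Golay.Sub2
import Cfsg.Agent.Lib.Golay.H1603.Main

set_option autoImplicit false
open scoped Pointwise
open Cfsg

set_option maxRecDepth 100000

namespace Cfsg.Agent.S1603

open Cfsg.Agent.PG Cfsg.Agent.Golay Cfsg.Agent.Golay.H1603 MulAction

open Equiv

theorem hm : m24OK A = true := by decide +kernel

theorem hf : FixTriv (K A 0) I24 :=
  fixTriv_of_lb hA (l := 2) (lv := [(1, [[0x204], [0x200]], 4, 8),
  (16, [[0x2000402], [0x2040006]], 3, 6)]) (by decide +kernel) (by rw [card0]; decide)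
    (by simp only [I24, Set.mem_ofPred_eq]; decide)

/-- nonzero vectors -/
def Xv (i : ℕ) : Fin 2 → ZMod 3 := [![0, 1], ![0, 2], ![1, 0], ![1, 1], ![1, 2], ![2, 0], ![2, 1], ![2, 2]].getD i 0

theorem acts : ∀ σ ∈ K A 0, ∃ g : GL (Fin 2) (ZMod 3), Acts (fun i => Xv (i - 24)) (bset (ivl 24 (24 + 8))) g σ := by
  refine acts_K_of_gens fun j h1 hj => ?_
  have : j < 3 := hj
  interval_cases j
  · exact ⟨⟨!![0, 1; 1, 0], !![0, 1; 1, 0], by decide, by decide⟩, acts_of_imgs hA (imgs := [2, 5, 0, 3, 6, 1, 4, 7]) (by decide +kernel) (by decide +kernel)⟩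
  · exact ⟨⟨!![1, 1; 0, 1], !![1, 2; 0, 1], by decide, by decide⟩, acts_of_imgs hA (imgs := [3, 7, 2, 6, 1, 5, 0, 4]) (by decide +kernel) (by decide +kernel)⟩
  · exact ⟨⟨!![1, 2; 0, 2], !![1, 2; 0, 2], by decide, by decide⟩, acts_of_imgs hA (imgs := [7, 3, 2, 1, 6, 5, 4, 0]) (by decide +kernel) (by decide +kernel)⟩

noncomputable def Bn0 : Net :=
 (.cons 16 0x1003
 (.cons 8 0x100060
 (.cons 4 0xc0109
 (.cons 2 0x220030
 (.cons 1 0x141450
 (.cons 2 0x222000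
 (.cons 4 0xc0900
 (.cons 8 0xa9
 (.cons 16 0x1001
 .nil)))))))))

noncomputable def Bn1 : Net :=
 (.cons 16 0x1020
 (.cons 8 0x1000d2
 (.cons 4 0x906
 (.cons 2 0x12320
 (.cons 1 0x414040
 (.cons 2 0x100000
 (.cons 4 0x804
 (.cons 8 0x100050
 (.cons 16 0x1020
 .nil)))))))))

noncomputable def Bn2 : Net :=
 (.cons 16 0x4460
 (.cons 8 0x400092
 (.cons 4 0x4070002
 (.cons 2 0x102010
 (.cons 1 0x110110
 (.cons 2 0x20000
 (.cons 4 0x40902
 (.cons 8 0x80
 (.cons 16 0x4460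
 .nil)))))))))

noncomputable def Bn3 : Net :=
 (.cons 16 0x91a2
 (.cons 8 0x810062
 (.cons 4 0x8020a
 (.cons 2 0x20230222
 (.cons 1 0x10440040
 (.cons 2 0x20000000
 (.cons 4 0x1010008
 (.cons 8 0x100028
 (.cons 16 0x910a
 .nil)))))))))

noncomputable def Bn4 : Net :=
 (.cons 16 0x9020
 (.cons 8 0x8400b0
 (.cons 4 0x80b0d00
 (.cons 2 0x22220
 (.cons 1 0x4511440
 (.cons 2 0x2220
 (.cons 4 0x8080400
 (.cons 8 0x9400f0
 (.cons 16 0x9002
 .nil)))))))))

noncomputable def Bn5 : Net :=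
 (.cons 16 0x103a
 (.cons 8 0x400cc
 (.cons 4 0x406010a
 (.cons 2 0x10203012
 (.cons 1 0x111040
 (.cons 2 0x210020
 (.cons 4 0x4040904
 (.cons 8 0x40084
 (.cons 16 0x10aa
 .nil)))))))))

noncomputable def Bn6 : Net :=
 (.cons 16 0x9022
 (.cons 8 0x5200c8
 (.cons 4 0x20a080e
 (.cons 2 0x230100
 (.cons 1 0x50100540
 (.cons 2 0x200010
 (.cons 4 0x2020808
 (.cons 8 0x4200c8
 (.cons 16 0x9000
 .nil)))))))))

noncomputable def Bn7 : Net :=
 (.cons 16 0x1026
 (.cons 8 0x1000b4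
 (.cons 4 0x90600
 (.cons 2 0x221320
 (.cons 1 0x111540
 (.cons 2 0x2000
 (.cons 8 0x10001c
 (.cons 16 0x1026
 .nil))))))))

noncomputable def Bn8 : Net :=
 (.cons 16 0x9020
 (.cons 8 0x80018
 (.cons 4 0x800080c
 (.cons 2 0x20102000
 (.cons 1 0x10515100
 (.cons 2 0x20000000
 (.cons 4 0x8000800
 (.cons 8 0x880014
 (.cons 16 0x9002
 .nil)))))))))

noncomputable def Bn9 : Net :=
 (.cons 16 0x9080
 (.cons 8 0x520000
 (.cons 4 0x204030c
 (.cons 2 0x10020212
 (.cons 1 0x40411444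
 (.cons 2 0x20220000
 (.cons 4 0x2050108
 (.cons 8 0x420048
 (.cons 16 0x9006
 .nil)))))))))

noncomputable def Bn10 : Net :=
 (.cons 16 0x1000
 (.cons 8 0x380005
 (.cons 4 0x803040b
 (.cons 2 0x20302201
 (.cons 1 0x10404040
 (.cons 2 0x2000
 (.cons 4 0x8020400
 (.cons 8 0x380009
 (.cons 16 0x1020
 .nil)))))))))

noncomputable def Bn11 : Net :=
 (.cons 16 0x1022
 (.cons 8 0x800cb
 (.cons 4 0x8060206
 (.cons 2 0x20302022
 (.cons 1 0x10110441
 (.cons 2 0x20010202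
 (.cons 4 0x8020004
 (.cons 8 0x180001
 (.cons 16 0x1000
 .nil)))))))))

noncomputable def Bn12 : Net :=
 (.cons 16 0x1020
 (.cons 8 0x100050
 (.cons 4 0xa0a
 (.cons 2 0x100300
 (.cons 1 0x414004
 (.cons 2 0x12002
 (.cons 4 0x108
 (.cons 8 0x1000d2
 (.cons 16 0x1020
 .nil)))))))))

noncomputable def Bn13 : Net :=
 (.cons 16 0x9006
 (.cons 8 0x420048
 (.cons 4 0x2050108
 (.cons 2 0x10220000
 (.cons 1 0x10411444
 (.cons 2 0x20020212
 (.cons 4 0x204030c
 (.cons 8 0x520000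
 (.cons 16 0x9080
 .nil)))))))))

noncomputable def Bn14 : Net :=
 (.cons 16 0x1026
 (.cons 8 0x10003c
 (.cons 4 0x30000
 (.cons 2 0x1300
 (.cons 1 0x114540
 (.cons 2 0x222020
 (.cons 4 0x600
 (.cons 8 0x100034
 (.cons 16 0x1026
 .nil)))))))))

noncomputable def Bn15 : Net :=
 (.cons 16 0x1000
 (.cons 8 0x180061
 (.cons 4 0x8020804
 (.cons 2 0x20312202
 (.cons 1 0x10410441
 (.cons 2 0x20000022
 (.cons 4 0x8060006
 (.cons 8 0x8000b
 (.cons 16 0x1022
 .nil)))))))))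

noncomputable def Bn16 : Net :=
 (.cons 16 0x9022
 (.cons 8 0xd80003
 (.cons 4 0x8070200
 (.cons 2 0x100002
 (.cons 1 0x40410044
 (.cons 2 0x10200010
 (.cons 4 0x40003
 (.cons 8 0x480021
 (.cons 16 0x9022
 .nil)))))))))

noncomputable def Bn17 : Net :=
 .nil

noncomputable def B : List Net := [Bn0, Bn1, Bn2, Bn3, Bn4, Bn5, Bn6, Bn7, Bn8, Bn9, Bn10, Bn11, Bn12, Bn13, Bn14, Bn15, Bn16, Bn17]

theorem hB : okA (2 ^ 5) B = true := by decide +kernel

theorem mB : m24OK B = true := by decide +kernel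

theorem cardGL : Nat.card (GL (Fin 2) (ZMod 3)) = 48 := by
  rw [Matrix.card_GL_field]; simp [Fin.prod_univ_succ]

theorem iso : Nonempty (K A 0 ≃* GL (Fin 2) (ZMod 3)) :=
  iso_of_acts_card acts (injOn_shift (by decide))
    (fixTriv0 (mem_bset_ivl.2 (by omega)) (mem_bset_ivl.2 (by omega))) (by rw [cardGL, card0])

/-- the central involution -/
noncomputable def z : M24 := el hA hm [0x2000400080006]

theorem R_le : (toM24 hA hm 0).range ≤ stS 0x6fdd ⊓ stP 0 ⊓ Subgroup.centralizer {z} :=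
  range_le _ _ fun w hw => ⟨⟨fixS _ _ (by decide +kernel) w hw,
    fixP _ _ (by omega) (by decide +kernel) w hw⟩, Subgroup.mem_centralizer_singleton_iff.2
      (el_conj hA hm hA hm (allL_spec (p := fun w => conjB A A w [0x2000400080006] [0x2000400080006])
        (by decide +kernel) w hw))⟩

theorem c0 : Nat.card ↥(stS 0x6fdd ⊓ stP 0) = 7920 := card_stab_dod_in SB.dodecad0 (by decide)

theorem card_C : Nat.card ↥(stS 0x6fdd ⊓ stP 0 ⊓ Subgroup.centralizer {z}) ≤ 48 := by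
  have c1 := card_le_cover hB mB (H := stS 0x6fdd ⊓ stP 0) (gens := [[gw 0], [gw 1]])
    (fun w hw => ⟨fixS _ _ (by decide +kernel) w hw, fixP _ _ (by omega) (by decide +kernel) w hw⟩)
    (a := 2) (by omega) (r := 5) (m := 0x6fdc) (c := 720) (by decide +kernel) c0.le
    (by decide +kernel)
  have c2 := card_le_cover hB mB (H := stS 0x6fdd ⊓ stP 0 ⊓ stP 2) (gens := [[gw 2], [gw 3]])
    (fun w hw => ⟨⟨fixS _ _ (by decide +kernel) w hw, fixP _ _ (by omega) (by decide +kernel) w hw⟩,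
      fixP _ _ (by omega) (by decide +kernel) w hw⟩)
    (a := 3) (by omega) (r := 5) (m := 0x6fd8) (c := 72) (by decide +kernel) c1
    (by decide +kernel)
  have c3 := card_le_cover hB mB (H := stS 0x6fdd ⊓ stP 0 ⊓ stP 2 ⊓ stP 3) (gens := [[gw 4], [gw 5]])
    (fun w hw => ⟨⟨⟨fixS _ _ (by decide +kernel) w hw, fixP _ _ (by omega) (by decide +kernel) w hw⟩,
      fixP _ _ (by omega) (by decide +kernel) w hw⟩, fixP _ _ (by omega) (by decide +kernel) w hw⟩)
    (a := 4) (by omega) (r := 4) (m := 0x6fd0) (c := 8) (by decide +kernel) c2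
    (by decide +kernel)
  generalize hC : stS 0x6fdd ⊓ stP 0 ⊓ Subgroup.centralizer {z} = C
  have h1 : C ≤ stS 0x6fdd := hC ▸ inf_le_left.trans inf_le_left
  have h0 : C ≤ stP 0 := hC ▸ inf_le_left.trans inf_le_right
  have h2 : C ≤ stS 0x50803d := hC ▸ inf_le_right.trans
    (cent_le_fix hA hm (w := [0x2000400080006]) (by decide +kernel))
  have h3 : C ≤ stS 28 := le_stab_xor (le_stab_and h1 h2 rfl) (sp_le_ss (by omega) h0) (by decide)
  have h4 : C ⊓ stP 2 ≤ stS 24 :=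
    le_stab_xor (inf_le_left.trans h3) (sp_le_ss (by omega) inf_le_right) (by decide)
  have h5 : C ⊓ stP 2 ⊓ stP 3 ≤ stP 4 := ss_le_sp (by omega)
    (le_stab_xor (inf_le_left.trans h4) (sp_le_ss (by omega) inf_le_right) (by decide))
  have a1 := card_ge_of_orbF h3 (p := pt 2) (by decide)
  have a2 := card_ge_of_orbF h4 (p := pt 3) (by decide)
  have a3 := Subgroup.card_le_of_le (le_inf (inf_le_inf_right (stP 3) (inf_le_inf_right (stP 2)
    (le_inf h1 h0))) h5)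
  rw [show (ofMask 28).card = 3 by decide] at a1
  rw [show (ofMask 24).card = 2 by decide] at a2
  omega

theorem R_eq : (toM24 hA hm 0).range = stS 0x6fdd ⊓ stP 0 ⊓ Subgroup.centralizer {z} :=
  Subgroup.eq_of_le_of_card_ge R_le (by rw [card_range _ _ hf, card0]; exact card_C)

noncomputable def L : List (List ℕ × List ℕ) :=
  [([0x2], [gw 0]), ([0x200], [gw 6]), ([0x204], [gw 0]), ([0x206], [gw 0]), ([0x208], [gw 7]), ([0x20004], [gw 0]), ([0x20006], [gw 0]), ([0x20008], [gw 0]), ([0x20400], [gw 0]), ([0x20408], [gw 1]), ([0x20600], [gw 0]), ([0x20608], [gw 8]), ([0x20800], [gw 0]), ([0x2000400], [gw 0]), ([0x2000408], [gw 0]), ([0x2000600], [gw 0]), ([0x2000608], [gw 0]), ([0x2000800], [gw 9]), ([0x2040004], [gw 0]), ([0x2040006], [gw 10]), ([0x2040008], [gw 0]), ([0x2040800], [gw 0]), ([0x2060004], [gw 11]), ([0x2060006], [gw 0]), ([0x2060008], [gw 0]), ([0x2060800], [gw 0]), ([0x2080004], [gw 0]), ([0x2080006],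 [gw 0]), ([0x200040004], [gw 0]), ([0x200040008], [gw 0]), ([0x200040800], [gw 12]), ([0x200060004], [gw 0]), ([0x200080004], [gw 0]), ([0x200080006], [gw 0]), ([0x204000408], [gw 0]), ([0x204000608], [gw 0]), ([0x204000800], [gw 0]), ([0x204080004], [gw 0]), ([0x204080006], [gw 0]), ([0x206000800], [gw 0]), ([0x208000600], [gw 0]), ([0x20004000408], [gw 13]), ([0x20004000800], [gw 0]), ([0x20004080004], [gw 14]), ([0x20004080006], [gw 15]), ([0x20008000600], [gw 0]), ([0x20400080006], [gw 16]), ([0x2000400080006], [gw 17])]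

theorem conj_z {x : M24} (hx : x ∈ stS 0x6fdd ⊓ stP 0) (h1 : x ≠ 1) (h2 : x ^ 2 = 1) :
    ∃ g ∈ stS 0x6fdd ⊓ stP 0, g * x * g⁻¹ = z := by
  obtain ⟨k, hk, h⟩ := exists_conj_into (a := 4) Nat.prime_two (R_le.trans inf_le_left)
    (Subgroup.zpowers_le.2 hx) (by rw [card_range _ _ hf, card0]; decide) (by rw [c0]; decide)
    (isPGroup_zpowers h2)
  obtain ⟨σ, e⟩ := mem_cj.1 (h (Subgroup.mem_zpowers x))
  obtain ⟨w, hw, e2⟩ := enum_of_card hA (ws := L.map Prod.fst) (bs := [26, 24])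
    (by decide +kernel) (by decide +kernel) (card0.trans (by decide)) σ σ.2
  obtain ⟨c, hc, rfl⟩ := List.mem_map.1 hw
  have e3 : el hA hm c.1 = k * x * k⁻¹ := by rw [← e]; exact Subtype.ext (congrArg toG e2.symm)
  have h3 := allL_spec (l := L) (p := fun c => orB (Bool.not (eq24 A (powP c.1 2) []))
    (orB (eq24 A c.1 []) (andB (andB (invB B [c.2] 0x6fdd) (invB B [c.2] 1))
      (conjB A B c.2 c.1 [0x2000400080006])))) (by decide +kernel) c hc
  simp only [orB_eq, andB_eq, Bool.or_eq_true, Bool.and_eq_true, Bool.not_eq_true'] at h3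
  rcases h3 with h3 | h3 | ⟨⟨h3, h4⟩, h5⟩
  · rw [el_pow_iff hA hm, e3, conj_pow, h2] at h3
    exact absurd (by simp) h3
  · have := (eq24_iff hA hm _ _).1 h3
    rw [pp_nil, toG_one] at this
    have h4 : el hA hm c.1 = 1 := Subtype.ext this
    rw [e3, conj_eq_one_iff] at h4
    exact absurd h4 h1
  · refine ⟨el hB mB c.2 * k, Subgroup.mul_mem _ ⟨fixS _ _ h3 _ (List.mem_singleton_self _),
      fixP _ _ (i := 0) (by omega) h4 _ (List.mem_singleton_self _)⟩ hk, ?_⟩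
    have h6 := el_conj hA hm hB mB h5
    rw [e3] at h6
    rw [mul_inv_rev, ← mul_assoc, mul_inv_eq_iff_eq_mul]
    exact (by group : _ = _).trans h6


/-- Involution centralisers in the smallest Mathieu group are isomorphic to GL(2, 3). -/
theorem result (d : Finset Cfsg.GolayPt) (hd : d ∈ Cfsg.dodecads) (p : Cfsg.GolayPt) (hp : p ∈ d) (x : ↥(MulAction.stabilizer Cfsg.M24 d ⊓ MulAction.stabilizer Cfsg.M24 p)) (hx : orderOf x = 2) : Nonempty (↥(Subgroup.centralizer ({x} : Set ↥(MulAction.stabilizer Cfsg.M24 d ⊓ MulAction.stabilizer Cfsg.M24 p))) ≃* GL (Fin 2) (ZMod 3)) := by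
  obtain ⟨k, hk, rfl, rfl⟩ := SB.std_dod_in hd hp
  have hc : ∀ g : M24, (⟨k, hk⟩ : M24) * g * (⟨k, hk⟩ : M24)⁻¹ ∈ stabilizer M24 (k • SB.X 3083) ⊓
      stabilizer M24 (k (pt 0)) ↔ g ∈ stS 0x6fdd ⊓ stP 0 := fun g => by
    rw [SB.X_dod0]
    exact and_congr (conj_mem_stab _ g _) (conj_mem_stab _ g _)
  obtain ⟨y, rfl⟩ := (conjEquiv (G := M24) ⟨k, hk⟩ hc).surjective x
  rw [MulEquiv.orderOf_eq] at hx
  obtain ⟨g, hg, e⟩ := conj_z y.2 (fun h => by
    rw [show y = 1 from Subtype.ext h, orderOf_one] at hx; omega)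
    (by rw [← Subgroup.coe_pow, ← hx, pow_orderOf_eq_one]; rfl)
  obtain ⟨φ⟩ := iso
  refine ⟨(centEquiv _ y).symm.trans ((centEquiv (MulAut.conj (⟨g, hg⟩ : ↥(stS 0x6fdd ⊓ stP 0))) y).trans
    ((centSub _).trans ((MulEquiv.subgroupCongr ?_).trans
      ((MonoidHom.ofInjective (toM24_injective hA hm hf)).symm.trans φ))))⟩
  rw [R_eq, ← e]
  rfl

end Cfsg.Agent.S1603
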