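import Cfsg.Statements.S1604
import Cfsg.Agent.Lib.Golay.Util2

set_option autoImplicit false
open scoped Pointwise
open Cfsg

set_option maxRecDepth 100000

namespace Cfsg.Agent.S1604

open Cfsg.Agent.PG Cfsg.Agent.Golay Cfsg.Agent.Golay.SB

theorem cnt (c n : ℕ) (h : cntN 759 (fun i => force (colVal S (Nat.add 2324 i)) fun m =>
    (andB (bit m 0) (andB (bit m 1) (Nat.beq (pc (Nat.land 0x149f m)) c)))) = n)
    {k : Equiv.Perm GolayPt} (hk : k ∈ M24) :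
    {x | x ∈ octads ∧ k (pt 0) ∈ x ∧ k (pt 1) ∈ x ∧ (k • X 2324 ∩ x).card = c}.ncard = n := by
  rw [← h, ← ncard_blk (lo := 2324) (n := 759) octads_eq inj_oct
    (P := fun x => pt 0 ∈ x ∧ pt 1 ∈ x ∧ (X 2324 ∩ x).card = c) (fun m _ _ => by
      simp only [X_oct0, andB_eq, Bool.and_eq_true, card_inter_iff, pt_mem_iff (show 0 < 24 by omega), pt_mem_iff (show 1 < 24 by omega)])]
  exact ncard_eq_smul k fun y => by
    simp only [Set.mem_ofPred_eq, smul_mem_octads hk, apply_mem_smul, card_smul_inter, and_assoc]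

theorem c_orb : andB (fixB A [[0x204020606000400040a000006060202], [0x2060208020404020606020800000006]] [2324, 0, 1])
    (coverB A [[0x204020606000400040a000006060202], [0x2060208020404020606020800000006]] 8 [2324, 2325, 2326, 2327, 2328, 2329, 2334, 2341, 2385, 2453] BOct) = true := by
  decide +kernel

theorem orb {k : Equiv.Perm GolayPt} (hk : k ∈ M24) {x y : Finset GolayPt} (hx : x ∈ octads) (hy : y ∈ octads)
    (a0 : k (pt 0) ∈ x) (a1 : k (pt 1) ∈ x) (b0 : k (pt 0) ∈ y) (b1 : k (pt 1) ∈ y)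
    (e : (k • X 2324 ∩ x).card = (k • X 2324 ∩ y).card) :
    ∃ g : Equiv.Perm GolayPt, g ∈ M24 ∧ g (k (pt 0)) = k (pt 0) ∧ g (k (pt 1)) = k (pt 1) ∧ g • k • X 2324 = k • X 2324 ∧ g • x = y := by
  obtain ⟨x, rfl⟩ := MulAction.surjective k x
  obtain ⟨y, rfl⟩ := MulAction.surjective k y
  simp only [smul_mem_octads hk, apply_mem_smul, card_smul_inter] at *
  obtain ⟨g, hg, h1, h2⟩ := orb_iv octads_eq c_orb (fun l => l.drop 1 = [1, 1]) (by decide +kernel) hx hy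
    (by simp [ivS, card_pt_inter, X_pt 0 (by omega), X_pt 1 (by omega), *]) (by simp [ivS, card_pt_inter, X_pt 0 (by omega), X_pt 1 (by omega), *])
  exact ⟨k * g * k⁻¹, conj_mem_M24 hk hg, conj_pt (by omega) (h1 _ (by simp)), conj_pt (by omega) (h1 _ (by simp)), (conj_smul_iff k g _ _).2 (h1 _ (by simp)), (conj_smul_iff k g _ _).2 h2⟩


/-- A hexad stabiliser in the two-point stabiliser has orbits of sizes 1, 16, 60 on the 77 hexads: the 16 hexads disjoint from it and the 60 meeting it in two points. -/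
theorem result (p q : Cfsg.GolayPt) (hpq : p ≠ q) (o o' o'' : Finset Cfsg.GolayPt) (ho : o ∈ Cfsg.octads) (ho' : o' ∈ Cfsg.octads) (ho'' : o'' ∈ Cfsg.octads) (hp : p ∈ o ∧ p ∈ o' ∧ p ∈ o'') (hq : q ∈ o ∧ q ∈ o' ∧ q ∈ o'') (h : (o ∩ o').card = (o ∩ o'').card) : {x : Finset Cfsg.GolayPt | x ∈ Cfsg.octads ∧ p ∈ x ∧ q ∈ x ∧ (o ∩ x).card = 2}.ncard = 16 ∧ {x : Finset Cfsg.GolayPt | x ∈ Cfsg.octads ∧ p ∈ x ∧ q ∈ x ∧ (o ∩ x).card = 4}.ncard = 60 ∧ ∃ g : Equiv.Perm Cfsg.GolayPt, g ∈ Cfsg.M24 ∧ g p = p ∧ g q = q ∧ g • o = o ∧ g • o' = o'' := by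
  obtain ⟨k, hk, rfl, rfl, rfl⟩ := std_oct_in_in ho hp.1 hq.1 hpq
  exact ⟨cnt 2 _ (by decide +kernel) hk, cnt 4 _ (by decide +kernel) hk, orb hk ho' ho'' hp.2.1 hq.2.1 hp.2.2 hq.2.2 h⟩

end Cfsg.Agent.S1604
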