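import Cfsg.Statements.S1605
import Cfsg.Agent.Lib.Golay.Util2

set_option autoImplicit false
open scoped Pointwise
open Cfsg

set_option maxRecDepth 100000

namespace Cfsg.Agent.S1605

open Cfsg.Agent.PG Cfsg.Agent.Golay Cfsg.Agent.Golay.SB

theorem cnt0 (c n : ℕ) (h : cntN 759 (fun i => force (colVal S (Nat.add 2324 i)) fun m =>
    (andB (bit m 0) (Bool.not (bit m 5)))) = n)
    {k : Equiv.Perm GolayPt} (hk : k ∈ M24) :
    {x | x ∈ octads ∧ k (pt 0) ∈ x ∧ k (pt 5) ∉ x}.ncard = n := by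
  rw [← h, ← ncard_blk (lo := 2324) (n := 759) octads_eq inj_oct
    (P := fun x => pt 0 ∈ x ∧ pt 5 ∉ x) (fun m _ _ => by
      simp only [andB_eq, Bool.and_eq_true, card_inter_iff, pt_mem_iff (show 0 < 24 by omega), pt_notMem_iff (show 5 < 24 by omega)])]
  exact ncard_eq_smul k fun y => by
    simp only [Set.mem_ofPred_eq, smul_mem_octads hk, apply_mem_smul, card_smul_inter, and_assoc]

theorem cnt (c n : ℕ) (h : cntN 759 (fun i => force (colVal S (Nat.add 2324 i)) fun m =>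
    (andB (bit m 0) (andB (Bool.not (bit m 5)) (Nat.beq (pc (Nat.land 0x149f m)) c)))) = n)
    {k : Equiv.Perm GolayPt} (hk : k ∈ M24) :
    {x | (x ∈ octads ∧ k (pt 0) ∈ x ∧ k (pt 5) ∉ x) ∧ (k • X 2324 ∩ x).card = c}.ncard = n := by
  rw [← h, ← ncard_blk (lo := 2324) (n := 759) octads_eq inj_oct
    (P := fun x => pt 0 ∈ x ∧ pt 5 ∉ x ∧ (X 2324 ∩ x).card = c) (fun m _ _ => by
      simp only [X_oct0, andB_eq, Bool.and_eq_true, card_inter_iff, pt_mem_iff (show 0 < 24 by omega), pt_notMem_iff (show 5 < 24 by omega)])]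
  exact ncard_eq_smul k fun y => by
    simp only [Set.mem_ofPred_eq, smul_mem_octads hk, apply_mem_smul, card_smul_inter, and_assoc]

theorem c_orb : andB (fixB A [[0x20a0208020400040408080208000602020a], [0x2000004000000060a0600000800]] [2324, 0, 5])
    (coverB A [[0x20a0208020400040408080208000602020a], [0x2000004000000060a0600000800]] 9 [2324, 2325, 2326, 2329, 2330, 2331, 2334, 2341, 2357, 2453, 2484] BOct) = true := by
  decide +kernel

theorem orb {k : Equiv.Perm GolayPt} (hk : k ∈ M24) {x y : Finset GolayPt} (hx : x ∈ octads) (hy : y ∈ octads)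
    (a0 : k (pt 0) ∈ x) (a1 : k (pt 5) ∉ x) (b0 : k (pt 0) ∈ y) (b1 : k (pt 5) ∉ y)
    (e : (k • X 2324 ∩ x).card = (k • X 2324 ∩ y).card) :
    ∃ g : Equiv.Perm GolayPt, g ∈ M24 ∧ g (k (pt 0)) = k (pt 0) ∧ g (k (pt 5)) = k (pt 5) ∧ g • k • X 2324 = k • X 2324 ∧ g • x = y := by
  obtain ⟨x, rfl⟩ := MulAction.surjective k x
  obtain ⟨y, rfl⟩ := MulAction.surjective k y
  simp only [smul_mem_octads hk, apply_mem_smul, card_smul_inter] at *
  obtain ⟨g, hg, h1, h2⟩ := orb_iv octads_eq c_orb (fun l => l.drop 1 = [1, 0]) (by decide +kernel) hx hy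
    (by simp [ivS, card_pt_inter, X_pt 0 (by omega), X_pt 5 (by omega), *]) (by simp [ivS, card_pt_inter, X_pt 0 (by omega), X_pt 5 (by omega), *])
  exact ⟨k * g * k⁻¹, conj_mem_M24 hk hg, conj_pt (by omega) (h1 _ (by simp)), conj_pt (by omega) (h1 _ (by simp)), (conj_smul_iff k g _ _).2 (h1 _ (by simp)), (conj_smul_iff k g _ _).2 h2⟩


/-- The two-point stabiliser acts on the 176 octads through the first point avoiding the second with rank 3 and subdegrees 1, 70, 105 (intersections 8, 2, 4). -/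
theorem result (p q : Cfsg.GolayPt) (hpq : p ≠ q) : {x : Finset Cfsg.GolayPt | (x ∈ Cfsg.octads ∧ p ∈ x ∧ q ∉ x)}.ncard = 176 ∧ (∀ o o' : Finset Cfsg.GolayPt, (o ∈ Cfsg.octads ∧ p ∈ o ∧ q ∉ o) → (o' ∈ Cfsg.octads ∧ p ∈ o' ∧ q ∉ o') → ∃ g : Equiv.Perm Cfsg.GolayPt, g ∈ Cfsg.M24 ∧ g p = p ∧ g q = q ∧ g • o = o') ∧ ∀ o : Finset Cfsg.GolayPt, (o ∈ Cfsg.octads ∧ p ∈ o ∧ q ∉ o) → {x : Finset Cfsg.GolayPt | (x ∈ Cfsg.octads ∧ p ∈ x ∧ q ∉ x) ∧ (o ∩ x).card = 2}.ncard = 70 ∧ {x : Finset Cfsg.GolayPt | (x ∈ Cfsg.octads ∧ p ∈ x ∧ q ∉ x) ∧ (o ∩ x).card = 4}.ncard = 105 ∧ ∀ o' o'' : Finset Cfsg.GolayPt, (o' ∈ Cfsg.octads ∧ p ∈ o' ∧ q ∉ o') → (o'' ∈ Cfsg.octads ∧ p ∈ o'' ∧ q ∉ o'') → (o ∩ o').card = (o ∩ o'').card → ∃ g : Equiv.Perm Cfsg.GolayPt, g ∈ Cfsg.M24 ∧ g p = p ∧ g q = q ∧ g • o = o ∧ g • o' = o'' := by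
  refine ⟨?_, fun o o' ho ho' => ?_, fun o ho => ?_⟩
  · obtain ⟨k, hk, h⟩ := exists_extend {pt 0, pt 5} (by decide) (fun x => if x = pt 0 then p else q)
      (by
        intro x hx y hy e
        simp only [Finset.coe_insert, Finset.coe_singleton, Set.mem_insert_iff,
          Set.mem_singleton_iff] at hx hy
        have : pt 5 ≠ pt 0 := by decide
        rcases hx with rfl | rfl <;> rcases hy with rfl | rfl <;> simp_all)
    have h0 := h (pt 0) (by simp)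
    have h5 := h (pt 5) (by simp)
    rw [if_pos rfl] at h0
    rw [if_neg (by decide)] at h5
    rw [← h0, ← h5]
    exact cnt0 0 _ (by decide +kernel) hk
  · obtain ⟨k, hk, a1, a2, a3⟩ := std_oct_in_out ho.1 ho.2.1 ho.2.2
    obtain ⟨k', hk', b1, b2, b3⟩ := std_oct_in_out ho'.1 ho'.2.1 ho'.2.2
    refine ⟨k' * k⁻¹, M24.mul_mem hk' (M24.inv_mem hk), ?_, ?_, ?_⟩
    · rw [Equiv.Perm.mul_apply, Equiv.Perm.inv_eq_iff_eq.2 a2.symm, b2]
    · rw [Equiv.Perm.mul_apply, Equiv.Perm.inv_eq_iff_eq.2 a3.symm, b3]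
    · rw [mul_smul, inv_smul_eq_iff.2 a1.symm, b1]
  · obtain ⟨k, hk, rfl, rfl, rfl⟩ := std_oct_in_out ho.1 ho.2.1 ho.2.2
    exact ⟨cnt 2 _ (by decide +kernel) hk, cnt 4 _ (by decide +kernel) hk, fun o' o'' h1 h2 h =>
      orb hk h1.1 h2.1 h1.2.1 h1.2.2 h2.2.1 h2.2.2 h⟩

end Cfsg.Agent.S1605
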