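import Cfsg.Statements.S1606
import Cfsg.Agent.Lib.Golay.Eleven

set_option autoImplicit false
open scoped Pointwise
open Cfsg

set_option maxRecDepth 100000

namespace Cfsg.Agent.S1606

open Cfsg.Agent.PG Cfsg.Agent.Golay MulAction Equiv


/-- The stabiliser of two points in the group of the length-24 code has no subgroups of index 56 or 210. -/
theorem result (p q : Cfsg.GolayPt) (hpq : p ≠ q) (H : Subgroup ↥(MulAction.stabilizer Cfsg.M24 p ⊓ MulAction.stabilizer Cfsg.M24 q)) : H.index ≠ 56 ∧ H.index ≠ 210 := by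
  obtain ⟨k, hk, e1, e2⟩ := exists_two (show pt 0 ≠ pt 23 by decide) hpq
  have h1 : cj ⟨k, hk⟩ (H.map (Subgroup.subtype _)) ≤ stP 0 ⊓ stP 23 := by
    intro g hg
    have h2 := Subgroup.map_subtype_le H (mem_cj.1 hg)
    rw [← e1, ← e2] at h2
    exact ⟨(conj_mem_stab _ g _).1 h2.1, (conj_mem_stab _ g _).1 h2.2⟩
  have h2 : Nat.card (cj ⟨k, hk⟩ (H.map (Subgroup.subtype _))) = Nat.card H := by
    rw [card_cj, Subgroup.card_map_of_injective (Subgroup.subtype_injective _)]
  have hc := H.card_mul_index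
  rw [card_stab_pt2 hpq] at hc
  exact ⟨fun h => Elv.index56 h1 (by rw [h] at hc; omega),
    fun h => Elv.index210 h1 (by rw [h] at hc; omega)⟩

end Cfsg.Agent.S1606
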