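import Cfsg.Statements.S1607
import Cfsg.Agent.Lib.Golay.Util2

set_option autoImplicit false
open scoped Pointwise
open Cfsg

set_option maxRecDepth 100000

namespace Cfsg.Agent.S1607

open Cfsg.Agent.PG Cfsg.Agent.Golay Cfsg.Agent.Golay.SB

theorem cnt (c n : ℕ) (h : cntN 759 (fun i => force (colVal S (Nat.add 2324 i)) fun m =>
    (andB (bit m 0) (Nat.beq (pc (Nat.land 0x149f m)) c))) = n)
    {k : Equiv.Perm GolayPt} (hk : k ∈ M24) :
    {x | x ∈ octads ∧ k (pt 0) ∈ x ∧ (k • X 2324 ∩ x).card = c}.ncard = n := by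
  rw [← h, ← ncard_blk (lo := 2324) (n := 759) octads_eq inj_oct
    (P := fun x => pt 0 ∈ x ∧ (X 2324 ∩ x).card = c) (fun m _ _ => by
      simp only [X_oct0, andB_eq, Bool.and_eq_true, card_inter_iff, pt_mem_iff (show 0 < 24 by omega)])]
  exact ncard_eq_smul k fun y => by
    simp only [Set.mem_ofPred_eq, smul_mem_octads hk, apply_mem_smul, card_smul_inter, and_assoc]

theorem c_orb : andB (fixB A [[0x2020a00060a0206060202020802], [0x20a0004000a04000a06000a]] [2324, 0])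
    (coverB A [[0x2020a00060a0206060202020802], [0x20a0004000a04000a06000a]] 9 [2324, 2325, 2326, 2329, 2334, 2453] BOct) = true := by
  decide +kernel

theorem orb {k : Equiv.Perm GolayPt} (hk : k ∈ M24) {x y : Finset GolayPt} (hx : x ∈ octads) (hy : y ∈ octads)
    (a0 : k (pt 0) ∈ x) (b0 : k (pt 0) ∈ y)
    (e : (k • X 2324 ∩ x).card = (k • X 2324 ∩ y).card) :
    ∃ g : Equiv.Perm GolayPt, g ∈ M24 ∧ g (k (pt 0)) = k (pt 0) ∧ g • k • X 2324 = k • X 2324 ∧ g • x = y := by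
  obtain ⟨x, rfl⟩ := MulAction.surjective k x
  obtain ⟨y, rfl⟩ := MulAction.surjective k y
  simp only [smul_mem_octads hk, apply_mem_smul, card_smul_inter] at *
  obtain ⟨g, hg, h1, h2⟩ := orb_iv octads_eq c_orb (fun l => l.drop 1 = [1]) (by decide +kernel) hx hy
    (by simp [ivS, card_pt_inter, X_pt 0 (by omega), *]) (by simp [ivS, card_pt_inter, X_pt 0 (by omega), *])
  exact ⟨k * g * k⁻¹, conj_mem_M24 hk hg, conj_pt (by omega) (h1 _ (by simp)), (conj_smul_iff k g _ _).2 (h1 _ (by simp)), (conj_smul_iff k g _ _).2 h2⟩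


/-- The point stabiliser acts on the 253 heptads of its S(4, 7, 23) with rank 3 and subdegrees 1, 112, 140 (intersections 8, 2, 4). -/
theorem result (x : Cfsg.GolayPt) (o : Finset Cfsg.GolayPt) (ho : o ∈ Cfsg.octads) (hx : x ∈ o) : {o' : Finset Cfsg.GolayPt | o' ∈ Cfsg.octads ∧ x ∈ o' ∧ (o ∩ o').card = 2}.ncard = 112 ∧ {o' : Finset Cfsg.GolayPt | o' ∈ Cfsg.octads ∧ x ∈ o' ∧ (o ∩ o').card = 4}.ncard = 140 ∧ ∀ o' o'' : Finset Cfsg.GolayPt, o' ∈ Cfsg.octads → o'' ∈ Cfsg.octads → x ∈ o' → x ∈ o'' → (o ∩ o').card = (o ∩ o'').card → ∃ g : Equiv.Perm Cfsg.GolayPt, g ∈ Cfsg.M24 ∧ g x = x ∧ g • o = o ∧ g • o' = o'' := by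
  obtain ⟨k, hk, rfl, rfl⟩ := std_oct_in ho hx
  exact ⟨cnt 2 _ (by decide +kernel) hk, cnt 4 _ (by decide +kernel) hk, fun o' o'' h1 h2 h3 h4 h => orb hk h1 h2 h3 h4 h⟩

end Cfsg.Agent.S1607
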