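import Cfsg.Statements.S1609
import Cfsg.Agent.Lib.Golay.Eleven

set_option autoImplicit false
open scoped Pointwise
open Cfsg

set_option maxRecDepth 100000

namespace Cfsg.Agent.S1609

open Cfsg.Agent.PG Cfsg.Agent.Golay MulAction Equiv

theorem fin {x : GolayPt} {H : Subgroup (stabilizer M24 x)} {s : Finset GolayPt}
    (h : H.map (Subgroup.subtype _) = stabilizer M24 s ⊓ stabilizer M24 x) :
    H = (stabilizer M24 s).subgroupOf (stabilizer M24 x) := by
  rw [← Subgroup.inf_subgroupOf_right, ← h]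
  exact (Subgroup.comap_map_eq_self_of_injective (Subgroup.subtype_injective _) H).symm


/-- Subgroups of index 253 in the Mathieu group of degree 23 are exactly the duad stabilisers and the heptad stabilisers. -/
theorem result (x : Cfsg.GolayPt) (H : Subgroup ↥(MulAction.stabilizer Cfsg.M24 x)) (hH : H.index = 253) : (∃ s : Finset Cfsg.GolayPt, s.card = 2 ∧ x ∉ s ∧ H = (MulAction.stabilizer Cfsg.M24 s).subgroupOf (MulAction.stabilizer Cfsg.M24 x)) ∨ ∃ o ∈ Cfsg.octads, x ∈ o ∧ H = (MulAction.stabilizer Cfsg.M24 o).subgroupOf (MulAction.stabilizer Cfsg.M24 x) := by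
  obtain ⟨k, hk, e1⟩ := exists_extend {pt 0} (by simp) (fun _ => x) (by simp)
  replace e1 : (⟨k, hk⟩ : M24) • pt 0 = x := e1 _ (by simp)
  have h1 : cj ⟨k, hk⟩ (H.map (Subgroup.subtype _)) ≤ stP 0 := by
    intro g hg
    have h2 := Subgroup.map_subtype_le H (mem_cj.1 hg)
    rw [← e1] at h2
    exact (conj_mem_stab _ g _).1 h2
  have hc := H.card_mul_index
  rw [card_stab_pt, hH] at hc
  have h2 : Nat.card (cj ⟨k, hk⟩ (H.map (Subgroup.subtype _))) = 40320 := by
    rw [card_cj, Subgroup.card_map_of_injective (Subgroup.subtype_injective _)]; omega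
  obtain ⟨j, hj, h3⟩ := exists_conj_into (a := 7) Nat.prime_two h1 Odd.T1_le (by rw [h2]; decide)
    (by rw [card_stab_pt]; decide) Odd.T1_p
  have e2 : (⟨k, hk⟩ : M24) • j • pt 0 = x := by rw [mem_stabilizer_iff.1 hj, e1]
  rcases Odd.m23_index253 h3 (cj_le hj h1) (by rw [card_cj, h2]) with h | h
  · have h4 := eq_of_cj_eq₂ (eq_of_cj_eq₂ h)
    rw [e2] at h4
    exact Or.inr ⟨_, (smul_mem_octads hk).2 ((smul_mem_octads j.2).2 octad0),
      e2 ▸ apply_mem_smul.2 (apply_mem_smul.2 (by decide)), fin h4⟩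
  · have h4 := eq_of_cj_eq₂ (eq_of_cj_eq₂ h)
    rw [e2] at h4
    exact Or.inl ⟨_, by rw [Finset.card_smul_finset, Finset.card_smul_finset]; decide,
      e2 ▸ fun h => absurd (apply_mem_smul.1 (apply_mem_smul.1 h)) (by decide), fin h4⟩

end Cfsg.Agent.S1609
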