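import Cfsg.Statements.S1610
import Cfsg.Agent.Lib.Hexa.Basic

set_option autoImplicit false
open Cfsg

set_option maxRecDepth 100000

namespace Cfsg.Agent.S1610

open Cfsg.Agent.Hexa Cfsg.Agent.Spor


/-- The hexacode has 64 words, minimum weight 4, and weight distribution 0^1 4^45 6^18. -/
theorem result (F : Type*) [Field F] [Fintype F] [DecidableEq F] (hF : Fintype.card F = 4) (ω : F) (hω : ω ^ 2 + ω + 1 = 0) : Nat.card ↥(Cfsg.hexacode F ω) = 64 ∧ (∀ x ∈ Cfsg.hexacode F ω, x ≠ 0 → (Finset.univ.filter fun i => x i ≠ 0).card = 4 ∨ (Finset.univ.filter fun i => x i ≠ 0).card = 6) ∧ {x : Fin 6 → F | x ∈ Cfsg.hexacode F ω ∧ (Finset.univ.filter fun i => x i ≠ 0).card = 4}.ncard = 45 ∧ {x : Fin 6 → F | x ∈ Cfsg.hexacode F ω ∧ (Finset.univ.filter fun i => x i ≠ 0).card = 6}.ncard = 18 := by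
  refine ⟨?_, fun x hx' h0 => ?_, (ncard_code hF ω hω (·.card = 4)).trans (by decide +kernel),
    (ncard_code hF ω hω (·.card = 6)).trans (by decide +kernel)⟩
  · have := ncard_code hF ω hω fun _ => True
    simp only [and_true] at this
    exact this.trans (by decide +kernel)
  · obtain ⟨t, rfl⟩ := (mem_iff hF ω hω x).1 hx'
    have key : ∀ t, hx t = 0 ∨ (Finset.univ.filter fun i => hx t i ≠ 0).card = 4 ∨
        (Finset.univ.filter fun i => hx t i ≠ 0).card = 6 := by decide +kernel
    rcases key t with h | h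
    · exact absurd (by rw [h]; funext i; simp) h0
    · simpa using h

end Cfsg.Agent.S1610
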