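import Cfsg.Statements.S1612
import Cfsg.Agent.Lib.Fischer.Rank3
-- import your own Cfsg.Agent.* helpers here

set_option autoImplicit false
open Cfsg

namespace Cfsg.Agent.S1612

open Cfsg.Agent.Lib.Core Subgroup
open scoped Pointwise commutatorElement

open Cfsg.Agent.Lib.Fischer

/-- In a 3-transposition group (no solvable normal subgroup, perfect derived group), the normaliser of a commuting set of transpositions of maximum size contains a Sylow 2-subgroup and is doubly transitive on the set. -/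
theorem result {G : Type*} [Group G] [Finite G] (hsol : ∀ N : Subgroup G, N.Normal → Group.IsSolvable ↥N → N = ⊥) (hperf : ⁅commutator G, commutator G⁆ = commutator G) {D : Set G} (hD : Cfsg.IsThreeTranspositionClass D) {E : Set G} (hE : E ⊆ D) (hc : ∀ a ∈ E, ∀ b ∈ E, Commute a b) (hmax : ∀ E' : Set G, E' ⊆ D → (∀ a ∈ E', ∀ b ∈ E', Commute a b) → E'.ncard ≤ E.ncard) : (∃ P : Sylow 2 G, (P : Subgroup G) ≤ Subgroup.normalizer E) ∧ ∀ a ∈ E, ∀ b ∈ E, ∀ c ∈ E, ∀ d ∈ E, a ≠ b → c ≠ d → ∃ g ∈ Subgroup.normalizer E, g * a * g⁻¹ = c ∧ g * b * g⁻¹ = d := by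
  have hF := Fi.of_hsol hD hsol hperf
  have : Fact (Nat.Prime 2) := ⟨Nat.prime_two⟩
  have hnorm : ∀ g, (∀ x ∈ E, cj g x ∈ E) → g ∈ Subgroup.normalizer E := fun g hg =>
    Subgroup.mem_normalizer_fintype hg
  constructor
  · obtain ⟨P, hP⟩ := (hF.isPGroup_closure hE hc).exists_le_sylow
    refine ⟨P, fun g hg => hnorm g fun x hx => ?_⟩
    have h1 := hF.eq_of_mem_pgroup hE hmax hE le_rfl P.isPGroup'
      (fun y hy => hP (subset_closure hy))
    rw [h1] at hx ⊢
    exact ⟨cj_mem_D hD hx.1 g, cj_mem hg hx.2⟩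
  · intro a ha b hb c hc1 d hd hab hcd
    obtain ⟨g, h1, h2⟩ := hF.pair_perp (hE ha) ⟨hE hb, hab.symm, hc a ha b hb⟩ (hE hc1)
      ⟨hE hd, hcd.symm, hc c hc1 d hd⟩
    have hE' : cj g '' E ⊆ D := by
      rintro _ ⟨x, hx, rfl⟩
      exact cj_mem_D hD (hE hx) g
    have hc' : ∀ a ∈ cj g '' E, ∀ b ∈ cj g '' E, Commute a b := by
      rintro _ ⟨x, hx, rfl⟩ _ ⟨y, hy, rfl⟩
      exact commute_cj.mpr (hc x hx y hy)
    obtain ⟨Q1, hQ1, h3⟩ := exists_isSyl_ge (H := centralizer {c, d}) (hF.isPGroup_closure hE hc) (by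
      rw [closure_le]
      rintro x hx y (rfl | rfl)
      exacts [hc _ hc1 x hx, hc _ hd x hx])
    obtain ⟨k, hk, h4⟩ := hQ1.exists_conj_le (hF.isPGroup_closure hE' hc') (by
      rw [closure_le]
      rintro x hx y (rfl | rfl)
      exacts [hc' _ ⟨a, ha, h1⟩ x hx, hc' _ ⟨b, hb, h2⟩ x hx])
    have h5 := hF.eq_of_mem_pgroup hE hmax hE le_rfl hQ1.isPGroup
      (fun y hy => h3 (subset_closure hy))
    refine ⟨k * g, hnorm _ fun x hx => ?_, ?_, ?_⟩
    · rw [h5]
      refine ⟨cj_mem_D hD (hE hx) _, ?_⟩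
      rw [cj_mul]
      exact map_conj_le_iff.mp h4 _ (subset_closure ⟨x, hx, rfl⟩)
    · rw [← cj_def, cj_mul, h1]
      exact cj_of_commute (hk c (Or.inl rfl)).symm
    · rw [← cj_def, cj_mul, h2]
      exact cj_of_commute (hk d (Or.inr rfl)).symm

end Cfsg.Agent.S1612
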