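import Cfsg.Statements.S1614
import Cfsg.Agent.Lib.Fischer.Solv
import Cfsg.Agent.S1615
-- import your own Cfsg.Agent.* helpers here

set_option autoImplicit false
open Cfsg

namespace Cfsg.Agent.S1614

open Cfsg.Agent.Lib.Core Subgroup
open scoped Pointwise commutatorElement

open Cfsg.Agent.Lib.Fischer Cfsg.Agent.Spor

/-- If the commuting transpositions of one transposition generate a solvable group, a Fischer 3-transposition group is S5, S6, PSU(4, 2) or PSU(5, 2). -/
theorem result {G : Type*} [Group G] [Finite G] (hsol : ∀ N : Subgroup G, N.Normal → Group.IsSolvable ↥N → N = ⊥) (hperf : ⁅commutator G, commutator G⁆ = commutator G) {D : Set G} (hD : Cfsg.IsThreeTranspositionClass D) (x : G) (hx : x ∈ D) (hs : Group.IsSolvable ↥(Subgroup.closure {y : G | y ∈ D ∧ y ≠ x ∧ Commute x y})) : Nonempty (G ≃* Equiv.Perm (Fin 5)) ∨ Nonempty (G ≃* Equiv.Perm (Fin 6)) ∨ ∃ (F : Type) (_ : Field F) (_ : Fintype F), Fintype.card F = 4 ∧ (Nonempty (G ≃* Cfsg.PSU 4 F 2) ∨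 Nonempty (G ≃* Cfsg.PSU 5 F 2)) := by
  have hF := Fi.of_hsol hD hsol hperf
  have hZ := center_eq_bot_of_hsol hsol
  change Group.IsSolvable (closure (perp D x)) at hs
  by_cases h1 : pPrimeCore 2 (closure (perp D x)) ≤ center _
  swap
  · exact Or.inl (S1615.result hsol hperf hD x hx h1)
  by_cases h2 : pCore 2 (closure (perp D x)) ≤ center _
  · exfalso
    obtain ⟨u, hu, hux, hxu⟩ := hF.exists_perp hx
    obtain ⟨w, hw, k1, k2⟩ := hF.exists_comm_nc hu hx hux
    exact k2 (congrArg Subtype.val (comm_of_cores_central hs h1 h2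
      ⟨w, subset_closure ⟨hw, fun e => k2 (e ▸ hxu), k1.symm⟩⟩ ⟨u, subset_closure ⟨hu, hux, hxu⟩⟩))
  have hT : Thick D := hF.thick_of hx pCore_isPGroup h2
  rcases hF.thin_or_base hT hZ with h3 | ⟨y, b, hB⟩
  · exact Or.inr (Or.inl (hF.six_of_thin hT h3 hZ hx hs))
  · exact Or.inr (Or.inr ⟨F4, inferInstance, inferInstance, F4.card_eq,
      hB.le_five (isSolvable_perp hD hx hB.hx hs)⟩)

end Cfsg.Agent.S1614
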