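import Cfsg.Statements.S1617
import Cfsg.Agent.FT.Main
import Cfsg.Agent.FT.Cons.PT4

set_option autoImplicit false
open Cfsg

namespace Cfsg.Agent.S1617

open Subgroup Cfsg.Agent.FT Cfsg.Agent.FT.Cons Cfsg.Agent.Lib.Invol

theorem key {G : Type*} [Group G] [Finite G] {D : Set G} (hinv : ∀ d ∈ D, orderOf d = 2)
    (hc : ∀ d ∈ D, ∀ g, g * d * g⁻¹ ∈ D) {x y z : G} (hx : x ∈ D) (hy : y ∈ D) (hz : z ∈ D)
    (H : ∀ a ∈ D, ∀ b ∈ D, orderOf (a * b) = 1 ∨ orderOf (a * b) = orderOf (x * y) ∨ orderOf (a * b) = orderOf (x * z))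
    {j : ℕ} (h2 : orderOf (x * y) = 2 ^ (j + 1)) (hn : ∀ j, orderOf (x * z) ≠ 2 ^ j)
    (hcls : ∀ a ∈ D, ∀ b ∈ D, IsConj a b) (hgen : closure D = ⊤)
    (O2 : ∀ N : Subgroup G, N.Normal → IsPGroup 2 N → N = ⊥) :
    ∀ d ∈ D, ∀ e ∈ D, (d * e) ^ 2 = 1 ∨ (d * e) ^ 3 = 1 := by
  have sq := fun d hd => mul_self_of_orderOf_two (hinv d hd)
  have H2 : ∀ w ∈ D, ∀ i : ℕ, orderOf (((x * w) ^ i) ^ 2) = 1 ∨ orderOf (((x * w) ^ i) ^ 2) = orderOf (x * y) ∨
      orderOf (((x * w) ^ i) ^ 2) = orderOf (x * z) := fun w hw i => by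
    have := H x hx _ (hc x hx (x * (x * w) ^ (i : ℤ)))
    rw [mul_zpow_conj_of_inverts (sq x hx) (conj_mul_eq_inv (sq x hx) (sq w hw)), ← mul_assoc, sq x hx, one_mul,
      mul_comm, zpow_mul] at this
    exact_mod_cast this
  have hm : orderOf (x * y) = 2 := by
    have := H2 y hy 1
    rw [pow_one, orderOf_pow_of_dvd two_ne_zero (h2 ▸ dvd_pow_self 2 j.succ_ne_zero), h2, pow_succ,
      Nat.mul_div_cancel _ two_pos] at this
    rcases this with h | h | h
    · rw [h2, pow_succ, h, one_mul]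
    · have := Nat.two_pow_pos j; omega
    · exact absurd h.symm (hn j)
  have h0 := (orderOf_pos (x * z)).ne'
  have hodd : ¬ 2 ∣ orderOf (x * z) := fun hd => by
    have := H2 z hz 1
    rw [pow_one, orderOf_pow_of_dvd two_ne_zero hd, hm] at this
    have := hn 1
    have := hn 2
    omega
  have hq := Nat.minFac_prime (n := orderOf (x * z)) (hn 0)
  have hp : (orderOf (x * z)).Prime := by
    have := H2 z hz (orderOf (x * z) / (orderOf (x * z)).minFac)
    have e := orderOf_pow_orderOf_div h0 (Nat.minFac_dvd _)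
    have h3 : (orderOf (x * z)).minFac ≠ 2 := fun h => hodd (h ▸ Nat.minFac_dvd _)
    rw [Nat.Coprime.orderOf_pow (by rw [e]; exact (Nat.coprime_primes hq Nat.prime_two).mpr h3), e, hm] at this
    rcases this with h | h | h
    exacts [absurd h hq.ne_one, absurd h h3, h ▸ hq]
  by_cases h3 : orderOf (x * z) = 3
  · intro d hd e he
    rcases H d hd e he with h | h | h
    · exact Or.inl (by rw [orderOf_eq_one_iff.mp h, one_pow])
    · exact Or.inl (by rw [← hm, ← h, pow_orderOf_eq_one])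
    · exact Or.inr (by rw [← h3, ← h, pow_orderOf_eq_one])
  have hcomm : ∀ d ∈ D, ∀ e ∈ D, (d * e) ^ 2 = 1 → Commute d e := fun d hd e he h => by
    have := inv_eq_of_mul_eq_one_right (by rwa [pow_two] at h)
    rw [mul_inv_rev, inv_eq_of_orderOf_two (hinv d hd), inv_eq_of_orderOf_two (hinv e he)] at this
    exact this.symm
  have hPT : PT (orderOf (x * z)) D := ⟨hp, hp.five_le_of_ne_two_of_ne_three (fun h => hodd (h ▸ dvd_rfl)) h3,
    hinv _, hc _, fun {d e} hd he => by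
      rcases H d hd e he with h | h | h
      · exact Or.inl (hcomm d hd e he (by rw [orderOf_eq_one_iff.mp h, one_pow]))
      · exact Or.inl (hcomm d hd e he (by rw [← hm, ← h, pow_orderOf_eq_one]))
      · exact Or.inr h⟩
  have := hPT.no_comm hcls hgen O2 hx hy (hcomm x hx y hy (by rw [← hm, pow_orderOf_eq_one]))
  rw [← this, sq x hx] at hm
  simp at hm

/-- A generating conjugacy class of involutions on which the group (with trivial solvable radical) acts with rank 3 is a class of 3-transpositions. -/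
theorem result {G : Type*} [Group G] [Finite G] (hsol : ∀ N : Subgroup G, N.Normal → Group.IsSolvable ↥N → N = ⊥) {D : Set G} (hinv : ∀ d ∈ D, orderOf d = 2) (hconj : ∃ d ∈ D, D = conjugatesOf d) (hgen : Subgroup.closure D = ⊤) (hrank : ∀ x ∈ D, ∃ y ∈ D, ∃ z ∈ D, {w : G | ∃ g : G, Commute g x ∧ g * y * g⁻¹ = w} ≠ {w : G | ∃ g : G, Commute g x ∧ g * x * g⁻¹ = w} ∧ {w : G | ∃ g : G, Commute g x ∧ g * z * g⁻¹ = w} ≠ {w : G | ∃ g : G, Commute g x ∧ g * x * g⁻¹ = w} ∧ {w : G | ∃ g : G, Commute g x ∧ g * y * g⁻¹ = w} ≠ {w : G | ∃ g : G, Commute g x ∧ g * z * g⁻¹ = w} ∧ D = {w : G | ∃ g : G, Commute g x ∧ g * x * g⁻¹ = w} ∪ {w : G | ∃ g : G, Commute g x ∧ g * y * g⁻¹ = w} ∪ {w : G | ∃ g : G, Commute g x ∧ g * z * g⁻¹ = w}) : Cfsg.IsThreeTranspositionClass D := by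
  refine ⟨⟨hinv, ?_⟩, hconj, hgen⟩
  obtain ⟨x, hx, hD⟩ := hconj
  obtain ⟨y, hy, z, hz, -, -, -, hU⟩ := hrank x hx
  have hm : ∀ a, a ∈ D ↔ IsConj x a := fun a => by rw [hD]; rfl
  have hc : ∀ d ∈ D, ∀ g, g * d * g⁻¹ ∈ D := fun d hd g =>
    (hm _).mpr (((hm d).mp hd).trans (isConj_iff.mpr ⟨g, rfl⟩))
  have sq := fun d hd => mul_self_of_orderOf_two (hinv d hd)
  have H : ∀ a ∈ D, ∀ b ∈ D, orderOf (a * b) = 1 ∨ orderOf (a * b) = orderOf (x * y) ∨
      orderOf (a * b) = orderOf (x * z) := fun a ha b hb => by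
    obtain ⟨g, rfl⟩ := isConj_iff.mp ((hm a).mp ha)
    have e : ∀ w k, Commute k x → k * w * k⁻¹ = g⁻¹ * b * g⁻¹⁻¹ → orderOf (g * x * g⁻¹ * b) = orderOf (x * w) :=
      fun w k hk e => by
        rw [← orderOf_conj' (g * k) (x * w), show g * k * (x * w) * (g * k)⁻¹ = g * (k * x) * k⁻¹ * (k * w * k⁻¹) * g⁻¹ by
          group, e, hk.eq]
        congr 1; group
    have := hc b hb g⁻¹
    rw [hU] at this
    rcases this with (⟨k, hk, h⟩ | ⟨k, hk, h⟩) | ⟨k, hk, h⟩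
    · exact Or.inl (by rw [e x k hk h, sq x hx, orderOf_one])
    · exact Or.inr (Or.inl (e y k hk h))
    · exact Or.inr (Or.inr (e z k hk h))
  have O2 : ∀ N : Subgroup G, N.Normal → IsPGroup 2 N → N = ⊥ := fun N hN h =>
    hsol N hN (isSolvable_of_isNilpotent h.isNilpotent)
  have hcls : ∀ a ∈ D, ∀ b ∈ D, IsConj a b := fun a ha b hb => ((hm a).mp ha).symm.trans ((hm b).mp hb)
  have h1 : ∃ b ∈ D, ∃ j, orderOf (x * b) = 2 ^ (j + 1) := by
    obtain ⟨P, hP⟩ := exists_sylow_mem_of_involution (hinv x hx)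
    by_contra hn
    obtain ⟨N, hN, hodd, hZ⟩ := Lib.Char.zstar_of_sylow P (hinv x hx) fun g hg => by
      obtain ⟨k, hk⟩ := Lib.Core.pow_eq_one_of_isPGroup P.isPGroup' (mul_mem hP hg)
      obtain ⟨j, -, hj⟩ := (Nat.dvd_prime_pow Nat.prime_two).mp (orderOf_dvd_of_pow_eq_one hk)
      rcases j with _ | j
      · rw [pow_zero, orderOf_eq_one_iff] at hj
        rw [← inv_eq_of_mul_eq_one_right hj, inv_eq_of_orderOf_two (hinv x hx)]
      · exact absurd ⟨_, hc x hx g, j, hj⟩ hn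
    rw [hsol N hN (feit_thompson N hodd)] at hZ
    have : x ∈ center G := mem_center_iff.mpr fun g => by
      have := mem_bot.mp (hZ g)
      rw [mul_inv_eq_one, mul_inv_eq_iff_eq_mul] at this
      exact this.symm
    rw [hsol (center G) inferInstance (isSolvable_of_isComm inferInstance), mem_bot] at this
    exact ne_one_of_orderOf_two (hinv x hx) this
  have h2 : ¬ ((∃ j, orderOf (x * y) = 2 ^ j) ∧ ∃ j, orderOf (x * z) = 2 ^ j) := by
    rintro ⟨⟨i, hi⟩, j, hj⟩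
    obtain ⟨N, hN, h2, hm⟩ := baer_suzuki_elt (p := 2) x fun g => by
      rcases H x hx _ (hc x hx g) with h | h | h
      · exact isPGroup_closure_pair (sq x hx) (sq _ (hc x hx g)) (k := 0) (by rw [pow_zero, ← h, pow_orderOf_eq_one])
      · exact isPGroup_closure_pair (sq x hx) (sq _ (hc x hx g)) (k := i) (by rw [← hi, ← h, pow_orderOf_eq_one])
      · exact isPGroup_closure_pair (sq x hx) (sq _ (hc x hx g)) (k := j) (by rw [← hj, ← h, pow_orderOf_eq_one])
    rw [O2 N hN h2, mem_bot] at hm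
    exact ne_one_of_orderOf_two (hinv x hx) hm
  obtain ⟨b, hb, j, hj⟩ := h1
  rcases H x hx b hb with h | h | h
  · have := Nat.two_pow_pos j; omega
  · exact key hinv hc hx hy hz H (h ▸ hj) (fun i hi => h2 ⟨⟨_, h ▸ hj⟩, i, hi⟩) hcls hgen O2
  · exact key hinv hc hx hz hy (fun a ha b hb => (H a ha b hb).imp_right Or.symm) (h ▸ hj)
      (fun i hi => h2 ⟨⟨i, hi⟩, _, h ▸ hj⟩) hcls hgen O2

end Cfsg.Agent.S1617
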