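import Cfsg.Statements.S1620
import Cfsg.Agent.Lib.Spor.J2.Fin

set_option autoImplicit false
open Quaternion
open Cfsg

namespace Cfsg.Agent.S1620

/-- The Hall–Janko group is simple and non-abelian. -/
theorem result : IsSimpleGroup Cfsg.Spor.J2 ∧ ∃ a b : Cfsg.Spor.J2, a * b ≠ b * a := by
  have := Spor.Ico.simple_J2
  have : Finite Cfsg.Spor.J2 := Nat.finite_of_card_ne_zero (by rw [Spor.Ico.card_J2]; norm_num)
  exact ⟨‹_›, Spor.not_comm_of_simple (by rw [Spor.Ico.card_J2]; norm_num)⟩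

end Cfsg.Agent.S1620
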