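import Cfsg.Statements.S1626
import Cfsg.Agent.Lib.Spor.J3c.Orb

set_option autoImplicit false
open scoped MatrixGroups
open Matrix
open Cfsg

namespace Cfsg.Agent.S1626

/-- Orbits of the triple cover of the third Janko group on lines of its 9-space over the field with 4 elements: the line through the first basis vector has exactly 23256 images, and the isotropic lines (nonzero v with Σ v_z³ = 0) form a single orbit. -/
theorem result (F : Type) [Field F] [Fintype F] (hF : Fintype.card F = 4) (ω : F) (hω : ω ^ 2 + ω + 1 = 0) : {L : Submodule F (Cfsg.Spor.F9 → F) | ∃ g ∈ Cfsg.Spor.threeJ3 F ω, L = F ∙ ((g : Matrix Cfsg.Spor.F9 Cfsg.Spor.F9 F) *ᵥ (Pi.single (0 : Cfsg.Spor.F9) (1 : F) : Cfsg.Spor.F9 → F))}.ncard = 23256 ∧ ∀ v w : Cfsg.Spor.F9 → F, v ≠ 0 → w ≠ 0 → ∑ z, (v z) ^ 3 = 0 → ∑ z, (w z) ^ 3 = 0 → ∃ g ∈ Cfsg.Spor.threeJ3 F ω, ∃ c : F, c ≠ 0 ∧ (g : Matrix Cfsg.Spor.F9 Cfsg.Spor.F9 F) *ᵥ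 v = c • w := by
  open Cfsg.Agent.Spor Cfsg.Agent.Spor.J3c Cfsg.Spor in
  let f := F4.equiv hF ω hω
  open Cfsg.Agent.Spor Cfsg.Agent.Spor.J3c Cfsg.Spor in
  have hi : Function.Injective fun u : F9 → F4 => f ∘ u := f.injective.comp_left
  open Cfsg.Agent.Spor Cfsg.Agent.Spor.J3c Cfsg.Spor in
  constructor
  · open Cfsg.Agent.Spor Cfsg.Agent.Spor.J3c Cfsg.Spor in
    have e : (Pi.single 0 1 : F9 → F) = f ∘ (Pi.single 0 1 : F9 → F4) := by
      ext z; simp [Pi.single_apply, apply_ite f]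
    open Cfsg.Agent.Spor Cfsg.Agent.Spor.J3c Cfsg.Spor in
    have h := ncard_lines (F := F) (T := {u | ∃ g ∈ threeJ3 F (f F4.w),
        u = (g : Matrix F9 F9 F) *ᵥ (f ∘ (Pi.single 0 1 : F9 → F4))}) (by
      rintro ⟨g, -, h⟩
      have := congrArg ((g⁻¹ : GL F9 F).1 *ᵥ ·) h
      simp only [mulVec_zero, mulVec_mulVec, Units.inv_mul, one_mulVec] at this
      simpa using congrFun this 0) (by
      rw [orb_map]
      rintro _ ⟨u, hu, rfl⟩ c hc
      exact ⟨_, orb_smul hu (c := f.symm c) (by simpa using hc), by ext z; simp⟩)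
    open Cfsg.Agent.Spor Cfsg.Agent.Spor.J3c Cfsg.Spor in
    rw [Nat.card_units, Nat.card_eq_fintype_card, hF, orb_map, Set.ncard_image_of_injective _ hi,
      card_orb, ← orb_map, ← e] at h
    refine Nat.eq_of_mul_eq_mul_right (m := 4 - 1) (by norm_num) (Eq.trans ?_ (h.symm.trans rfl))
    congr 2
    ext L
    exact ⟨fun ⟨g, h1, h2⟩ => ⟨_, ⟨g, h1, rfl⟩, h2⟩, fun ⟨_, ⟨g, h1, rfl⟩, h2⟩ => ⟨g, h1, h2⟩⟩
  · open Cfsg.Agent.Spor Cfsg.Agent.Spor.J3c Cfsg.Spor in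
    have h : ∀ v : F9 → F, v ≠ 0 → ∑ z, v z ^ 3 = 0 →
        ∃ g ∈ threeJ3 F ω, v = (g : Matrix F9 F9 F) *ᵥ (f ∘ vecAt W 5) := fun v h0 h1 =>
      (orb_map f _).ge ⟨f.symm ∘ v, iso_orb (fun e => h0 (by
        ext z; simpa using congrFun e z)) (f.injective (by simpa using h1)), by ext z; simp⟩
    intro v w a b c d
    obtain ⟨g, h1, rfl⟩ := h v a c
    obtain ⟨g', h2, rfl⟩ := h w b d
    refine ⟨g' * g⁻¹, mul_mem h2 (inv_mem h1), 1, one_ne_zero, ?_⟩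
    rw [mulVec_mulVec, ← Units.val_mul, inv_mul_cancel_right, one_smul]

end Cfsg.Agent.S1626
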