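import Cfsg.Statements.S1633
import Cfsg.Agent.Lib.Spor.LU35.Iso

set_option autoImplicit false
open Cfsg

namespace Cfsg.Agent.S1633

open Cfsg.Agent.Leech Cfsg.Agent.Leech.L3 MulAction

/-- The Higman–Sims group acts transitively on 352 vectors, a set closed under x ↦ −w − x, with vector stabiliser isomorphic to PSU(3, 5). -/
theorem result (v w : ↥Cfsg.leechLattice) (hv : Cfsg.sqNorm (v : Cfsg.GolayPt → ℤ) = 48) (hw : Cfsg.sqNorm (w : Cfsg.GolayPt → ℤ) = 48) (hvw : Cfsg.dotInt (v : Cfsg.GolayPt → ℤ) (w : Cfsg.GolayPt → ℤ) = -32) (F : Type) [Field F] [Fintype F] (hF : Fintype.card F = 25) : {x : ↥Cfsg.leechLattice | Cfsg.sqNorm (x : Cfsg.GolayPt → ℤ) = 32 ∧ Cfsg.dotInt (v : Cfsg.GolayPt → ℤ) (x : Cfsg.GolayPt → ℤ) = 16 ∧ Cfsg.dotInt (w : Cfsg.GolayPt → ℤ) (x : Cfsg.GolayPt → ℤ) = -24}.ncard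 = 352 ∧ (∀ x ∈ {x : ↥Cfsg.leechLattice | Cfsg.sqNorm (x : Cfsg.GolayPt → ℤ) = 32 ∧ Cfsg.dotInt (v : Cfsg.GolayPt → ℤ) (x : Cfsg.GolayPt → ℤ) = 16 ∧ Cfsg.dotInt (w : Cfsg.GolayPt → ℤ) (x : Cfsg.GolayPt → ℤ) = -24}, -w - x ∈ {x : ↥Cfsg.leechLattice | Cfsg.sqNorm (x : Cfsg.GolayPt → ℤ) = 32 ∧ Cfsg.dotInt (v : Cfsg.GolayPt → ℤ) (x : Cfsg.GolayPt → ℤ) = 16 ∧ Cfsg.dotInt (w : Cfsg.GolayPt → ℤ) (x : Cfsg.GolayPt → ℤ) = -24}) ∧ (∀ x ∈ {x : ↥Cfsg.leechLattice | Cfsg.sqNorm (x : Cfsg.GolayPt → ℤ) = 32 ∧ Cfsg.dotInt (v : Cfsg.GolayPt → ℤ) (x : Cfsg.GolayPt → ℤ) = 16 ∧ Cfsg.dotInt (w : Cfsg.GolayPt → ℤ) (x : Cfsg.GolayPt → ℤ) = -24}, ∀ x' ∈ {x : ↥Cfsg.leechLattice | Cfsg.sqNorm (x : Cfsg.GolayPt → ℤ) = 32 ∧ Cfsg.dotInt (v : Cfsg.GolayPt → ℤ) (x : Cfsg.GolayPt → ℤ) = 16 ∧ Cfsg.dotInt (w : Cfsg.GolayPt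 → ℤ) (x : Cfsg.GolayPt → ℤ) = -24}, ∃ g : ↥Cfsg.Co0, g • v = v ∧ g • w = w ∧ g • x = x') ∧ ∀ x ∈ {x : ↥Cfsg.leechLattice | Cfsg.sqNorm (x : Cfsg.GolayPt → ℤ) = 32 ∧ Cfsg.dotInt (v : Cfsg.GolayPt → ℤ) (x : Cfsg.GolayPt → ℤ) = 16 ∧ Cfsg.dotInt (w : Cfsg.GolayPt → ℤ) (x : Cfsg.GolayPt → ℤ) = -24}, Nonempty (↥(MulAction.stabilizer ↥Cfsg.Co0 v ⊓ MulAction.stabilizer ↥Cfsg.Co0 w ⊓ MulAction.stabilizer ↥Cfsg.Co0 x) ≃* Cfsg.PSU 3 F 5) := by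
  refine (and_left_comm.1 ⟨fun x hx => ⟨?_, ?_, ?_⟩, ?_⟩)
  · simp only [AddSubgroup.coe_sub, AddSubgroup.coe_neg, sqNorm_sub, sqNorm_neg, dot_neg_left,
      hw, hx.1, hx.2.2]; rfl
  · simp only [AddSubgroup.coe_sub, AddSubgroup.coe_neg, dot_sub_right, dot_neg_right, hvw,
      hx.2.1]; rfl
  · simp only [AddSubgroup.coe_sub, AddSubgroup.coe_neg, dot_sub_right, dot_neg_right,
      ← sqNorm_eq_dot, hw, hx.2.2]; rfl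
  rw [set_add v w 16 (-24) (-8) rfl]
  have hs := hs_std' hv hw hvw
  refine ⟨?_, fun x hx x' hx' => ?_, fun x hx => ?_⟩
  · obtain ⟨k, a1, a2⟩ := hs
    rw [← a2, ← a1]
    exact (ncard_FL2 ..).trans cnt352
  · obtain ⟨k, a1, a2⟩ := hs
    rw [← a2] at hx hx'; subst a1
    obtain ⟨g, h1, h2⟩ := trans_std tr352 k hx hx'
    exact ⟨g, h1 _ (by simp), fix_of_add (h1 _ (by simp)) (a2 ▸ h1 _ (by simp)), h2⟩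
  · obtain ⟨k, a1, a2, rfl⟩ := std3 tr352 hs hx
    have : stabilizer Co0 v ⊓ stabilizer Co0 w = stabilizer Co0 v ⊓ stabilizer Co0 (v + w) :=
      Subgroup.ext fun g => ⟨fun h => ⟨h.1, (co_add g v w).trans (congrArg₂ _ h.1 h.2)⟩,
        fun h => ⟨h.1, fix_of_add h.1 h.2⟩⟩
    rw [this, ← a2, ← a1]
    exact Spor.LU35.main hF k

end Cfsg.Agent.S1633
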