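import Cfsg.Statements.S1634
import Cfsg.Agent.Lib.Leech.Conf

set_option autoImplicit false
open Cfsg

set_option maxRecDepth 100000

namespace Cfsg.Agent.S1634

open Cfsg.Agent.Leech Cfsg.Agent.Leech.L3 MulAction
open Cfsg.Agent.Leech.M (U W8 u0 nU nW8 nu0 sum_std trans48 sub_iff pair_std trW8 u0_eq)

theorem orb {w c : L} {k : Co0} {a : ℤ} (hk : k • mkL u0 = k • mkL U + w)
    (h : ∀ x ∈ FL [(mkL u0, 16), (mkL U, 0), (mkL x1, a)],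
      ∃ g : Co0, (∀ b ∈ [mkL u0, mkL U, mkL x1], g • b = b) ∧ g • c = x)
    (hc : c ∈ FL [(mkL u0, 16), (mkL U, 0), (mkL x1, a)]) :
    (orbit ↥(stabilizer Co0 (k • mkL U) ⊓ stabilizer Co0 w ⊓ stabilizer Co0 (k • mkL x1))
      (k • c)).ncard = (FL [(mkL u0, 16), (mkL U, 0), (mkL x1, a)]).ncard := by
  rw [orbit_std h hc k (H := stabilizer Co0 _ ⊓ stabilizer Co0 w ⊓ stabilizer Co0 _)
      (fun g hg => ⟨⟨hg _ (by simp),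
      fix_of_add (hg (mkL U) (by simp)) (hk ▸ hg _ (by simp))⟩, hg _ (by simp)⟩) fun g hg => by
    simp only [List.forall_mem_cons, hk, co_add]
    exact ⟨by rw [mem_stabilizer_iff.1 hg.1.1, mem_stabilizer_iff.1 hg.1.2], hg.1.1, hg.2,
      by simp⟩, ncard_FL_map]


/-- The McLaughlin group acts on 2025 points (minimal vectors orthogonal to v with customary inner product 2 with w) transitively with rank 4 and subdegrees 1, 330, 462, 1232. -/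
theorem result (v w : ↥Cfsg.leechLattice) (hv : Cfsg.sqNorm (v : Cfsg.GolayPt → ℤ) = 32) (hw : Cfsg.sqNorm (w : Cfsg.GolayPt → ℤ) = 32) (hvw : Cfsg.dotInt (v : Cfsg.GolayPt → ℤ) (w : Cfsg.GolayPt → ℤ) = -8) : {x : ↥Cfsg.leechLattice | Cfsg.sqNorm (x : Cfsg.GolayPt → ℤ) = 32 ∧ Cfsg.dotInt (v : Cfsg.GolayPt → ℤ) (x : Cfsg.GolayPt → ℤ) = 0 ∧ Cfsg.dotInt (w : Cfsg.GolayPt → ℤ) (x : Cfsg.GolayPt → ℤ) = 16}.ncard = 2025 ∧ (∀ x ∈ {x : ↥Cfsg.leechLattice | Cfsg.sqNorm (x : Cfsg.GolayPt → ℤ) = 32 ∧ Cfsg.dotInt (v : Cfsg.GolayPt → ℤ) (x : Cfsg.GolayPt → ℤ) = 0 ∧ Cfsg.dotInt (w : Cfsg.GolayPt → ℤ) (x : Cfsg.GolayPt → ℤ) = 16}, ∀ x' ∈ {x : ↥Cfsg.leechLattice | Cfsg.sqNorm (x : Cfsg.GolayPt → ℤ) = 32 ∧ Cfsg.dotInt (v : Cfsg.GolayPt → ℤ) (x : Cfsg.GolayPt → ℤ) = 0 ∧ Cfsg.dotInt (w : Cfsg.GolayPt → ℤ)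 (x : Cfsg.GolayPt → ℤ) = 16}, ∃ g : ↥Cfsg.Co0, g • v = v ∧ g • w = w ∧ g • x = x') ∧ ∀ x ∈ {x : ↥Cfsg.leechLattice | Cfsg.sqNorm (x : Cfsg.GolayPt → ℤ) = 32 ∧ Cfsg.dotInt (v : Cfsg.GolayPt → ℤ) (x : Cfsg.GolayPt → ℤ) = 0 ∧ Cfsg.dotInt (w : Cfsg.GolayPt → ℤ) (x : Cfsg.GolayPt → ℤ) = 16}, ∃ y₁ ∈ {x : ↥Cfsg.leechLattice | Cfsg.sqNorm (x : Cfsg.GolayPt → ℤ) = 32 ∧ Cfsg.dotInt (v : Cfsg.GolayPt → ℤ) (x : Cfsg.GolayPt → ℤ) = 0 ∧ Cfsg.dotInt (w : Cfsg.GolayPt → ℤ) (x : Cfsg.GolayPt → ℤ) = 16}, ∃ y₂ ∈ {x : ↥Cfsg.leechLattice | Cfsg.sqNorm (x : Cfsg.GolayPt → ℤ) = 32 ∧ Cfsg.dotInt (v : Cfsg.GolayPt → ℤ) (x : Cfsg.GolayPt → ℤ) = 0 ∧ Cfsg.dotInt (w : Cfsg.GolayPt → ℤ) (x : Cfsg.GolayPt → ℤ) = 16}, ∃ y₃ ∈ {x : ↥Cfsg.leechLattice | Cfsg.sqNorm (x : Cfsg.GolayPt → ℤ) = 32 ∧ Cfsg.dotInt (v : Cfsg.GolayPt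 → ℤ) (x : Cfsg.GolayPt → ℤ) = 0 ∧ Cfsg.dotInt (w : Cfsg.GolayPt → ℤ) (x : Cfsg.GolayPt → ℤ) = 16}, (MulAction.orbit ↥(MulAction.stabilizer ↥Cfsg.Co0 v ⊓ MulAction.stabilizer ↥Cfsg.Co0 w ⊓ MulAction.stabilizer ↥Cfsg.Co0 x) y₁).ncard = 330 ∧ (MulAction.orbit ↥(MulAction.stabilizer ↥Cfsg.Co0 v ⊓ MulAction.stabilizer ↥Cfsg.Co0 w ⊓ MulAction.stabilizer ↥Cfsg.Co0 x) y₂).ncard = 462 ∧ (MulAction.orbit ↥(MulAction.stabilizer ↥Cfsg.Co0 v ⊓ MulAction.stabilizer ↥Cfsg.Co0 w ⊓ MulAction.stabilizer ↥Cfsg.Co0 x) y₃).ncard = 1232 := by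
  rw [set_add' v w 0 16 16 rfl]
  have hk : ∃ k : Co0, k • mkL u0 = v + w ∧ k • mkL U = v := by
    obtain ⟨k, a1, a2⟩ := pair_std trW8 hv hw hvw
    exact ⟨k, by rw [← u0_eq, co_add, a1, a2], a1⟩
  refine ⟨?_, fun x hx x' hx' => ?_, fun x hx => ?_⟩
  · obtain ⟨k, a1, rfl⟩ := hk
    rw [← a1, ncard_FL2, cnt2025]
  · obtain ⟨k, a1, rfl⟩ := hk
    rw [← a1] at hx hx'
    obtain ⟨g, h1, h2⟩ := trans_std tr2025 k hx hx'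
    exact ⟨g, h1 _ (by simp), fix_of_add (h1 (mkL U) (by simp)) (a1 ▸ h1 _ (by simp)), h2⟩
  · obtain ⟨k, a1, rfl, rfl⟩ := std3 tr2025 hk hx
    rw [← a1]
    exact ⟨k • mkL b_0, (smul_mem_FL k _ _).2 (mem_FL3'.1 memb_0).1,
      k • mkL b_16, (smul_mem_FL k _ _).2 (mem_FL3'.1 memb_16).1,
      k • mkL b_8, (smul_mem_FL k _ _).2 (mem_FL3'.1 memb_8).1,
      (orb a1 trb_0 memb_0).trans cntb_0,
      (orb a1 trb_16 memb_16).trans cntb_16,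
      (orb a1 trb_8 memb_8).trans cntb_8⟩

end Cfsg.Agent.S1634
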