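import Cfsg.Statements.S1636
import Cfsg.Agent.Lib.Golay.Coset

set_option autoImplicit false
open Cfsg

set_option maxRecDepth 100000

namespace Cfsg.Agent.S1636

open Cfsg.Agent.Golay


/-- The punctured length-23 code has weight distribution 0^1 7^253 8^506 11^1288 12^1288 15^506 16^253 23^1. -/
theorem result : {u : ZMod 23 → ZMod 2 | ∃ w ∈ Cfsg.golayCode, ∀ x : ZMod 23, u x = w (some x)}.ncard = 4096 ∧ {u : ZMod 23 → ZMod 2 | u ∈ {u : ZMod 23 → ZMod 2 | ∃ w ∈ Cfsg.golayCode, ∀ x : ZMod 23, u x = w (some x)} ∧ hammingNorm u = 7}.ncard = 253 ∧ {u : ZMod 23 → ZMod 2 | u ∈ {u : ZMod 23 → ZMod 2 | ∃ w ∈ Cfsg.golayCode, ∀ x : ZMod 23, u x = w (some x)} ∧ hammingNorm u = 8}.ncard = 506 ∧ {u : ZMod 23 → ZMod 2 | u ∈ {u : ZMod 23 → ZMod 2 | ∃ w ∈ Cfsg.golayCode, ∀ x : ZMod 23, u x = w (some x)} ∧ hammingNorm u = 11}.ncard = 1288 ∧ {u : ZMod 23 → ZMod 2 | u ∈ {u : ZMod 23 → ZMod 2 | ∃ w ∈ Cfsg.golayCode,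 ∀ x : ZMod 23, u x = w (some x)} ∧ hammingNorm u = 12}.ncard = 1288 ∧ {u : ZMod 23 → ZMod 2 | u ∈ {u : ZMod 23 → ZMod 2 | ∃ w ∈ Cfsg.golayCode, ∀ x : ZMod 23, u x = w (some x)} ∧ hammingNorm u = 15}.ncard = 506 ∧ {u : ZMod 23 → ZMod 2 | u ∈ {u : ZMod 23 → ZMod 2 | ∃ w ∈ Cfsg.golayCode, ∀ x : ZMod 23, u x = w (some x)} ∧ hammingNorm u = 16}.ncard = 253 ∧ ∀ u ∈ {u : ZMod 23 → ZMod 2 | ∃ w ∈ Cfsg.golayCode, ∀ x : ZMod 23, u x = w (some x)}, u ≠ 0 → 7 ≤ hammingNorm u := by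
  simp only [Set.mem_ofPred_eq]
  refine ⟨?_, (ncard_punct_wt 7).trans (by decide +kernel), (ncard_punct_wt 8).trans (by decide +kernel),
    (ncard_punct_wt 11).trans (by decide +kernel), (ncard_punct_wt 12).trans (by decide +kernel),
    (ncard_punct_wt 15).trans (by decide +kernel), (ncard_punct_wt 16).trans (by decide +kernel), ?_⟩
  · have := ncard_punct fun _ => True
    simp only [and_true] at this
    rw [this, ncard_cw_all]
  · intro u hu h0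
    obtain ⟨s, hs, rfl⟩ := mem_punct.1 hu
    by_contra h
    have e : res23 ∅ = 0 := by funext x; simp [res23, wd]
    have := res23_inj hs cw_empty (by rw [e, hammingDist_zero_right]; omega)
    exact h0 (by rw [this, e])

end Cfsg.Agent.S1636
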