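import Cfsg.Statements.S1638
import Cfsg.Agent.Lib.Golay.Sextet

set_option autoImplicit false
open scoped Pointwise
open Cfsg

set_option maxRecDepth 100000

namespace Cfsg.Agent.S1638

open Cfsg.Agent.PG Cfsg.Agent.Golay Cfsg.Agent.Golay.SB

theorem c : andB (fixB A [[0x208000408000000000a0208020204020600], [0x20a00000a000600060a040006000a020806]] [2, 3, 24])
    (coverB A [[0x208000408000000000a0208020204020600], [0x20a00000a000600060a040006000a020806]] 7 [24, 25, 27, 29, 30, 32, 33, 38, 49] BDuad) = true := by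
  decide +kernel

theorem oct_iff (m : ℕ) : (∃ o ∈ octads, pt 2 ∈ o ∧ pt 3 ∈ o ∧ X 24 ∪ ofMask m ⊆ o) ↔
    inOct (15 ||| m) = true := by
  rw [← inOct_iff, X_duad0, ofMask_or, show ofMask 15 = insert (pt 2) (insert (pt 3) (ofMask 3)) by decide]
  simp only [Finset.insert_union, Finset.insert_subset_iff]

theorem inv {g : Equiv.Perm GolayPt} (hg : g ∈ M24) (z : Finset GolayPt) :
    (∃ o ∈ octads, g (pt 2) ∈ o ∧ g (pt 3) ∈ o ∧ g • X 24 ∪ g • z ⊆ o) ↔
      ∃ o ∈ octads, pt 2 ∈ o ∧ pt 3 ∈ o ∧ X 24 ∪ z ⊆ o :=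
  exists_octad_smul hg (fun o => by
    rw [← smul_union', smul_subset_smul', apply_mem_smul, apply_mem_smul])

theorem cnt (f : Bool → Bool) (n : ℕ) (h : cntN 276 (fun i => force (colVal S (Nat.add 24 i)) fun m =>
    andB (Bool.not (bit m 2)) (andB (Bool.not (bit m 3))
      (andB (Nat.beq (pc (Nat.land 3 m)) 0) (f (inOct (Nat.lor 15 m)))))) = n) {F : Prop → Prop}
    (hF : ∀ b : Bool, F (b = true) ↔ f b = true) {k : Equiv.Perm GolayPt} (hk : k ∈ M24) :
    {U : Finset GolayPt | (U.card = 2 ∧ k (pt 2) ∉ U ∧ k (pt 3) ∉ U) ∧ Disjoint (k • X 24) U ∧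
      F (∃ o ∈ octads, k (pt 2) ∈ o ∧ k (pt 3) ∈ o ∧ k • X 24 ∪ U ⊆ o)}.ncard = n := by
  rw [← h, ← ncard_blk (lo := 24) (n := 276) duads_eq inj_duad
    (P := fun U => pt 2 ∉ U ∧ pt 3 ∉ U ∧ Disjoint (X 24) U ∧
      F (∃ o ∈ octads, pt 2 ∈ o ∧ pt 3 ∈ o ∧ X 24 ∪ U ⊆ o)) (fun m _ _ => by
      rw [oct_iff, hF, X_duad0, disjoint_iff', pt_notMem_iff (by omega), pt_notMem_iff (by omega)]
      simp only [andB_eq, Bool.and_eq_true]; rfl)]
  exact ncard_eq_smul k fun y => by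
    simp only [Set.mem_ofPred_eq, Finset.card_smul_finset, disjoint_smul', inv hk, apply_mem_smul,
      and_assoc]

theorem std {p q : GolayPt} (hpq : p ≠ q) {s : Finset GolayPt} (hs : s.card = 2 ∧ p ∉ s ∧ q ∉ s) :
    ∃ k ∈ M24, k (pt 2) = p ∧ k (pt 3) = q ∧ k • X 24 = s := by
  obtain ⟨a, b, hab, rfl⟩ := Finset.card_eq_two.1 hs.1
  have h2 := hs.2
  simp only [Finset.mem_insert, Finset.mem_singleton, not_or] at h2
  obtain ⟨r, hr⟩ : ∃ r, r ∉ ({a, b, p, q} : Finset GolayPt) := by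
    by_contra hc
    push Not at hc
    have := Finset.card_le_card (show Finset.univ ⊆ ({a, b, p, q} : Finset GolayPt) from
      fun x _ => hc x)
    have h4 : ({a, b, p, q} : Finset GolayPt).card ≤ 4 := Finset.card_le_four
    rw [Finset.card_univ, card_pt] at this
    omega
  simp only [Finset.mem_insert, Finset.mem_singleton, not_or] at hr
  obtain ⟨k, hk, h⟩ := five_std (fun i => [a, b, p, q].getD i r) (by
    intro i j hij hj
    interval_cases j <;> interval_cases i <;> simp <;> tauto)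
  refine ⟨k, hk, h 2 (by omega), h 3 (by omega), ?_⟩
  rw [X_duad0, show ofMask 3 = {pt 0, pt 1} by decide, Finset.smul_finset_insert, smul_singleton']
  exact congrArg₂ _ (h 0 (by omega)) (congrArg _ (h 1 (by omega)))


/-- Fix two points p ≠ q and a pair s of two further points. Among the pairs avoiding p, q and disjoint from s, exactly 30 lie in an octad together with p, q and s and exactly 160 do not; and any two pairs other than s that meet s in equally many points and agree on that octad property are carried to one another by an element of the group of the length-24 code fixing p, q and s. -/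
theorem result (p q : Cfsg.GolayPt) (hpq : p ≠ q) (s : Finset Cfsg.GolayPt) (hs : (s.card = 2 ∧ p ∉ s ∧ q ∉ s)) : {t : Finset Cfsg.GolayPt | (t.card = 2 ∧ p ∉ t ∧ q ∉ t) ∧ Disjoint s t ∧ (∃ o ∈ Cfsg.octads, p ∈ o ∧ q ∈ o ∧ s ∪ t ⊆ o)}.ncard = 30 ∧ {t : Finset Cfsg.GolayPt | (t.card = 2 ∧ p ∉ t ∧ q ∉ t) ∧ Disjoint s t ∧ ¬ (∃ o ∈ Cfsg.octads, p ∈ o ∧ q ∈ o ∧ s ∪ t ⊆ o)}.ncard = 160 ∧ ∀ t t' : Finset Cfsg.GolayPt, (t.card = 2 ∧ p ∉ t ∧ q ∉ t) → (t'.card = 2 ∧ p ∉ t' ∧ q ∉ t') → t ≠ s → t' ≠ s → (s ∩ t).card = (s ∩ t').card → ((∃ o ∈ Cfsg.octads, p ∈ o ∧ q ∈ o ∧ s ∪ t ⊆ o) ↔ (∃ o ∈ Cfsg.octads, p ∈ o ∧ q ∈ o ∧ s ∪ t' ⊆ o)) → ∃ g : Equiv.Perm Cfsg.GolayPt, g ∈ Cfsg.M24 ∧ g p = p ∧ g q = q ∧ g • s = s ∧ g • t = t' := by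
  obtain ⟨k, hk, rfl, rfl, rfl⟩ := std hpq hs
  refine ⟨cnt id _ (by decide +kernel) (F := id) (by simp) hk,
    cnt not _ (by decide +kernel) (F := Not) (by simp) hk, fun x y hx hy a b e0 e => ?_⟩
  obtain ⟨x, rfl⟩ := MulAction.surjective k x
  obtain ⟨y, rfl⟩ := MulAction.surjective k y
  simp only [Finset.card_smul_finset, card_smul_inter, inv hk, apply_mem_smul] at hx hy e0 e
  obtain ⟨g, hg, h1, h2⟩ := orb_inv duads_eq c
    (fun z => (ivS [2, 3, 24] z, ∃ o ∈ octads, pt 2 ∈ o ∧ pt 3 ∈ o ∧ X 24 ∪ z ⊆ o)) (fun g hg h z => by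
      rw [Prod.mk.injEq, ← inv hg z, ivS_smul h, fix_pt (by omega) (h 2 (by simp)),
        fix_pt (by omega) (h 3 (by simp)), h 24 (by simp)]
      exact ⟨rfl, rfl⟩) hx.1 hy.1 (by simp [ivS, X_pt 2 (by omega), X_pt 3 (by omega), hx, hy, e0, e])
    (fun i hi j hj e1 e2 => by
      have h3 : ∀ i ∈ [24, 25, 27, 29, 30, 32, 33, 38, 49], ∀ j ∈ [24, 25, 27, 29, 30, 32, 33, 38, 49], ivN [2, 3, 24] i = ivN [2, 3, 24] j →
        (inOct (15 ||| colVal S i) = true ↔ inOct (15 ||| colVal S j) = true) → i = j := by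
        decide +kernel
      simp only [Prod.mk.injEq, eq_iff_iff, ivS_X] at e1 e2
      refine h3 i hi j hj (e1.1.trans e2.1.symm) ?_
      rw [← oct_iff, ← oct_iff]
      exact e1.2.trans e2.2.symm)
  exact ⟨k * g * k⁻¹, conj_mem_M24 hk hg, conj_pt (by omega) (h1 _ (by simp)),
    conj_pt (by omega) (h1 _ (by simp)), (conj_smul_iff k g _ _).2 (h1 _ (by simp)),
    (conj_smul_iff k g _ _).2 h2⟩

end Cfsg.Agent.S1638
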