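import Cfsg.Statements.S1639
import Cfsg.Agent.Lib.Golay.Util2

set_option autoImplicit false
open scoped Pointwise
open Cfsg

set_option maxRecDepth 100000

namespace Cfsg.Agent.S1639

open Cfsg.Agent.PG Cfsg.Agent.Golay Cfsg.Agent.Golay.SB

theorem cnt (c n : ℕ) (h : cntN 2576 (fun i => force (colVal S (Nat.add 3083 i)) fun m =>
    (andB (bit m 0) (Nat.beq (pc (Nat.land 0x6fdd m)) c))) = n)
    {k : Equiv.Perm GolayPt} (hk : k ∈ M24) :
    {x | x ∈ dodecads ∧ k (pt 0) ∈ x ∧ (k • X 3083 ∩ x).card = c}.ncard = n := by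
  rw [← h, ← ncard_blk (lo := 3083) (n := 2576) dodecads_eq inj_dod
    (P := fun x => pt 0 ∈ x ∧ (X 3083 ∩ x).card = c) (fun m _ _ => by
      simp only [X_dod0, andB_eq, Bool.and_eq_true, card_inter_iff, pt_mem_iff (show 0 < 24 by omega)])]
  exact ncard_eq_smul k fun y => by
    simp only [Set.mem_ofPred_eq, smul_mem_dodecads hk, apply_mem_smul, card_smul_inter, and_assoc]

theorem c_orb : andB (fixB A [[0x20a0202060600000a0206000400], [0x2020202040802040408020600080208]] [3083, 0])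
    (coverB A [[0x20a0202060600000a0206000400], [0x2020202040802040408020600080208]] 10 [3083, 3084, 3085, 3096, 3100, 3200, 3269, 5658] BDod) = true := by
  decide +kernel

theorem orb {k : Equiv.Perm GolayPt} (hk : k ∈ M24) {x y : Finset GolayPt} (hx : x ∈ dodecads) (hy : y ∈ dodecads)
    (a0 : k (pt 0) ∈ x) (b0 : k (pt 0) ∈ y)
    (e : (k • X 3083 ∩ x).card = (k • X 3083 ∩ y).card) :
    ∃ g : Equiv.Perm GolayPt, g ∈ M24 ∧ g (k (pt 0)) = k (pt 0) ∧ g • k • X 3083 = k • X 3083 ∧ g • x = y := by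
  obtain ⟨x, rfl⟩ := MulAction.surjective k x
  obtain ⟨y, rfl⟩ := MulAction.surjective k y
  simp only [smul_mem_dodecads hk, apply_mem_smul, card_smul_inter] at *
  obtain ⟨g, hg, h1, h2⟩ := orb_iv dodecads_eq c_orb (fun l => l.drop 1 = [1]) (by decide +kernel) hx hy
    (by simp [ivS, card_pt_inter, X_pt 0 (by omega), *]) (by simp [ivS, card_pt_inter, X_pt 0 (by omega), *])
  exact ⟨k * g * k⁻¹, conj_mem_M24 hk hg, conj_pt (by omega) (h1 _ (by simp)), (conj_smul_iff k g _ _).2 (h1 _ (by simp)), (conj_smul_iff k g _ _).2 h2⟩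


/-- The point stabiliser acts on the 1288 dodecads through the point with rank 4 and subdegrees 1, 165, 330, 792, distinguished by intersection 4, 8, 6 with the fixed dodecad. -/
theorem result (x : Cfsg.GolayPt) (d : Finset Cfsg.GolayPt) (hd : d ∈ Cfsg.dodecads) (hx : x ∈ d) : {d' : Finset Cfsg.GolayPt | d' ∈ Cfsg.dodecads ∧ x ∈ d' ∧ (d ∩ d').card = 4}.ncard = 165 ∧ {d' : Finset Cfsg.GolayPt | d' ∈ Cfsg.dodecads ∧ x ∈ d' ∧ (d ∩ d').card = 8}.ncard = 330 ∧ {d' : Finset Cfsg.GolayPt | d' ∈ Cfsg.dodecads ∧ x ∈ d' ∧ (d ∩ d').card = 6}.ncard = 792 ∧ ∀ d' d'' : Finset Cfsg.GolayPt, d' ∈ Cfsg.dodecads → d'' ∈ Cfsg.dodecads → x ∈ d' → x ∈ d'' → (d ∩ d').card = (d ∩ d'').card → ∃ g : Equiv.Perm Cfsg.GolayPt, g ∈ Cfsg.M24 ∧ g x = x ∧ g • d = d ∧ g • d' = d'' := by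
  obtain ⟨k, hk, rfl, rfl⟩ := std_dod_in hd hx
  exact ⟨cnt 4 _ (by decide +kernel) hk, cnt 8 _ (by decide +kernel) hk, cnt 6 _ (by decide +kernel) hk,
    fun o' o'' h1 h2 h3 h4 h => orb hk h1 h2 h3 h4 h⟩

end Cfsg.Agent.S1639
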