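import Cfsg.Statements.S1641
import Cfsg.Agent.Lib.Leech.Conf

set_option autoImplicit false
open Cfsg

set_option maxRecDepth 100000

namespace Cfsg.Agent.S1641

open Cfsg.Agent.Leech Cfsg.Agent.Leech.L3 MulAction
open Cfsg.Agent.Leech.M (U W8 u0 nU nW8 nu0 sum_std trans48 sub_iff pair_std trW8 u0_eq)

theorem orb {u c : L} {k : Co0} {a : ℤ} (hk : k • mkL u0 = -u)
    (h : ∀ x ∈ FL [(mkL u0, 16), (mkL y1, a)],
      ∃ g : Co0, (∀ b ∈ [mkL u0, mkL y1], g • b = b) ∧ g • c = x)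
    (hc : c ∈ FL [(mkL u0, 16), (mkL y1, a)]) :
    orbit ↥(stabilizer Co0 u ⊓ stabilizer Co0 (k • mkL y1)) (k • c) =
      FL [(k • mkL u0, 16), (k • mkL y1, a)] :=
  orbit_std h hc k (fun g hg => ⟨by
      have := hg _ List.mem_cons_self
      rwa [hk, co_neg, neg_inj] at this, hg _ (by simp)⟩) fun g hg => by
    simp only [List.forall_mem_cons, hk, co_neg, neg_inj]
    exact ⟨hg.1, hg.2, by simp⟩


/-- The third Conway group acts on the 11178 cosets of the Higman–Sims group with rank 5 and subdegrees 1, 352, 1100, 4125, 5600. -/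
theorem result (u x : ↥Cfsg.leechLattice) (hu : Cfsg.sqNorm (u : Cfsg.GolayPt → ℤ) = 48) (hx : x ∈ {x : ↥Cfsg.leechLattice | Cfsg.sqNorm (x : Cfsg.GolayPt → ℤ) = 32 ∧ Cfsg.dotInt (u : Cfsg.GolayPt → ℤ) (x : Cfsg.GolayPt → ℤ) = -16}) : ∃ y₁ ∈ {x : ↥Cfsg.leechLattice | Cfsg.sqNorm (x : Cfsg.GolayPt → ℤ) = 32 ∧ Cfsg.dotInt (u : Cfsg.GolayPt → ℤ) (x : Cfsg.GolayPt → ℤ) = -16}, ∃ y₂ ∈ {x : ↥Cfsg.leechLattice | Cfsg.sqNorm (x : Cfsg.GolayPt → ℤ) = 32 ∧ Cfsg.dotInt (u : Cfsg.GolayPt → ℤ) (x : Cfsg.GolayPt → ℤ) = -16}, ∃ y₃ ∈ {x : ↥Cfsg.leechLattice | Cfsg.sqNorm (x : Cfsg.GolayPt → ℤ) = 32 ∧ Cfsg.dotInt (u : Cfsg.GolayPt → ℤ) (x : Cfsg.GolayPt → ℤ) = -16}, ∃ y₄ ∈ {x : ↥Cfsg.leechLattice | Cfsg.sqNorm (x : Cfsg.GolayPt → ℤ) = 32 ∧ Cfsg.dotInt (u : Cfsg.GolayPt → ℤ) (x : Cfsg.GolayPt → ℤ) = -16}, (MulAction.orbit ↥(MulAction.stabilizer ↥Cfsg.Co0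 u ⊓ MulAction.stabilizer ↥Cfsg.Co0 x) y₁).ncard = 352 ∧ (MulAction.orbit ↥(MulAction.stabilizer ↥Cfsg.Co0 u ⊓ MulAction.stabilizer ↥Cfsg.Co0 x) y₂).ncard = 1100 ∧ (MulAction.orbit ↥(MulAction.stabilizer ↥Cfsg.Co0 u ⊓ MulAction.stabilizer ↥Cfsg.Co0 x) y₃).ncard = 4125 ∧ (MulAction.orbit ↥(MulAction.stabilizer ↥Cfsg.Co0 u ⊓ MulAction.stabilizer ↥Cfsg.Co0 x) y₄).ncard = 5600 ∧ {x : ↥Cfsg.leechLattice | Cfsg.sqNorm (x : Cfsg.GolayPt → ℤ) = 32 ∧ Cfsg.dotInt (u : Cfsg.GolayPt → ℤ) (x : Cfsg.GolayPt → ℤ) = -16} = {x} ∪ MulAction.orbit ↥(MulAction.stabilizer ↥Cfsg.Co0 u ⊓ MulAction.stabilizer ↥Cfsg.Co0 x) y₁ ∪ MulAction.orbit ↥(MulAction.stabilizer ↥Cfsg.Co0 u ⊓ MulAction.stabilizer ↥Cfsg.Co0 x) y₂ ∪ MulAction.orbit ↥(MulAction.stabilizer ↥Cfsg.Co0 u ⊓ MulAction.stabilizer ↥Cfsg.Co0 x) y₃ ∪ MulAction.orbit ↥(MulAction.stabilizer ↥Cfsg.Co0 u ⊓ MulAction.stabilizer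 ↥Cfsg.Co0 x) y₄ := by
  rw [set_neg u 16] at hx ⊢
  obtain ⟨k, a1, rfl⟩ := hs_std (u := -u) ((sqNorm_neg _).trans hu) hx
  rw [← a1] at hx ⊢
  refine ⟨k • mkL x3, (smul_mem_FL k _ _).2 (mem_FL2'.1 mem352).1,
    k • mkL c_16, (smul_mem_FL k _ _).2 (mem_FL2'.1 memc_16).1,
    k • mkL c_0, (smul_mem_FL k _ _).2 (mem_FL2'.1 memc_0).1,
    k • mkL c_8, (smul_mem_FL k _ _).2 (mem_FL2'.1 memc_8).1, ?_, ?_, ?_, ?_, ?_⟩
  · rw [orb a1 tr352 mem352, ncard_FL2, cnt352]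
  · rw [orb a1 trc_16 memc_16, ncard_FL2, cntc_16]
  · rw [orb a1 trc_0 memc_0, ncard_FL2, cntc_0]
  · rw [orb a1 trc_8 memc_8, ncard_FL2, cntc_8]
  · rw [orb a1 tr352 mem352, orb a1 trc_16 memc_16, orb a1 trc_0 memc_0, orb a1 trc_8 memc_8]
    ext y
    simp only [Set.mem_union, Set.mem_singleton_iff, mem_FL2']
    constructor
    · intro hy
      obtain ⟨r, hr, e⟩ := dot_cases (x0 := mkL y1) (by simp) trc_all k hy
      simp only [List.mem_cons, List.not_mem_nil, or_false] at hr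
      rcases hr with rfl | rfl | rfl | rfl | rfl
      · rw [dy1_y1] at e
        simp only [eq_of_dot hx.1 hy.1 e, true_or]
      · simp only [hy, e, dy1_x3, true_and, true_or, or_true]
      · simp only [hy, e, dy1_c_16, true_and, true_or, or_true]
      · simp only [hy, e, dy1_c_0, true_and, true_or, or_true]
      · simp only [hy, e, dy1_c_8, true_and, true_or, or_true]
    · rintro ((((rfl | h) | h) | h) | h)
      exacts [hx, h.1, h.1, h.1, h.1]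

end Cfsg.Agent.S1641
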