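import Cfsg.Statements.S1642
import Cfsg.Agent.Lib.Leech.Conf

set_option autoImplicit false
open Cfsg

set_option maxRecDepth 100000

namespace Cfsg.Agent.S1642

open Cfsg.Agent.Leech Cfsg.Agent.Leech.L3 MulAction
open Cfsg.Agent.Leech.M (U W8 u0 nU nW8 nu0 sum_std trans48 sub_iff pair_std trW8 u0_eq)


/-- Some involution of the Higman–Sims group acts without fixed points on its 100 points. -/
theorem result (v w : ↥Cfsg.leechLattice) (hv : Cfsg.sqNorm (v : Cfsg.GolayPt → ℤ) = 48) (hw : Cfsg.sqNorm (w : Cfsg.GolayPt → ℤ) = 48) (hvw : Cfsg.dotInt (v : Cfsg.GolayPt → ℤ) (w : Cfsg.GolayPt → ℤ) = -32) : ∃ g : ↥Cfsg.Co0, g • v = v ∧ g • w = w ∧ orderOf g = 2 ∧ ∀ x ∈ {x : ↥Cfsg.leechLattice | Cfsg.sqNorm (x : Cfsg.GolayPt → ℤ) = 32 ∧ Cfsg.dotInt (v : Cfsg.GolayPt → ℤ) (x : Cfsg.GolayPt → ℤ) = 24 ∧ Cfsg.dotInt (w : Cfsg.GolayPt → ℤ) (x : Cfsg.GolayPt → ℤ) = -24},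 g • x ≠ x := by
  rw [set_add v w 24 (-24) 0 rfl]
  obtain ⟨k, a1, a2⟩ := hs_std' hv hw hvw
  obtain ⟨g, h1, h2, h3, h4⟩ := invol
  have c := Cfsg.Agent.Golay.conj_smul_iff (Y := L) k g
  rw [← a2]; subst a1
  refine ⟨k * g * k⁻¹, (c _ _).2 h1, fix_of_add ((c _ _).2 h1) (a2 ▸ (c _ _).2 h2), ?_,
    fun x hx => ?_⟩
  · refine orderOf_eq_prime (by rw [conj_pow, h3]; simp) fun e => h4 _ mem100 ?_
    rw [← c, e, one_smul]
  · obtain ⟨x, rfl⟩ := MulAction.surjective k x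
    exact fun e => h4 x ((smul_mem_FL k _ x).1 hx) ((c _ _).1 e)

end Cfsg.Agent.S1642
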