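import Cfsg.Statements.S1643
import Cfsg.Agent.Lib.Golay.Eleven

set_option autoImplicit false
open scoped Pointwise
open Cfsg

set_option maxRecDepth 100000

namespace Cfsg.Agent.S1643

open Cfsg.Agent.PG Cfsg.Agent.Golay MulAction Equiv

def two : (ZMod 23)ˣ := ⟨2, 12, by decide, by decide⟩

theorem ea : Equiv.optionCongr (Equiv.addRight (1 : ZMod 23)) = ((Elv.ua : M24) : Perm GolayPt) := by
  ext1 p
  induction p using forall_pt with
  | h i hi =>
    have h : ∀ i < 24, mapsB L23.A [0x208060a04] i (idx ((Equiv.optionCongr (Equiv.addRight (1 : ZMod 23))) (pt i))) = true := by decide +kernel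
    exact ((toG_pp_apply L23.hA Elv.mL hi (h i hi)).trans (pt_idx _)).symm

theorem eb : Equiv.optionCongr (Units.mulLeft two) = ((Elv.ub : M24) : Perm GolayPt) := by
  ext1 p
  induction p using forall_pt with
  | h i hi =>
    have h : ∀ i < 24, mapsB L23.A [0x208080808] i (idx ((Equiv.optionCongr (Units.mulLeft two)) (pt i))) = true := by decide +kernel
    exact ((toG_pp_apply L23.hA Elv.mL hi (h i hi)).trans (pt_idx _)).symm

theorem ec : projInv = ((Elv.uc : M24) : Perm GolayPt) := by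
  ext1 p
  induction p using forall_pt with
  | h i hi =>
    have h : ∀ i < 24, mapsB L23.A [0x200] i (idx ((projInv) (pt i))) = true := by decide +kernel
    exact ((toG_pp_apply L23.hA Elv.mL hi (h i hi)).trans (pt_idx _)).symm

theorem mu_pow (j : ℕ) : Equiv.optionCongr (Units.mulLeft (two ^ j)) =
    (Equiv.optionCongr (Units.mulLeft two) : Perm GolayPt) ^ j := by
  induction j with
  | zero => ext1 p; cases p <;> simp
  | succ j ih => rw [pow_succ, pow_succ, ← ih]; ext1 p; cases p <;> simp [mul_assoc]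

theorem sq_le {H : Subgroup M24} (h : Elv.ub ∈ H) :
    {g : Perm GolayPt | ∃ u : (ZMod 23)ˣ, IsSquare u ∧ g = Equiv.optionCongr (Units.mulLeft u)} ⊆ H.map M24.subtype := by
  rintro _ ⟨u, ⟨r, rfl⟩, rfl⟩
  have h1 : ∀ r s : ZMod 23, r * s = 1 → ∃ j < 11, r * r = 2 ^ j := by decide +kernel
  obtain ⟨j, _, e⟩ := h1 r.val r.inv r.val_inv
  have e2 : r * r = two ^ j := Units.ext (by rw [Units.val_mul, e, Units.val_pow_eq_pow_val]; rfl)
  rw [e2, mu_pow, eb]
  exact ⟨Elv.ub ^ j, H.pow_mem h j, rfl⟩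

theorem two_sq : Equiv.optionCongr (Units.mulLeft two) ∈ {g : Perm GolayPt | ∃ u : (ZMod 23)ˣ, IsSquare u ∧ g = Equiv.optionCongr (Units.mulLeft u)} :=
  ⟨two, ⟨two ^ 6, by decide⟩, rfl⟩

/-- the group `L2(23)` -/
abbrev LL : Subgroup (Perm GolayPt) := Subgroup.closure
  ({Equiv.optionCongr (Equiv.addRight (1 : ZMod 23)), projInv} ∪ {g : Perm GolayPt | ∃ u : (ZMod 23)ˣ, IsSquare u ∧ g = Equiv.optionCongr (Units.mulLeft u)})
/-- the group `23:11` -/
abbrev FF : Subgroup (Perm GolayPt) := Subgroup.closure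
  ({Equiv.optionCongr (Equiv.addRight (1 : ZMod 23))} ∪ {g : Perm GolayPt | ∃ u : (ZMod 23)ˣ, IsSquare u ∧ g = Equiv.optionCongr (Units.mulLeft u)})

theorem LL_le {H : Subgroup M24} (ha : Elv.ua ∈ H) (hb : Elv.ub ∈ H) (hc : Elv.uc ∈ H) :
    LL ≤ H.map M24.subtype := by
  rw [Subgroup.closure_le]
  refine Set.union_subset ?_ (sq_le hb)
  rintro _ (rfl | rfl)
  · exact ⟨_, ha, ea.symm⟩
  · exact ⟨_, hc, ec.symm⟩

theorem FF_le {H : Subgroup M24} (ha : Elv.ua ∈ H) (hb : Elv.ub ∈ H) :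
    FF ≤ H.map M24.subtype := by
  rw [Subgroup.closure_le]
  refine Set.union_subset ?_ (sq_le hb)
  rintro _ rfl
  exact ⟨_, ha, ea.symm⟩

theorem LL_M24 : LL ≤ M24 :=
  (LL_le (H := ⊤) trivial trivial trivial).trans (Subgroup.map_subtype_le _)
theorem FF_M24 : FF ≤ M24 := (FF_le (H := ⊤) trivial trivial).trans (Subgroup.map_subtype_le _)

theorem ua_F : Elv.ua ∈ FF.subgroupOf M24 := by
  rw [Subgroup.mem_subgroupOf, ← ea]; exact Subgroup.subset_closure (Or.inl rfl)
theorem ub_F : Elv.ub ∈ FF.subgroupOf M24 := by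
  rw [Subgroup.mem_subgroupOf, ← eb]; exact Subgroup.subset_closure (Or.inr two_sq)
theorem ua_L : Elv.ua ∈ LL.subgroupOf M24 := by
  rw [Subgroup.mem_subgroupOf, ← ea]; exact Subgroup.subset_closure (Or.inl (Or.inl rfl))
theorem ub_L : Elv.ub ∈ LL.subgroupOf M24 := by
  rw [Subgroup.mem_subgroupOf, ← eb]; exact Subgroup.subset_closure (Or.inr two_sq)
theorem uc_L : Elv.uc ∈ LL.subgroupOf M24 := by
  rw [Subgroup.mem_subgroupOf, ← ec]; exact Subgroup.subset_closure (Or.inl (Or.inr rfl))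

theorem over_L {H : Subgroup M24} (ha : Elv.ua ∈ H) (hb : Elv.ub ∈ H) (hc : Elv.uc ∈ H) :
    Nat.card H = 6072 ∨ Nat.card H = 244823040 := by
  have h1 := Elv.over_F (H := H ⊓ stP 23) inf_le_right ⟨ha, Elv.ua_23⟩ ⟨hb, Elv.ub_23⟩
  have h2 := card_orbF H (pt 23)
  have h3 := cover_orbF L23.hA Elv.mL (H := H) (gens := [[0x208060a04], [0x200]]) (fun w hw => by
    simp only [List.mem_cons, List.not_mem_nil, or_false] at hw
    rcases hw with rfl | rfl
    · exact ha
    · exact hc) (a := 23) (r := 24) (m := 0xffffff) (by omega) (by decide +kernel)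
  rw [ofMask_full, Finset.univ_subset_iff] at h3
  rw [h3, Finset.card_univ, card_pt] at h2
  omega

theorem card_le_range {t : ℕ} {S : Subgroup (Perm GolayPt)}
    (h : S ≤ (toM24 L23.hA Elv.mL t).range.map M24.subtype) (hf : FixTriv (K L23.A t) I24) :
    Nat.card S ≤ Nat.card (K L23.A t) := by
  have := Subgroup.card_le_of_le h
  rwa [Subgroup.card_map_of_injective (Subgroup.subtype_injective _), card_range _ _ hf] at this

theorem card_L : Nat.card (LL.subgroupOf M24) = 6072 := by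
  have h1 := over_L ua_L ub_L uc_L
  have h2 := card_le_range (t := 0) (LL_le (el_mem_range' _ _ (by decide +kernel))
    (el_mem_range' _ _ (by decide +kernel)) (el_mem_range' _ _ (by decide +kernel)))
    (L23.fixTriv0 (by show _ < 24; omega) (by show _ < 24; omega) (by show _ < 24; omega))
  rw [L23.card0, ← Nat.card_congr (Subgroup.subgroupOfEquivOfLe LL_M24).toEquiv] at h2
  omega

theorem F_le : FF.subgroupOf M24 ≤ stP 23 := fun g hg => by
  obtain ⟨g', hg', e⟩ := FF_le Elv.ua_23 Elv.ub_23 hg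
  rwa [← Subtype.ext e]

theorem card_F : Nat.card (FF.subgroupOf M24) = 253 := by
  have h1 := Elv.over_F F_le ua_F ub_F
  have h2 := card_le_range (t := 1) (FF_le (el_mem_range' _ _ (by decide +kernel))
    (el_mem_range' _ _ (by decide +kernel)))
    (L23.fixTriv1 (by show _ < 24; omega) (by show _ < 24; omega))
  rw [L23.card1, ← Nat.card_congr (Subgroup.subgroupOfEquivOfLe FF_M24).toEquiv] at h2
  omega

theorem coatom_of {G : Type*} [Group G] [Finite G] {L : Subgroup G} (h1 : Nat.card L < Nat.card G)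
    (h2 : ∀ H, L ≤ H → Nat.card H = Nat.card L ∨ Nat.card H = Nat.card G) : IsCoatom L := by
  refine ⟨fun e => ?_, fun H hH => ?_⟩
  · rw [e, Subgroup.card_top] at h1
    exact lt_irrefl _ h1
  · rcases h2 H hH.le with h | h
    · exact absurd (Subgroup.eq_of_le_of_card_ge hH.le h.le) hH.ne
    · exact Subgroup.eq_top_of_card_eq _ h


/-- PSL(2, 23) = ⟨t ↦ t+1, t ↦ u t (u square), t ↦ −1/t⟩ is maximal of order 6072 in the group of the length-24 code, and its point stabiliser 23:11 (order 253) is maximal in the Mathieu group of degree 23. -/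
theorem result : (Subgroup.closure ({Equiv.optionCongr (Equiv.addRight (1 : ZMod 23)), Cfsg.projInv} ∪ {g : Equiv.Perm Cfsg.GolayPt | ∃ u : (ZMod 23)ˣ, IsSquare u ∧ g = Equiv.optionCongr (Units.mulLeft u)}) ≤ Cfsg.M24 ∧ Nat.card ↥(Subgroup.closure ({Equiv.optionCongr (Equiv.addRight (1 : ZMod 23)), Cfsg.projInv} ∪ {g : Equiv.Perm Cfsg.GolayPt | ∃ u : (ZMod 23)ˣ, IsSquare u ∧ g = Equiv.optionCongr (Units.mulLeft u)})) = 6072 ∧ IsCoatom ((Subgroup.closure ({Equiv.optionCongr (Equiv.addRight (1 : ZMod 23)), Cfsg.projInv} ∪ {g : Equiv.Perm Cfsg.GolayPt | ∃ u : (ZMod 23)ˣ, IsSquare u ∧ g = Equiv.optionCongr (Units.mulLeft u)})).subgroupOf Cfsg.M24)) ∧ (Subgroup.closure ({Equiv.optionCongr (Equiv.addRight (1 : ZMod 23))} ∪ {g : Equiv.Perm Cfsg.GolayPt | ∃ u : (ZMod 23)ˣ, IsSquare u ∧ g = Equiv.optionCongr (Units.mulLeft u)}) ≤ Cfsg.M24 ⊓ MulAction.stabilizer (Equiv.Perm Cfsg.GolayPt) (none : Cfsg.GolayPt) ∧ Nat.card ↥(Subgroup.closure ({Equiv.optionCongr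 (Equiv.addRight (1 : ZMod 23))} ∪ {g : Equiv.Perm Cfsg.GolayPt | ∃ u : (ZMod 23)ˣ, IsSquare u ∧ g = Equiv.optionCongr (Units.mulLeft u)})) = 253 ∧ IsCoatom (((Subgroup.closure ({Equiv.optionCongr (Equiv.addRight (1 : ZMod 23))} ∪ {g : Equiv.Perm Cfsg.GolayPt | ∃ u : (ZMod 23)ˣ, IsSquare u ∧ g = Equiv.optionCongr (Units.mulLeft u)})).subgroupOf Cfsg.M24).subgroupOf (MulAction.stabilizer Cfsg.M24 (none : Cfsg.GolayPt)))) := by
  refine ⟨⟨LL_M24, ?_, coatom_of (by rw [card_L, card_M24]; omega) fun H hH => ?_⟩, le_inf FF_M24 ?_,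
    ?_, coatom_of ?_ fun H hH => ?_⟩
  · rw [← Nat.card_congr (Subgroup.subgroupOfEquivOfLe LL_M24).toEquiv, card_L]
  · rw [card_L, card_M24]
    exact over_L (hH ua_L) (hH ub_L) (hH uc_L)
  · exact fun g hg => F_le (x := ⟨g, FF_M24 hg⟩) hg
  · rw [← Nat.card_congr (Subgroup.subgroupOfEquivOfLe FF_M24).toEquiv, card_F]
  · rw [card_stab_pt]
    exact lt_of_eq_of_lt ((Nat.card_congr (Subgroup.subgroupOfEquivOfLe F_le).toEquiv).trans card_F)
      (by omega)
  · have h1 := Elv.over_F (H := H.map (Subgroup.subtype _)) (Subgroup.map_subtype_le H)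
      ⟨⟨_, Elv.ua_23⟩, hH ua_F, rfl⟩ ⟨⟨_, Elv.ub_23⟩, hH ub_F, rfl⟩
    rw [Subgroup.card_map_of_injective (Subgroup.subtype_injective _)] at h1
    rw [card_stab_pt]
    exact h1.imp_left fun h => h.trans
      ((Nat.card_congr (Subgroup.subgroupOfEquivOfLe F_le).toEquiv).trans card_F).symm

end Cfsg.Agent.S1643
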