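import Cfsg.Statements.S1957
import Cfsg.Agent.Lib.Core.Chain
import Cfsg.Agent.Lib.Core.Generation
import Cfsg.Agent.Lib.Core.TransferExt
-- import your own Cfsg.Agent.* helpers here

set_option autoImplicit false
open Cfsg

namespace Cfsg.Agent.S1957

open Cfsg.Agent.Lib.Core Subgroup
open scoped Pointwise commutatorElement

theorem le_OpOf_of_commutator_le {G : Type*} [Group G] [Finite G] {p : ℕ} [Fact p.Prime]
    {H U Z : Subgroup G} (hc : H ⊓ centralizer (OpOf p H : Set G) ≤ OpOf p H)
    (hZ : H ≤ centralizer (Z : Set G)) (hZp : IsPGroup p Z) (hU : U ≤ H)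
    (h : ⁅OpOf p H, U⁆ ≤ Z) : U ≤ OpOf p H := by
  have hZn : H ≤ normalizer (Z : Set G) := le_normalizer_of_le_centralizer hZ
  let D : Subgroup G :=
    { carrier := {g | g ∈ H ∧ ∀ x ∈ OpOf p H, x⁻¹ * (g * x * g⁻¹) ∈ Z}
      one_mem' := ⟨one_mem _, fun x _ => by simp⟩
      mul_mem' := fun {a b} ha hb => ⟨mul_mem ha.1 hb.1, fun x hx => by
        have := mul_mem (ha.2 x hx) (conj_mem_of_mem_normalizer (hZn ha.1) (hb.2 x hx))
        convert this using 1
        group⟩
      inv_mem' := fun {a} ha => ⟨inv_mem ha.1, fun x hx => by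
        have := inv_mem (ha.2 _ (conj_mem_of_mem_normalizer'
          (le_normalizer_OpOf le_normalizer ha.1) hx))
        convert this using 1
        group⟩ }
  have hUD : U ≤ D := fun u hu => ⟨hU hu, fun x hx => by
    have := h (commutator_mem_commutator (inv_mem hx) hu)
    simpa [commutatorElement_def, mul_assoc] using this⟩
  refine hUD.trans (le_OpOf (fun g hg => hg.1) (fun k hk => mem_normalizer_of_conj_mem
    fun g hg => ⟨mul_mem (mul_mem hk hg.1) (inv_mem hk), fun x hx => ?_⟩)
    (isPGroup_of_forall_pow fun g hg => ?_))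
  · have := conj_mem_of_mem_normalizer (hZn hk) (hg.2 _ (conj_mem_of_mem_normalizer'
      (le_normalizer_OpOf le_normalizer hk) hx))
    convert this using 1
    group
  · obtain ⟨k, hk⟩ := exists_pow_coprime p g
    have hg' : g ^ p ^ k ∈ D := pow_mem hg _
    have h1 : g ^ p ^ k ∈ OpOf p H := hc ⟨hg'.1, fun x hx => (mul_inv_eq_iff_eq_mul.mp
      (Cfsg.Agent.Lib.PGroup.commute_of_stabilizes hZp hk (hg'.2 x hx) (hZ hg'.1))).symm⟩
    obtain ⟨j, hj⟩ := pow_eq_one_of_isPGroup (OpOf_isPGroup H) h1
    exact ⟨k, Cfsg.Agent.Lib.Transfer.eq_one_of_coprime_of_pow_eq_one hj hk⟩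

/-- Let `G` be a finite non-abelian simple group in which every local subgroup is solvable and which is of characteristic 2 type. Let `P` be a Sylow 2-subgroup of `G` and `U` a normal subgroup of `P` that is a four-group, with `U` central in `P` if the centre of `P` is not cyclic. Then `U` centralizes every subgroup of odd order of `G` that it normalizes. -/
theorem result {G : Type*} [Group G] [Finite G]
    [IsSimpleGroup G] (hna : ¬ IsMulCommutative G) (hN : Cfsg.IsNGroup G) (h2 : Cfsg.IsCharacteristicTwoType G)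
    (P : Sylow 2 G) (U : Subgroup G) (hUP : U ≤ (P : Subgroup G)) (hUn : (P : Subgroup G) ≤ Subgroup.normalizer (U : Set G))
    (hU4 : IsKleinFour ↥U)
    (hUZ : ¬ IsCyclic ↥((P : Subgroup G) ⊓ Subgroup.centralizer ((P : Subgroup G) : Set G)) →
      U ≤ Subgroup.centralizer ((P : Subgroup G) : Set G))
    (K : Subgroup G) (hK : Odd (Nat.card K)) (hUK : U ≤ Subgroup.normalizer (K : Set G)) :
    U ≤ Subgroup.centralizer (K : Set G) := by
  haveI : Fact (Nat.Prime 2) := ⟨Nat.prime_two⟩
  have hP := isSyl_sylow P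
  have hU2 : ∀ u ∈ U, u * u = 1 := fun u hu =>
    congrArg Subtype.val (IsKleinFour.mul_self (⟨u, hu⟩ : U))
  have hUc : IsMulCommutative U := IsKleinFour.isMulCommutative
  have hUU : U ≤ centralizer (U : Set G) := le_centralizer U
  have hidx : ∀ u ∈ U, u ≠ 1 → ∀ a ∈ U, ∀ b ∈ U,
      (a * b ∈ zpowers u ↔ (a ∈ zpowers u ↔ b ∈ zpowers u)) := by
    intro u hu hu1 a ha b hb
    have hi : ((zpowers u).subgroupOf U).index = 2 := by
      have := card_mul_relIndex (zpowers_le.mpr hu)
      rw [Nat.card_zpowers, orderOf_eq_prime (by rw [pow_two]; exact hU2 u hu) hu1,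
        hU4.card_four] at this
      change (zpowers u).relIndex U = 2
      omega
    exact mul_mem_iff_of_index_two hi (a := ⟨a, ha⟩) (b := ⟨b, hb⟩)
  have hz2 : ∀ {u a : G}, u * u = 1 → a ∈ zpowers u → a = 1 ∨ a = u := by
    intro u a hu ha
    obtain ⟨k, rfl⟩ := mem_zpowers_iff.mp ha
    have h2 : u ^ (2 : ℤ) = 1 := by rw [zpow_two, hu]
    rcases Int.even_or_odd' k with ⟨j, rfl | rfl⟩
    · left; rw [zpow_mul, h2, one_zpow]
    · right; rw [zpow_add, zpow_mul, h2, one_zpow, one_mul, zpow_one]
  have hSyl : ∀ u ∈ U, u ≠ 1 → ∃ S, IsSyl 2 S (centralizer {u}) ∧ S ≤ normalizer (U : Set G) := by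
    intro u hu hu1
    by_cases huP : u ∈ centralizer ((P : Subgroup G) : Set G)
    · exact ⟨P, hP.mono (fun x hx => mem_centralizer_singleton_iff.mpr (huP x hx)) le_top, hUn⟩
    have hcyc : IsCyclic ↥((P : Subgroup G) ⊓ centralizer ((P : Subgroup G) : Set G)) := by
      by_contra h
      exact huP (hUZ h hu)
    obtain ⟨⟨z, hzU, hzP⟩, hz1⟩ := ne_bot_iff_exists_ne_one.mp (inf_centralizer_ne_bot P.isPGroup'
      (P.isPGroup'.to_le hUP) hUn (fun h => hu1 (by rwa [h, mem_bot] at hu)))
    have hz1' : z ≠ 1 := fun h => hz1 (Subtype.ext h)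
    have huz : u ∉ zpowers z := fun h => huP (zpowers_le.mpr hzP h)
    have hcen : ∀ v ∈ (P : Subgroup G), v ∈ centralizer ((P : Subgroup G) : Set G) → v * v = 1 →
        v ∈ zpowers z := by
      intro v hv hvc hv2
      by_cases hv1 : v = 1
      · rw [hv1]; exact one_mem _
      have := involution_unique_of_cyclic (⟨v, hv, hvc⟩ :
        ↥((P : Subgroup G) ⊓ centralizer ((P : Subgroup G) : Set G))) ⟨z, hUP hzU, hzP⟩
        (Subtype.ext (by simpa [pow_two] using hv2))
        (Subtype.ext (by simpa [pow_two] using hU2 z hzU)) (fun h => hv1 (congrArg Subtype.val h))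
        (fun h => hz1' (congrArg Subtype.val h))
      rw [show v = z from congrArg Subtype.val this]
      exact mem_zpowers z
    set T := (P : Subgroup G) ⊓ centralizer {u} with hT
    have hTU : T ≤ centralizer (U : Set G) := by
      intro t ht w hw
      have hc : ∀ a ∈ zpowers z, a * t = t * a := fun a ha => (zpowers_le.mpr hzP ha t ht.1).symm
      by_cases hwz : w ∈ zpowers z
      · exact hc w hwz
      · have h1 := hc _ ((hidx z hzU hz1' w hw u hu).mpr (iff_of_false hwz huz))
        have h2 := mem_centralizer_singleton_iff.mp ht.2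
        rw [mul_assoc, ← h2, ← mul_assoc, ← mul_assoc] at h1
        exact mul_right_cancel h1
    have hconj : ∀ x ∈ (P : Subgroup G), x ∉ T → x * u * x⁻¹ * u = z := by
      intro x hx hxT
      have h1 : x * u * x⁻¹ ∉ zpowers z := fun h => huP (by
        have h2 := zpowers_le.mpr hzP h
        have := conj_mem_of_mem_normalizer' (normalizer_le_normalizer_centralizer _
          (le_normalizer hx)) h2
        simpa [mul_assoc] using this)
      rcases hz2 (hU2 z hzU) ((hidx z hzU hz1' _ (conj_mem_of_mem_normalizer (hUn hx) hu) u hu).mpr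
        (iff_of_false h1 huz)) with h | h
      · exfalso
        refine hxT ⟨hx, mem_centralizer_singleton_iff.mpr ?_⟩
        rw [← hU2 u hu] at h
        exact mul_inv_eq_iff_eq_mul.mp (mul_right_cancel h)
      · exact h
    obtain ⟨x, hx, hxT⟩ : ∃ x ∈ (P : Subgroup G), x ∉ T := by
      by_contra! h
      exact huP fun y hy => mem_centralizer_singleton_iff.mp (h y hy).2
    have hquot : ∀ y ∈ (P : Subgroup G), y ∉ T → x⁻¹ * y ∈ T := by
      intro y hy hyT
      refine mem_inf.mpr ⟨mul_mem (inv_mem hx) hy, mem_centralizer_singleton_iff.mpr ?_⟩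
      have := mul_right_cancel ((hconj x hx hxT).trans (hconj y hy hyT).symm)
      calc x⁻¹ * y * u = x⁻¹ * (y * u * y⁻¹) * y := by group
        _ = _ := by rw [← this]; group
    have hTi : T.relIndex P = 2 := by
      refine index_eq_two_iff'.mpr ⟨⟨x, hx⟩⁻¹, fun y => ?_⟩
      by_cases hyT : (y : G) ∈ T
      · refine Or.inr ⟨hyT, fun h => hxT ?_⟩
        have h' : x⁻¹ * y ∈ T := h
        simpa using inv_mem (mul_mem h' (inv_mem hyT))
      · exact Or.inl ⟨hquot y y.2 hyT, hyT⟩
    obtain ⟨S, hS, hTS⟩ := exists_isSyl_ge (H := centralizer {u})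
      (P.isPGroup'.to_le (inf_le_left : T ≤ P)) inf_le_right
    refine ⟨S, hS, ?_⟩
    have hST : S ≤ normalizer (T : Set G) := by
      have e1 := card_mul_relIndex (inf_le_left : T ≤ P)
      have e2 := card_mul_relIndex hTS
      have e3 := hP.card_le hS.isPGroup le_top
      have e4 : T.relIndex S ≤ 2 := by
        refine Nat.le_of_mul_le_mul_left ?_ (Nat.card_pos (α := T))
        rw [e2, ← hTi, e1]; exact e3
      have e5 : T.relIndex S ≠ 0 := index_ne_zero_of_finite
      rcases (by omega : T.relIndex S = 1 ∨ T.relIndex S = 2) with h | h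
      · exact le_normalizer_of_le (relIndex_eq_one.mp h)
      · haveI := normal_of_index_eq_two h
        exact le_normalizer_of_normal_subgroupOf hTS
    have hfix : ∀ v ∈ T, v ∈ centralizer (T : Set G) → v * v = 1 → x * v * x⁻¹ * v = 1 →
        v ∈ zpowers z := by
      intro v hv hvc hv2 h
      refine hcen v hv.1 (fun y hy => ?_) hv2
      have hxv : x * v = v * x := by
        rw [← hv2] at h
        exact mul_inv_eq_iff_eq_mul.mp (mul_right_cancel h)
      by_cases hyT : y ∈ T
      · exact hvc y hyT
      · have := hvc _ (hquot y hy hyT)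
        calc y * v = x * (x⁻¹ * y * v) := by group
          _ = x * v * (x⁻¹ * y) := by rw [this]; group
          _ = _ := by rw [hxv]; group
    have hPT : (P : Subgroup G) ≤ normalizer (T : Set G) := by
      haveI := normal_of_index_eq_two hTi
      exact le_normalizer_of_normal_subgroupOf inf_le_left
    have hUT : U ≤ T := le_inf hUP fun w hw => mem_centralizer_singleton_iff.mpr (hUU hu w hw)
    have hchar : ∀ v ∈ T, v ∈ centralizer (T : Set G) → v * v = 1 → v ∈ U := by
      intro v hv hvc hv2
      have hv' : x * v * x⁻¹ ∈ T := conj_mem_of_mem_normalizer (hPT hx) hv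
      have hvc' : x * v * x⁻¹ ∈ centralizer (T : Set G) := conj_mem_of_mem_normalizer
        (normalizer_le_normalizer_centralizer _ (hPT hx)) hvc
      have hxx : x * x ∈ T := by
        by_contra h
        exact hxT (by simpa using hquot _ (mul_mem hx hx) h)
      have hcomm : x * v * x⁻¹ * v = v * (x * v * x⁻¹) := hvc _ hv'
      have h1 : x * v * x⁻¹ * v ∈ zpowers z := by
        refine hfix _ (mul_mem hv' hv) (mul_mem hvc' hvc) ?_ ?_
        · calc x * v * x⁻¹ * v * (x * v * x⁻¹ * v)
              = x * v * x⁻¹ * (v * (x * v * x⁻¹)) * v := by group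
            _ = x * (v * v) * x⁻¹ * (v * v) := by rw [← hcomm]; group
            _ = 1 := by rw [hv2]; group
        · have h2 := hvc _ hxx
          calc x * (x * v * x⁻¹ * v) * x⁻¹ * (x * v * x⁻¹ * v)
              = (x * x * v) * (x * x)⁻¹ * (x * (v * v) * x⁻¹) * v := by group
            _ = 1 := by rw [h2, hv2]; simpa [mul_assoc] using hv2
      rcases hz2 (hU2 z hzU) h1 with h | h
      · exact zpowers_le.mpr hzU (hfix v hv hvc hv2 h)
      · have huc : u ∈ centralizer (T : Set G) := le_centralizer_iff.mp hTU hu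
        have hvu : v * u = u * v := huc v hv
        have h3 := hfix (v * u) (mul_mem hv (hUT hu)) (mul_mem hvc huc) (by
          calc v * u * (v * u) = v * (u * v) * u := by group
            _ = (v * v) * (u * u) := by rw [← hvu]; group
            _ = 1 := by rw [hv2, hU2 u hu, one_mul]) (by
          have h4 := hvc _ (conj_mem_of_mem_normalizer (hPT hx) (hUT hu))
          calc x * (v * u) * x⁻¹ * (v * u) = x * v * x⁻¹ * (x * u * x⁻¹ * v) * u := by group
            _ = (x * v * x⁻¹ * v) * (x * u * x⁻¹ * u) := by rw [h4]; group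
            _ = 1 := by rw [h, hconj x hx hxT, hU2 z hzU])
        simpa using mul_mem (zpowers_le.mpr hzU h3) (inv_mem hu)
    intro s hs
    refine mem_normalizer_of_conj_mem fun w hw => hchar _
      (conj_mem_of_mem_normalizer (hST hs) (hUT hw)) (conj_mem_of_mem_normalizer
        (normalizer_le_normalizer_centralizer _ (hST hs)) (le_centralizer_iff.mp hTU hw)) ?_
    calc s * w * s⁻¹ * (s * w * s⁻¹) = s * (w * w) * s⁻¹ := by group
      _ = 1 := by rw [hU2 w hw]; simp
  have hO : ∀ u ∈ U, u ≠ 1 → U ≤ OpOf 2 (centralizer {u}) := by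
    intro u hu hu1
    obtain ⟨S, hS, hSU⟩ := hSyl u hu hu1
    have hu2 : IsPGroup 2 (zpowers u) := isPGroup_zpowers_of_mem (P.isPGroup'.to_le hUP) hu
    have hNC : normalizer ((zpowers u : Subgroup G) : Set G) = centralizer {u} := by
      refine le_antisymm (fun g hg => mem_centralizer_singleton_iff.mpr ?_)
        (le_normalizer_of_le_centralizer (centralizer_zpowers u).ge)
      rcases hz2 (hU2 u hu) (conj_mem_of_mem_normalizer hg (mem_zpowers u)) with h | h
      · exact absurd (by simpa using h) hu1
      · exact mul_inv_eq_iff_eq_mul.mp h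
    have hch := h2.2 _ hu2 (by simpa using hu1)
    rw [hNC] at hch
    refine le_OpOf_of_commutator_le ?_ (centralizer_zpowers u).ge hu2
      (fun w hw => mem_centralizer_singleton_iff.mpr (hUU hu w hw)) ?_
    · rw [OpOf_def, ← map_subtype_centralizer]
      exact map_mono hch
    · refine (commutator_mono (OpOf_le_of_isSyl hS) le_rfl).trans (commutator_le.mpr
        fun s hs w hw => ?_)
      rw [commutatorElement_def, hidx u hu hu1 _ (conj_mem_of_mem_normalizer (hSU hs) hw) _
        (inv_mem hw), inv_mem_iff]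
      have := mem_normalizer_iff.mp (hNC.ge (hS.le hs)) w
      exact this.symm
  rw [le_centralizer_iff]
  refine le_of_centralizers hUc (IsKleinFour.not_isCyclic) hUK
    (coprime_card_of_isPGroup (P.isPGroup'.to_le hUP) hK.not_two_dvd_nat) fun u hu hu1 => ?_
  rw [← commutator_eq_bot_iff_le_centralizer, eq_bot_iff,
    ← inf_eq_bot_of_isPGroup_of_not_dvd (OpOf_isPGroup (p := 2) (centralizer {u})) hK.not_two_dvd_nat]
  exact le_inf ((commutator_mono inf_le_right (hO u hu hu1)).trans
    (commutator_le_of_le_normalizer_right (le_normalizer_OpOf le_normalizer)))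
    ((commutator_mono inf_le_left le_rfl).trans (commutator_le_of_le_normalizer_left hUK))

end Cfsg.Agent.S1957
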