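import Cfsg.Statements.S1958
import Cfsg.Agent.Lib.Core.Balance
-- import your own Cfsg.Agent.* helpers here

set_option autoImplicit false
open Cfsg

namespace Cfsg.Agent.S1958

open Cfsg.Agent.Lib.Core Subgroup
open scoped Pointwise commutatorElement

theorem aux {G : Type*} [Group G] [Finite G]
    (p : ℕ) [Fact p.Prime] (x y : G) (hx : orderOf x = p) (hxy : x * y = y * x)
    (hCy : Group.IsSolvable ↥(Subgroup.centralizer ({y} : Set G))) :
    Cfsg.centralizerPPrimeCore p x ⊓ Subgroup.centralizer {y} ≤
      Cfsg.centralizerPPrimeCore p y ⊓ Subgroup.centralizer {x} := by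
  rw [centralizerPPrimeCore_eq, centralizerPPrimeCore_eq]
  refine le_inf ?_ (inf_le_left.trans (OppOf_le _))
  have h1 : IsPGroup p (zpowers x) :=
    isPGroup_zpowers (k := 1) (by rw [pow_one, ← hx, pow_orderOf_eq_one])
  have h2 := OppOf_inf_centralizer_le (LOf_eq_bot_of_isSolvable hCy) h1
    (zpowers_le.mpr (mem_centralizer_singleton_iff.mpr hxy))
  rw [centralizer_zpowers] at h2
  refine le_trans ?_ h2
  exact (le_inf inf_le_left (le_inf inf_le_right (inf_le_left.trans (OppOf_le _)))).trans
    (inf_OppOf_le inf_le_right)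

/-- Let `G` be a finite group, `p` a prime, and `x, y` commuting elements of order `p` whose centralizers `C_G(x)` and `C_G(y)` are both solvable. Then `O_{p'}(C_G(x)) ∩ C_G(y) = O_{p'}(C_G(y)) ∩ C_G(x)` (balance). -/
theorem result {G : Type*} [Group G] [Finite G]
    (p : ℕ) [Fact p.Prime] (x y : G) (hx : orderOf x = p) (hy : orderOf y = p) (hxy : x * y = y * x)
    (hCx : Group.IsSolvable ↥(Subgroup.centralizer ({x} : Set G))) (hCy : Group.IsSolvable ↥(Subgroup.centralizer ({y} : Set G))) :
    Cfsg.centralizerPPrimeCore p x ⊓ Subgroup.centralizer {y} = Cfsg.centralizerPPrimeCore p y ⊓ Subgroup.centralizer {x} := by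
  exact le_antisymm (aux p x y hx hxy hCy) (aux p y x hy hxy.symm hCx)

end Cfsg.Agent.S1958
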