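import Cfsg.Statements.S1960
import Cfsg.Agent.Lib.Glaub.Control

set_option autoImplicit false
open Cfsg

namespace Cfsg.Agent.S1960

/-- Let p be a prime, G a finite group with Sylow p-subgroup S, and 𝓦 a set of conjugacy functors for p on G. Suppose that 𝓦 controls transfer in N_G(T) for every nonidentity subgroup T of S for which N_S(T) is a Sylow p-subgroup of N_G(T): for a Sylow p-subgroup T' of N_G(T), the intersection of T' with the derived subgroup of N_G(T) is generated by its intersections with the derived subgroups of the normalizers in N_G(T) of the W(T'), W ∈ 𝓦. Then 𝓦 controls transfer in G: S ∩ G' is generated by the subgroups S ∩ (N_G(W(S)))', W ∈ 𝓦. -/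
theorem result {G : Type*} [Group G] [Finite G] {p : ℕ} [Fact p.Prime] (S : Sylow p G) (𝓦 : Set (Subgroup G → Subgroup G)) (h𝓦 : ∀ W ∈ 𝓦, Cfsg.IsConjugacyFunctor p W) (hloc : ∀ T : Subgroup G, T ≤ (S : Subgroup G) → T ≠ ⊥ → ¬ p ∣ ((S : Subgroup G) ⊓ Subgroup.normalizer ((T : Subgroup G) : Set G)).relIndex (Subgroup.normalizer ((T : Subgroup G) : Set G)) → Cfsg.FamilyControlsTransferIn p 𝓦 (Subgroup.normalizer ((T : Subgroup G) : Set G))) : Cfsg.FamilyControlsTransferIn p 𝓦 ⊤ := by
  open Subgroup Cfsg.Agent.Lib.Core Cfsg.Agent.Lib.Glaub in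
  (
  rw [familyControlsTransferIn_iff]
  have hW : ∀ L : Subgroup G, ∀ W ∈ 𝓦, IsCF p L W := fun L W hW => isCF_of_isConjugacyFunctor (h𝓦 W hW) L
  refine ⟨S, isSyl_sylow S, transfer_of_local (isSyl_sylow S) (hW _) fun U hU h1 h2 => ?_⟩
  rw [top_inf_eq] at h2 ⊢
  obtain ⟨T, hT, h⟩ := familyControlsTransferIn_iff.mp (hloc U hU h1 h2.not_dvd)
  exact famTr_transport (hW _) hT h2 h
  )

end Cfsg.Agent.S1960
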