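import Cfsg.Statements.S1961
import Cfsg.Agent.Lib.Glaub.Control

set_option autoImplicit false
open Cfsg

namespace Cfsg.Agent.S1961

/-- Local-to-global control of strong fusion through well-placed subgroups. Let p be a prime, G a finite group with Sylow p-subgroup S, and W a conjugacy functor for p on G. If W controls strong fusion in N_G(T) for every nonidentity subgroup T of S that is well placed in S with respect to W, then W controls strong fusion in G. -/
theorem result {G : Type*} [Group G] [Finite G] {p : ℕ} [Fact p.Prime] (S : Sylow p G) (W : Subgroup G → Subgroup G) (hW : Cfsg.IsConjugacyFunctor p W) (hloc : ∀ T : Subgroup G, T ≠ ⊥ → Cfsg.IsWellPlaced p W (S : Subgroup G) T → Cfsg.ControlsStrongFusionIn p W (Subgroup.normalizer ((T : Subgroup G) : Set G))) : Cfsg.ControlsStrongFusionIn p W ⊤ := by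
  open Subgroup Cfsg.Agent.Lib.Core Cfsg.Agent.Lib.Glaub in
  (
  rw [controlsStrongFusionIn_iff]
  have hW' : ∀ L : Subgroup G, IsCF p L W := isCF_of_isConjugacyFunctor hW
  refine ⟨S, isSyl_sylow S, ctrl_of_wellPlaced (isSyl_sylow S) (hW' _) fun U h1 hU => ?_⟩
  have h2 := hU.isSyl
  rw [top_inf_eq] at h2 ⊢
  obtain ⟨T, hT, h⟩ := controlsStrongFusionIn_iff.mp
    (hloc U h1 ((wellPlaced_top_iff S.isPGroup').mp hU))
  exact ctrl_functor_transport (hW' _) hT h2 h
  )

end Cfsg.Agent.S1961
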