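import Cfsg.Statements.S1967
import Cfsg.Agent.Lib.Glaub.ConjFamily

set_option autoImplicit false
open Cfsg

namespace Cfsg.Agent.S1967

/-- Let p be a prime, G a finite group with Sylow p-subgroup S and W a conjugacy functor for p on G. Then W controls strong fusion in G if and only if, whenever T ≤ S and g ∈ G satisfy gTg⁻¹ ≤ S, one can write g = n c with n ∈ N_G(W(S)) and c ∈ C_G(T). -/
theorem result {G : Type*} [Group G] [Finite G] {p : ℕ} [Fact p.Prime] (S : Sylow p G) (W : Subgroup G → Subgroup G) (hW : Cfsg.IsConjugacyFunctor p W) : Cfsg.ControlsStrongFusionIn p W ⊤ ↔ ∀ (T : Subgroup G) (g : G), T ≤ (S : Subgroup G) → T.map (MulAut.conj g).toMonoidHom ≤ (S : Subgroup G) → ∃ n ∈ Subgroup.normalizer ((W (S : Subgroup G) : Subgroup G) : Set G), ∃ c ∈ Subgroup.centralizer (T : Set G), g = n * c := by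
  open Subgroup Cfsg.Agent.Lib.Core Cfsg.Agent.Lib.Glaub in
  (
  have hW' := isCF_of_isConjugacyFunctor hW ⊤
  rw [controlsStrongFusionIn_iff]
  simp only [ctrl_subgroup_iff', top_inf_eq]
  constructor
  · rintro ⟨T, hT, h⟩ A g hA hgA
    obtain ⟨y, -, hy⟩ := (isSyl_sylow S).exists_conj hT
    obtain ⟨n, hn, c, hc, e⟩ := h cj(y, A) (hy ▸ cj_le_cj y hA) (y * g * y⁻¹) (mem_top _) (by
      rw [map_conj_map_conj, inv_mul_cancel_right, ← map_conj_map_conj, ← hy]; exact cj_le_cj y hgA)
    rw [← hy, hW'.conj S.isPGroup' y (mem_top _), ← map_conj_normalizer, mem_map_conj] at hn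
    rw [← map_conj_centralizer, mem_map_conj] at hc
    refine ⟨_, hn, _, hc, ?_⟩
    calc g = y⁻¹ * (y * g * y⁻¹) * y := by group
      _ = _ := by rw [e]; group
  · intro h
    exact ⟨S, isSyl_sylow S, fun A hA g _ hg => h A g hA hg⟩
  )

end Cfsg.Agent.S1967
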