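import Cfsg.Statements.S1970
import Cfsg.Agent.Lib.Glaub.SecTransfer

set_option autoImplicit false
universe u
open Cfsg

namespace Cfsg.Agent.S1970

/-- Let p be a prime, G a finite group and W an isomorphism-invariant p-group functor (W assigns to every group Q a subgroup W(Q), nontrivial whenever Q is a nontrivial finite p-group, and every isomorphism from a finite p-group Q onto a group R carries W(Q) onto W(R)). Suppose that for every section G* = K/R of G with C_{G*}(O_p(G*)) ≤ O_p(G*) and every Sylow p-subgroup S* of G*, one has O_p(G*) ∩ (G*)' = O_p(G*) ∩ (N_{G*}(W(S*)))'. Then W controls transfer in every section G* of G: S* ∩ (G*)' = S* ∩ (N_{G*}(W(S*)))' for a Sylow p-subgroup S* of G*. -/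
theorem result {G : Type u} [Group G] [Finite G] {p : ℕ} [Fact p.Prime] (W : ∀ (Q : Type u) [Group Q], Subgroup Q) (hW : Cfsg.IsCharPFunctor.{u} p W) (hloc : ∀ (K R : Subgroup G) [hR : (R.subgroupOf K).Normal], Subgroup.centralizer ((Cfsg.pCore p (↥K ⧸ R.subgroupOf K) : Subgroup (↥K ⧸ R.subgroupOf K)) : Set (↥K ⧸ R.subgroupOf K)) ≤ Cfsg.pCore p (↥K ⧸ R.subgroupOf K) → ∀ T : Sylow p (↥K ⧸ R.subgroupOf K), Cfsg.pCore p (↥K ⧸ R.subgroupOf K) ⊓ commutator (↥K ⧸ R.subgroupOf K) = Cfsg.pCore p (↥K ⧸ R.subgroupOf K) ⊓ ⁅Subgroup.normalizer ((Cfsg.inducedFunctor (G := (↥K ⧸ R.subgroupOf K)) W ((T : Subgroup (↥K ⧸ R.subgroupOf K))) : Subgroup (↥K ⧸ R.subgroupOf K)) : Set (↥K ⧸ R.subgroupOf K)), Subgroup.normalizer ((Cfsg.inducedFunctor (G := (↥K ⧸ R.subgroupOf K)) W ((T : Subgroup (↥K ⧸ R.subgroupOf K))) : Subgroup (↥K ⧸ R.subgroupOf K)) : Set (↥K ⧸ R.subgroupOf K))⁆) : ∀ (K R : Subgroup G) [hR : (R.subgroupOf K).Normal],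 Cfsg.ControlsTransferIn p (Cfsg.inducedFunctor (G := (↥K ⧸ R.subgroupOf K)) W) ⊤ := by
  open Subgroup Cfsg.Agent.Lib.Core Cfsg.Agent.Lib.Glaub in
  (
  intro K R _
  have h𝓦 : ∀ W' ∈ ({W} : Set (∀ (Q : Type u) [Group Q], Subgroup Q)), IsCharPFunctor p W' := by
    rintro _ rfl; exact hW
  refine (tfa_singleton_iff hW).mp (section_induction (Hyp := fun H _ => 𝐂(pCore p H) ≤ pCore p H → ∀ T : Sylow p H,
        pCore p H ⊓ commutator H = pCore p H ⊓ ⁅𝐍(inducedFunctor W (T : Subgroup H)), 𝐍(inducedFunctor W (T : Subgroup H))⁆)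
    (Concl := fun H _ => TFA p {W} (⊤ : Subgroup H)) (fun _ _ _ _ _ e h => tfa_of_equiv h𝓦 e h)
    hloc (fun H _ _ _ h IH S hS => ?_) _ (IsSec.section K R))
  by_contra hG
  obtain ⟨h1, h2⟩ := normalizer_ne_top_of_not_tfa h𝓦 rfl hS hG
  obtain ⟨S, rfl⟩ := hS.exists_sylow_top
  obtain ⟨h3, -, -, h4⟩ := tfa_core h𝓦 hS IH hG h2
  refine h4 ((h h3 S).le.trans ?_)
  rw [famTr_indFam_singleton, top_inf_eq]
  exact inf_le_inf_right _ (pCore_le_sylow S)
  )

end Cfsg.Agent.S1970
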