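import Cfsg.Statements.S1971
import Cfsg.Agent.Lib.Glaub.SecTransfer
import Cfsg.Agent.Lib.Transfer.Frobenius

set_option autoImplicit false
universe u
open Cfsg

namespace Cfsg.Agent.S1971

section
open Subgroup Cfsg.Agent.Lib Cfsg.Agent.Lib.Core Cfsg.Agent.Lib.Glaub
theorem aux {p : ℕ} [hp : Fact p.Prime] {W : ∀ (Q : Type u) [Group Q], Subgroup Q}
    (hW : IsCharPFunctor p W) (G : Type u) [Group G] [Finite G] :
    (∀ (H : Type u) [Group H] [Finite H], IsSec H G → TFA p {W} (⊤ : Subgroup H)) →
    ∀ S : Subgroup G, IsSyl p S ⊤ → S ≠ ⊥ → (∀ g ∈ 𝐍(S), (orderOf g).Coprime p → g ∈ 𝐂(S)) →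
    ¬ S ≤ commutator G := by
  refine card_induction (P := fun G _ _ =>
    (∀ (H : Type u) [Group H] [Finite H], IsSec H G → TFA p {W} (⊤ : Subgroup H)) →
    ∀ S : Subgroup G, IsSyl p S ⊤ → S ≠ ⊥ → (∀ g ∈ 𝐍(S), (orderOf g).Coprime p → g ∈ 𝐂(S)) →
    ¬ S ≤ commutator G) (fun G _ _ IH => ?_) G
  intro hctl S hS hS1 hN hcon
  have hcf := isCF_induced hW (⊤ : Subgroup G)
  have hSN : S ≤ 𝐍(inducedFunctor W S) := hcf.le_normalizer hS.isPGroup le_top
  by_cases h1 : 𝐍(inducedFunctor W S) = ⊤
  swap
  · set L := 𝐍(inducedFunctor W S) with hL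
    have hi := L.subtype_injective
    have hSL : (S.subgroupOf L).map L.subtype = S := map_subgroupOf_eq_of_le hSN
    refine IH L (card_lt_of_ne_top h1) (fun H _ _ h => hctl H (h.trans (IsSec.subgroup L)))
      (S.subgroupOf L) (IsSyl.of_map_injective hi (by
        rw [hSL, ← MonoidHom.range_eq_map, range_subtype]; exact hS.mono hSN le_top))
      (fun h => hS1 (by rw [← hSL, h, Subgroup.map_bot])) (fun g hg hc => ?_) ?_
    · refine mem_centralizer_of_map hi ?_
      rw [hSL]
      exact hN g (hSL ▸ map_mem_normalizer L.subtype hg) (by rwa [orderOf_coe])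
    · rw [← map_le_map_iff_of_injective hi, hSL, map_subtype_commutator]
      exact ((le_inf le_rfl hcon).trans ((hctl G IsSec.refl).eq hS).le).trans inf_le_right
  haveI := normal_of_le_normalizer_top h1.ge
  set K := inducedFunctor W S with hK
  have hKS : K ≤ S := inducedFunctor_le S
  by_cases h2 : S ≤ K
  · haveI : S.Normal := le_antisymm hKS h2 ▸ inferInstance
    have h3 : ⊤ ≤ 𝐂(S) ⊔ S := le_sup_of_forall_coprime hS
      fun g _ hc => hN g (le_normalizer_of_normal (mem_top g)) hc
    obtain ⟨S, rfl⟩ := hS.exists_sylow_top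
    have h4 : HasNormalPComplement p G := Transfer.hasNormalPComplement_of_frobenius_sylow S
      fun Q hQ g _ hc => centralizer_le_centralizer hQ
        (hN g (le_normalizer_of_normal (mem_top g)) hc)
    rw [← Transfer.pResidual_eq_top_iff_sylow_le_commutator] at hcon
    rw [Transfer.hasNormalPComplement_iff_not_dvd, hcon, card_top] at h4
    exact h4 ((dvd_card_of_isPGroup_of_ne_bot S.isPGroup' hS1).trans (card_subgroup_dvd_card _))
  · let π := QuotientGroup.mk' K
    have hs : Function.Surjective π := QuotientGroup.mk'_surjective _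
    have hS' := hS.map π
    rw [map_top_of_surjective π hs] at hS'
    refine IH (G ⧸ K) (card_quotient_lt (hcf.ne_bot hS.isPGroup hS1))
      (fun H _ _ h => hctl H (h.trans (IsSec.quotient K))) _ hS'
      (fun h => h2 (map_mk'_eq_bot_iff.mp h)) (fun g hg hc => ?_) ?_
    · obtain ⟨g, rfl⟩ := hs g
      obtain ⟨a, b, ha, hb, ⟨k, hk⟩, hbc, rfl⟩ := Transfer.exists_p_part_mul_p'_part (p := p) g
      have hg' : a * b ∈ 𝐍(S) := by
        rw [← comap_map_mk'_of_le hKS, ← comap_normalizer_eq_of_surjective _ hs]; exact hg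
      have h3 : π a = 1 := Transfer.eq_one_of_coprime_of_pow_eq_one (k := k)
        (by rw [← map_pow, hk, map_one])
        (hc.coprime_dvd_left (orderOf_dvd_of_mem_zpowers (by
          rw [← MonoidHom.map_zpowers]; exact mem_map_of_mem π ha)))
      rw [map_mul, h3, one_mul]
      exact map_mem_centralizer π (hN b (zpowers_le.mpr hg' hb) hbc)
    · rw [_root_.commutator_def, ← map_top_of_surjective π hs, ← map_commutator]
      exact map_mono hcon

theorem aux2 {p : ℕ} [hp : Fact p.Prime] {W : ∀ (Q : Type u) [Group Q], Subgroup Q}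
    (hW : IsCharPFunctor p W) {G : Type u} [Group G] [Finite G]
    (h : ∀ (H : Type u) [Group H] [Finite H], IsSec H G → TFA p {W} (⊤ : Subgroup H))
    (S : Sylow p G) (hS : (S : Subgroup G) ≠ ⊥)
    (hN : ∀ g ∈ 𝐍((S : Subgroup G)), (orderOf g).Coprime p → g ∈ 𝐂((S : Subgroup G))) :
    ∃ N : Subgroup G, N.Normal ∧ N.index = p := by
  obtain ⟨M, h1, h2, -⟩ := Transfer.exists_normal_index_eq_of_pResidual_ne_top (p := p) (G := G)
    (fun h' => aux hW G h S (isSyl_sylow S) hS hN
      ((Transfer.pResidual_eq_top_iff_sylow_le_commutator S).mp h'))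
  exact ⟨M, h1, h2⟩
end

/-- Let p be a prime, G a finite group with nontrivial Sylow p-subgroup S, and W an isomorphism-invariant p-group functor (W assigns to every group Q a subgroup W(Q), nontrivial whenever Q is a nontrivial finite p-group, and every isomorphism from a finite p-group Q onto a group R carries W(Q) onto W(R)) that controls transfer in every section of G. If N_G(S)/C_G(S) is a p-group (every element of N_G(S) of order prime to p centralizes S), then G has a normal subgroup of index p. -/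
theorem result {G : Type u} [Group G] [Finite G] {p : ℕ} [Fact p.Prime] (W : ∀ (Q : Type u) [Group Q], Subgroup Q) (hW : Cfsg.IsCharPFunctor.{u} p W) (hctl : ∀ (K R : Subgroup G) [hR : (R.subgroupOf K).Normal], Cfsg.ControlsTransferIn p (Cfsg.inducedFunctor (G := (↥K ⧸ R.subgroupOf K)) W) ⊤) (S : Sylow p G) (hS : (S : Subgroup G) ≠ ⊥) (hN : ∀ g ∈ Subgroup.normalizer (((S : Subgroup G) : Subgroup G) : Set G), (orderOf g).Coprime p → g ∈ Subgroup.centralizer ((S : Subgroup G) : Set G)) : ∃ N : Subgroup G, N.Normal ∧ N.index = p := by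
  open Subgroup Cfsg.Agent.Lib.Core Cfsg.Agent.Lib.Glaub in
  (
  refine aux2 hW (fun H _ _ hH => ?_) S hS hN
  obtain ⟨K, R, _, ⟨e⟩⟩ := hH.exists_equiv
  exact tfa_of_equiv (by rintro _ rfl; exact hW) e ((tfa_singleton_iff hW).mpr (hctl K R))
  )

end Cfsg.Agent.S1971
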