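import Cfsg.Statements.S1988
import Cfsg.Agent.Lib.Glaub.HH
import Cfsg.Agent.S2006
import Cfsg.Agent.S2007

set_option autoImplicit false
universe u
open Cfsg

namespace Cfsg.Agent.S1988

/-- Let p be an odd prime, G a finite group with Sylow p-subgroup S and K the lower K-infinity subgroup of S. If N_G(K) has a normal p-complement, or if N_G(K)/C_G(K) is a p-group (every element of N_G(K) of order prime to p centralizes K), then G has a normal p-complement. -/
theorem result {G : Type u} [Group G] [Finite G] {p : ℕ} [Fact p.Prime] (hp : p ≠ 2) (S : Sylow p G) (h : Cfsg.HasNormalPComplement p ↥(Subgroup.normalizer ((Cfsg.inducedFunctor Cfsg.kInfLower (S : Subgroup G) : Subgroup G) : Set G)) ∨ ∀ g ∈ Subgroup.normalizer ((Cfsg.inducedFunctor Cfsg.kInfLower (S : Subgroup G) : Subgroup G) : Set G), (orderOf g).Coprime p → g ∈ Subgroup.centralizer ((Cfsg.inducedFunctor Cfsg.kInfLower (S : Subgroup G) : Subgroup G) : Set G)) : Cfsg.HasNormalPComplement p G := by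
  open Subgroup Cfsg.Agent.Lib Cfsg.Agent.Lib.Core Cfsg.Agent.Lib.Glaub in
  (
  refine S2006.aux isCharPFunctor_kInfLower (fun K R _ hC T hT => ?_) S (isSyl_sylow S) ?_
  · rw [inducedFunctor_kInfLower] at hT
    obtain ⟨g, h1, h2, -, -, h3⟩ := exists_kInf_element (isSyl_sylow T) (Or.inl hT)
    obtain ⟨U, V, a, b, c, d⟩ := h3 hC
    exact ⟨g, h1, h2, U, V, a, b, iterCommutator_le_of_le (i := 2)
      (by have := (Fact.out : p.Prime).two_le; omega) c
      (by haveI := a.2.2.1; exact le_normalizer_of_normal), d⟩
  · rcases h with h | h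
    · exact h
    · rw [inducedFunctor_kInfLower] at h ⊢
      exact S2007.result S _ (kLoInf_le _) (fun g hg => mem_normalizer_kLoInf (le_normalizer hg))
        (centralizer_kLoInf_le S.isPGroup') h
  )

end Cfsg.Agent.S1988
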