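import Cfsg.Statements.S1989
import Cfsg.Agent.Lib.Glaub.Dickson
import Cfsg.Agent.Lib.Glaub.KInfCor

set_option autoImplicit false
universe u
open Cfsg

namespace Cfsg.Agent.S1989

section
open Subgroup Cfsg.Agent.Lib Cfsg.Agent.Lib.Core Cfsg.Agent.Lib.Glaub
universe v

theorem sfa_of_csf {G : Type v} [Group G] [Finite G] {p : ℕ} [Fact p.Prime]
    {W : ∀ (Q : Type v) [Group Q], Subgroup Q} (hW : IsCharPFunctor p W)
    (h : ∀ T : Sylow p G, ControlsStrongFusion p (inducedFunctor W (T : Subgroup G))) :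
    SFA p {W} (⊤ : Subgroup G) := by
  intro T hT
  obtain ⟨T, rfl⟩ := hT.exists_sylow_top
  obtain ⟨T', hUT, hc⟩ := ctrl_of_controlsStrongFusion (h T)
  rw [famSteps_indFam_singleton, top_inf_eq]
  set U := inducedFunctor W (T : Subgroup G) with hU
  have h1 : (T : Subgroup G) ≤ 𝐍(U) := fun x hx => by
    rw [← map_conj_eq_iff, hU, map_inducedFunctor_of_injective hW (MulAut.conj x).injective T.2,
      map_conj_eq_of_mem hx]
  have h2 : (T' : Subgroup G) ≤ 𝐍(U) := fun x hx => by
    obtain ⟨n, hn, c, hc', rfl⟩ := ctrl_subgroup_iff'.mp hc T' le_rfl x (mem_top x)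
      (map_conj_eq_of_mem hx).le
    exact mul_mem hn (centralizer_le_normalizer _ (centralizer_le_centralizer hUT hc'))
  obtain ⟨n, hn, hnT⟩ := ((isSyl_sylow T').mono h2 le_top).exists_conj
    ((isSyl_sylow T).mono h1 le_top)
  have := hc.conj n
  rw [hnT, map_conj_eq_of_mem (mem_top n)] at this
  refine this.mono ?_
  rintro _ ⟨x, hx, rfl⟩
  exact mul_mem (mul_mem hn hx) (inv_mem hn)
end

/-- Let p be an odd prime and G a finite group. Then Qd(p) (the natural semidirect product of an elementary abelian group of order p² by SL₂(p)) is not involved in G if and only if, in every section K/R of G and for every Sylow p-subgroup T of K/R, the lower K-infinity subgroup of T controls strong fusion in K/R. -/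
theorem result {G : Type u} [Group G] [Finite G] {p : ℕ} [Fact p.Prime] (hp : p ≠ 2) : ¬ Cfsg.Involves ↥(Cfsg.qd p) G ↔ ∀ (K R : Subgroup G) [hR : (R.subgroupOf K).Normal], ∀ T : Sylow p (↥K ⧸ R.subgroupOf K), Cfsg.ControlsStrongFusion p (Cfsg.inducedFunctor (G := (↥K ⧸ R.subgroupOf K)) Cfsg.kInfLower (T : Subgroup (↥K ⧸ R.subgroupOf K))) := by
  open Subgroup Cfsg.Agent.Lib Cfsg.Agent.Lib.Core Cfsg.Agent.Lib.Glaub in
  (
  rw [involves_iff_isSec]
  refine ⟨fun h K R _ T => ?_, fun h => not_isSec_qd_of_sfa (𝓦 := {kInfLower})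
    (by simpa using isCharPFunctor_kInfLower) fun K R _ =>
      sfa_of_csf isCharPFunctor_kInfLower (h K R)⟩
  refine SFA.controlsStrongFusion (sfa_kInfLower_of_pStable fun K' R' _ => ?_) T
  exact pStable_of_qdFree hp fun h' => h ((h'.trans (IsSec.section K' R')).trans (IsSec.section K R))
  )

end Cfsg.Agent.S1989
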