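import Cfsg.Statements.S1992
import Cfsg.Agent.Lib.Glaub.Burnside
import Cfsg.Agent.S1991

set_option autoImplicit false
open Cfsg

namespace Cfsg.Agent.S1992

/-- Let G be a finite group in which, for every prime q dividing the order of G, every Sylow q-subgroup is its own normalizer. Then the order of G is a power of a single prime (G is a q-group for some prime q; for G trivial any prime works). -/
theorem result {G : Type*} [Group G] [Finite G] (h : ∀ q : ℕ, q.Prime → q ∣ Nat.card G → ∀ Q : Sylow q G, Subgroup.normalizer ((Q : Subgroup G) : Set G) = Q) : ∃ q : ℕ, q.Prime ∧ IsPGroup q G := by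
  open Subgroup Cfsg.Agent.Lib Cfsg.Agent.Lib.Core Cfsg.Agent.Lib.Glaub in
  (
  rcases subsingleton_or_nontrivial G with hG | hG
  · exact ⟨2, Nat.prime_two, fun g => ⟨0, Subsingleton.elim _ _⟩⟩
  obtain ⟨N, hN, hN1, r, hr, k, hk⟩ : ∃ N : Subgroup G, N.Normal ∧ N ≠ ⊤ ∧
      ∃ r : ℕ, r.Prime ∧ ∃ k, N.index ∣ r ^ k := by
    by_cases h5 : ∃ p : ℕ, p.Prime ∧ p ∣ Nat.card G ∧ 5 ≤ p
    · obtain ⟨p, hp, hd, h5⟩ := h5
      haveI := Fact.mk hp
      obtain ⟨S⟩ : Nonempty (Sylow p G) := inferInstance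
      obtain ⟨N, hN, hi⟩ := S1991.result h5 S ((isSyl_sylow S).ne_bot (by simpa using hd))
        fun g hg hc => by
          rw [h p hp hd S] at hg
          obtain ⟨k, hk⟩ := pow_eq_one_of_isPGroup S.2 hg
          rw [Transfer.eq_one_of_coprime_of_pow_eq_one hk hc]
          exact one_mem _
      exact ⟨N, hN, fun e => hp.ne_one (by rw [← hi, e, index_top]), p, hp, 1, by simp [hi]⟩
    · haveI := isSolvable_of_two_primes Nat.prime_two Nat.prime_three G fun r hr hd => by
        by_contra hc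
        push Not at hc
        refine h5 ⟨r, hr, hd, ?_⟩
        have := hr.two_le
        have : r ≠ 4 := by rintro rfl; exact absurd hr (by decide)
        omega
      obtain ⟨N, hN, hle⟩ := (eq_top_or_exists_le_coatom (commutator G)).resolve_left
        (IsSolvable.commutator_lt_top_of_nontrivial G).ne
      haveI hn : N.Normal := Subgroup.Normal.of_commutator_le _ hle
      obtain ⟨r, hr, hd⟩ := Nat.exists_prime_and_dvd (mt index_eq_one.mp hN.1)
      haveI := Fact.mk hr
      obtain ⟨R, hR⟩ := exists_isSyl (p := r) (⊤ : Subgroup G)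
      have h1 : ¬ R ≤ N := fun e => hR.not_dvd_relIndex e (by rwa [relIndex_top_right])
      have h2 : R ⊔ N = ⊤ := hN.2 _ (right_lt_sup.mpr h1)
      obtain ⟨k, hk⟩ := hR.isPGroup.exists_card_eq
      refine ⟨N, hn, hN.1, r, hr, k, ?_⟩
      rw [← relIndex_top_right, ← h2, relIndex_sup_right, ← hk]
      exact relIndex_dvd_card N R
  refine ⟨r, hr, ?_⟩
  haveI := Fact.mk hr
  refine IsPGroup.iff_card.mpr ⟨_, Nat.eq_prime_pow_of_unique_prime_dvd Nat.card_pos.ne'
    fun {q} hq hd => ?_⟩
  by_contra hqr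
  haveI := Fact.mk hq
  obtain ⟨Q⟩ : Nonempty (Sylow q G) := inferInstance
  have h1 : (Q : Subgroup G) ≤ N := by
    rw [← relIndex_eq_one]
    obtain ⟨l, hl⟩ := Q.2.exists_card_eq
    refine Nat.eq_one_of_dvd_coprimes (((Nat.coprime_primes hq hr).mpr hqr).pow l k)
      (hl ▸ relIndex_dvd_card N Q) ((relIndex_dvd_index_of_normal N Q).trans hk)
  have h2 := ((isSyl_sylow Q).mono h1 le_top).frattini_sup le_top le_normalizer_of_normal
  rw [h q hq hd Q, top_inf_eq, sup_eq_left.mpr h1] at h2
  exact hN1 h2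
  )

end Cfsg.Agent.S1992
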