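import Cfsg.Statements.S1997
import Cfsg.Agent.Lib.Glaub.KInfCor

set_option autoImplicit false
universe u
open Cfsg

namespace Cfsg.Agent.S1997

section
open Subgroup Cfsg.Agent.Lib.Core Cfsg.Agent.Lib.Glaub
theorem constrained_of_quotient {G : Type u} [Group G] [Finite G] {p : ℕ} [Fact p.Prime]
    {S Q : Subgroup G} (hS : IsSyl p S ⊤) [hQn : Q.Normal] (hQ : Q ≤ S) (hC : S ⊓ 𝐂(Q) ≤ Q)
    {G' : Type u} [Group G'] (π : G →* G') (hs : Function.Surjective π)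
    (hk : π.ker = pPrimeCore p G) : 𝐂(pCore p G') ≤ pCore p G' := by
  haveI : Finite G' := Finite.of_surjective π hs
  have hS' := hS.map π
  rw [map_top_of_surjective π hs] at hS'
  haveI := hQn.map π hs
  have hO : pPrimeCore p G' = ⊥ := by
    rw [← map_pPrimeCore_eq π hs (hk ▸ pPrimeCore_not_dvd), Subgroup.map_eq_bot_iff, hk]
  have hSO : π.ker ⊓ S = ⊥ := by
    rw [hk, inf_comm]; exact inf_eq_bot_of_isPGroup_of_not_dvd hS.isPGroup pPrimeCore_not_dvd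
  have h1 : Q.map π ≤ pCore p G' := le_pCore ((hS.isPGroup.to_le hQ).map π)
  refine (centralizer_le_centralizer h1).trans
    ((centralizer_le_of_pPrimeCore_eq_bot hS' hO ?_).trans h1)
  rintro _ ⟨⟨s, hs, rfl⟩, h⟩
  refine mem_map_of_mem π (hC ⟨hs, ?_⟩)
  have := mem_centralizer_of_map_of_inf (A := Q) (g := 1) (c := s) hSO (by rwa [map_conj_one])
    (map_conj_le_of_le hQ (le_normalizer hs)) (by simpa using h)
  simpa using this

theorem conj_realized {G : Type u} [Group G] [Finite G] {p : ℕ} [Fact p.Prime]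
    {W : ∀ (Q : Type u) [Group Q], Subgroup Q} (hW : IsCharPFunctor p W)
    (hfac : ∀ (K R : Subgroup G) [(R.subgroupOf K).Normal],
      𝐂(pCore p (K ⧸ R.subgroupOf K)) ≤ pCore p (K ⧸ R.subgroupOf K) →
      ∀ T : Sylow p (K ⧸ R.subgroupOf K), ∀ x : K ⧸ R.subgroupOf K,
        ∃ a ∈ 𝐂(omegaOne p ((T : Subgroup (K ⧸ R.subgroupOf K)) ⊓ 𝐂((T : Subgroup (K ⧸ R.subgroupOf K))))),
        ∃ b ∈ 𝐍(inducedFunctor W (T : Subgroup (K ⧸ R.subgroupOf K))), x = a * b)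
    {S H V : Subgroup G} (hS : IsSyl p S ⊤) (hSH : S ≤ H) (hVS : V ≤ S) (hV : V ≤ 𝐂(V))
    (hHV : H ≤ 𝐍(V)) (hZ : omegaOne p (S ⊓ 𝐂(S)) ≤ V) {h : G} (hh : h ∈ H) :
    ∃ n ∈ 𝐍(inducedFunctor W S), ∀ z ∈ omegaOne p (S ⊓ 𝐂(S)), h * z * h⁻¹ = n * z * n⁻¹ := by
  have hN : H ≤ 𝐍(H ⊓ 𝐂(V)) := le_normalizer_inf le_normalizer (le_normalizer_centralizer hHV)
  have hQ := (hS.mono hSH le_top).inf_normal inf_le_left hN
  set Q := S ⊓ (H ⊓ 𝐂(V)) with hQdef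
  have hVQ : V ≤ Q := le_inf hVS (le_inf (hVS.trans hSH) hV)
  obtain ⟨c, hc, m, hm, e⟩ := hQ.frattini hN (inv_mem hh)
  set L := 𝐍(Q) with hL
  have hSL : S ≤ L := le_normalizer_inf le_normalizer (hSH.trans hN)
  have hR : (OppOf p L).subgroupOf L = pPrimeCore p L := OppOf_subgroupOf L
  haveI : ((OppOf p L).subgroupOf L).Normal := by rw [hR]; infer_instance
  let π := QuotientGroup.mk' ((OppOf p L).subgroupOf L)
  have hs : Function.Surjective π := QuotientGroup.mk'_surjective _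
  have hk : π.ker = pPrimeCore p L := (QuotientGroup.ker_mk' _).trans hR
  obtain ⟨S₀, hS₀⟩ := (hS.mono hSL le_top).exists_sylow_map
  have hi := L.subtype_injective
  have hQL : Q ≤ L := le_normalizer
  have hQ₀ : (Q.subgroupOf L).map L.subtype = Q := map_subgroupOf_eq_of_le hQL
  have hcon := constrained_of_quotient (isSyl_sylow S₀) (Q := Q.subgroupOf L)
    (by rw [← map_le_map_iff_of_injective hi, hQ₀, hS₀]; exact inf_le_left)
    (by
      rw [← map_le_map_iff_of_injective hi, map_inf_centralizer hi, hQ₀, hS₀]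
      exact le_inf inf_le_left (le_inf (inf_le_left.trans hSH)
        (inf_le_right.trans (centralizer_le_centralizer hVQ)))) π hs hk
  have hS' := (isSyl_sylow S₀).map π
  rw [map_top_of_surjective π hs] at hS'
  obtain ⟨T, hT⟩ := hS'.exists_sylow_top
  obtain ⟨a, ha, b, hb, hab⟩ := hfac L (OppOf p L) hcon T (π ⟨m, hm⟩)
  have hSO : π.ker ⊓ S₀ = ⊥ := by
    rw [hk, inf_comm]; exact inf_eq_bot_of_isPGroup_of_not_dvd S₀.isPGroup' pPrimeCore_not_dvd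
  have hca : CoprimeAct (inducedFunctor W (S₀ : Subgroup L)) π.ker := by
    rw [hk]
    exact coprimeAct_of_isPGroup_left (S₀.isPGroup'.to_le (inducedFunctor_le _)) pPrimeCore_not_dvd
      le_normalizer_of_normal
  rw [hT, ← map_inducedFunctor hW π S₀.isPGroup' hSO, ← CoprimeAct.map_normalizer π hs hca] at hb
  obtain ⟨n, hn, rfl⟩ := hb
  refine ⟨(n : G)⁻¹, inv_mem ?_, fun z hz => ?_⟩
  · rw [← hS₀, ← map_inducedFunctor_of_injective hW hi S₀.isPGroup']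
    exact map_mem_normalizer _ hn
  · have hzQ : z ∈ Q := hVQ (hZ hz)
    have h1 : h * z * h⁻¹ = m⁻¹ * z * m := by
      have := conj_eq_of_mem_centralizer (inv_mem hc.2) (hZ hz)
      rw [← inv_inv h, e]
      calc _ = m⁻¹ * (c⁻¹ * z * c⁻¹⁻¹) * m := by group
        _ = _ := by rw [this]
    have h2 : π ⟨z, hQL hzQ⟩ ∈ omegaOne p ((T : Subgroup _) ⊓ 𝐂((T : Subgroup _))) := by
      have h3 : (omegaOne p (S ⊓ 𝐂(S))) ≤
          ((omegaOne p ((T : Subgroup _) ⊓ 𝐂((T : Subgroup _)))).comap π).map L.subtype := by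
        rw [omegaOne, closure_le]
        rintro y ⟨hy, hyp⟩
        rw [← hS₀, ← map_inf_centralizer hi] at hy
        obtain ⟨y, hy, rfl⟩ := hy
        refine mem_map_of_mem _ (Subgroup.subset_closure ⟨?_, ?_⟩)
        · rw [hT]; exact ⟨mem_map_of_mem π hy.1, map_mem_centralizer π hy.2⟩
        · rw [← map_pow, show y ^ p = 1 from Subtype.ext hyp, map_one]
      obtain ⟨y, hy, rfl⟩ := h3 hz
      exact hy
    have h3 := conj_eq_of_mem_centralizer (inv_mem ha) h2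
    have h4 : ((⟨m, hm⟩ : L)⁻¹ * ⟨z, hQL hzQ⟩ * ⟨m, hm⟩)⁻¹ * (n⁻¹ * ⟨z, hQL hzQ⟩ * n) ∈
        π.ker ⊓ S₀ := by
      refine ⟨MonoidHom.mem_ker.mpr ?_, ?_⟩
      · simp only [map_mul, map_inv, hab]
        calc _ = ((π n)⁻¹ * (a⁻¹ * π ⟨z, hQL hzQ⟩ * a⁻¹⁻¹) * π n)⁻¹ *
              ((π n)⁻¹ * π ⟨z, hQL hzQ⟩ * π n) := by group
          _ = 1 := by rw [h3, inv_mul_cancel]
      · refine (mem_map_iff_mem hi).mp ?_
        rw [hS₀]
        exact S.mul_mem (S.inv_mem (conj_mem_of_mem_normalizer' hm hzQ).1)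
          (conj_mem_of_mem_normalizer' n.2 hzQ).1
    rw [hSO, mem_bot, inv_mul_eq_one] at h4
    rw [h1, inv_inv]
    exact congrArg Subtype.val h4
end

/-- Let p be a prime, G a finite group with Sylow p-subgroup S, and W₁, W₂ two isomorphism-invariant p-group functors (W assigns to every group Q a subgroup W(Q), nontrivial whenever Q is a nontrivial finite p-group, and every isomorphism from a finite p-group Q onto a group R carries W(Q) onto W(R)). Suppose that G* = C_{G*}(Ω₁Z(S*)) N_{G*}(W₁(S*)) = C_{G*}(Ω₁Z(S*)) N_{G*}(W₂(S*)) = N_{G*}(W₁(S*)) N_{G*}(W₂(S*)) whenever G* = K/R is a section of G with C_{G*}(O_p(G*)) ≤ O_p(G*) and S* is a Sylow p-subgroup of G*, where Ω₁Z denotes the subgroup generated by the elements of order dividing p in the centre. Suppose also Ω₁Z(S) ≤ W₁(S) ∩ W₂(S), and let A be the normal closure of Ω₁Z(S) in N_G(W₁(S)). Then A is an elementary abelian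 subgroup of S, strongly closed in S with respect to G, and A controls strong fusion in G. -/
theorem result {G : Type u} [Group G] [Finite G] {p : ℕ} [Fact p.Prime] (S : Sylow p G) (W₁ W₂ : ∀ (Q : Type u) [Group Q], Subgroup Q) (hW₁ : Cfsg.IsCharPFunctor.{u} p W₁) (hW₂ : Cfsg.IsCharPFunctor.{u} p W₂) (hfac : ∀ (K R : Subgroup G) [hR : (R.subgroupOf K).Normal], Subgroup.centralizer ((Cfsg.pCore p (↥K ⧸ R.subgroupOf K) : Subgroup (↥K ⧸ R.subgroupOf K)) : Set (↥K ⧸ R.subgroupOf K)) ≤ Cfsg.pCore p (↥K ⧸ R.subgroupOf K) → ∀ T : Sylow p (↥K ⧸ R.subgroupOf K), (∀ x : (↥K ⧸ R.subgroupOf K), ∃ a ∈ Subgroup.centralizer ((Cfsg.omegaOne p ((T : Subgroup (↥K ⧸ R.subgroupOf K)) ⊓ Subgroup.centralizer (((T : Subgroup (↥K ⧸ R.subgroupOf K)) : Subgroup (↥K ⧸ R.subgroupOf K)) : Set (↥K ⧸ R.subgroupOf K))) : Subgroup (↥K ⧸ R.subgroupOf K)) : Set (↥K ⧸ R.subgroupOf K)), ∃ b ∈ Subgroup.normalizer ((Cfsg.inducedFunctor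 (G := (↥K ⧸ R.subgroupOf K)) W₁ (T : Subgroup (↥K ⧸ R.subgroupOf K)) : Subgroup (↥K ⧸ R.subgroupOf K)) : Set (↥K ⧸ R.subgroupOf K)), x = a * b) ∧ (∀ x : (↥K ⧸ R.subgroupOf K), ∃ a ∈ Subgroup.centralizer ((Cfsg.omegaOne p ((T : Subgroup (↥K ⧸ R.subgroupOf K)) ⊓ Subgroup.centralizer (((T : Subgroup (↥K ⧸ R.subgroupOf K)) : Subgroup (↥K ⧸ R.subgroupOf K)) : Set (↥K ⧸ R.subgroupOf K))) : Subgroup (↥K ⧸ R.subgroupOf K)) : Set (↥K ⧸ R.subgroupOf K)), ∃ b ∈ Subgroup.normalizer ((Cfsg.inducedFunctor (G := (↥K ⧸ R.subgroupOf K)) W₂ (T : Subgroup (↥K ⧸ R.subgroupOf K)) : Subgroup (↥K ⧸ R.subgroupOf K)) : Set (↥K ⧸ R.subgroupOf K)), x = a * b) ∧ (∀ x : (↥K ⧸ R.subgroupOf K), ∃ a ∈ Subgroup.normalizer ((Cfsg.inducedFunctor (G := (↥K ⧸ R.subgroupOf K)) W₁ (T : Subgroup (↥K ⧸ R.subgroupOf K)) : Subgroup (↥K ⧸ R.subgroupOf K)) : Set (↥K ⧸ R.subgroupOf K)), ∃ b ∈ Subgroup.normalizer ((Cfsg.inducedFunctor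 (G := (↥K ⧸ R.subgroupOf K)) W₂ (T : Subgroup (↥K ⧸ R.subgroupOf K)) : Subgroup (↥K ⧸ R.subgroupOf K)) : Set (↥K ⧸ R.subgroupOf K)), x = a * b)) (hZ : Cfsg.omegaOne p ((S : Subgroup G) ⊓ Subgroup.centralizer (((S : Subgroup G) : Subgroup G) : Set G)) ≤ Cfsg.inducedFunctor (G := G) W₁ (S : Subgroup G) ⊓ Cfsg.inducedFunctor (G := G) W₂ (S : Subgroup G)) (N₁ : Subgroup G) (hN₁ : N₁ = Subgroup.normalizer ((Cfsg.inducedFunctor (G := G) W₁ (S : Subgroup G) : Subgroup G) : Set G)) (A : Subgroup G) (hA : A = (Subgroup.normalClosure (((Cfsg.omegaOne p ((S : Subgroup G) ⊓ Subgroup.centralizer (((S : Subgroup G) : Subgroup G) : Set G))).subgroupOf N₁ : Subgroup ↥N₁) : Set ↥N₁)).map N₁.subtype) : A ≤ (S : Subgroup G) ∧ Cfsg.IsElementaryAbelian p A ∧ Cfsg.IsStronglyClosed A (S : Subgroup G) ∧ Cfsg.ControlsStrongFusion p A := by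
  open Subgroup Cfsg.Agent.Lib.Core Cfsg.Agent.Lib.Glaub in
  (
  have hS := isSyl_sylow S
  set Z := omegaOne p ((S : Subgroup G) ⊓ 𝐂((S : Subgroup G))) with hZdef
  have hZS : Z ≤ (S : Subgroup G) ⊓ 𝐂((S : Subgroup G)) := (closure_le _).mpr fun x hx => hx.1
  let cl : Subgroup G → Subgroup G := fun N => Subgroup.closure {x | ∃ n ∈ N, ∃ z ∈ Z, x = n * z * n⁻¹}
  have hclZ : ∀ N, Z ≤ cl N := fun N z hz => Subgroup.subset_closure ⟨1, one_mem _, z, hz, by simp⟩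
  have hcln : ∀ N, N ≤ 𝐍(cl N) := by
    intro N
    rw [le_normalizer_closure_iff]
    rintro h hh _ ⟨n, hn, z, hz, rfl⟩
    exact Subgroup.subset_closure ⟨h * n, mul_mem hh hn, z, hz, by group⟩
  have hclW : ∀ U : Subgroup G, Z ≤ U → U ≤ S → cl 𝐍(U) ≤ omegaC p (U ⊓ 𝐂(U))
      (center_le_centralizer_center U) := by
    intro U h1 h2
    refine (closure_le _).mpr ?_
    rintro _ ⟨n, hn, z, hz, rfl⟩
    have h3 : Z ≤ omegaC p (U ⊓ 𝐂(U)) (center_le_centralizer_center U) := by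
      refine (closure_le _).mpr fun x hx => ⟨⟨h1 (Subgroup.subset_closure hx),
        centralizer_le_centralizer h2 hx.1.2⟩, hx.2⟩
    exact ⟨conj_mem_of_mem_normalizer (le_normalizer_inf le_rfl (le_normalizer_centralizer le_rfl) hn)
      (h3 hz).1, by rw [conj_pow, (h3 hz).2]; simp⟩
  have hcl1 : ∀ U : Subgroup G, Z ≤ U → U ≤ S → cl 𝐍(U) ≤ U ⊓ 𝐂(U) := fun U h1 h2 x hx =>
    (hclW U h1 h2 hx).1
  have hcl2 : ∀ U : Subgroup G, Z ≤ U → U ≤ S → cl 𝐍(U) ≤ 𝐂(cl 𝐍(U)) := fun U h1 h2 =>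
    ((hcl1 U h1 h2).trans inf_le_right).trans
      (centralizer_le_centralizer ((hcl1 U h1 h2).trans inf_le_left))
  set U₁ := inducedFunctor W₁ (S : Subgroup G)
  set U₂ := inducedFunctor W₂ (S : Subgroup G)
  have hU₁ : U₁ ≤ S := inducedFunctor_le _
  have hU₂ : U₂ ≤ S := inducedFunctor_le _
  have hSN₁ : (S : Subgroup G) ≤ 𝐍(U₁) := (isCF_induced hW₁ ⊤).le_normalizer S.isPGroup' le_top
  have hSN₂ : (S : Subgroup G) ≤ 𝐍(U₂) := (isCF_induced hW₂ ⊤).le_normalizer S.isPGroup' le_top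
  have hZ₁ : Z ≤ U₁ := hZ.trans inf_le_left
  have hZ₂ : Z ≤ U₂ := hZ.trans inf_le_right
  have hAe : A = cl 𝐍(U₁) := by
    rw [hA, hN₁]
    have hle : cl 𝐍(U₁) ≤ 𝐍(U₁) := ((hcl1 U₁ hZ₁ hU₁).trans inf_le_left).trans le_normalizer
    refine le_antisymm (map_le_iff_le_comap.mpr ?_) ((closure_le _).mpr ?_)
    · haveI : ((cl 𝐍(U₁)).subgroupOf 𝐍(U₁)).Normal :=
        (normal_subgroupOf_iff_le_normalizer hle).mpr (hcln _)
      exact normalClosure_le_normal (N := (cl 𝐍(U₁)).subgroupOf 𝐍(U₁)) fun x hx => hclZ _ hx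
    · rintro _ ⟨n, hn, z, hz, rfl⟩
      exact ⟨⟨n, hn⟩ * ⟨z, le_normalizer (hZ₁ hz)⟩ * ⟨n, hn⟩⁻¹,
        normalClosure_normal.conj_mem (⟨z, le_normalizer (hZ₁ hz)⟩ : 𝐍(U₁))
          (subset_normalClosure hz) _, rfl⟩
  have h12 : cl 𝐍(U₁) ≤ cl 𝐍(U₂) := by
    refine (closure_le _).mpr ?_
    rintro _ ⟨h, hh, z, hz, rfl⟩
    obtain ⟨n, hn, h1⟩ := conj_realized hW₂ (fun K R _ hC T => (hfac K R hC T).2.1) hS hSN₁
      (((hcl1 U₁ hZ₁ hU₁).trans inf_le_left).trans hU₁) (hcl2 U₁ hZ₁ hU₁) (hcln _) (hclZ _) hh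
    exact Subgroup.subset_closure ⟨n, hn, z, hz, h1 z hz⟩
  have h21 : cl 𝐍(U₂) ≤ cl 𝐍(U₁) := by
    refine (closure_le _).mpr ?_
    rintro _ ⟨h, hh, z, hz, rfl⟩
    obtain ⟨n, hn, h1⟩ := conj_realized hW₁ (fun K R _ hC T => (hfac K R hC T).1) hS hSN₂
      (((hcl1 U₂ hZ₂ hU₂).trans inf_le_left).trans hU₂) (hcl2 U₂ hZ₂ hU₂) (hcln _) (hclZ _) hh
    exact Subgroup.subset_closure ⟨n, hn, z, hz, h1 z hz⟩
  have hAS : A ≤ S := hAe ▸ ((hcl1 U₁ hZ₁ hU₁).trans inf_le_left).trans hU₁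
  have h𝓦 : ∀ W ∈ ({W₁, W₂} : Set (∀ (Q : Type u) [Group Q], Subgroup Q)), IsCharPFunctor p W := by
    rintro W (rfl | rfl) <;> assumption
  have hctrl : Ctrl (𝐍(A) : Set G) ⊤ S := by
    refine (sfa_of_sections h𝓦 (fun K R _ hC => sfa_pair_of_factor hW₁ hW₂
      fun T => (hfac K R hC T).2.2) G IsSec.refl S hS).mono fun x hx => ?_
    obtain ⟨W, rfl | rfl, -, hx⟩ := mem_famSteps_indFam.mp hx
    · rw [hAe]; exact hcln _ hx
    · rw [hAe, le_antisymm h12 h21]; exact hcln _ hx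
  refine ⟨hAS, ⟨le_centralizer_iff_isMulCommutative.mp (hAe ▸ hcl2 U₁ hZ₁ hU₁),
    fun a ha => (hclW U₁ hZ₁ hU₁ (hAe ▸ ha)).2⟩, ⟨hAS, fun x hx g hg => ?_⟩,
    controlsStrongFusion_of_ctrl S hAS hctrl⟩
  obtain ⟨n, hn, h1⟩ := ctrl_subgroup_iff.mp hctrl {x} g (mem_top g) (Set.singleton_subset_iff.mpr (hAS hx))
    (by rintro _ ⟨_, rfl, rfl⟩; exact hg)
  rw [← h1 x rfl]
  exact conj_mem_of_mem_normalizer hn hx
  )

end Cfsg.Agent.S1997
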