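import Cfsg.Statements.S1998
import Cfsg.Agent.Lib.Glaub.SecTransfer

set_option autoImplicit false
universe u
open Cfsg

namespace Cfsg.Agent.S1998

/-- Let p be a prime, G a finite group with Sylow p-subgroup S, and 𝓦 a nonempty set of isomorphism-invariant p-group functors (W assigns to every group Q a subgroup W(Q), nontrivial whenever Q is a nontrivial finite p-group, and every isomorphism from a finite p-group Q onto a group R carries W(Q) onto W(R)). Suppose the induced conjugacy functors control transfer in every section of G other than G itself, but not in G. Let T be the subgroup generated by the S ∩ (N_G(W(S)))', W ∈ 𝓦, and M = N_G(T ∩ O_p(G)). Then: C_G(O_p(G)) ≤ O_p(G); M is a proper subgroup of G containing every proper subgroup of G that contains S (the unique maximal subgroup over S); [O_p(G), M] ≤ O_p(G) ∩ M' ≤ O_p(G) ∩ T; and every element u of S outside O_p(G) satisfies [X, u, …, u] ≰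 Y with p − 1 entries u, for some chief factor X/Y of G with X ≤ O_p(G). -/
theorem result {G : Type u} [Group G] [Finite G] {p : ℕ} [Fact p.Prime] (S : Sylow p G) (𝓦 : Set (∀ (Q : Type u) [Group Q], Subgroup Q)) (h𝓦 : ∀ W ∈ 𝓦, Cfsg.IsCharPFunctor.{u} p W) (hne : 𝓦.Nonempty) (hsec : ∀ (K R : Subgroup G) [hR : (R.subgroupOf K).Normal], (K = ⊤ → R ≠ ⊥) → Cfsg.FamilyControlsTransferIn p ((fun W => Cfsg.inducedFunctor (G := (↥K ⧸ R.subgroupOf K)) W) '' 𝓦) ⊤) (hG : ¬ Cfsg.FamilyControlsTransferIn p ((fun W => Cfsg.inducedFunctor (G := G) W) '' 𝓦) ⊤) (T M : Subgroup G) (hT : T = (⨆ W ∈ 𝓦, (S : Subgroup G) ⊓ ⁅Subgroup.normalizer ((Cfsg.inducedFunctor (G := G) W (S : Subgroup G) : Subgroup G) : Set G), Subgroup.normalizer ((Cfsg.inducedFunctor (G := G) W (S : Subgroup G) : Subgroup G) : Set G)⁆)) (hM : M = Subgroup.normalizer ((T ⊓ Cfsg.pCore p G : Subgroup G) : Set G)) : Subgroup.centralizer ((Cfsg.pCore p G :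 Subgroup G) : Set G) ≤ Cfsg.pCore p G ∧ (M ≠ ⊤ ∧ ∀ H : Subgroup G, (S : Subgroup G) ≤ H → H ≠ ⊤ → H ≤ M) ∧ (⁅Cfsg.pCore p G, M⁆ ≤ Cfsg.pCore p G ⊓ ⁅M, M⁆ ∧ Cfsg.pCore p G ⊓ ⁅M, M⁆ ≤ Cfsg.pCore p G ⊓ T) ∧ ∀ u : G, u ∈ (S : Subgroup G) → u ∉ Cfsg.pCore p G → ∃ U V : Subgroup G, Cfsg.IsChiefFactor U V ∧ U ≤ Cfsg.pCore p G ∧ ¬ Cfsg.iterCommutator U (Subgroup.zpowers u) (p - 1) ≤ V := by
  open Subgroup Cfsg.Agent.Lib.Core Cfsg.Agent.Lib.Glaub in
  (
  have hS := isSyl_sylow S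
  have hT' : T = famTr (indFam 𝓦 G) ⊤ S := by simp only [hT, famTr_indFam, top_inf_eq]
  have IH : ∀ (H : Type u) [Group H] [Finite H], IsSec H G → Nat.card H < Nat.card G →
      TFA p 𝓦 (⊤ : Subgroup H) := by
    intro H _ _ hH hc
    obtain ⟨K, R, _, ⟨e⟩⟩ := hH.exists_equiv
    refine tfa_of_equiv h𝓦 e ((tfa_iff h𝓦).mpr (hsec K R ?_))
    rintro rfl rfl
    rw [← Nat.card_congr e.toEquiv, bot_subgroupOf, ← index_eq_card, index_bot, card_top] at hc
    exact hc.ne rfl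
  have hG' : ¬ (S : Subgroup G) ⊓ ⁅(⊤ : Subgroup G), ⊤⁆ ≤ famTr (indFam 𝓦 G) ⊤ S := fun h =>
    hG (familyControlsTransferIn_iff.mpr ⟨S, hS, h⟩)
  obtain ⟨W, hW⟩ := hne
  obtain ⟨-, h2⟩ := normalizer_ne_top_of_not_tfa h𝓦 hW hS hG'
  obtain ⟨h3, h4, h5, -⟩ := tfa_core h𝓦 hS IH hG' h2
  rw [← hT', ← hM] at h4 h5
  have hS1 : (S : Subgroup G) ≠ ⊤ := fun h => h2 (top_le_iff.mp (h.ge.trans le_normalizer))
  have hSM := (h5 S le_rfl hS1).1
  refine ⟨h3, ⟨h4, fun H a b => (h5 H a b).1⟩, ⟨le_inf (commutator_le_left _ _)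
    (commutator_mono ((pCore_le_sylow S).trans hSM) le_rfl), le_inf inf_le_left
    ((inf_le_inf_right _ (pCore_le_sylow S)).trans (h5 M hSM h4).2)⟩,
    fun u a b => tfa_core_chief h𝓦 hS IH hG' h2 a b⟩
  )

end Cfsg.Agent.S1998
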