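import Cfsg.Statements.S1999
import Cfsg.Agent.Lib.FF.App
-- import your own Cfsg.Agent.* helpers here

set_option autoImplicit false
open Cfsg

namespace Cfsg.Agent.S1999

/-- Let G be a finite group. The symmetric group of degree 4 is not involved in G if and only if, in every section K/R of G, the pair of conjugacy functors {Z, J_e} controls strong fusion (for the prime 2): here Z(P) is the centre and J_e(P) the subgroup generated by the elementary abelian subgroups of P of largest order, and control by the pair means that 2-fusion of tuples inside a Sylow 2-subgroup T of the section is generated, staying inside T, by conjugation inside N(Z(T)) and N(J_e(T)). -/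
theorem result {G : Type*} [Group G] [Finite G] : ¬ Cfsg.Involves (Equiv.Perm (Fin 4)) G ↔ ∀ (K R : Subgroup G) [hR : (R.subgroupOf K).Normal], Cfsg.FamilyControlsStrongFusionIn 2 ({fun P : Subgroup (↥K ⧸ R.subgroupOf K) => P ⊓ Subgroup.centralizer ((P : Subgroup (↥K ⧸ R.subgroupOf K)) : Set (↥K ⧸ R.subgroupOf K)), fun P : Subgroup (↥K ⧸ R.subgroupOf K) => Cfsg.thompsonSubgroupOf 2 P} : Set (Subgroup (↥K ⧸ R.subgroupOf K) → Subgroup (↥K ⧸ R.subgroupOf K))) ⊤ := by
  
  open Subgroup Cfsg.Agent.Lib Cfsg.Agent.Lib.Core Cfsg.Agent.Lib.Glaub Cfsg.Agent.Lib.ZJ Cfsg.Agent.Lib.FF in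
  (
  have e : ∀ (X : Type _) [Group X] [Finite X], indFam {zF, jF 2} X =
      {fun P : Subgroup X => P ⊓ Subgroup.centralizer (P : Set X), fun P => thompsonSubgroupOf 2 P} :=
    fun X _ _ => by
      rw [indFam, Set.image_pair, funext inducedFunctor_zF, funext inducedFunctor_jF,
        funext (thompsonSubgroupOf_eq 2)]
  rw [involves_iff_isSec]
  refine ⟨fun h K R _ => ?_, fun h h' => not_isSec_qd_of_sfa char_pair (fun K R _ => ?_)
    (isSec_qd_perm.trans h')⟩
  · rw [← e]
    exact (sfa_iff char_pair).1 (sfa_of_free fun h' => h (h'.trans (IsSec.section K R)))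
  · exact (sfa_iff char_pair).2 (by rw [e]; exact h K R)
  )

end Cfsg.Agent.S1999
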