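import Cfsg.Statements.S2000
import Cfsg.Agent.Lib.FF.App
import Cfsg.Agent.Lib.Glaub.Dickson
-- import your own Cfsg.Agent.* helpers here

set_option autoImplicit false
universe u
open Cfsg

namespace Cfsg.Agent.S2000

/-- Let p be a prime and G a finite group. Then Qd(p) (the natural semidirect product of an elementary abelian group of order p² by SL₂(p)) is not involved in G if and only if there is a set 𝓦 of isomorphism-invariant p-group functors (each nontrivial on nontrivial finite p-groups and carried onto W(R) by every isomorphism from a finite p-group Q onto R, hence with characteristic values on finite p-groups) whose induced conjugacy functors control strong fusion in every section of G. -/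
theorem result {G : Type u} [Group G] [Finite G] {p : ℕ} [Fact p.Prime] : ¬ Cfsg.Involves ↥(Cfsg.qd p) G ↔ ∃ 𝓦 : Set (∀ (Q : Type u) [Group Q], Subgroup Q), (∀ W ∈ 𝓦, Cfsg.IsCharPFunctor.{u} p W) ∧ ∀ (K R : Subgroup G) [hR : (R.subgroupOf K).Normal], Cfsg.FamilyControlsStrongFusionIn p ((fun W => Cfsg.inducedFunctor (G := (↥K ⧸ R.subgroupOf K)) W) '' 𝓦) ⊤ := by
  
  open Subgroup Cfsg.Agent.Lib Cfsg.Agent.Lib.Core Cfsg.Agent.Lib.Glaub Cfsg.Agent.Lib.ZJ Cfsg.Agent.Lib.FF in
  (
  rw [involves_iff_isSec]
  refine ⟨fun h => ?_, fun ⟨𝓦, h1, h2⟩ => not_isSec_qd_of_sfa h1 fun K R _ => (sfa_iff h1).2 (h2 K R)⟩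
  by_cases hp : p = 2
  · subst hp
    exact ⟨_, char_pair, fun K R _ => (sfa_iff char_pair).1 (sfa_of_free fun h' =>
      h (isSec_qd_perm.trans (h'.trans (IsSec.section K R))))⟩
  · have h1 : ∀ W ∈ ({kInfLower} : Set (∀ (Q : Type u) [Group Q], Subgroup Q)), IsCharPFunctor p W := by
      simpa using isCharPFunctor_kInfLower
    exact ⟨_, h1, fun K R _ => (sfa_iff h1).1 (sfa_kInfLower_of_pStable fun K' R' _ =>
      pStable_of_qdFree hp fun h' => h ((h'.trans (IsSec.section K' R')).trans (IsSec.section K R)))⟩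
  )

end Cfsg.Agent.S2000
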