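import Cfsg.Statements.S2009
import Cfsg.Agent.Lib.Glaub.Compl

set_option autoImplicit false
open Cfsg

namespace Cfsg.Agent.S2009

section
open Subgroup Cfsg.Agent.Lib.Core Cfsg.Agent.Lib.Glaub
theorem inverts_of_fpf {H : Type*} [Group H] [Finite H] {N : Subgroup H} [hN : N.Normal] {e : H}
    (he : e * e = 1) (h : N ⊓ centralizer {e} = ⊥) : ∀ n ∈ N, e * n * e⁻¹ = n⁻¹ := by
  let f : N → N := fun n => ⟨(n : H)⁻¹ * (e * n * e⁻¹), mul_mem (inv_mem n.2) (hN.conj_mem _ n.2 e)⟩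
  have hf : Function.Injective f := by
    intro a b hab
    have h1 : (a : H)⁻¹ * (e * a * e⁻¹) = (b : H)⁻¹ * (e * b * e⁻¹) := congrArg Subtype.val hab
    have h2 : (b : H) * (a : H)⁻¹ ∈ N ⊓ centralizer {e} := by
      refine ⟨N.mul_mem b.2 (N.inv_mem a.2), mem_centralizer_singleton_iff.mpr ?_⟩
      calc (b : H) * (a : H)⁻¹ * e = b * ((a : H)⁻¹ * (e * a * e⁻¹)) * e * (a : H)⁻¹ := by group
        _ = _ := by rw [h1]; group
    rw [h, mem_bot, mul_inv_eq_one] at h2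
    exact Subtype.ext h2.symm
  intro n hn
  obtain ⟨m, hm⟩ := Finite.surjective_of_injective hf ⟨n, hn⟩
  have h1 : (m : H)⁻¹ * (e * m * e⁻¹) = n := congrArg Subtype.val hm
  rw [← h1]
  have he' : e⁻¹ = e := inv_eq_of_mul_eq_one_right he
  calc e * ((m : H)⁻¹ * (e * m * e⁻¹)) * e⁻¹
      = (e * (m : H)⁻¹ * e⁻¹) * (e * e) * m * (e * e)⁻¹ := by group
    _ = _ := by rw [he]; group

theorem eq_bot_of_proper {H : Type*} [Group H] [Finite H] (z : H) (hz : orderOf z = 2)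
    (hN : ∀ N : Subgroup H, N.Normal → N ≠ ⊤ → N ⊓ Subgroup.centralizer ({z} : Set H) = ⊥)
    (E : Subgroup H) (hE : IsKleinFour ↥E) (hc : ∀ e ∈ E, e ≠ 1 → IsConj z e)
    (N : Subgroup H) [hn : N.Normal] (h : N ≠ ⊤) : N = ⊥ := by
  have h1 : ∀ e ∈ E, e ≠ 1 → N ⊓ centralizer {e} = ⊥ := by
    intro e he he1
    obtain ⟨g, rfl⟩ := isConj_iff.mp (hc e he he1)
    rw [← map_conj_centralizer_singleton, ← map_conj_eq_iff.mpr (le_normalizer_of_normal (mem_top g) : g ∈ 𝐍(N)),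
      ← map_conj_inf, hN N hn h, Subgroup.map_bot]
  have h2 : ∀ e : E, e ≠ 1 → ∀ n ∈ N, (e : H) * n * (e : H)⁻¹ = n⁻¹ := fun e he =>
    inverts_of_fpf (congrArg Subtype.val (IsKleinFour.mul_self e))
      (h1 e e.2 fun h => he (Subtype.ext h))
  obtain ⟨a, b, ha, hb, hab⟩ : ∃ a b : E, a ≠ 1 ∧ b ≠ 1 ∧ a ≠ b := by
    have h0 : 2 < Nat.card E := by rw [hE.card_four]; norm_num
    haveI := Fintype.ofFinite E
    rw [Nat.card_eq_fintype_card, Fintype.two_lt_card_iff] at h0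
    obtain ⟨a, b, c, h1, h2, h3⟩ := h0
    by_cases ha : a = 1
    · exact ⟨b, c, ha ▸ h1.symm, ha ▸ h2.symm, h3⟩
    · by_cases hb : b = 1
      · exact ⟨a, c, ha, hb ▸ h3.symm, h2⟩
      · exact ⟨a, b, ha, hb, h1⟩
  have hab' : ((a * b : E) : H) ≠ 1 := by
    intro h
    have : a * b = 1 := Subtype.ext h
    exact hab (by rw [← inv_eq_of_mul_eq_one_left this, IsKleinFour.inv_eq_self])
  rw [← h1 _ (a * b).2 hab', eq_comm, inf_eq_left]
  intro n hn
  rw [mem_centralizer_singleton_iff]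
  have h3 := h2 a ha _ (inv_mem hn)
  rw [← h2 b hb n hn, h2 b hb n hn, inv_inv, ← h2 b hb n hn] at h3
  calc n * ((a * b : E) : H) = ((a : H) * (b * n * (b : H)⁻¹) * (a : H)⁻¹) * (a * b) := by rw [h3]; rfl
    _ = _ := by rw [Subgroup.coe_mul]; group
end

/-- Let H be a finite group and z an involution such that every proper normal subgroup of H meets the centralizer of z trivially, and suppose z lies in a Klein four-subgroup E of H all three of whose involutions are conjugate to z in H. Then H is simple. -/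
theorem result {H : Type*} [Group H] [Finite H] (z : H) (hz : orderOf z = 2) (hN : ∀ N : Subgroup H, N.Normal → N ≠ ⊤ → N ⊓ Subgroup.centralizer ({z} : Set H) = ⊥) (E : Subgroup H) (hE : IsKleinFour ↥E) (hzE : z ∈ E) (hc : ∀ e ∈ E, e ≠ 1 → IsConj z e) : IsSimpleGroup H := by
  open Subgroup Cfsg.Agent.Lib.Core Cfsg.Agent.Lib.Glaub in
  (
  haveI : Nontrivial H := ⟨z, 1, fun h => by rw [h, orderOf_one] at hz; exact absurd hz (by norm_num)⟩
  refine ⟨fun N hn => ?_⟩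
  by_cases h : N = ⊤
  · exact Or.inr h
  · exact Or.inl (eq_bot_of_proper z hz hN E hE hc N h)
  )

end Cfsg.Agent.S2009
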