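import Cfsg.Statements.S2008
import Cfsg.Agent.S2009

set_option autoImplicit false
open Cfsg

namespace Cfsg.Agent.S2008

/-- Let H be a finite group and z an involution such that every proper normal subgroup of H meets the centralizer of z trivially, and suppose z lies in a Klein four-subgroup E of H all three of whose involutions are conjugate to z in H. Then H has no non-trivial abelian normal subgroup. -/
theorem result {H : Type*} [Group H] [Finite H] (z : H) (hz : orderOf z = 2) (hN : ∀ N : Subgroup H, N.Normal → N ≠ ⊤ → N ⊓ Subgroup.centralizer ({z} : Set H) = ⊥) (E : Subgroup H) (hE : IsKleinFour ↥E) (hzE : z ∈ E) (hc : ∀ e ∈ E, e ≠ 1 → IsConj z e) (N : Subgroup H) [N.Normal] (hab : IsMulCommutative ↥N) : N = ⊥ := by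
  open Subgroup Cfsg.Agent.Lib.Core Cfsg.Agent.Lib.Glaub in
  (
  refine Cfsg.Agent.S2009.eq_bot_of_proper z hz hN E hE hc N fun h => ?_
  have h1 : (⊥ : Subgroup H) ≠ ⊤ := fun h' => by
    have : z ∈ (⊥ : Subgroup H) := h' ▸ mem_top z
    rw [mem_bot.mp this, orderOf_one] at hz
    exact absurd hz (by norm_num)
  obtain ⟨e, he, hez⟩ : ∃ e : E, e ≠ 1 ∧ e ≠ ⟨z, hzE⟩ := by
    have h0 : 2 < Nat.card E := by rw [hE.card_four]; norm_num
    haveI := Fintype.ofFinite E
    rw [Nat.card_eq_fintype_card, Fintype.two_lt_card_iff] at h0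
    obtain ⟨a, b, c, h1, h2, h3⟩ := h0
    by_contra hcon
    push Not at hcon
    by_cases ha : a = 1
    · exact h3 ((hcon b (ha ▸ h1.symm)).trans (hcon c (ha ▸ h2.symm)).symm)
    · by_cases hb : b = 1
      · exact h2 ((hcon a ha).trans (hcon c (hb ▸ h3.symm)).symm)
      · exact h1 ((hcon a ha).trans (hcon b hb).symm)
  obtain ⟨g, hg⟩ := isConj_iff.mp (hc e e.2 fun h => he (Subtype.ext h))
  apply hez
  apply Subtype.ext
  have h2 : g * z = z * g := congrArg Subtype.val
    (hab.is_comm.comm (⟨g, h ▸ mem_top g⟩ : N) ⟨z, h ▸ mem_top z⟩)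
  rw [← hg, h2, mul_inv_cancel_right]
  )

end Cfsg.Agent.S2008
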