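import Cfsg.Statements.S2531


set_option autoImplicit false
open Cfsg

namespace Cfsg.Agent.S2531

open Projectivization
open scoped LinearAlgebra.Projectivization

theorem card_points {F V : Type*} [Field F] [Finite F] [AddCommGroup V] [Module F V] [Finite V]
    (U : Submodule F V) (hU : U ≠ ⊥) : ((Nat.card {x : ℙ F V // x.rep ∈ U} : ℕ) : F) = 1 := by
  classical
  have := Fintype.ofFinite F
  have e : ℙ F U ≃ {x : ℙ F V // x.rep ∈ U} := by
    refine Equiv.ofBijective (fun x => ⟨Projectivization.map U.subtype U.injective_subtype x, ?_⟩)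
      ⟨fun x y h => Projectivization.map_injective U.subtype U.injective_subtype
        (congrArg Subtype.val h), fun x => ?_⟩
    · induction x using Projectivization.ind with
      | h v hv =>
        rw [Projectivization.map_mk]
        obtain ⟨a, ha⟩ := Projectivization.exists_smul_eq_mk_rep F (U.subtype v)
          (by simpa using hv)
        rw [← ha]
        exact U.smul_mem _ v.2
    · refine ⟨Projectivization.mk F ⟨x.1.rep, x.2⟩ (fun h => x.1.rep_nonzero
        (congrArg Subtype.val h)), Subtype.ext ?_⟩
      simp only [Projectivization.map_mk]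
      exact Projectivization.mk_rep x.1
  rw [← Nat.card_congr e]
  have h1 := Projectivization.card F U
  have hq : ((Nat.card F : ℕ) : F) = 0 := by
    rw [Nat.card_eq_fintype_card]; exact FiniteField.cast_card_eq_zero F
  have hU0 : ((Nat.card U : ℕ) : F) = 0 := by
    rw [Module.natCard_eq_pow_finrank (K := F), Nat.cast_pow, hq, zero_pow]
    rwa [ne_eq, Submodule.finrank_eq_zero]
  have h2 := congrArg (Nat.cast : ℕ → F) h1
  rw [Nat.cast_mul, Nat.cast_sub Nat.card_pos, Nat.cast_sub Nat.card_pos, hU0, hq] at h2
  simpa using h2.symm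

/-- Let `F` be a finite field and `n ≥ 3`. No set of permutations of the points of the projective space of `Fⁿ`, each induced by an invertible semilinear transformation of `Fⁿ` (so a subset of the full projective semilinear group), is sharply 2-transitive on the points: it is impossible that for all pairs of distinct points `(a, b)` and `(c, d)` exactly one member of the set sends `a` to `c` and `b` to `d`. -/
theorem result {F : Type*} [Field F] [Finite F]
    (n : ℕ) (hn : 3 ≤ n) (S : Set (Equiv.Perm (Projectivization F (Fin n → F))))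
    (hS : ∀ s ∈ S, ∃ (σ : F ≃+* F) (f : (Fin n → F) →ₛₗ[(σ : F →+* F)] (Fin n → F)) (hf : Function.Injective f),
      ∀ x, s x = Projectivization.map f hf x) :
    ¬ (∀ a b c d : Projectivization F (Fin n → F), a ≠ b → c ≠ d →
        ∃! s, s ∈ S ∧ s a = c ∧ s b = d) := by
  classical
  intro hT
  have := Fintype.ofFinite F
  haveI : Finite (ℙ F (Fin n → F)) := inferInstance
  have := Fintype.ofFinite (ℙ F (Fin n → F))
  let i0 : Fin n := ⟨0, by omega⟩
  let W : Submodule F (Fin n → F) := LinearMap.ker (LinearMap.proj i0)
  have he : (Pi.single i0 1 : Fin n → F) ≠ 0 := by simp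
  let α : ℙ F (Fin n → F) := Projectivization.mk F _ he
  let H : Finset (ℙ F (Fin n → F)) := Finset.univ.filter fun x => x.rep ∈ W
  have hαH : α ∉ H := by
    obtain ⟨a, ha⟩ := Projectivization.exists_smul_eq_mk_rep F _ he
    simp only [H, α, Finset.mem_filter, Finset.mem_univ, true_and, ← ha]
    simp [W]
  let Sα : Finset (Equiv.Perm (ℙ F (Fin n → F))) := Finset.univ.filter fun s => s ∈ S ∧ s α = α
  have huniq : ∀ b d, b ≠ α → d ≠ α → (Sα.filter fun s => s b = d).card = 1 := by
    intro b d hb hd
    obtain ⟨s, hs, hs'⟩ := hT α b α d hb.symm hd.symm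
    rw [Finset.card_eq_one]
    refine ⟨s, Finset.eq_singleton_iff_unique_mem.2 ⟨by simp [Sα, hs], fun t ht => hs' t ?_⟩⟩
    simpa [Sα, and_assoc] using ht
  have hW : W ≠ ⊥ := by
    intro h
    have : (Pi.single (⟨1, by omega⟩ : Fin n) 1 : Fin n → F) ∈ W := by
      simp [W, i0, Pi.single_apply]
    rw [h, Submodule.mem_bot] at this
    simp at this
  have hcard : ∀ U : Submodule F (Fin n → F), U ≠ ⊥ →
      (((Finset.univ.filter fun x : ℙ F (Fin n → F) => x.rep ∈ U).card : ℕ) : F) = 1 := by
    intro U hU
    rw [← card_points U hU, Nat.card_eq_fintype_card, Fintype.card_subtype]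
  have hH : (H.card : F) = 1 := hcard W hW
  obtain ⟨b0, hb0⟩ : H.Nonempty := by
    rw [← Finset.card_pos, Nat.pos_iff_ne_zero]
    intro h
    rw [h] at hH
    simp at hH
  have hb0α : b0 ≠ α := fun h => hαH (h ▸ hb0)
  have hSα : (Sα.card : F) = 0 := by
    have h1 : Sα.card = ∑ d ∈ Finset.univ.erase α, (Sα.filter fun s => s b0 = d).card := by
      refine Finset.card_eq_sum_card_fiberwise fun s hs => ?_
      simp only [Sα, Finset.coe_filter, Finset.mem_univ, true_and, Set.mem_setOf_eq] at hs
      simp only [Finset.coe_erase, Finset.coe_univ, Set.mem_diff, Set.mem_univ, Set.mem_singleton_iff,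
        true_and]
      intro h
      exact hb0α (s.injective (h.trans hs.2.symm))
    rw [Finset.sum_congr rfl fun d hd => huniq b0 d hb0α (Finset.ne_of_mem_erase hd)] at h1
    have h2 := hcard ⊤ (by
      intro h
      exact hW (eq_bot_iff.2 (h ▸ le_top)))
    simp only [Submodule.mem_top, Finset.filter_true] at h2
    rw [h1, Finset.sum_const, smul_eq_mul, mul_one, Finset.card_erase_of_mem (Finset.mem_univ _),
      Nat.cast_sub (Finset.card_pos.2 ⟨α, Finset.mem_univ _⟩), h2]
    simp
  have hone : ∀ s ∈ Sα, ((H.filter fun b => s b ∈ H).card : F) = 1 := by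
    intro s hs
    obtain ⟨σ, f, hf, hsf⟩ := hS s (by simpa [Sα] using (Finset.mem_filter.1 hs).2.1)
    have hne : W ⊓ W.comap f ≠ ⊥ := by
      intro h
      let φ : (Fin n → F) →+ F × F :=
        { toFun := fun x => (x i0, f x i0)
          map_zero' := by simp
          map_add' := fun x y => by simp }
      have hφ : Function.Injective φ := by
        rw [injective_iff_map_eq_zero]
        intro x hx
        have : x ∈ W ⊓ W.comap f := by
          simp only [φ, AddMonoidHom.coe_mk, ZeroHom.coe_mk, Prod.mk_eq_zero] at hx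
          simpa [W] using hx
        rwa [h, Submodule.mem_bot] at this
      have h1 := Fintype.card_le_of_injective φ hφ
      rw [Fintype.card_prod, Fintype.card_fun, Fintype.card_fin, ← pow_two,
        Nat.pow_le_pow_iff_right Fintype.one_lt_card] at h1
      omega
    rw [← hcard _ hne]
    congr 2
    ext x
    simp only [H, Finset.mem_filter, Finset.mem_univ, true_and, Submodule.mem_inf,
      Submodule.mem_comap, hsf]
    refine and_congr_right fun _ => ?_
    have : Projectivization.map f hf x = Projectivization.mk F (f x.rep)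
        (by rw [ne_eq, map_eq_zero_iff f hf]; exact x.rep_nonzero) := by
      conv_lhs => rw [← Projectivization.mk_rep x]
      rw [Projectivization.map_mk]
    rw [this]
    obtain ⟨a, ha⟩ := Projectivization.exists_smul_eq_mk_rep F (f x.rep)
      (by rw [ne_eq, map_eq_zero_iff f hf]; exact x.rep_nonzero)
    rw [← ha, Units.smul_def, Submodule.smul_mem_iff _ a.ne_zero]
  have hsum : ∑ s ∈ Sα, (H.filter fun b => s b ∈ H).card = H.card * H.card := by
    have h1 : ∀ s ∈ Sα, (H.filter fun b => s b ∈ H).card =
        ∑ b ∈ H, ∑ d ∈ H, if s b = d then 1 else 0 := by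
      intro s _
      rw [Finset.card_filter]
      refine Finset.sum_congr rfl fun b _ => ?_
      simp
    rw [Finset.sum_congr rfl h1, Finset.sum_comm]
    have h2 : ∀ b ∈ H, ∑ s ∈ Sα, ∑ d ∈ H, (if s b = d then 1 else 0) = H.card := by
      intro b hb
      rw [Finset.sum_comm, Finset.card_eq_sum_ones]
      refine Finset.sum_congr rfl fun d hd => ?_
      rw [← Finset.card_filter]
      exact huniq b d (fun h => hαH (h ▸ hb)) (fun h => hαH (h ▸ hd))
    rw [Finset.sum_congr rfl h2, Finset.sum_const, smul_eq_mul]
  have h3 := congrArg (Nat.cast : ℕ → F) hsum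
  rw [Nat.cast_sum, Finset.sum_congr rfl hone, Finset.sum_const, Nat.cast_mul, hH, nsmul_eq_mul,
    hSα] at h3
  simp at h3

end Cfsg.Agent.S2531
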