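import Cfsg.Statements.S2532


set_option autoImplicit false
open Cfsg

namespace Cfsg.Agent.S2532

open MulAction

theorem exists_emb {H X : Type*} [Group H] [Finite H] [Finite X] [MulAction H X] (r : ℕ)
    (h : Nat.card H * (2 ^ Nat.card H * r) ≤ Nat.card X) :
    ∃ (K : Subgroup H) (e : Fin r × (H ⧸ K) ↪ X), ∀ (g : H) (i : Fin r) (q : H ⧸ K),
      e (i, g • q) = g • e (i, q) := by
  classical
  let Ω := orbitRel.Quotient H X
  have := Fintype.ofFinite Ω
  have := Fintype.ofFinite (Subgroup H)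
  have h1 : Nat.card X ≤ Nat.card H * Nat.card Ω := by
    rw [← Nat.card_prod]
    refine Nat.card_le_card_of_surjective (fun p : H × Ω => p.1 • p.2.out) fun x => ?_
    have : (orbitRel H X).r x (Quotient.mk (orbitRel H X) x).out :=
      (orbitRel H X).symm (Quotient.exact (Quotient.out_eq (Quotient.mk (orbitRel H X) x)))
    obtain ⟨g, hg⟩ := this
    exact ⟨(g, Quotient.mk _ x), hg⟩
  have h2 : Nat.card (Subgroup H) ≤ 2 ^ Nat.card H := by
    have := Fintype.ofFinite H
    rw [Nat.card_eq_fintype_card (α := H), ← Fintype.card_set, ← Nat.card_eq_fintype_card]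
    exact Nat.card_le_card_of_injective (fun K : Subgroup H => (K : Set H)) SetLike.coe_injective
  have h3 : Fintype.card (Subgroup H) * r ≤ Fintype.card Ω := by
    rw [← Nat.card_eq_fintype_card, ← Nat.card_eq_fintype_card]
    exact (Nat.mul_le_mul_right _ h2).trans (Nat.le_of_mul_le_mul_left (h.trans h1) Nat.card_pos)
  obtain ⟨K, hK⟩ := Fintype.exists_le_card_fiber_of_mul_le_card
    (fun ω : Ω => stabilizer H (ω.out : X)) h3
  obtain ⟨ι⟩ : Nonempty (Fin r ↪ {ω : Ω // stabilizer H (ω.out : X) = K}) := by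
    refine Function.Embedding.nonempty_of_card_le ?_
    rwa [Fintype.card_fin, Fintype.card_subtype]
  let x : Fin r → X := fun i => (ι i).1.out
  have hx : ∀ i, stabilizer H (x i) = K := fun i => (ι i).2
  let f : Fin r × (H ⧸ K) → X := fun p => Quotient.liftOn' p.2 (fun g => g • x p.1) (by
    intro a b hab
    rw [QuotientGroup.leftRel_apply, ← hx p.1, mem_stabilizer_iff, mul_smul,
      inv_smul_eq_iff] at hab
    exact hab.symm)
  have hf : ∀ i (g : H), f (i, (g : H ⧸ K)) = g • x i := fun i g => rfl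
  refine ⟨K, ⟨f, ?_⟩, ?_⟩
  · rintro ⟨i, a⟩ ⟨j, b⟩ hab
    obtain ⟨a, rfl⟩ := QuotientGroup.mk_surjective a
    obtain ⟨b, rfl⟩ := QuotientGroup.mk_surjective b
    rw [hf, hf] at hab
    have hij : i = j := by
      apply ι.injective
      refine Subtype.ext ?_
      rw [← Quotient.out_eq (ι i).1, ← Quotient.out_eq (ι j).1]
      refine Quotient.sound ⟨a⁻¹ * b, ?_⟩
      change (a⁻¹ * b) • x j = x i
      rw [mul_smul, ← hab, inv_smul_smul]
    subst hij
    congr 1
    rw [QuotientGroup.eq, ← hx i, mem_stabilizer_iff, mul_smul, ← hab, inv_smul_smul]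
  · intro g i q
    obtain ⟨a, rfl⟩ := QuotientGroup.mk_surjective q
    change f (i, ((g * a : H) : H ⧸ K)) = g • f (i, a)
    rw [hf, hf, mul_smul]

/-- permuting the first coordinate -/
def prodHom (α β : Type*) : Equiv.Perm α →* Equiv.Perm (α × β) where
  toFun σ := Equiv.prodCongrLeft fun _ => σ
  map_one' := by ext <;> simp
  map_mul' _ _ := by ext <;> simp

/-- There is a function `f` of two natural-number arguments such that, whenever `m ≥ f(n, r)`, every subgroup of order `n` of the alternating group of degree `m` centralizes some subgroup of that alternating group isomorphic to the alternating group of degree `r`. -/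
theorem result :
    ∃ f : ℕ → ℕ → ℕ, ∀ (m r : ℕ) (H : Subgroup ↥(alternatingGroup (Fin m))), f (Nat.card H) r ≤ m →
      ∃ K : Subgroup ↥(alternatingGroup (Fin m)), Nonempty (↥K ≃* ↥(alternatingGroup (Fin r))) ∧
        K ≤ Subgroup.centralizer (H : Set ↥(alternatingGroup (Fin m))) := by
  classical
  refine ⟨fun n r => n * (2 ^ n * r), fun m r H hm => ?_⟩
  obtain ⟨K, e, he⟩ := exists_emb (H := H) (X := Fin m) r (by simpa using hm)
  have := Fintype.ofFinite (H ⧸ K)
  let φ : Equiv.Perm (Fin r) →* Equiv.Perm (Fin m) :=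
    (Equiv.Perm.viaEmbeddingHom e).comp (prodHom _ _)
  have hφ : Function.Injective φ := by
    refine (Equiv.Perm.viaEmbeddingHom_injective e).comp fun σ τ h => ?_
    ext i
    have := congrArg (fun ρ : Equiv.Perm (Fin r × (H ⧸ K)) => (ρ (i, ((1 : H) : H ⧸ K))).1) h
    simpa [prodHom, Fin.ext_iff] using this
  have hsign : ∀ σ ∈ alternatingGroup (Fin r), φ σ ∈ alternatingGroup (Fin m) := by
    intro σ hσ
    rw [Equiv.Perm.mem_alternatingGroup] at hσ ⊢
    change Equiv.Perm.sign (Equiv.Perm.viaEmbedding _ e) = 1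
    unfold Equiv.Perm.viaEmbedding
    rw [Equiv.Perm.sign_extendDomain]
    change Equiv.Perm.sign (Equiv.prodCongrLeft fun _ => σ) = 1
    rw [Equiv.Perm.sign_prodCongrLeft]
    simp [hσ]
  let ψ : alternatingGroup (Fin r) →* alternatingGroup (Fin m) :=
    (φ.comp (alternatingGroup (Fin r)).subtype).codRestrict _ fun σ => hsign σ σ.2
  have hψ : Function.Injective ψ := fun a b h => Subtype.ext (hφ (congrArg Subtype.val h))
  refine ⟨ψ.range, ⟨(MonoidHom.ofInjective hψ).symm⟩, ?_⟩
  rintro _ ⟨σ, rfl⟩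
  rw [Subgroup.mem_centralizer_iff]
  intro g hg
  refine Subtype.ext (Equiv.ext fun x => ?_)
  change g.1 (Equiv.Perm.viaEmbedding (prodHom _ _ σ.1) e x) =
    Equiv.Perm.viaEmbedding (prodHom _ _ σ.1) e (g.1 x)
  have he' : ∀ (g : H) i q, e (i, g • q) = g.1.1 (e (i, q)) := he
  by_cases hx : x ∈ Set.range e
  · obtain ⟨⟨i, q⟩, rfl⟩ := hx
    rw [← he' ⟨g, hg⟩, Equiv.Perm.viaEmbedding_apply, Equiv.Perm.viaEmbedding_apply]
    exact (he' ⟨g, hg⟩ _ _).symm
  · rw [Equiv.Perm.viaEmbedding_apply_of_notMem _ _ _ hx,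
      Equiv.Perm.viaEmbedding_apply_of_notMem]
    rintro ⟨⟨i, q⟩, h⟩
    apply hx
    refine ⟨(i, (⟨g, hg⟩ : H)⁻¹ • q), ?_⟩
    rw [he', h]
    simp

end Cfsg.Agent.S2532
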