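import Cfsg.Statements.S2533


set_option autoImplicit false
open Cfsg

namespace Cfsg.Agent.S2533

open Matrix

/-- the group `(ℤ/p)³ ⋊ {±1}` -/
@[ext] structure HH (p : ℕ) : Type where
  x : Fin 3 → ZMod p
  u : ℤˣ

instance instMulHH (p : ℕ) : Mul (HH p) := ⟨fun a b => ⟨a.x + a.u • b.x, a.u * b.u⟩⟩
instance instOneHH (p : ℕ) : One (HH p) := ⟨⟨0, 1⟩⟩
instance instInvHH (p : ℕ) : Inv (HH p) := ⟨fun a => ⟨-(a.u⁻¹ • a.x), a.u⁻¹⟩⟩

theorem mul_x {p : ℕ} (a b : HH p) : (a * b).x = a.x + a.u • b.x := rfl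
theorem mul_u {p : ℕ} (a b : HH p) : (a * b).u = a.u * b.u := rfl

instance instGroupHH (p : ℕ) : Group (HH p) :=
  Group.ofLeftAxioms
    (fun a b c => HH.ext (by simp [mul_x, mul_u, mul_smul, add_assoc]) (mul_assoc _ _ _))
    (fun a => HH.ext (by rw [mul_x]; change 0 + (1 : ℤˣ) • a.x = a.x; simp) (one_mul _))
    (fun a => HH.ext (by rw [mul_x]; change -(a.u⁻¹ • a.x) + a.u⁻¹ • a.x = 0; simp)
      (inv_mul_cancel _))

/-- coordinates -/
def HH.equiv (p : ℕ) : HH p ≃ (Fin 3 → ZMod p) × ℤˣ where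
  toFun a := (a.x, a.u)
  invFun a := ⟨a.1, a.2⟩
  left_inv _ := rfl
  right_inv _ := rfl

variable {p : ℕ} {k : ℕ} [NeZero k]

/-- the lower left block -/
def XX (k : ℕ) [NeZero k] (x : Fin 3 → ZMod p) : Matrix (ZMod k) (ZMod k) (ZMod p) :=
  Matrix.of fun i j => (if i = j then x 0 else 0) + (if i = j + 1 then x 1 else 0) +
    (if i = 0 ∧ j = 0 then x 2 else 0)

theorem XX_add (x y : Fin 3 → ZMod p) (u : ℤˣ) :
    XX k (x + u • y) = XX k x + ((u : ℤ) : ZMod p) • XX k y := by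
  ext i j
  simp only [XX, of_apply, Pi.add_apply, Pi.smul_apply, Matrix.add_apply, Matrix.smul_apply,
    smul_eq_mul, Units.smul_def, zsmul_eq_mul, Pi.mul_apply, Pi.intCast_apply]
  split_ifs <;> ring

/-- the representation -/
def rho (p k : ℕ) [NeZero k] : HH p →* Matrix (ZMod k ⊕ ZMod k) (ZMod k ⊕ ZMod k) (ZMod p) where
  toFun a := fromBlocks 1 0 (XX k a.x) (((a.u : ℤ) : ZMod p) • 1)
  map_one' := by
    rw [← fromBlocks_one]
    congr 1
    · ext i j
      change XX k (0 : Fin 3 → ZMod p) i j = 0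
      simp [XX]
    · change (((1 : ℤˣ) : ℤ) : ZMod p) • (1 : Matrix _ _ (ZMod p)) = 1
      simp
  map_mul' a b := by
    rw [fromBlocks_multiply, mul_x, mul_u, XX_add]
    simp [smul_smul, mul_comm]

theorem rho_apply (a : HH p) :
    rho p k a = fromBlocks 1 0 (XX k a.x) (((a.u : ℤ) : ZMod p) • 1) := rfl

theorem det_rho (hk : Even k) (a : HH p) : (rho p k a).det = 1 := by
  rw [rho_apply, det_fromBlocks_zero₁₂, det_one, det_smul, det_one, ZMod.card, one_mul, mul_one]
  rcases Int.units_eq_one_or a.u with h | h <;> simp [h, hk.neg_one_pow]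

theorem eq_one_of_scalar [Fact p.Prime] (hp : p ≠ 2) (hk : 3 ≤ k) (a : HH p) (c : ZMod p)
    (h : rho p k a = c • 1) : a = 1 := by
  haveI : Fact (1 < k) := ⟨by omega⟩
  haveI : Fact (2 < p) := ⟨lt_of_le_of_ne (Fact.out : p.Prime).two_le hp.symm⟩
  have h10 : (1 : ZMod k) ≠ 0 := one_ne_zero
  have e := fun i j => congrFun (congrFun h i) j
  have e1 := e (Sum.inl 0) (Sum.inl 0)
  have e2 := e (Sum.inr 0) (Sum.inr 0)
  have e3 := e (Sum.inr 0) (Sum.inl 0)
  have e4 := e (Sum.inr 1) (Sum.inl 0)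
  have e5 := e (Sum.inr 1) (Sum.inl 1)
  simp [rho_apply, XX, h10, h10.symm] at e1 e2 e3 e4 e5
  refine HH.ext ?_ ?_
  · change a.x = 0
    ext i
    fin_cases i
    · exact e5
    · exact e4
    · simpa [e5] using e3
  · change a.u = 1
    rcases Int.units_eq_one_or a.u with h | h
    · exact h
    · rw [h, ← e1] at e2
      exact absurd (by simpa using e2) (ZMod.neg_one_ne_one (n := p))

theorem scalar_of_comm [Fact p.Prime] (hp : p ≠ 2)
    (g : Matrix (ZMod k ⊕ ZMod k) (ZMod k ⊕ ZMod k) (ZMod p)) (hg : g.det ≠ 0)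
    (h : ∀ a : HH p, ∃ c : ZMod p, g * rho p k a = c • (rho p k a * g)) :
    ∃ c : ZMod p, g = c • 1 := by
  haveI : Fact (2 < p) := ⟨lt_of_le_of_ne (Fact.out : p.Prime).two_le hp.symm⟩
  obtain ⟨a, b, c, d, rfl⟩ : ∃ a b c d, g = fromBlocks a b c d :=
    ⟨_, _, _, _, (fromBlocks_toBlocks g).symm⟩
  have hab : ¬ (a = 0 ∧ b = 0) := by
    rintro ⟨rfl, rfl⟩
    apply hg
    rw [det_fromBlocks_zero₁₂]
    simp
  have h1 : ∀ x : Fin 3 → ZMod p, b * XX k x = 0 ∧ d * XX k x = XX k x * a := by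
    intro x
    obtain ⟨κ, hκ⟩ := h ⟨x, 1⟩
    simp only [rho_apply, fromBlocks_multiply, fromBlocks_smul, fromBlocks_inj, Units.val_one,
      Int.cast_one, one_smul, Matrix.mul_one, Matrix.one_mul, Matrix.mul_zero, Matrix.zero_mul,
      add_zero, zero_add] at hκ
    obtain ⟨f1, f2, f3, f4⟩ := hκ
    have hκ1 : κ = 1 := by
      by_contra hne
      have hb : b = 0 := by
        have : (1 - κ) • b = 0 := by rw [sub_smul, one_smul, ← f2, sub_self]
        exact (smul_eq_zero.1 this).resolve_left (sub_ne_zero.2 (Ne.symm hne))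
      have ha : a = 0 := by
        have : (1 - κ) • a = 0 := by rw [sub_smul, one_smul, ← f1, hb]; simp
        exact (smul_eq_zero.1 this).resolve_left (sub_ne_zero.2 (Ne.symm hne))
      exact hab ⟨ha, hb⟩
    rw [hκ1, one_smul] at f1 f3
    exact ⟨by simpa using f1, by rw [add_comm] at f3; simpa using f3⟩
  have hI : XX k (![1, 0, 0] : Fin 3 → ZMod p) = 1 := by
    ext i j
    simp [XX, one_apply]
  obtain ⟨hb, hd⟩ := h1 ![1, 0, 0]
  rw [hI, Matrix.mul_one] at hb hd
  rw [Matrix.one_mul] at hd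
  subst hb hd
  have hA : ∀ i j, d (i + 1) (j + 1) = d i j := by
    intro i j
    have := congrFun (congrFun (h1 ![0, 1, 0]).2 (i + 1)) j
    simpa [XX, Matrix.mul_apply] using this
  have hE : ∀ i, i ≠ 0 → d i 0 = 0 := by
    intro i hi
    have := congrFun (congrFun (h1 ![0, 0, 1]).2 i) 0
    simpa [XX, Matrix.mul_apply, hi] using this
  have hA' : ∀ (m : ℕ) i j, d (i + m) (j + m) = d i j := by
    intro m i j
    induction m with
    | zero => simp
    | succ m ih => rw [Nat.cast_succ, ← add_assoc, ← add_assoc, hA, ih]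
  have hd : d = d 0 0 • 1 := by
    ext i j
    have := hA' j.val (i - j) 0
    rw [ZMod.natCast_zmod_val, sub_add_cancel, zero_add] at this
    rw [this]
    by_cases hij : i = j
    · simp [hij]
    · simp [hij, hE _ (sub_ne_zero.2 hij)]
  have hd0 : d ≠ 0 := fun h0 => hab ⟨h0, rfl⟩
  obtain ⟨κ, hκ⟩ := h ⟨0, -1⟩
  have hX0 : XX k (0 : Fin 3 → ZMod p) = 0 := by ext i j; simp [XX]
  simp only [rho_apply, fromBlocks_multiply, fromBlocks_smul, fromBlocks_inj, hX0,
    Matrix.mul_one, Matrix.one_mul, Matrix.mul_zero, Matrix.zero_mul,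
    add_zero, zero_add] at hκ
  obtain ⟨f1, -, f3, -⟩ := hκ
  have hκ1 : κ = 1 := by
    have : (1 - κ) • d = 0 := by rw [sub_smul, one_smul, ← f1, sub_self]
    exact (sub_eq_zero.1 ((smul_eq_zero.1 this).resolve_right hd0)).symm
  have hc : c = 0 := by
    rw [hκ1] at f3
    have : ((1 : ZMod p) - (-1)) • c = 0 := by
      rw [sub_smul, one_smul, sub_eq_zero]
      simpa using f3
    refine (smul_eq_zero.1 this).resolve_left (sub_ne_zero.2 ?_)
    exact (ZMod.neg_one_ne_one (n := p)).symm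
  refine ⟨d 0 0, ?_⟩
  rw [← fromBlocks_one, fromBlocks_smul, ← hd, hc]
  simp

/-- For every odd prime `p` there is a finite group `H` of order `2p³` which, for infinitely many `n`, embeds in the projective special linear group `PSL(n, p)` as a subgroup with trivial centralizer. -/
theorem result
    (p : ℕ) [Fact p.Prime] (hp : p ≠ 2) :
    ∃ (H : Type) (_ : Group H) (_ : Finite H), Nat.card H = 2 * p ^ 3 ∧
      ∀ N : ℕ, ∃ n, N ≤ n ∧ ∃ φ : H →* Matrix.ProjectiveSpecialLinearGroup (Fin n) (ZMod p),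
        Function.Injective φ ∧ Subgroup.centralizer (φ.range : Set (Matrix.ProjectiveSpecialLinearGroup (Fin n) (ZMod p))) = ⊥ := by
  classical
  refine ⟨HH p, inferInstance, Finite.of_equiv _ (HH.equiv p).symm, ?_, fun N => ?_⟩
  · rw [Nat.card_congr (HH.equiv p), Nat.card_prod, Nat.card_fun, Nat.card_zmod]
    simp [mul_comm]
  let k := 2 * (N + 2)
  haveI : NeZero k := ⟨by omega⟩
  refine ⟨Fintype.card (ZMod k ⊕ ZMod k), by simp [k]; omega, ?_⟩
  let e := Fintype.equivFin (ZMod k ⊕ ZMod k)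
  let R := Matrix.reindexAlgEquiv (ZMod p) (ZMod p) e
  have hR : ∀ M, (R M).det = M.det := fun M => Matrix.det_reindex_self e M
  let φ0 : HH p →* Matrix.SpecialLinearGroup (Fin (Fintype.card (ZMod k ⊕ ZMod k))) (ZMod p) :=
    { toFun := fun a => ⟨R (rho p k a), by rw [hR, det_rho (even_two_mul _)]⟩
      map_one' := Subtype.ext (by simp)
      map_mul' := fun a b => Subtype.ext (by simp only [map_mul]; rfl) }
  refine ⟨(QuotientGroup.mk' _).comp φ0, ?_, ?_⟩
  · rw [injective_iff_map_eq_one]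
    intro a ha
    rw [MonoidHom.comp_apply, QuotientGroup.mk'_apply, QuotientGroup.eq_one_iff,
      Matrix.SpecialLinearGroup.mem_center_iff] at ha
    obtain ⟨c, -, hc⟩ := ha
    refine eq_one_of_scalar (k := k) hp (by omega) a c (R.injective ?_)
    rw [map_smul, map_one, smul_one_eq_diagonal]
    exact hc.symm
  · refine eq_bot_iff.2 fun g hg => ?_
    obtain ⟨g, rfl⟩ := QuotientGroup.mk_surjective g
    rw [Subgroup.mem_bot, QuotientGroup.eq_one_iff]
    obtain ⟨g', hg'⟩ := R.surjective g.1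
    obtain ⟨c, hc⟩ := scalar_of_comm hp g' (by rw [← hR, hg', g.2]; exact one_ne_zero) (fun a => by
      have := Subgroup.mem_centralizer_iff.1 hg _ ⟨a, rfl⟩
      rw [MonoidHom.comp_apply, QuotientGroup.mk'_apply, ← QuotientGroup.mk_mul,
        ← QuotientGroup.mk_mul, QuotientGroup.eq, Matrix.SpecialLinearGroup.mem_center_iff] at this
      obtain ⟨c, -, hc⟩ := this
      refine ⟨c, R.injective ?_⟩
      have h2 : g * φ0 a = (φ0 a * g) * ((φ0 a * g)⁻¹ * (g * φ0 a)) := by group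
      have h3 := congrArg Subtype.val h2
      rw [Matrix.SpecialLinearGroup.coe_mul, Matrix.SpecialLinearGroup.coe_mul _ (_ * _), ← hc,
        Matrix.SpecialLinearGroup.coe_mul, scalar_apply, ← smul_one_eq_diagonal] at h3
      rw [map_smul, map_mul, map_mul, hg']
      rw [Matrix.mul_smul, Matrix.mul_one] at h3
      exact h3)
    refine Subgroup.mem_center_iff.2 fun x => Subtype.ext ?_
    change x.1 * g.1 = g.1 * x.1
    rw [← hg', hc]
    simp

end Cfsg.Agent.S2533
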