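import Cfsg.Statements.S2534
import Cfsg.Agent.Lib.Hall.Sym3

set_option autoImplicit false
open Cfsg

namespace Cfsg.Agent.S2534

open Cfsg.Agent.Lib.HallSym Equiv

def K7 {α : Type*} (f : α → Fin 3) : Subgroup (Perm α) where
  carrier := {g | (∀ x, f (g x) = f x) ∨ ∀ x, f (g x) = swap 0 1 (f x)}
  one_mem' := Or.inl fun _ => rfl
  mul_mem' := by
    rintro g g' (h | h) (h' | h')
    · exact Or.inl fun x => by rw [Perm.mul_apply, h, h']
    · exact Or.inr fun x => by rw [Perm.mul_apply, h, h']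
    · exact Or.inr fun x => by rw [Perm.mul_apply, h, h']
    · exact Or.inl fun x => by rw [Perm.mul_apply, h, h', swap_apply_self]
  inv_mem' := by
    rintro g (h | h)
    · exact Or.inl fun x => by rw [← h (g⁻¹ x)]; simp
    · refine Or.inr fun x => ?_
      have := h (g⁻¹ x)
      simp only [Perm.coe_inv, apply_symm_apply] at this ⊢
      rw [this, swap_apply_self]

theorem prime_dvd_K7 {α : Type*} [Fintype α] [DecidableEq α] (f : α → Fin 3) {p : ℕ} (hp : p.Prime)
    (hd : p ∣ Nat.card (K7 f)) : p = 2 ∨ p ∣ Nat.card (colStab f) := by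
  haveI : Fact p.Prime := ⟨hp⟩
  by_cases h2 : p = 2
  · exact Or.inl h2
  right
  obtain ⟨g, hg⟩ := exists_prime_orderOf_dvd_card' p hd
  rw [← Subgroup.orderOf_coe] at hg
  have h1 : (g : Perm α) ^ 2 ∈ colStab f := by
    funext x
    rw [Function.comp_apply, pow_two, Perm.mul_apply]
    rcases g.2 with h | h
    · rw [h, h]
    · rw [h, h, swap_apply_self]
  obtain ⟨m, hm⟩ := exists_pow_eq_self_of_coprime (x := (g : Perm α)) (n := 2) (by
    rw [hg]; exact (Nat.coprime_primes Nat.prime_two hp).2 (Ne.symm h2))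
  rw [← hg]
  exact Subgroup.orderOf_dvd_natCard _ (hm ▸ pow_mem h1 m)

theorem W_fix {α : Type*} [Fintype α] [DecidableEq α] {B : Finset α} {g : Perm α} (hg : g ∈ W B)
    (y : α) (hy : g y = y) (x : α) : g x ∈ B ↔ x ∈ B := by
  rcases hg with h | h
  · exact h x
  · have := h y
    rw [hy] at this
    tauto

theorem card_eq_sum {n : ℕ} (B : Finset (Fin n)) : B.card = ∑ x, if x ∈ B then 1 else 0 := by
  simp

theorem pi_subgroupOf {G : Type*} [Group G] [Finite G] {π : Set ℕ} {K : Subgroup G}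
    (h : IsPiSubgroup π K) (A : Subgroup G) : IsPiSubgroup π (K.subgroupOf A) := fun p hp hd =>
  h p hp (hd.trans (Subgroup.card_comap_dvd_of_injective K A.subtype A.subtype_injective))

/-- For `n ≥ 5` and a set of primes `π`, the alternating group of degree `n` satisfies the full Sylow analogue for `π` (its maximal `π`-subgroups are pairwise conjugate; for a finite group this says Hall `π`-subgroups exist, are all conjugate, and contain every `π`-subgroup up to conjugacy) if and only if either at most one prime of `π` divides its order or every prime dividing its order lies in `π`. -/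
theorem result (n : ℕ) (hn : 5 ≤ n) (π : Set ℕ) :
    Cfsg.IsDPiGroup π ↥(alternatingGroup (Fin n)) ↔
      ((∀ r s : ℕ, r.Prime → s.Prime → r ∈ π → s ∈ π → r ∣ Nat.card ↥(alternatingGroup (Fin n)) → s ∣ Nat.card ↥(alternatingGroup (Fin n)) → r = s) ∨
        ∀ r : ℕ, r.Prime → r ∣ Nat.card ↥(alternatingGroup (Fin n)) → r ∈ π) := by
  have hdvd : ∀ r : ℕ, r.Prime → r ≤ n → r ∣ Nat.card (alternatingGroup (Fin n)) := by
    intro r hr hrn
    haveI : Nontrivial (Fin n) := Fin.nontrivial_iff_two_le.2 (by omega)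
    have h1 := two_mul_nat_card_alternatingGroup (α := Fin n)
    rw [Nat.card_eq_fintype_card (α := Perm (Fin n)), Fintype.card_perm, Fintype.card_fin] at h1
    by_cases h2 : r = 2
    · subst h2
      have : 2 * 2 ∣ 2 * Nat.card (alternatingGroup (Fin n)) := by
        rw [h1]
        exact (by decide : 2 * 2 ∣ Nat.factorial 4).trans (Nat.factorial_dvd_factorial (by omega))
      exact Nat.dvd_of_mul_dvd_mul_left two_pos this
    · have : r ∣ 2 * Nat.card (alternatingGroup (Fin n)) := h1 ▸ hr.dvd_factorial.2 hrn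
      exact ((Nat.Prime.dvd_mul hr).1 this).resolve_left fun h =>
        h2 ((Nat.prime_dvd_prime_iff_eq hr Nat.prime_two).1 h)
  refine ⟨fun hD => ?_, fun h => h.elim D_of_one D_of_all⟩
  by_contra hcon
  push Not at hcon
  obtain ⟨⟨r, s, hr, hs, h1, h2, h3, h4, h5⟩, t, ht, h6, h7⟩ := hcon
  have hP : Proper π (Fintype.card (Fin n)) :=
    ⟨⟨r, s, hr, hs, h5, h1, h2, dvd_alt_le hr h3, dvd_alt_le hs h4⟩, t, ht, dvd_alt_le ht h6, h7⟩
  have key : ∀ K : Subgroup (Perm (Fin n)), IsPiSubgroup π K → ∃ B : Finset (Fin n),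
      Ty π n B.card ∧ ∀ g ∈ K, Perm.sign g = 1 → g ∈ W B := by
    intro K hK
    obtain ⟨M, hle, hM⟩ := exists_maximal_ge (pi_subgroupOf hK (alternatingGroup (Fin n)))
    obtain ⟨B, hB, rfl⟩ := hall_alt_eq hP (hall_of_D hD hM)
    rw [Fintype.card_fin] at hB
    exact ⟨B, hB, fun g hg hs => hle (show (⟨g, hs⟩ : alternatingGroup (Fin n)) ∈ _ from hg)⟩
  obtain ⟨B0, hB0, -⟩ := key ⊥ fun p hp hd => by
    rw [Subgroup.card_bot, Nat.dvd_one] at hd; exact absurd hd hp.ne_one
  rcases id hB0 with ⟨e1, e2, e3⟩ | ⟨rfl | rfl, e2, e3⟩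
  · obtain ⟨S, -, hS⟩ := Finset.exists_subset_card_eq (s := (Finset.univ : Finset (Fin n)))
      (n := 2) (by simp; omega)
    obtain ⟨B, hB, hK⟩ := key (colStab (col S ∅)) fun p hp hd => by
      rw [card_col (Finset.disjoint_empty_right _), hS, Finset.card_empty, Fintype.card_fin,
        Nat.factorial_zero, mul_one] at hd
      have : p ≤ 2 ∨ p ≤ n - (2 + 0) := by
        simpa only [hp.dvd_factorial] using (Nat.Prime.dvd_mul hp).1 hd
      exact (e3 p hp (by omega)).2 (by omega)
    have hBc : Bᶜ.card = 1 := by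
      rw [Finset.card_compl, Fintype.card_fin, hB.unique hB0]; omega
    obtain ⟨c, hc⟩ := Finset.card_eq_one.1 hBc
    have hcB : ∀ x, x ∈ B ↔ x ≠ c := fun x => by
      rw [Ne, ← Finset.mem_singleton, ← hc, Finset.mem_compl, not_not]
    obtain ⟨a, b, hab, rfl⟩ := Finset.card_eq_two.1 hS
    obtain ⟨u, hu, v, hv, huv, hc⟩ : ∃ u ∈ ({a, b} : Finset (Fin n))ᶜ,
        ∃ v ∈ ({a, b} : Finset (Fin n))ᶜ, u ≠ v ∧ (c = a ∨ c = b ∨ c = u) := by
      have h2 : 1 < (({a, b} : Finset (Fin n))ᶜ).card := by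
        rw [Finset.card_compl, hS, Fintype.card_fin]; omega
      by_cases hc : c ∈ ({a, b} : Finset (Fin n))
      · obtain ⟨u, hu, v, hv, huv⟩ := Finset.one_lt_card.1 h2
        simp only [Finset.mem_insert, Finset.mem_singleton] at hc
        exact ⟨u, hu, v, hv, huv, by tauto⟩
      · obtain ⟨v, hv, hv'⟩ := Finset.exists_mem_ne h2 c
        exact ⟨c, Finset.mem_compl.2 hc, v, hv, hv'.symm, by tauto⟩
    simp only [Finset.mem_compl, Finset.mem_insert, Finset.mem_singleton, not_or] at hu hv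
    have hg := hK (swap a b * swap u v) (by
      funext x
      simp only [Function.comp_apply, col, Perm.mul_apply, swap_apply_def, Finset.mem_insert,
        Finset.mem_singleton]
      grind) (by rw [map_mul, Perm.sign_swap hab, Perm.sign_swap huv]; rfl)
    rcases hg with hg | hg
    · have := hg c
      simp only [hcB, Perm.mul_apply, swap_apply_def] at this
      grind
    · have h1 := hg a
      have h2 := hg b
      have h3 := hg u
      simp only [hcB, Perm.mul_apply, swap_apply_def] at h1 h2 h3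
      grind
  · have h72 : ∀ p : ℕ, p.Prime → p ∣ 2 ^ 2 * 3 ^ 2 → p = 2 ∨ p = 3 := fun p hp h6 => by
      rcases (Nat.Prime.dvd_mul hp).1 h6 with h | h
      · exact Or.inl ((Nat.prime_dvd_prime_iff_eq hp Nat.prime_two).1 (hp.dvd_of_dvd_pow h))
      · exact Or.inr ((Nat.prime_dvd_prime_iff_eq hp Nat.prime_three).1 (hp.dvd_of_dvd_pow h))
    obtain ⟨B, hB, hK⟩ := key (K7 (col ({0, 1, 2} : Finset (Fin 7)) {3, 4, 5})) fun p hp hd => by
      have : p = 2 ∨ p = 3 := by
        rcases prime_dvd_K7 _ hp hd with h | h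
        · exact Or.inl h
        · rw [card_col (by decide)] at h
          exact h72 p hp h
      exact (e3 p hp (by omega)).2 this
    have a1 := W_fix (hK (swap 0 1 * swap 1 2) (Or.inl (by decide)) (by simp)) 6 (by decide)
    have a2 := W_fix (hK (swap 0 3 * swap 3 1 * swap 1 4 * swap 2 5) (Or.inr (by decide))
      (by simp)) 6 (by decide)
    have b0 : (1 : Fin 7) ∈ B ↔ 0 ∈ B := a1 0
    have b1 : (2 : Fin 7) ∈ B ↔ 1 ∈ B := a1 1
    have b2 : (3 : Fin 7) ∈ B ↔ 0 ∈ B := a2 0
    have b3 : (4 : Fin 7) ∈ B ↔ 1 ∈ B := a2 1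
    have b4 : (5 : Fin 7) ∈ B ↔ 2 ∈ B := a2 2
    have hc := hB.unique hB0
    rw [e2, card_eq_sum, Fin.sum_univ_seven] at hc
    simp only [b4, b3, b2, b1, b0] at hc
    split_ifs at hc <;> omega
  · obtain ⟨B, hB, hK⟩ := key (colStab (col ({0, 1, 2} : Finset (Fin 8)) {3, 4, 5})) fun p hp hd => by
      rw [card_col (by decide)] at hd
      have h6 : p ∣ 2 ^ 3 * 3 ^ 2 := hd
      have : p = 2 ∨ p = 3 := by
        rcases (Nat.Prime.dvd_mul hp).1 h6 with h | h
        · exact Or.inl ((Nat.prime_dvd_prime_iff_eq hp Nat.prime_two).1 (hp.dvd_of_dvd_pow h))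
        · exact Or.inr ((Nat.prime_dvd_prime_iff_eq hp Nat.prime_three).1 (hp.dvd_of_dvd_pow h))
      exact (e3 p hp (by omega)).2 this
    have a1 := W_fix (hK (swap 0 1 * swap 1 2) (funext (by decide)) (by simp)) 7 (by decide)
    have a2 := W_fix (hK (swap 3 4 * swap 4 5) (funext (by decide)) (by simp)) 7 (by decide)
    have a3 := W_fix (hK (swap 0 1 * swap 6 7) (funext (by decide)) (by simp)) 2 (by decide)
    have b0 : (1 : Fin 8) ∈ B ↔ 0 ∈ B := a1 0
    have b1 : (2 : Fin 8) ∈ B ↔ 1 ∈ B := a1 1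
    have b2 : (4 : Fin 8) ∈ B ↔ 3 ∈ B := a2 3
    have b3 : (5 : Fin 8) ∈ B ↔ 4 ∈ B := a2 4
    have b4 : (7 : Fin 8) ∈ B ↔ 6 ∈ B := a3 6
    have hc := hB.unique hB0
    rw [e2, card_eq_sum, Fin.sum_univ_eight] at hc
    simp only [b4, b3, b2, b1, b0] at hc
    split_ifs at hc <;> omega

end Cfsg.Agent.S2534
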