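import Cfsg.Statements.S2536
import Cfsg.Agent.Lib.Hall.Sym3

set_option autoImplicit false
open Cfsg

namespace Cfsg.Agent.S2536

open Cfsg.Agent.Lib.HallSym

/-- Let `π` be a set of primes and `n` a natural number such that at least two primes of `π` divide `n!` but not every prime dividing `n!` lies in `π`. Then the symmetric group of degree `n` has a Hall `π`-subgroup if and only if either `n` is prime and the primes of `π` dividing `n!` are exactly the primes smaller than `n` (a point stabilizer is then such a subgroup), or `n ∈ {7, 8}` and the primes of `π` dividing `n!` are exactly 2 and 3. -/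
theorem result (n : ℕ) (π : Set ℕ)
    (h2 : ∃ r s : ℕ, r.Prime ∧ s.Prime ∧ r ≠ s ∧ r ∈ π ∧ s ∈ π ∧ r ≤ n ∧ s ≤ n)
    (hns : ∃ r : ℕ, r.Prime ∧ r ≤ n ∧ r ∉ π) :
    Cfsg.IsEPiGroup π (Equiv.Perm (Fin n)) ↔
      ((n.Prime ∧ ∀ r : ℕ, r.Prime → r ≤ n → (r ∈ π ↔ r < n)) ∨
       ((n = 7 ∨ n = 8) ∧ ∀ r : ℕ, r.Prime → r ≤ n → (r ∈ π ↔ (r = 2 ∨ r = 3)))) := by
  have hP : Proper π (Fintype.card (Fin n)) := by rw [Fintype.card_fin]; exact ⟨h2, hns⟩
  have h3 := hP.three_le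
  constructor
  · rintro ⟨H, hH⟩
    obtain ⟨B, h1, -⟩ := hall_sym_eq hP hH
    rw [Fintype.card_fin] at h1
    rcases h1 with ⟨h1, -, h2⟩ | ⟨h1, -, h2⟩
    · exact Or.inl ⟨h1, h2⟩
    · exact Or.inr ⟨h1, h2⟩
  · rintro (⟨h1, h2⟩ | ⟨h1, h2⟩)
    · obtain ⟨B, -, hB⟩ := Finset.exists_subset_card_eq (s := (Finset.univ : Finset (Fin n)))
        (n := n - 1) (by simp)
      exact ⟨W B, hall_W (by
        rw [Fintype.card_fin] at h3 ⊢; exact Or.inl ⟨h1, by omega, h2⟩) h3⟩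
    · obtain ⟨B, -, hB⟩ := Finset.exists_subset_card_eq (s := (Finset.univ : Finset (Fin n)))
        (n := 4) (by simp; omega)
      exact ⟨W B, hall_W (by
        rw [Fintype.card_fin]; exact Or.inr ⟨h1, hB, h2⟩) h3⟩

end Cfsg.Agent.S2536
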