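import Cfsg.Statements.S2537
import Cfsg.Agent.Lib.Hall.PSL2b

set_option autoImplicit false
open Cfsg

namespace Cfsg.Agent.S2537

open Cfsg.Agent.Lib.HallPSL Cfsg.Agent.Lib.HallSym

theorem part_eq {a b : ℕ} : (2 ^ a * 3 ^ b = 24 ↔ a = 3 ∧ b = 1) ∧
    (2 ^ a * 3 ^ b = 48 ↔ a = 4 ∧ b = 1) := by
  have key : ∀ n, n ≤ 48 → 2 ^ a * 3 ^ b = n → a < 6 ∧ b < 6 := fun n hn h => by
    have h1 : 2 ^ a ≤ 48 := le_trans (Nat.le_mul_of_pos_right _ (by positivity)) (h ▸ hn)
    have h2 : 3 ^ b ≤ 48 := le_trans (Nat.le_mul_of_pos_left _ (by positivity)) (h ▸ hn)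
    constructor
    · by_contra h3
      have := Nat.pow_le_pow_right (n := 2) two_pos (not_lt.1 h3)
      omega
    · by_contra h3
      have := Nat.pow_le_pow_right (n := 3) three_pos (not_lt.1 h3)
      omega
  refine ⟨⟨fun h => ?_, fun h => by rw [h.1, h.2]; rfl⟩, ⟨fun h => ?_, fun h => by rw [h.1, h.2]; rfl⟩⟩
  · obtain ⟨h1, h2⟩ := key _ (by norm_num) h
    interval_cases a <;> interval_cases b <;> simp_all
  · obtain ⟨h1, h2⟩ := key _ (by norm_num) h
    interval_cases a <;> interval_cases b <;> simp_all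

/-- Let `F` be a finite field with `q` elements of characteristic `p ≥ 5`, and `ε = 1` if `q ≡ 1 (mod 4)`, `ε = -1` otherwise. Then `PSL(2, F)` has a Hall `{2, 3}`-subgroup if and only if `3` divides `q − ε`, or the `{2,3}`-part of `q² − 1` is 24, or the `{2,3}`-part of `q² − 1` is 48 (the `{2,3}`-part of `m` being the largest divisor of `m` with no prime factor other than 2 and 3). -/
theorem result {F : Type*} [Field F] [Fintype F] {p : ℕ} [Fact p.Prime] [CharP F p]
    (hp : 5 ≤ p) (q : ℕ) (hq : Fintype.card F = q) :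
    (∃ H : Subgroup (Matrix.ProjectiveSpecialLinearGroup (Fin 2) F), Cfsg.IsPiHall ({2, 3} : Set ℕ) H) ↔
      (3 ∣ q - 1 ∧ q % 4 = 1) ∨ (3 ∣ q + 1 ∧ q % 4 = 3) ∨
        2 ^ (q ^ 2 - 1).factorization 2 * 3 ^ (q ^ 2 - 1).factorization 3 = 24 ∨
        2 ^ (q ^ 2 - 1).factorization 2 * 3 ^ (q ^ 2 - 1).factorization 3 = 48 := by
  classical
  have hpp : p.Prime := Fact.out
  have hchar : ∀ r : ℕ, r.Prime → r < 5 → (r : F) ≠ 0 := fun r hr h5 h0 => by
    have := (Nat.prime_dvd_prime_iff_eq hpp hr).1 ((CharP.cast_eq_zero_iff F p r).1 h0)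
    omega
  have h2 : (2 : F) ≠ 0 := by exact_mod_cast hchar 2 Nat.prime_two (by norm_num)
  have h3 : (3 : F) ≠ 0 := by exact_mod_cast hchar 3 Nat.prime_three (by norm_num)
  have hqd : ∀ r : ℕ, r.Prime → r < 5 → ¬ r ∣ q := fun r hr h5 hd => by
    obtain ⟨n, -, hn⟩ := FiniteField.card F p
    rw [← hq, hn] at hd
    have := (Nat.prime_dvd_prime_iff_eq hr hpp).1 (hr.dvd_of_dvd_pow hd)
    omega
  have hq2 := hqd 2 Nat.prime_two (by norm_num)
  have hq3 := hqd 3 Nat.prime_three (by norm_num)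
  have hq1 : 1 < q := hq ▸ Fintype.one_lt_card
  obtain ⟨c, d, hcd⟩ : ∃ c d : F, c ^ 2 + d ^ 2 = -1 := by
    haveI : NeZero p := ⟨hpp.ne_zero⟩
    obtain ⟨a, b, h⟩ := CharP.sq_add_sq F p (-1)
    exact ⟨a, b, by exact_mod_cast h⟩
  have hG := card_PSL2 h2
  rw [hq] at hG
  have hN : q ^ 2 - 1 = (q + 1) * (q - 1) := Nat.sq_sub_sq q 1
  have hN0 : q ^ 2 - 1 ≠ 0 := by rw [hN]; exact mul_ne_zero (by omega) (by omega)
  have hN8 : 8 ∣ q ^ 2 - 1 := by
    obtain ⟨t, rfl⟩ : ∃ t, q = 2 * t + 1 := ⟨q / 2, by omega⟩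
    obtain ⟨s, hs⟩ := Nat.even_mul_succ_self t
    exact ⟨s, by rw [hN, Nat.add_sub_cancel]; nlinarith⟩
  have h31 : 3 ∣ q + 1 ∨ 3 ∣ q - 1 := by
    rcases (by omega : q % 3 = 1 ∨ q % 3 = 2) with h | h
    · exact Or.inr (by omega)
    · exact Or.inl (by omega)
  have hN3 : 3 ∣ q ^ 2 - 1 := by
    rw [hN]
    rcases h31 with h | h
    · exact h.mul_right _
    · exact h.mul_left _
  have cop : ∀ r k : ℕ, r.Prime → r < 5 → r ^ k ∣ q * (q ^ 2 - 1) → k ≤ (q ^ 2 - 1).factorization r :=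
    fun r k hr h5 h => (hr.pow_dvd_iff_le_factorization hN0).1
      ((Nat.Coprime.pow_left k ((Nat.Prime.coprime_iff_not_dvd hr).2 (hqd r hr h5))).dvd_of_dvd_mul_left h)
  have hι : q % 4 = 1 → ∃ ι : F, ι ^ 2 = -1 := fun h => by
    obtain ⟨ι, hι⟩ := FiniteField.isSquare_neg_one_iff.2 (by rw [hq]; omega : Fintype.card F % 4 ≠ 3)
    exact ⟨ι, by rw [hι, pow_two]⟩
  have hι' : q % 4 = 3 → ∀ t : F, 1 + t ^ 2 ≠ 0 := fun h t ht =>
    FiniteField.isSquare_neg_one_iff.1 (⟨t, by linear_combination -ht⟩ : IsSquare (-1 : F)) (hq ▸ h)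
  set k := K4_ij h2 hcd
  constructor
  · rintro ⟨H, hH⟩
    by_contra hcon
    push Not at hcon
    obtain ⟨c1, c2, c3, c4⟩ := hcon
    have hω : 3 ∣ q - 1 ↔ IsSquare (-3 : F) := by
      rw [← hq, ← Nat.card_eq_fintype_card, ← Nat.card_units]
      constructor
      · intro h
        obtain ⟨u, hu⟩ := exists_prime_orderOf_dvd_card' 3 h
        have e1 : (u : F) ^ 3 = 1 := by rw [← Units.val_pow_eq_pow_val, ← hu, pow_orderOf_eq_one]; rfl
        have e2 : (u : F) - 1 ≠ 0 := fun h => by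
          rw [Units.ext (sub_eq_zero.1 h : (u : F) = (1 : Fˣ)), orderOf_one] at hu; omega
        have e3 : (u : F) ^ 2 + u + 1 = 0 := mul_left_cancel₀ e2 (by linear_combination e1)
        exact ⟨2 * u + 1, by linear_combination -4 * e3⟩
      · rintro ⟨s, hs⟩
        have e1 : ((s - 1) / 2) * ((s - 1) / 2) ^ 2 = 1 := by
          field_simp; linear_combination (3 - s) * hs
        have e2 : orderOf (Units.mkOfMulEqOne _ _ e1) = 3 := orderOf_eq_prime
          (Units.ext (by simp only [Units.val_pow_eq_pow_val, Units.val_mkOfMulEqOne, pow_succ' _ 2]; exact e1))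
          fun h => by
            have e3 : (s - 1) / 2 = 1 := congrArg Units.val h
            field_simp at e3
            have : s = 3 := by linear_combination e3
            rw [this] at hs
            exact mul_ne_zero (mul_ne_zero h2 h2) h3 (by linear_combination -hs)
        exact e2 ▸ orderOf_dvd_natCard _
    have hsq : ¬ IsSquare (3 : F) := by
      rintro ⟨s, hs⟩
      rcases (by omega : q % 4 = 1 ∨ q % 4 = 3) with h | h
      · obtain ⟨ι, hι⟩ := hι h
        exact c1 (hω.2 ⟨ι * s, by linear_combination -hs - s ^ 2 * hι⟩) h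
      · refine c2 (h31.resolve_right fun h' => ?_) h
        obtain ⟨t, ht⟩ := hω.1 h'
        have hs0 : s ≠ 0 := by rintro rfl; exact h3 (by linear_combination hs)
        exact hι' h (t / s) (by field_simp; linear_combination -hs - ht)
    have hi2 := hH.2 2 Nat.prime_two (Or.inl rfl)
    have hi3 := hH.2 3 Nat.prime_three (Or.inr rfl)
    have hc := H.card_mul_index
    obtain ⟨Q, hQH, -, hQ, hQi⟩ := exists_sylow_le (p := 2) (H := H) (A := ⊤)
      (by rwa [Subgroup.relIndex_top_right])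
    obtain ⟨g, -, hg⟩ := conj_into_sylow hQ le_top hQi (R := k.V)
      (IsPGroup.of_card (n := 2) k.card_V) le_top
    have k' : K4 (g * pr mi * g⁻¹) (g * pr (mj hcd) * g⁻¹) := by
      refine ⟨?_, ?_, ?_, ?_, ?_, ?_⟩
      · rw [conj_mul, k.ha]; simp
      · rw [conj_mul, k.hb]; simp
      · rw [conj_mul, conj_mul, k.comm]
      · simpa using k.a1
      · simpa using k.b1
      · simpa using k.ne
    have h3H : 3 ∣ Nat.card H := by
      have : 3 ∣ 2 * (Nat.card H * H.index) := by rw [hc, hG]; exact hN3.mul_left _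
      rcases (Nat.Prime.dvd_mul Nat.prime_three).1 this with h | h
      · omega
      · exact ((Nat.Prime.dvd_mul Nat.prime_three).1 h).resolve_right hi3
    obtain ⟨e, he⟩ := card_dvd_24 H hH.1 h3H k' (hQH (hg _ (Or.inr (Or.inl rfl))))
      (hQH (hg _ (Or.inr (Or.inr (Or.inl rfl))))) (no_six h2 hsq) (centralizer_K4 h2)
    have hd : q ^ 2 - 1 ∣ 48 * H.index := by
      refine (Dvd.intro_left q hG.symm).trans ?_
      rw [← hc, ← mul_assoc, show 48 = 2 * 24 from rfl, he]
      exact Nat.mul_dvd_mul_right (Nat.mul_dvd_mul_left 2 (Dvd.intro _ rfl)) _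
    have a1 : 3 ≤ (q ^ 2 - 1).factorization 2 := (Nat.prime_two.pow_dvd_iff_le_factorization hN0).1 hN8
    have b1 : 1 ≤ (q ^ 2 - 1).factorization 3 :=
      (Nat.prime_three.pow_dvd_iff_le_factorization hN0).1 (by simpa using hN3)
    have a2 : ¬ 5 ≤ (q ^ 2 - 1).factorization 2 := fun h => by
      have := ((Nat.prime_two.pow_dvd_iff_le_factorization hN0).2 h).trans hd
      omega
    have b2 : ¬ 2 ≤ (q ^ 2 - 1).factorization 3 := fun h => by
      have := ((Nat.prime_three.pow_dvd_iff_le_factorization hN0).2 h).trans hd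
      omega
    rw [Ne, part_eq.1] at c3
    rw [Ne, part_eq.2] at c4
    omega
  · have hrot := (rot F).card_mul_index
    rw [card_SL2, Nat.card_congr rotEquiv, hq, hN] at hrot
    have hNN := k.card_normalizer_dvd (centralizer_K4 h2 _ _ k)
    have h12 := twelve_dvd h2 hcd
    have h4 : 4 ∣ Nat.card (Subgroup.normalizer (k.V : Set (Matrix.ProjectiveSpecialLinearGroup (Fin 2) F))) :=
      k.card_V ▸ Subgroup.card_dvd_of_le Subgroup.le_normalizer
    have hc := (Subgroup.normalizer (k.V : Set (Matrix.ProjectiveSpecialLinearGroup (Fin 2) F))).card_mul_index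
    have fin : ∀ a, 2 ^ a ∣ Nat.card (Subgroup.normalizer (k.V : Set (Matrix.ProjectiveSpecialLinearGroup (Fin 2) F))) →
        (q ^ 2 - 1).factorization 2 = a + 1 → (q ^ 2 - 1).factorization 3 = 1 →
        IsPiHall ({2, 3} : Set ℕ) (Subgroup.normalizer (k.V : Set (Matrix.ProjectiveSpecialLinearGroup (Fin 2) F))) := by
      intro a ha e1 e2
      refine ⟨fun r hr hd => ?_, fun r hr hπ hd => ?_⟩
      · have h6 : r ∣ 2 ^ 3 * 3 := hd.trans hNN
        rcases (Nat.Prime.dvd_mul hr).1 h6 with h | h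
        · exact Or.inl ((Nat.prime_dvd_prime_iff_eq hr Nat.prime_two).1 (hr.dvd_of_dvd_pow h))
        · exact Or.inr ((Nat.prime_dvd_prime_iff_eq hr Nat.prime_three).1 h)
      · rcases hπ with rfl | rfl
        · have := cop 2 (a + 2) hr (by norm_num) (by
            rw [← hG, ← hc, show 2 ^ (a + 2) = 2 * (2 ^ a * 2) by ring]
            exact Nat.mul_dvd_mul_left 2 (Nat.mul_dvd_mul ha hd))
          omega
        · have := cop 3 2 hr (by norm_num) (by
            rw [← hG, ← hc, pow_two]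
            exact (Nat.mul_dvd_mul h12 hd).mul_left 2)
          omega
    rintro (⟨h, h'⟩ | ⟨h, h'⟩ | h | h)
    · obtain ⟨ι, hι⟩ := hι h'
      rw [card_circle_split h2 hι, hq] at hrot
      have hi : (rot F).index = q * (q + 1) :=
        Nat.eq_of_mul_eq_mul_left (by omega : 0 < q - 1) (by rw [hrot]; ring)
      refine hall_rot h2 hcd (fun h5 => ?_) fun h5 => ?_
      · rw [hi] at h5
        rcases (Nat.Prime.dvd_mul Nat.prime_three).1 h5 with h | h <;> omega
      · rw [hi] at h5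
        have := (Nat.Coprime.pow_left 2 ((Nat.Prime.coprime_iff_not_dvd Nat.prime_two).2
          hq2)).dvd_of_dvd_mul_left h5
        omega
    · rw [card_circle_nonsplit h2 (hι' h'), hq] at hrot
      have hi : (rot F).index = q * (q - 1) :=
        Nat.eq_of_mul_eq_mul_left (by omega : 0 < q + 1) (by rw [hrot]; ring)
      refine hall_rot h2 hcd (fun h5 => ?_) fun h5 => ?_
      · rw [hi] at h5
        rcases (Nat.Prime.dvd_mul Nat.prime_three).1 h5 with h | h <;> omega
      · rw [hi] at h5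
        have := (Nat.Coprime.pow_left 2 ((Nat.Prime.coprime_iff_not_dvd Nat.prime_two).2
          hq2)).dvd_of_dvd_mul_left h5
        omega
    · obtain ⟨e1, e2⟩ := part_eq.1.1 h
      exact ⟨_, fin 2 h4 e1 e2⟩
    · obtain ⟨e1, e2⟩ := part_eq.2.1 h
      have h16 : 16 ∣ (q + 1) * (q - 1) :=
        hN ▸ (Nat.prime_two.pow_dvd_iff_le_factorization hN0).2 e1.ge
      have h8 : q % 8 ≠ 3 ∧ q % 8 ≠ 5 := by
        obtain ⟨t, ht⟩ : ∃ t, q = 8 * t + q % 8 := ⟨q / 8, by omega⟩
        constructor <;> intro h5 <;> rw [h5] at ht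
        · rw [ht, show 8 * t + 3 - 1 = 8 * t + 2 from rfl,
            show (8 * t + 3 + 1) * (8 * t + 2) = 16 * (4 * t ^ 2 + 3 * t) + 8 by ring] at h16
          omega
        · rw [ht, show 8 * t + 5 - 1 = 8 * t + 4 from rfl,
            show (8 * t + 5 + 1) * (8 * t + 4) = 16 * (4 * t ^ 2 + 5 * t + 1) + 8 by ring] at h16
          omega
      obtain ⟨s, hs⟩ := (FiniteField.isSquare_two_iff (F := F)).2 (hq ▸ h8)
      have hs0 : s ≠ 0 := by rintro rfl; exact h2 (by linear_combination hs)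
      exact ⟨_, fin 3 (eight_dvd h2 hcd (r := s⁻¹) (by field_simp; linear_combination hs)) e1 e2⟩

end Cfsg.Agent.S2537
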