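import Cfsg.Statements.S2540
import Cfsg.Agent.Lib.GL.SLNormal

set_option autoImplicit false
open Cfsg

namespace Cfsg.Agent.S2540

open Cfsg.Agent.Lib.GL.SLNormal Matrix.SpecialLinearGroup
open scoped commutatorElement

/-- Let F be a finite field and n ≥ 1, excluding the case n = 2 with #F ≤ 3. A subgroup of GL_n(F) that is normalized by every element of SL_n(F) either consists of scalar matrices or contains SL_n(F). -/
theorem result {F : Type*} [Field F] [Fintype F] (n : ℕ) (hn : 1 ≤ n) (hex : ¬ (n = 2 ∧ Fintype.card F ≤ 3)) (G : Subgroup (Matrix.GeneralLinearGroup (Fin n) F)) (hG : ∀ s : Matrix.SpecialLinearGroup (Fin n) F, ∀ g ∈ G, (Matrix.SpecialLinearGroup.toGL s) * g * (Matrix.SpecialLinearGroup.toGL s)⁻¹ ∈ G) : (∀ g ∈ G, ∃ c : F, (g : Matrix (Fin n) (Fin n) F) = c • (1 : Matrix (Fin n) (Fin n) F)) ∨ (Matrix.SpecialLinearGroup.toGL : Matrix.SpecialLinearGroup (Fin n) F →* _).range ≤ G := by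
  set S := (toGL : Matrix.SpecialLinearGroup (Fin n) F →* _).range
  have : (G.comap toGL).Normal := ⟨fun g hg s => by simpa using hG s _ hg⟩
  refine (commutator_le_or (G.comap toGL)).imp (fun h g hg => ?_) fun h => ?_
  · have h1 : ⁅⁅S, G⁆, S⁆ = ⊥ := by
      rw [Subgroup.commutator_eq_bot_iff_le_centralizer, Subgroup.commutator_le]
      rintro _ ⟨s, rfl⟩ g hg _ ⟨s', rfl⟩
      let x : Matrix.SpecialLinearGroup (Fin n) F := ⟨⁅toGL s, g⁆.1, by
        simp [commutatorElement_def, ← Matrix.GeneralLinearGroup.val_det_apply]⟩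
      have hx : toGL x = ⁅toGL s, g⁆ := Units.ext rfl
      rw [← hx, ← map_mul, ← map_mul, Subgroup.mem_center_iff.1 (h (show toGL x ∈ G from
        hx ▸ mul_mem (hG s g hg) (inv_mem hg)))]
    have h2 := Subgroup.commutator_commutator_eq_bot_of_rotate h1
      (by rwa [Subgroup.commutator_comm G])
    rw [show S = Subgroup.map toGL ⊤ from MonoidHom.range_eq_map _, ← Subgroup.map_commutator,
      ← commutator_def, commutator_SL hex, Subgroup.commutator_eq_bot_iff_le_centralizer] at h2
    obtain ⟨c, hc⟩ := Matrix.mem_range_scalar_of_commute_transvectionStruct (M := g.1) fun t =>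
      (congrArg Units.val (h2 ⟨t.toSpecialLinearGroup, trivial, rfl⟩ g hg)).symm
    exact ⟨c, by rw [← hc, Matrix.scalar_apply, Matrix.smul_one_eq_diagonal]⟩
  · rintro _ ⟨s, rfl⟩
    exact h (commutator_SL hex ▸ Subgroup.mem_top s)

end Cfsg.Agent.S2540
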