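import Cfsg.Statements.S2541


set_option autoImplicit false
open Cfsg

namespace Cfsg.Agent.S2541

theorem perm6_pow (σ : Equiv.Perm (Fin 6)) : σ ^ 60 = 1 := by
  rw [← orderOf_dvd_iff_pow_eq_one, ← Equiv.Perm.lcm_cycleType, Multiset.lcm_dvd]
  intro b hb
  have h2 := Equiv.Perm.two_le_of_mem_cycleType hb
  have h6 : b ≤ 6 := by
    have h1 := Multiset.le_sum_of_mem hb
    have h3 := Equiv.Perm.sum_cycleType_le σ
    simp only [Fintype.card_fin] at h3
    omega
  interval_cases b <;> norm_num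

/-- Let F be a field with 9 elements. The symmetric group S_6 is not isomorphic to PGL_2(F) (although both have index-2 subgroups isomorphic to A_6). -/
theorem result {F : Type*} [Field F] [Fintype F] (hF : Fintype.card F = 9) : ¬ Nonempty (Equiv.Perm (Fin 6) ≃* Matrix.ProjGenLinGroup (Fin 2) F) := by
  rintro ⟨e⟩
  classical
  obtain ⟨ω, hω⟩ := IsCyclic.exists_generator (α := Fˣ)
  have hord : orderOf ω = 8 := by
    rw [orderOf_eq_card_of_forall_mem_zpowers hω, Nat.card_eq_fintype_card, Fintype.card_units, hF]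
  let d : Fin 2 → F := ![(ω : F), 1]
  have hdet : (Matrix.diagonal d).det ≠ 0 := by
    simp [d, Matrix.det_diagonal, Fin.prod_univ_two]
  let g : GL (Fin 2) F := Matrix.GeneralLinearGroup.mkOfDetNeZero _ hdet
  have h1 : (Matrix.ProjGenLinGroup.mk g) ^ 60 = 1 := by
    obtain ⟨σ, hσ⟩ := e.surjective (Matrix.ProjGenLinGroup.mk g)
    rw [← hσ, ← map_pow, perm6_pow, map_one]
  rw [← map_pow, Matrix.ProjGenLinGroup.mk_eq_one,
    Matrix.GeneralLinearGroup.center_eq_range_scalar] at h1
  obtain ⟨u, hu⟩ := h1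
  have h2 : ((g ^ 60 : GL (Fin 2) F) : Matrix (Fin 2) (Fin 2) F) = Matrix.diagonal (d ^ 60) := by
    rw [Units.val_pow_eq_pow_val, ← Matrix.diagonal_pow]
    rfl
  rw [← hu] at h2
  have h00 := congrFun (congrFun h2 0) 0
  have h11 := congrFun (congrFun h2 1) 1
  simp [d] at h00 h11
  have h3 : ω ^ 60 = 1 := by
    ext
    rw [Units.val_pow_eq_pow_val, ← h00, h11]
  have := orderOf_dvd_of_pow_eq_one h3
  rw [hord] at this
  norm_num at this

end Cfsg.Agent.S2541
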