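import Cfsg.Statements.S2543
import Cfsg.Agent.Lib.Misc.L211b

set_option autoImplicit false
open scoped Pointwise
open Cfsg

namespace Cfsg.Agent.S2543

open Cfsg.Agent.Lib.L211

/-- Let F be a field with 11 elements. PSL_2(F) has exactly 22 subgroups isomorphic to the alternating group A_5, and they form two conjugacy classes: there are two such subgroups that are not conjugate, and every such subgroup is conjugate to one of these two. -/
theorem result {F : Type*} [Field F] [Fintype F] (hF : Fintype.card F = 11) : Nat.card {H : Subgroup (Matrix.ProjectiveSpecialLinearGroup (Fin 2) F) // Nonempty (H ≃* alternatingGroup (Fin 5))} = 22 ∧ ∃ H K : Subgroup (Matrix.ProjectiveSpecialLinearGroup (Fin 2) F), Nonempty (H ≃* alternatingGroup (Fin 5)) ∧ Nonempty (K ≃* alternatingGroup (Fin 5)) ∧ (∀ g : Matrix.ProjectiveSpecialLinearGroup (Fin 2) F, MulAut.conj g • H ≠ K) ∧ ∀ L : Subgroup (Matrix.ProjectiveSpecialLinearGroup (Fin 2) F), Nonempty (L ≃* alternatingGroup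 (Fin 5)) → ∃ g : Matrix.ProjectiveSpecialLinearGroup (Fin 2) F, MulAut.conj g • L = H ∨ MulAut.conj g • L = K := by
  obtain ⟨Φ, h⟩ := exists_model hF
  obtain ⟨H, ⟨eH⟩, hu⟩ := h.exists_A5 relH uH_one
  obtain ⟨K, ⟨eK⟩, hu'⟩ := h.exists_A5 relK uK_one
  have hH : Nat.card H = 60 := by rw [Nat.card_congr eH.toEquiv, card_A5]
  have hK : Nat.card K = 60 := by rw [Nat.card_congr eK.toEquiv, card_A5]
  refine ⟨?_, H, K, ⟨eH⟩, ⟨eK⟩, h.not_conj hH hu hu', fun L ⟨e⟩ => h.classify eH eK hu hu' e⟩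
  haveI : Finite (Matrix.ProjectiveSpecialLinearGroup (Fin 2) F) :=
    Nat.finite_of_card_ne_zero (by rw [h.card]; omega)
  have h1 : {L : Subgroup (Matrix.ProjectiveSpecialLinearGroup (Fin 2) F) |
      Nonempty (L ≃* alternatingGroup (Fin 5))} = {L | ∃ g : Matrix.ProjectiveSpecialLinearGroup (Fin 2) F, MulAut.conj g • H = L} ∪
        {L | ∃ g : Matrix.ProjectiveSpecialLinearGroup (Fin 2) F, MulAut.conj g • K = L} := by
    ext L
    constructor
    · rintro ⟨e⟩
      obtain ⟨g, hg | hg⟩ := h.classify eH eK hu hu' e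
      · exact Or.inl ⟨g⁻¹, by rw [← hg, map_inv, inv_smul_smul]⟩
      · exact Or.inr ⟨g⁻¹, by rw [← hg, map_inv, inv_smul_smul]⟩
    · rintro (⟨g, rfl⟩ | ⟨g, rfl⟩)
      · exact ⟨(Subgroup.equivSMul (MulAut.conj g) H).symm.trans eH⟩
      · exact ⟨(Subgroup.equivSMul (MulAut.conj g) K).symm.trans eK⟩
  refine (Nat.card_coe_set_eq {L : Subgroup (Matrix.ProjectiveSpecialLinearGroup (Fin 2) F) |
      Nonempty (L ≃* alternatingGroup (Fin 5))}).trans ?_
  rw [h1, Set.ncard_union_eq, h.ncard_class hH relH hu, h.ncard_class hK relK hu']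
  rw [Set.disjoint_left]
  rintro _ ⟨g, rfl⟩ ⟨g', hg'⟩
  exact h.not_conj hH hu hu' (g'⁻¹ * g) (by rw [map_mul, mul_smul, ← hg', map_inv, inv_smul_smul])

end Cfsg.Agent.S2543
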