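import Cfsg.Statements.S2544
import Cfsg.Agent.Lib.Stein.TypeA

set_option autoImplicit false
open Cfsg

namespace Cfsg.Agent.S2544

/-- Let F be a finite field of characteristic p and consider the projective special linear group PSL_n(F) with n ≥ 2. This group has an irreducible complex character χ whose degree equals the order of a Sylow p-subgroup (namely q^(n(n−1)/2) when #F = q) and whose restriction to any Sylow p-subgroup P is the regular character of P: χ vanishes on the non-identity elements of P. (This is the Steinberg character.) -/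
theorem result {F : Type*} [Field F] [Fintype F] (p : ℕ) [Fact p.Prime] [CharP F p] (n : ℕ) (hn : 2 ≤ n) : ∃ χ : Matrix.ProjectiveSpecialLinearGroup (Fin n) F → ℂ, Cfsg.IsIrrCharacter (Matrix.ProjectiveSpecialLinearGroup (Fin n) F) χ ∧ ∀ P : Sylow p (Matrix.ProjectiveSpecialLinearGroup (Fin n) F), χ 1 = Nat.card P ∧ ∀ x : Matrix.ProjectiveSpecialLinearGroup (Fin n) F, x ∈ P → x ≠ 1 → χ x = 0 := by
  classical
  refine Cfsg.Agent.Lib.Stein.hasSt_linear (F := F) (V := Fin n → F)
    Matrix.SpecialLinearGroup.toLin' Matrix.SpecialLinearGroup.toLin'_injective fun g k hk => ?_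
  refine ⟨⟨LinearMap.toMatrix' (g : (Fin n → F) →ₗ[F] (Fin n → F)), by
    rw [LinearMap.det_toMatrix', Cfsg.Agent.Lib.Stein.det_eq_one_of_pow hk]⟩, ?_⟩
  refine LinearEquiv.ext fun x => ?_
  change Matrix.toLin' (LinearMap.toMatrix' _) x = _
  rw [Matrix.toLin'_toMatrix']
  rfl

end Cfsg.Agent.S2544
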