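import Cfsg.Statements.S2545
import Cfsg.Agent.Lib.Stein.Orth

set_option autoImplicit false
open Cfsg

namespace Cfsg.Agent.S2545

open Cfsg.Agent.Lib.Forms Cfsg.Agent.Lib.Stein Matrix

/-- Let F be a finite field of characteristic p and consider the projective symplectic group PSp_{2m}(F) with m ≥ 1. This group has an irreducible complex character χ whose degree equals the order of a Sylow p-subgroup (namely q^(m²) when #F = q) and whose restriction to any Sylow p-subgroup P is the regular character of P: χ vanishes on the non-identity elements of P. (This is the Steinberg character.) -/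
theorem result {F : Type*} [Field F] [Fintype F] (p : ℕ) [Fact p.Prime] [CharP F p] (m : ℕ) (hm : 1 ≤ m) : ∃ χ : Cfsg.PSp m F → ℂ, Cfsg.IsIrrCharacter (Cfsg.PSp m F) χ ∧ ∀ P : Sylow p (Cfsg.PSp m F), χ 1 = Nat.card P ∧ ∀ x : Cfsg.PSp m F, x ∈ P → x ≠ 1 → χ x = 0 := by
  classical
  let ρ : Matrix.symplecticGroup (Fin m) F →* ((Fin m ⊕ Fin m → F) ≃ₗ[F] (Fin m ⊕ Fin m → F)) :=
    { toFun := fun g => LinearEquiv.ofLinear (Matrix.mulVecLin g.1) (Matrix.mulVecLin (g⁻¹).1)
        (by rw [← Matrix.mulVecLin_mul, ← Submonoid.coe_mul, mul_inv_cancel]; exact Matrix.mulVecLin_one)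
        (by rw [← Matrix.mulVecLin_mul, ← Submonoid.coe_mul, inv_mul_cancel]; exact Matrix.mulVecLin_one)
      map_one' := LinearEquiv.ext fun x => Matrix.one_mulVec x
      map_mul' := fun g h => LinearEquiv.ext fun x => (Matrix.mulVec_mulVec x g.1 h.1).symm }
  have hρ : ∀ g x, ρ g x = g.1 *ᵥ x := fun _ _ => rfl
  have hinj : Function.Injective ρ := fun g h e => Subtype.ext (matrix_ext_mulVec fun v => by
    rw [← hρ, ← hρ, e])
  refine hasSt_polar (isWittForm_symp (F := F) m) ρ hinj ?_ ?_ ?_ ?_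
  · exact fun g => ⟨(mem_symplecticGroup_iff_sympForm g.1).1 g.2, fun _ => rfl⟩
  · intro g e hg _ _ _ _ _
    refine ⟨⟨(glOfEquiv g : Matrix _ _ F), (mem_symplecticGroup_iff_sympForm _).2 fun u v => by
      simpa using hg.1 u v⟩, LinearEquiv.ext fun x => ?_⟩
    rw [hρ]
    simp
  · intro g _ H
    exact hinj (by rw [map_one]; exact LinearEquiv.ext fun x => H x rfl)
  · exact fun _ _ _ _ _ => ⟨1, one_ne_zero, rfl⟩

end Cfsg.Agent.S2545
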