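import Cfsg.Statements.S2546
import Cfsg.Agent.Lib.Stein.Orth

set_option autoImplicit false
open Cfsg

namespace Cfsg.Agent.S2546

open Cfsg.Agent.Lib.Forms Cfsg.Agent.Lib.Stein Matrix

/-- Let F be a finite field of characteristic p and consider the projective special unitary group PSU_n(q), n ≥ 2, realised over the field F with q² elements. This group has an irreducible complex character χ whose degree equals the order of a Sylow p-subgroup (namely q^(n(n−1)/2)) and whose restriction to any Sylow p-subgroup P is the regular character of P: χ vanishes on the non-identity elements of P. (This is the Steinberg character.) -/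
theorem result {F : Type*} [Field F] [Fintype F] (p : ℕ) [Fact p.Prime] [CharP F p] (n q : ℕ) (hn : 2 ≤ n) (hF : Fintype.card F = q ^ 2) : ∃ χ : Cfsg.PSU n F q → ℂ, Cfsg.IsIrrCharacter (Cfsg.PSU n F q) χ ∧ ∀ P : Sylow p (Cfsg.PSU n F q), χ 1 = Nat.card P ∧ ∀ x : Cfsg.PSU n F q, x ∈ P → x ≠ 1 → χ x = 0 := by
  classical
  let ρ : Cfsg.SU n F q →* ((Fin n → F) ≃ₗ[F] (Fin n → F)) :=
    Matrix.SpecialLinearGroup.toLin'.comp (Cfsg.SU n F q).subtype
  have hρ : ∀ g x, ρ g x = g.1.1 *ᵥ x := fun _ _ => rfl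
  have hinj : Function.Injective ρ :=
    Matrix.SpecialLinearGroup.toLin'_injective.comp Subtype.val_injective
  have hW := isWittForm_hermForm hF n
  refine hasSt_polar hW ρ hinj ?_ ?_ ?_ ?_
  · exact fun g => ⟨g.2, fun v => g.2 v v⟩
  · rintro g e hg - - - - ⟨k, hk⟩
    have h1 : ∀ x, LinearMap.toMatrix' (g : (Fin n → F) →ₗ[F] (Fin n → F)) *ᵥ x = g x := fun x => by
      simp [LinearMap.toMatrix'_mulVec]
    refine ⟨⟨⟨LinearMap.toMatrix' (g : (Fin n → F) →ₗ[F] (Fin n → F)), by
      rw [LinearMap.det_toMatrix', det_eq_one_of_pow hk]⟩, fun u v => ?_⟩,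
      LinearEquiv.ext fun x => h1 x⟩
    change Cfsg.hermForm n F q (LinearMap.toMatrix' _ *ᵥ u) (LinearMap.toMatrix' _ *ᵥ v) = _
    rw [h1, h1, hg.1]
  · intro g hg H
    apply hinj
    rw [map_one]
    by_contra hne
    obtain ⟨y, hy, hy'⟩ := exists_fixed_res (p := p) (by rw [← map_pow, hg, map_one]) hne
    refine hy (sub_eq_zero.2 (H y ?_))
    have h1 : Cfsg.hermForm n F q (ρ g y) (ρ g (ρ g y - y)) = Cfsg.hermForm n F q y (ρ g y - y) :=
      g.2 _ _
    rw [hy'] at h1
    change Cfsg.hermForm n F q _ _ = 0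
    rw [hW.sub_left, h1, sub_self]
  · intro _ _ _ _ _
    obtain ⟨σ, hσ, hσ2, a, ha⟩ := exists_frobenius_of_card_eq_sq hF
    refine ⟨a - σ a, sub_ne_zero.2 ha.symm, ?_⟩
    change a - σ a + (a - σ a) ^ q = 0
    rw [← hσ, map_sub, hσ2]
    ring

end Cfsg.Agent.S2546
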