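import Cfsg.Statements.S2548
import Cfsg.Agent.Lib.Stein.Orth

set_option autoImplicit false
open Cfsg

namespace Cfsg.Agent.S2548

open Cfsg.Agent.Lib.Forms Cfsg.Agent.Lib.Stein Matrix QuadraticMap

/-- the natural module -/
abbrev VV : Type := Fin 2 ⊕ Fin 2 → ZMod 2

/-- the form -/
def qq (v : VV) : ZMod 2 := v (.inl 0) * v (.inr 0) + v (.inl 1) * v (.inr 1)

/-- the polar form -/
def bb (u v : VV) : ZMod 2 := u (.inl 0) * v (.inr 0) + u (.inr 0) * v (.inl 0) +
  (u (.inl 1) * v (.inr 1) + u (.inr 1) * v (.inl 1))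

theorem qq_eq (v : VV) : qPlus 2 (ZMod 2) v = qq v := by
  simp [qPlus_apply, qq]

theorem bb_eq (u v : VV) : polar (qPlus 2 (ZMod 2)) u v = bb u v := by
  rw [polar_qPlus]; simp [bb]

/-- a non-singular vector -/
def aa : VV := Sum.elim ![1, 0] ![1, 0]

/-- a non-singular vector of the other class -/
def aa' : VV := Sum.elim ![0, 1] ![0, 1]

/-- the relation with two classes on the non-singular vectors -/
def RR (u v : VV) : Prop := u = v ∨ bb u v = 1

instance instDecRR (u v : VV) : Decidable (RR u v) := by unfold RR; infer_instance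

/-- the non-singular vectors -/
abbrev NN : Type := {v : VV // qq v = 1}

theorem RR_two : ∀ u v w : NN, (RR u.1 w.1 ↔ (RR u.1 v.1 ↔ RR v.1 w.1)) := by decide +kernel

/-- the orthogonal group -/
abbrev OO : Type := OG (qPlus 2 (ZMod 2))

theorem qq_map (g : OO) (v : VV) : qq (g.1 v) = qq v := by rw [← qq_eq, ← qq_eq, OG.map_Q]

theorem RR_map (g : OO) (u v : VV) : RR (g.1 u) (g.1 v) ↔ RR u v := by
  unfold RR
  rw [← bb_eq, ← bb_eq, OG.map_polar, g.1.injective.eq_iff]

instance instActNN : MulAction OO NN where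
  smul g v := ⟨g.1 v.1, by rw [qq_map, v.2]⟩
  one_smul _ := rfl
  mul_smul _ _ _ := rfl

/-- the action on the two classes -/
def eps : OO →* ℤˣ := MonoidHom.mk' (fun g => if RR (g.1 aa) aa then 1 else -1) fun g h => by
  have := RR_two (g • h • ⟨aa, by decide⟩) (g • ⟨aa, by decide⟩) ⟨aa, by decide⟩
  change RR (g.1 (h.1 aa)) aa ↔ (RR (g.1 (h.1 aa)) (g.1 aa) ↔ RR (g.1 aa) aa) at this
  rw [RR_map] at this
  change (if RR (g.1 (h.1 aa)) aa then (1 : ℤˣ) else -1) = _
  by_cases h1 : RR (g.1 aa) aa <;> by_cases h2 : RR (h.1 aa) aa <;> simp [this, h1, h2]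

theorem RR_of_mem (g : Om (qPlus 2 (ZMod 2))) : RR (g.1.1 aa) aa := by
  have : eps g = 1 := Abelianization.commutator_subset_ker eps g.2
  by_contra h
  change (if RR (g.1.1 aa) aa then (1 : ℤˣ) else -1) = 1 at this
  rw [if_neg h] at this
  exact absurd this (by decide)

/-- one class -/
abbrev CC : Type := {v : VV // qq v = 1 ∧ RR v aa}

instance instActCC : MulAction (Om (qPlus 2 (ZMod 2))) CC where
  smul g v := ⟨g.1.1 v.1, by rw [qq_map, v.2.1], by
    have := RR_two (g.1 • ⟨v.1, v.2.1⟩) (g.1 • ⟨aa, by decide⟩) ⟨aa, by decide⟩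
    change RR (g.1.1 v.1) aa ↔ (RR (g.1.1 v.1) (g.1.1 aa) ↔ RR (g.1.1 aa) aa) at this
    rw [RR_map] at this
    exact this.2 (iff_of_true v.2.2 (RR_of_mem g))⟩
  one_smul _ := rfl
  mul_smul _ _ _ := rfl

/-- reflection formula -/
def rf (v x : VV) : VV := x - bb x v • v

theorem refl_eq {v : VV} (hv : qq v = 1) (x : VV) : (refl (qPlus 2 (ZMod 2)) v).1 x = rf v x := by
  rw [refl_apply, qq_eq, hv, bb_eq]; simp [rf]

instance instDecEqVV : DecidableEq VV := inferInstance
instance instDecEqCC : DecidableEq CC := inferInstance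
instance instFinCC : Fintype CC := inferInstance
set_option synthInstance.maxSize 1000 in
theorem h3 : ∀ c d x : CC, c ≠ d → x = c ∨ x = d ∨ x.1 = c.1 + d.1 := by decide +kernel
set_option synthInstance.maxSize 1000 in
theorem h3' : ∀ c d x : CC, c ≠ d → x ≠ c → x ≠ d → ∀ y : CC, y = c ∨ y = d ∨ y = x := by
  decide +kernel
theorem d1 : ∀ (c : CC) (x : VV), rf c.1 (rf aa' (rf c.1 (rf aa' x))) = x := by decide +kernel
theorem d2 : ∀ c : CC, rf c.1 (rf aa' c.1) = c.1 := by decide +kernel
theorem d3 : ∀ c x : CC, x ≠ c → rf c.1 (rf aa' x.1) ≠ x.1 := by decide +kernel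
theorem d4 : (Finset.univ.filter fun v : NN => ¬ RR v.1 aa).card = 3 := by decide +kernel
theorem hsp : ∀ x : VV, qq x = 1 ∨ ∃ u v : NN, x = u.1 + v.1 := by decide +kernel
theorem hex : ∀ c : CC, ∃ d : CC, d ≠ c := by decide +kernel
theorem d5 : qq aa' = 1 := by decide +kernel
theorem d6 : qq aa = 1 ∧ RR aa aa := by decide +kernel

theorem exists_u (c : CC) : ∃ u : Om (qPlus 2 (ZMod 2)), ∀ x, u.1.1 x = rf c.1 (rf aa' x) :=
  ⟨⟨refl _ c.1 * refl _ aa', (nondeg_qPlus (F := ZMod 2) 2).refl_mul_refl_mem_Om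
      (by rw [qq_eq, c.2.1]; exact one_ne_zero) (by rw [qq_eq, d5]; exact one_ne_zero)
      (by rw [qq_eq, qq_eq, c.2.1, d5]; exact ⟨1, rfl⟩)⟩, fun x => by
    rw [OG.mul_apply, refl_eq c.2.1, refl_eq d5]⟩

theorem hasSt_exc : HasSt 2 (Om (qPlus 2 (ZMod 2)) ⧸ Subgroup.center _) := by
  have hB : ∀ c d : CC, d ≠ c → ∃ U : Subgroup (Om (qPlus 2 (ZMod 2))), Base 2 c d {x | x ≠ c} U := by
    intro c d hd
    obtain ⟨u, hu⟩ := exists_u c
    have hu2 : u ^ 2 = 1 := by
      refine Subtype.ext (OG.ext' fun x => ?_)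
      rw [pow_two, Subgroup.coe_mul, OG.mul_apply, hu, hu, d1]
      rfl
    have huc : u • c = c := Subtype.ext ((hu _).trans (d2 c))
    have hux : ∀ x : CC, x ≠ c → u • x ≠ x := fun x hx h =>
      d3 c x hx ((hu _).symm.trans (congrArg Subtype.val h))
    refine ⟨Subgroup.zpowers u, ?_, ?_, ?_, hd, ?_, ?_, ?_⟩
    · exact (isPGroup_iff_orderOf_dvd_pow (p := 2)).2 fun x => ⟨1, orderOf_dvd_of_pow_eq_one (by
        obtain ⟨x, k, rfl⟩ := x
        refine Subtype.ext ?_
        change (u ^ k) ^ 2 ^ 1 = 1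
        rw [← _root_.zpow_natCast, ← _root_.zpow_mul, mul_comm, _root_.zpow_mul, _root_.zpow_natCast, pow_one, hu2,
          _root_.one_zpow])⟩
    · intro v hv
      exact (Subgroup.zpowers_le.2 (show u ∈ MulAction.stabilizer _ c from huc)) hv
    · intro g hg x hx h
      exact hx (MulAction.injective g (h.trans hg.symm))
    · intro x hx
      by_cases hxd : x = d
      · exact ⟨1, one_mem _, by rw [one_smul, hxd]⟩
      · refine ⟨u, Subgroup.mem_zpowers u, ?_⟩
        rcases h3' c d x hd.symm hx hxd (u • d) with h | h | h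
        · exact absurd (MulAction.injective u (h.trans huc.symm)) hd
        · exact absurd h (hux d hd)
        · exact h
    · intro g hg hc hd'
      have hfix : ∀ x : CC, g.1.1 x.1 = x.1 := by
        intro x
        have h1 : g.1.1 c.1 = c.1 := congrArg Subtype.val hc
        have h2 : g.1.1 d.1 = d.1 := congrArg Subtype.val hd'
        rcases h3 c d x hd.symm with rfl | rfl | h
        · exact h1
        · exact h2
        · rw [h, map_add, h1, h2]
      let π : OO →* Equiv.Perm NN := MulAction.toPermHom OO NN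
      have hs : Equiv.Perm.sign (π g) = 1 := by
        have := MonoidHom.mem_ker.1
          (Abelianization.commutator_subset_ker (Equiv.Perm.sign.comp π) g.2)
        rwa [MonoidHom.comp_apply] at this
      have hπ2 : π g ^ 2 = 1 := by
        rw [← map_pow, ← Subgroup.coe_pow, hg]; simp
      have hsupp : (π g).support ⊆ Finset.univ.filter fun v : NN => ¬ RR v.1 aa := by
        intro v hv
        simp only [Finset.mem_filter, Finset.mem_univ, true_and]
        intro h
        exact Equiv.Perm.mem_support.1 hv (Subtype.ext (hfix ⟨v.1, v.2, h⟩))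
      have hcard := Finset.card_le_card hsupp
      rw [d4] at hcard
      have hπ1 : π g = 1 := by
        by_contra hne
        have h4 := Equiv.Perm.two_le_card_support_of_ne_one hne
        have h5 := Equiv.Perm.two_dvd_card_support hπ2
        have h6 : (π g).IsSwap := Equiv.Perm.card_support_eq_two.1 (by omega)
        rw [h6.sign_eq] at hs
        exact absurd hs (by decide)
      have hN : ∀ v : NN, g.1.1 v.1 = v.1 := fun v =>
        congrArg Subtype.val (Equiv.congr_fun hπ1 v)
      refine Subtype.ext (OG.ext' fun x => ?_)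
      change g.1.1 x = x
      rcases hsp x with h | ⟨u, v, rfl⟩
      · exact hN ⟨x, h⟩
      · rw [map_add, hN, hN]
    · intro g hg
      by_contra h
      exact hux _ h (hg u (Subgroup.mem_zpowers u))
  haveI : Finite OO := Finite.of_injective (fun (g : OO) (v : VV) => g.1 v) fun g h e =>
    OG.ext' (congrFun e)
  let St : Submodule ℂ (CC → ℂ) := LinearMap.ker (∑ c : CC, LinearMap.proj c)
  have hSt : ∀ f, f ∈ St ↔ ∑ c, f c = 0 := fun f => by simp [St]
  let c0 : CC := ⟨aa, d6⟩
  obtain ⟨d, hd⟩ := hex c0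
  obtain ⟨U, hU⟩ := hB c0 d hd
  refine hasSt_of_base St ?_ ?_ hU ?_ (Pi.single d 1 - Pi.single c0 1) ?_ ?_ ?_
  · intro g f hf
    rw [hSt] at hf ⊢
    rw [← hf]
    exact Fintype.sum_equiv (MulAction.toPerm g⁻¹) _ _ fun _ => rfl
  · intro c
    obtain ⟨d, hd⟩ := hex c
    obtain ⟨U, hU⟩ := hB c d hd
    exact ⟨d, _, U, hU⟩
  · intro f hf h
    rw [hSt, Finset.sum_eq_single c0 (fun c _ hc => h c hc) (by simp)] at hf
    ext c
    by_cases hc : c = c0
    · rw [hc, hf]; rfl
    · exact h c hc
  · rw [hSt]; simp [Finset.sum_sub_distrib]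
  · simp [hd]
  · intro c hc hcd
    have hc : c ≠ c0 := hc
    simp [hc, hcd]

/-- transport along a field isomorphism -/
noncomputable def isoOG {F K : Type*} [Field F] [Field K] (ψ : F ≃+* K) (m : ℕ) :
    Cfsg.isometryGroup F (Cfsg.quadFormPlus m F) ≃* Cfsg.isometryGroup K (Cfsg.quadFormPlus m K) :=
  ((Units.mapEquiv (ψ.mapMatrix (m := Fin m ⊕ Fin m)).toMulEquiv).subgroupMap _).trans
    (MulEquiv.subgroupCongr (by
      have key : ∀ g : GL (Fin m ⊕ Fin m) F,
          Units.mapEquiv (ψ.mapMatrix (m := Fin m ⊕ Fin m)).toMulEquiv g ∈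
            Cfsg.isometryGroup K (Cfsg.quadFormPlus m K) ↔
          g ∈ Cfsg.isometryGroup F (Cfsg.quadFormPlus m F) := by
        intro g
        have h1 : ∀ v : Fin m ⊕ Fin m → F,
            Cfsg.quadFormPlus m K (ψ ∘ v) = ψ (Cfsg.quadFormPlus m F v) := fun v => by
          simp [Cfsg.quadFormPlus]
        have h2 : ∀ v : Fin m ⊕ Fin m → F, (g.1.map ψ) *ᵥ (ψ ∘ v) = ψ ∘ (g.1 *ᵥ v) := fun v => by
          ext i
          exact (RingHom.map_mulVec (ψ : F →+* K) g.1 v i).symm
        rw [mem_isometryGroup_iff, mem_isometryGroup_iff]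
        change (∀ v, Cfsg.quadFormPlus m K ((g.1.map ψ) *ᵥ v) = _) ↔ _
        constructor
        · intro h v
          apply ψ.injective
          rw [← h1, ← h1, ← h2, h]
        · intro h v
          have : v = ψ ∘ (ψ.symm ∘ v) := by ext; simp
          rw [this, h2, h1, h1, h]
      ext y
      obtain ⟨x, rfl⟩ := (Units.mapEquiv (ψ.mapMatrix (m := Fin m ⊕ Fin m)).toMulEquiv).surjective y
      rw [key]
      exact Subgroup.mem_map_iff_mem (MulEquiv.injective _)))

/-- the induced isomorphism of commutator subgroups -/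
noncomputable def commCongr {G H : Type*} [Group G] [Group H] (e : G ≃* H) :
    commutator G ≃* commutator H :=
  (e.subgroupMap _).trans (MulEquiv.subgroupCongr (by
    ext y
    obtain ⟨x, rfl⟩ := e.surjective y
    rw [mem_commutator_equiv]
    exact Subgroup.mem_map_iff_mem e.injective))

/-- Let F be a finite field of characteristic p and consider the group PΩ⁺_{2m}(F) of the hyperbolic quadratic form Σ x_i y_i with m ≥ 1, where Ω denotes the commutator subgroup of the full isometry group. This group has an irreducible complex character χ whose degree equals the order of a Sylow p-subgroup (equal to q^(m(m−1)) when #F = q, except in the degenerate case m = 2, q = 2, where this commutator subgroup has order 18 and its Sylow 2-subgroups have order 2) and whose restriction to any Sylow p-subgroup P is the regular character of P: χ vanishes on the non-identity elements of P. (This is the Steinberg character.) -/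
theorem result {F : Type*} [Field F] [Fintype F] (p : ℕ) [Fact p.Prime] [CharP F p] (m : ℕ) (hm : 1 ≤ m) : ∃ χ : Cfsg.POmega F (Cfsg.quadFormPlus m F) → ℂ, Cfsg.IsIrrCharacter (Cfsg.POmega F (Cfsg.quadFormPlus m F)) χ ∧ ∀ P : Sylow p (Cfsg.POmega F (Cfsg.quadFormPlus m F)), χ 1 = Nat.card P ∧ ∀ x : Cfsg.POmega F (Cfsg.quadFormPlus m F), x ∈ P → x ≠ 1 → χ x = 0 := by
  classical
  by_cases h : Fintype.card F ≠ 2 ∨ m ≠ 2
  · exact hasSt_orth (Q := qPlus m F) (nondeg_qPlus m) (nonExc_qPlus h)
  push Not at h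
  obtain ⟨hF, rfl⟩ := h
  have hp : p = 2 := by
    obtain ⟨n, -, hn⟩ := FiniteField.card F p
    rw [hF] at hn
    exact (Nat.prime_dvd_prime_iff_eq Fact.out Nat.prime_two).1 (hn ▸ dvd_pow_self p n.ne_zero)
  subst hp
  let ψ : F ≃+* ZMod 2 := FiniteField.ringEquivOfCardEq (by rw [hF]; rfl)
  exact hasSt_exc.congr (quotCenter (commCongr ((isoOG ψ 2).trans (toOG (qPlus 2 (ZMod 2))))))

end Cfsg.Agent.S2548
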