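import Cfsg.Statements.S2550
import Cfsg.Agent.Lib.Misc.PSL34
import Cfsg.Agent.Lib.PG.Iso

set_option autoImplicit false
open Cfsg

namespace Cfsg.Agent.S2550

open Cfsg.Agent.Lib.Misc Matrix

theorem no_six {K : Type*} [Field K] [Fintype K] (hK : Fintype.card K = 4)
    (x : Matrix.ProjectiveSpecialLinearGroup (Fin 3) K) (h6 : x ^ 6 = 1) : x ^ 2 = 1 ∨ x ^ 3 = 1 := by
  by_contra hne
  push Not at hne
  obtain ⟨h2, h3⟩ := hne
  obtain ⟨ω, hω⟩ := f4_omega hK
  have htwo := f4_two hK
  obtain ⟨y, rfl⟩ := QuotientGroup.mk_surjective x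
  have hy : y ^ 2 ∉ Subgroup.center _ := by
    intro h
    exact h2 (by rw [← QuotientGroup.mk_pow, (QuotientGroup.eq_one_iff _).2 h])
  have hy3 : (y ^ 2) ^ 3 ∈ Subgroup.center (Matrix.SpecialLinearGroup (Fin 3) K) := by
    rw [← QuotientGroup.eq_one_iff, ← pow_mul, QuotientGroup.mk_pow]
    exact h6
  obtain ⟨P, hP⟩ := exists_conj_dg hK hω _ hy hy3
  set u := P⁻¹ * y * P with hu
  have hud : u * dg hω = dg hω * u := by
    have : dg hω = u ^ 2 := by
      rw [hu, pow_two]
      calc dg hω = P⁻¹ * (P * dg hω) := by group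
        _ = _ := by rw [← hP, pow_two]; group
    rw [this]; group
  have hω0 : ω ≠ 0 := by rintro rfl; simp at hω
  have h01 : (1 : K) - ω ≠ 0 := by
    intro h
    apply one_ne_zero (α := K)
    linear_combination hω + (ω + 2) * h - htwo
  have h02 : (1 : K) - ω ^ 2 ≠ 0 := by
    intro h
    apply hω0
    linear_combination hω + h - htwo
  have h12 : ω - ω ^ 2 ≠ 0 := by
    intro h
    apply one_ne_zero (α := K)
    linear_combination hω + h - ω * htwo
  have hm : u.1 * (dg hω).1 = (dg hω).1 * u.1 := congrArg Subtype.val hud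
  have e := fun i j => congrFun (congrFun hm i) j
  simp only [dg, mul_diagonal, diagonal_mul] at e
  have e01 : u.1 0 1 = 0 := by
    have := e 0 1; simp at this
    exact (mul_eq_zero.1 (show u.1 0 1 * (1 - ω) = 0 by linear_combination -this)).resolve_right h01
  have e10 : u.1 1 0 = 0 := by
    have := e 1 0; simp at this
    exact (mul_eq_zero.1 (show u.1 1 0 * (1 - ω) = 0 by linear_combination this)).resolve_right h01
  have e02 : u.1 0 2 = 0 := by
    have := e 0 2; simp at this
    exact (mul_eq_zero.1 (show u.1 0 2 * (1 - ω ^ 2) = 0 by linear_combination -this)).resolve_right h02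
  have e20 : u.1 2 0 = 0 := by
    have := e 2 0; simp at this
    exact (mul_eq_zero.1 (show u.1 2 0 * (1 - ω ^ 2) = 0 by linear_combination this)).resolve_right h02
  have e12 : u.1 1 2 = 0 := by
    have := e 1 2; simp at this
    exact (mul_eq_zero.1 (show u.1 1 2 * (ω - ω ^ 2) = 0 by linear_combination -this)).resolve_right h12
  have e21 : u.1 2 1 = 0 := by
    have := e 2 1; simp at this
    exact (mul_eq_zero.1 (show u.1 2 1 * (ω - ω ^ 2) = 0 by linear_combination this)).resolve_right h12
  have hdet : u.1.det = 1 := u.2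
  rw [det_fin_three, e01, e10, e02, e20, e12, e21] at hdet
  have n0 : u.1 0 0 ≠ 0 := by intro h; rw [h] at hdet; simp at hdet
  have n1 : u.1 1 1 ≠ 0 := by intro h; rw [h] at hdet; simp at hdet
  have n2 : u.1 2 2 ≠ 0 := by intro h; rw [h] at hdet; simp at hdet
  have hdiag : u.1 = diagonal ![u.1 0 0, u.1 1 1, u.1 2 2] := by
    ext i j
    fin_cases i <;> fin_cases j <;> simp [e01, e10, e02, e20, e12, e21]
  have hu3 : u ^ 3 = 1 := by
    refine Subtype.ext ?_
    rw [Matrix.SpecialLinearGroup.coe_pow, hdiag, diagonal_pow]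
    ext i j
    fin_cases i <;> fin_cases j <;>
      simp [f4_cube hK n0, f4_cube hK n1, f4_cube hK n2]
  apply h3
  have : y ^ 3 = 1 := by
    have : y = P * u * P⁻¹ := by rw [hu]; group
    rw [this, conj_pow, hu3]; group
  rw [← QuotientGroup.mk_pow, this]; rfl

theorem f2_eq {F : Type*} [Field F] [Fintype F] (hF : Fintype.card F = 2) {x : F} (hx : x ≠ 0) :
    x = 1 := by
  have := FiniteField.pow_card_sub_one_eq_one x hx
  rwa [hF, pow_one] at this

theorem center4 {F : Type*} [Field F] [Fintype F] (hF : Fintype.card F = 2) :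
    Subgroup.center (Matrix.SpecialLinearGroup (Fin 4) F) = ⊥ := by
  refine eq_bot_iff.2 fun g hg => ?_
  obtain ⟨r, hr, hg⟩ := Matrix.SpecialLinearGroup.mem_center_iff.1 hg
  have : r = 1 := f2_eq hF (by rintro rfl; simp at hr)
  rw [Subgroup.mem_bot]
  refine Subtype.ext ?_
  rw [← hg, this]; simp

/-- Let F be a field with 2 elements and K a field with 4 elements. PSL_4(F) and PSL_3(K) have the same order (20160) but are not isomorphic. -/
theorem result {F K : Type*} [Field F] [Fintype F] [Field K] [Fintype K] (hF : Fintype.card F = 2) (hK : Fintype.card K = 4) : Nat.card (Matrix.ProjectiveSpecialLinearGroup (Fin 4) F) = Nat.card (Matrix.ProjectiveSpecialLinearGroup (Fin 3) K) ∧ ¬ Nonempty (Matrix.ProjectiveSpecialLinearGroup (Fin 4) F ≃* Matrix.ProjectiveSpecialLinearGroup (Fin 3) K) := by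
  classical
  constructor
  · have h1 := PG.card_SL_mul 4 F
    have h2 := PG.card_SL_mul 3 K
    rw [Matrix.card_GL_field, Nat.card_eq_fintype_card (α := F), hF] at h1
    rw [Matrix.card_GL_field, Nat.card_eq_fintype_card (α := K), hK] at h2
    simp only [Fin.prod_univ_four, Fin.prod_univ_three] at h1 h2
    norm_num at h1 h2
    have h3 := Subgroup.card_eq_card_quotient_mul_card_subgroup
      (Subgroup.center (Matrix.SpecialLinearGroup (Fin 4) F))
    have h4 := Subgroup.card_eq_card_quotient_mul_card_subgroup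
      (Subgroup.center (Matrix.SpecialLinearGroup (Fin 3) K))
    rw [card_center_sl34 hK] at h4
    rw [show Nat.card (Subgroup.center (Matrix.SpecialLinearGroup (Fin 4) F)) = 1 by
      rw [center4 hF]; simp] at h3
    change Nat.card (Matrix.SpecialLinearGroup (Fin 4) F ⧸ _) =
      Nat.card (Matrix.SpecialLinearGroup (Fin 3) K ⧸ _)
    rw [← Nat.card_eq_fintype_card] at h1 h2
    omega
  · rintro ⟨e⟩
    have h2 : (1 : F) + 1 = 0 := by
      have h := FiniteField.cast_card_eq_zero F
      rw [hF] at h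
      rw [← h]; norm_num
    let g : Matrix.SpecialLinearGroup (Fin 4) F :=
      ⟨!![0, 1, 0, 0; 1, 1, 0, 0; 0, 0, 1, 1; 0, 0, 0, 1], by
        simp [det_succ_row_zero, Fin.sum_univ_succ, Fin.succAbove]
        linear_combination -h2⟩
    have g2 : (g ^ 2).1 = !![1, 1, 0, 0; 1, 0, 0, 0; 0, 0, 1, 0; 0, 0, 0, 1] := by
      rw [Matrix.SpecialLinearGroup.coe_pow, pow_two]
      simp [g, h2]
    have g3 : (g ^ 3).1 = !![1, 0, 0, 0; 0, 1, 0, 0; 0, 0, 1, 1; 0, 0, 0, 1] := by
      rw [pow_succ, Matrix.SpecialLinearGroup.coe_mul, g2]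
      simp [g, h2]
    have g6 : g ^ 6 = 1 := by
      refine Subtype.ext ?_
      rw [show 6 = 3 + 3 from rfl, pow_add, Matrix.SpecialLinearGroup.coe_mul, g3]
      simp [h2]
      ext i j
      fin_cases i <;> fin_cases j <;> rfl
    have := no_six hK (e (QuotientGroup.mk g)) (by
      rw [← map_pow, ← QuotientGroup.mk_pow, g6]; simp)
    rcases this with h | h
    · rw [← map_pow, MulEquiv.map_eq_one_iff, ← QuotientGroup.mk_pow, QuotientGroup.eq_one_iff,
        center4 hF, Subgroup.mem_bot] at h
      rw [h] at g2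
      simpa using congrFun (congrFun g2 0) 1
    · rw [← map_pow, MulEquiv.map_eq_one_iff, ← QuotientGroup.mk_pow, QuotientGroup.eq_one_iff,
        center4 hF, Subgroup.mem_bot] at h
      rw [h] at g3
      simpa using congrFun (congrFun g3 2) 3

end Cfsg.Agent.S2550
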