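import Cfsg.Statements.S2551
import Cfsg.Agent.Lib.Invol.AltHom

set_option autoImplicit false
open Cfsg

namespace Cfsg.Agent.S2551

open Matrix

def M (n : ℕ) : Matrix (Fin 4) (Fin 4) (ZMod 2) :=
  Matrix.of fun i j => if n.testBit (4 * i.val + j.val) then 1 else 0

def a (i : ℕ) : ℕ := [33825, 4713, 9100, 4680, 34345, 5064, 8580].getD i 33825
def b (i : ℕ) : ℕ := [33825, 38472, 9100, 4680, 34345, 5064, 8580].getD i 33825

theorem ab : ∀ i < 7, M (a i) * M (b i) = 1 ∧ M (b i) * M (a i) = 1 := by decide +kernel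

def u (i : ℕ) : GL (Fin 4) (ZMod 2) :=
  if h : i < 7 then ⟨M (a i), M (b i), (ab i h).1, (ab i h).2⟩ else 1

theorem hc : ∀ j < 6, ∀ i < j, i + 1 < j → M (b i) * M (a j) = M (b j) * M (a i) ∧
    M (a i) * M (b j) = M (a j) * M (b i) := by decide +kernel

theorem hb : ∀ i < 5, M (a i) * M (b (i + 1)) * M (a i) =
    M (a (i + 1)) * M (b i) * M (a (i + 1)) := by decide +kernel

theorem u_val {i : ℕ} (h : i < 7) : (u i : Matrix (Fin 4) (Fin 4) (ZMod 2)) = M (a i) := by
  rw [u, dif_pos h]

theorem u_inv {i : ℕ} (h : i < 7) : ((u i)⁻¹ : GL (Fin 4) (ZMod 2)).1 = M (b i) := by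
  rw [u, dif_pos h]; rfl

theorem exists_A7 : ∃ φ : alternatingGroup (Fin 7) →* GL (Fin 4) (ZMod 2), Function.Injective φ := by
  obtain ⟨φ, hφ, -⟩ := Cfsg.Agent.Lib.AltHom.exists_inj_alt u 6 (by norm_num)
    (fun i j h1 h2 => by
      have := hc j h2 i (by omega) h1
      constructor <;> apply Units.ext <;> simp only [Units.val_mul] <;>
        rw [u_val (by omega), u_val (by omega), u_inv (by omega), u_inv (by omega)]
      · exact this.1
      · exact this.2)
    (fun i h => by
      apply Units.ext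
      simp only [Units.val_mul]
      rw [u_val (by omega), u_val (by omega), u_inv (by omega), u_inv (by omega)]
      exact hb i (by omega))
    (fun h => by
      have := congrArg Units.val h
      rw [u_val (by omega), u_val (by omega)] at this
      exact absurd this (by decide +kernel))
  exact ⟨φ, hφ⟩

theorem exists_map {F V : Type*} [Field F] [AddCommGroup V] [Module F V] {v w v' w' : V}
    (hD : LinearIndependent F ![v, w]) (hE : LinearIndependent F ![v', w']) :
    ∃ g : V ≃ₗ[F] V, g v = v' ∧ g w = w' := by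
  have qD {D D' : V} (hD : LinearIndependent F ![D, D']) :
    hD.linearCombinationEquiv (Finsupp.single 0 1) = D := by simp
  have qD' {D D' : V} (hD : LinearIndependent F ![D, D']) :
    hD.linearCombinationEquiv (Finsupp.single 1 1) = D' := by simp
  let f := hD.linearCombinationEquiv.symm ≪≫ₗ hE.linearCombinationEquiv
  have : FiniteDimensional F (Submodule.span F (Set.range ![v, w])) :=
    FiniteDimensional.span_of_finite F (Set.finite_range _)
  obtain ⟨g, hg⟩ := Submodule.exists_linearEquiv_restrict_eq f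
  refine ⟨g, ?_, ?_⟩
  · have := hg (hD.linearCombinationEquiv (Finsupp.single 0 1))
    rw [qD hD] at this
    rw [← this]
    simp [f]
  · have := hg (hD.linearCombinationEquiv (Finsupp.single 1 1))
    rw [qD' hD] at this
    rw [← this]
    simp [f]

/-- Let F be the field with 2 elements. GL_4(F) (≅ A_8) has a subgroup isomorphic to the alternating group A_7, and every such subgroup acts 2-transitively on the 15 non-zero vectors of F⁴: any ordered pair of distinct non-zero vectors is carried to any other by some element of the subgroup. -/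
theorem result {F : Type*} [Field F] [Fintype F] (hF : Fintype.card F = 2) : (∃ H : Subgroup (Matrix.GeneralLinearGroup (Fin 4) F), Nonempty (H ≃* alternatingGroup (Fin 7))) ∧ ∀ H : Subgroup (Matrix.GeneralLinearGroup (Fin 4) F), Nonempty (H ≃* alternatingGroup (Fin 7)) → ∀ v w v' w' : Fin 4 → F, v ≠ 0 → w ≠ 0 → v ≠ w → v' ≠ 0 → w' ≠ 0 → v' ≠ w' → ∃ g ∈ H, (g : Matrix (Fin 4) (Fin 4) F).mulVec v = v' ∧ (g : Matrix (Fin 4) (Fin 4) F).mulVec w = w' := by
  classical
  constructor
  · obtain ⟨φ, hφ⟩ := exists_A7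
    haveI : Fact (Nat.Prime 2) := ⟨Nat.prime_two⟩
    let e : ZMod 2 ≃+* F := FiniteField.ringEquivOfCardEq (by rw [hF, ZMod.card])
    let ψ := (Matrix.GeneralLinearGroup.map (n := Fin 4) e.toRingHom).comp φ
    have hψ : Function.Injective ψ := by
      intro g h hgh
      apply hφ
      ext i j
      apply e.injective
      exact congrArg (fun x : GL (Fin 4) F => x.1 i j) hgh
    exact ⟨ψ.range, ⟨(MonoidHom.ofInjective hψ).symm⟩⟩
  rintro H ⟨e⟩
  have h01 : ∀ x : F, x = 0 ∨ x = 1 := fun x => by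
    by_contra h
    push Not at h
    have := Finset.card_le_univ ({0, 1, x} : Finset F)
    rw [Finset.card_eq_three.2 ⟨0, 1, x, zero_ne_one, h.1.symm, h.2.symm, rfl⟩] at this
    omega
  have hH : Nat.card H = 2520 := by
    rw [Nat.card_congr e.toEquiv, nat_card_alternatingGroup]
    simp [Nat.factorial]
  have hG : Nat.card (GL (Fin 4) F) = 20160 := by
    rw [Matrix.card_GL_field, hF]; decide
  let X : Finset ((Fin 4 → F) × (Fin 4 → F)) := (Finset.univ.erase 0).offDiag
  have hX : ∀ p, p ∈ X ↔ p.1 ≠ 0 ∧ p.2 ≠ 0 ∧ p.1 ≠ p.2 := fun p => by simp [X]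
  have hXc : X.card = 210 := by
    rw [Finset.offDiag_card, Finset.card_erase_of_mem (Finset.mem_univ _), Finset.card_univ,
      Fintype.card_fun, hF, Fintype.card_fin]
    norm_num
  have hli : ∀ p ∈ X, LinearIndependent F ![p.1, p.2] := fun p hp => by
    rw [hX] at hp
    rw [LinearIndependent.pair_iff' hp.1]
    intro c hc
    rcases h01 c with rfl | rfl
    · exact hp.2.1 (by rw [← hc, zero_smul])
    · exact hp.2.2 (by rw [← hc, one_smul])
  have hinv : ∀ g : GL (Fin 4) F, ∀ p ∈ X, g • p ∈ X := fun g p hp => by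
    rw [hX] at hp ⊢
    exact ⟨(smul_ne_zero_iff_ne g).2 hp.1, (smul_ne_zero_iff_ne g).2 hp.2.1,
      (MulAction.injective g).ne hp.2.2⟩
  haveI : Fact (Nat.Prime 2) := ⟨Nat.prime_two⟩
  obtain ⟨t, ht⟩ := exists_prime_orderOf_dvd_card' (G := H) 2 (by rw [hH]; norm_num)
  obtain ⟨x, hx⟩ : ∃ x : Fin 4 → F, t • x ≠ x := by
    by_contra h
    push Not at h
    have : t = 1 := Subtype.ext (Units.ext (Matrix.ext_iff_smul.2 fun v => by
      rw [OneMemClass.coe_one, Units.val_one, one_smul]; exact h v))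
    rw [this, orderOf_one] at ht
    omega
  have ht2 : t • t • x = x := by rw [← mul_smul, ← pow_two, ← ht, pow_orderOf_eq_one, one_smul]
  have hx0 : x ≠ 0 := by rintro rfl; exact hx (smul_zero _)
  have hp0 : (x, t • x) ∈ X := (hX _).2 ⟨hx0, (smul_ne_zero_iff_ne t).2 hx0, hx.symm⟩
  have hGo : MulAction.orbit (GL (Fin 4) F) (x, t • x) = X := by
    ext p
    constructor
    · rintro ⟨g, rfl⟩; exact hinv g _ hp0
    · intro hp
      obtain ⟨g, h1, h2⟩ := exists_map (hli _ hp0) (hli p hp)
      refine ⟨(Matrix.GeneralLinearGroup.toLin).symm (LinearMap.GeneralLinearGroup.ofLinearEquiv g),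
        Prod.ext ?_ ?_⟩
      · rw [← h1]; exact LinearMap.toMatrix'_mulVec g.toLinearMap _
      · rw [← h2]; exact LinearMap.toMatrix'_mulVec g.toLinearMap _
  have hGs : Nat.card (MulAction.stabilizer (GL (Fin 4) F) (x, t • x)) = 96 := by
    have := (MulAction.stabilizer (GL (Fin 4) F) (x, t • x)).index_mul_card
    rw [MulAction.index_stabilizer, hGo, Set.ncard_coe_finset, hXc, hG] at this
    omega
  have hs : Nat.card (MulAction.stabilizer H (x, t • x)) ∣ 96 := by
    rw [← hGs]
    exact Subgroup.card_comap_dvd_of_injective (MulAction.stabilizer (GL (Fin 4) F) (x, t • x))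
      H.subtype H.subtype_injective
  have ho := (MulAction.stabilizer H (x, t • x)).index_mul_card
  rw [MulAction.index_stabilizer, hH] at ho
  have hsub : MulAction.orbit H (x, t • x) ⊆ X := by
    rintro _ ⟨g, rfl⟩; exact hinv g _ hp0
  have hle := Set.ncard_le_ncard hsub X.finite_toSet
  rw [Set.ncard_coe_finset, hXc] at hle
  have hev : 2 ∣ (MulAction.orbit H (x, t • x)).ncard := by
    rw [Set.ncard_eq_toFinset_card', ← ZMod.natCast_eq_zero_iff, Finset.card_eq_sum_ones,
      Nat.cast_sum]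
    refine Finset.sum_involution (fun p _ => p.swap) (fun _ _ => rfl) (fun p hp _ h => ?_)
      (fun p hp => ?_) fun _ _ => rfl
    · exact ((hX p).1 (hsub (Set.mem_toFinset.1 hp))).2.2 (congrArg Prod.snd h)
    · obtain ⟨g, rfl⟩ := Set.mem_toFinset.1 hp
      refine Set.mem_toFinset.2 ⟨g * t, ?_⟩
      simp only [mul_smul, Prod.smul_mk, ht2, Prod.swap_prod_mk]
  have h210 : (MulAction.orbit H (x, t • x)).ncard = 210 := by
    generalize Nat.card (MulAction.stabilizer H (x, t • x)) = s at hs ho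
    generalize (MulAction.orbit H (x, t • x)).ncard = o at ho hle hev
    have h1 : s ∣ Nat.gcd 96 2520 := Nat.dvd_gcd hs (Dvd.intro_left _ ho)
    have h2 : s ≤ 24 := Nat.le_of_dvd (by norm_num) h1
    interval_cases s <;> omega
  have hall := Set.eq_of_subset_of_ncard_le hsub (by rw [Set.ncard_coe_finset, hXc, h210]) X.finite_toSet
  intro v w v' w' h1 h2 h3 h4 h5 h6
  obtain ⟨g, hg⟩ : (v, w) ∈ MulAction.orbit H (x, t • x) := by rw [hall]; exact (hX _).2 ⟨h1, h2, h3⟩
  obtain ⟨g', hg'⟩ : (v', w') ∈ MulAction.orbit H (x, t • x) := by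
    rw [hall]; exact (hX _).2 ⟨h4, h5, h6⟩
  have : (g' * g⁻¹) • (v, w) = (v', w') := by
    rw [← hg, ← hg', mul_smul, inv_smul_smul]
  exact ⟨(g' * g⁻¹ : H), (g' * g⁻¹).2, congrArg Prod.fst this, congrArg Prod.snd this⟩

end Cfsg.Agent.S2551
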