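import Cfsg.Statements.S2552


set_option autoImplicit false
open Cfsg

namespace Cfsg.Agent.S2552

/-- Let F be a finite field and n ≥ 1. For every k, the special linear group SL_n(F) acts transitively on the set of k-dimensional subspaces of F^n: any two subspaces of the same dimension are carried onto each other by some matrix of determinant 1. -/
theorem result {F : Type*} [Field F] [Fintype F] (n : ℕ) (hn : 1 ≤ n) (U₁ U₂ : Submodule F (Fin n → F)) (h : Module.finrank F U₁ = Module.finrank F U₂) : ∃ g : Matrix.SpecialLinearGroup (Fin n) F, U₁.map ((Matrix.SpecialLinearGroup.toLin' g : (Fin n → F) ≃ₗ[F] (Fin n → F)) : (Fin n → F) →ₗ[F] (Fin n → F)) = U₂ := by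
  obtain ⟨e⟩ : Nonempty (U₁ ≃ₗ[F] U₂) := ⟨LinearEquiv.ofFinrankEq _ _ h⟩
  obtain ⟨g, hg⟩ := Submodule.exists_linearEquiv_restrict_eq e
  obtain ⟨v, hv0, hv⟩ : ∃ v : Fin n → F, v ≠ 0 ∧ (U₁ = ⊥ ∨ v ∈ U₁) := by
    by_cases hU : U₁ = ⊥
    · refine ⟨fun _ => 1, fun h => ?_, Or.inl hU⟩
      simpa using congrFun h ⟨0, hn⟩
    · obtain ⟨v, hv, hv0⟩ := Submodule.exists_mem_ne_zero_of_ne_bot hU
      exact ⟨v, hv0, Or.inr hv⟩
  obtain ⟨f, hf⟩ := Module.Projective.exists_dual_eq_one F hv0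
  set a : F := (LinearMap.det (g : (Fin n → F) →ₗ[F] (Fin n → F)))⁻¹ with ha
  have hdet : LinearMap.det (g : (Fin n → F) →ₗ[F] (Fin n → F)) ≠ 0 := (LinearEquiv.isUnit_det' g).ne_zero
  let T : (Fin n → F) →ₗ[F] (Fin n → F) :=
    (g : (Fin n → F) →ₗ[F] (Fin n → F)) ∘ₗ LinearMap.transvection f ((a - 1) • v)
  have hT : LinearMap.det T = 1 := by
    simp [T, LinearMap.det_comp, LinearMap.transvection.det, hf, ha, hdet]
  refine ⟨⟨LinearMap.toMatrix' T, by rw [LinearMap.det_toMatrix', hT]⟩, ?_⟩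
  apply Submodule.eq_of_le_of_finrank_eq
  · rintro _ ⟨x, hx, rfl⟩
    have h1 : LinearMap.transvection f ((a - 1) • v) x ∈ U₁ := by
      rw [LinearMap.transvection.apply]
      rcases hv with hv | hv
      · subst hv
        have : x = 0 := hx
        simp [this]
      · exact U₁.add_mem hx (U₁.smul_mem _ (U₁.smul_mem _ hv))
    have h2 : T x ∈ U₂ := by
      have := hg ⟨_, h1⟩
      simp only at this
      change g _ ∈ U₂
      rw [← this]
      exact (e _).2
    change Matrix.toLin' (LinearMap.toMatrix' T) x ∈ U₂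
    rwa [Matrix.toLin'_toMatrix']
  · rw [LinearEquiv.finrank_map_eq, h]

end Cfsg.Agent.S2552
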