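import Cfsg.Statements.S2561
import Cfsg.Agent.Lib.Forms.QuadF2

set_option autoImplicit false
open Cfsg

namespace Cfsg.Agent.S2561

open Cfsg.Agent.Lib.Forms Module QuadraticMap


/-- Fix the non-singular alternating form on the 2m-dimensional space over the field of two elements obtained by polarizing the plus-type form Σ xᵢyᵢ (m ≥ 1). The functions q on the space with q(u + v) = q(u) + q(v) + f(u, v) (the quadratic forms polarizing to f) number 2^(2m); each is equivalent under an invertible linear map either to the plus-type form or to the minus-type form Σ xᵢyᵢ + (z₁² + z₁z₂ + z₂²); and those of plus type number 2^(2m−1) + 2^(m−1), those of minus type 2^(2m−1) − 2^(m−1). -/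
theorem result (m : ℕ) (hm : 1 ≤ m) :
    Nat.card {q : (Fin m ⊕ Fin m → ZMod 2) → ZMod 2 // (∀ u v : (Fin m ⊕ Fin m → ZMod 2), q (u + v) = q u + q v + (Cfsg.quadFormPlus m (ZMod 2) (u + v) - Cfsg.quadFormPlus m (ZMod 2) u - Cfsg.quadFormPlus m (ZMod 2) v))} = 2 ^ (2 * m) ∧
    (∀ q : (Fin m ⊕ Fin m → ZMod 2) → ZMod 2, (∀ u v : (Fin m ⊕ Fin m → ZMod 2), q (u + v) = q u + q v + (Cfsg.quadFormPlus m (ZMod 2) (u + v) - Cfsg.quadFormPlus m (ZMod 2) u - Cfsg.quadFormPlus m (ZMod 2) v)) →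
      (∃ g : (Fin m ⊕ Fin m → ZMod 2) ≃ₗ[ZMod 2] (Fin m ⊕ Fin m → ZMod 2), ∀ v, q v = Cfsg.quadFormPlus m (ZMod 2) (g v)) ∨
      (∃ g : (Fin m ⊕ Fin m → ZMod 2) ≃ₗ[ZMod 2] ((Fin (m - 1) ⊕ Fin (m - 1)) ⊕ Fin 2 → ZMod 2), ∀ v, q v = Cfsg.quadFormMinus (m - 1) (ZMod 2) 1 1 (g v))) ∧
    Nat.card {q : (Fin m ⊕ Fin m → ZMod 2) → ZMod 2 // (∀ u v : (Fin m ⊕ Fin m → ZMod 2), q (u + v) = q u + q v + (Cfsg.quadFormPlus m (ZMod 2) (u + v) - Cfsg.quadFormPlus m (ZMod 2) u - Cfsg.quadFormPlus m (ZMod 2) v)) ∧ ∃ g : (Fin m ⊕ Fin m → ZMod 2) ≃ₗ[ZMod 2] (Fin m ⊕ Fin m → ZMod 2), ∀ v, q v = Cfsg.quadFormPlus m (ZMod 2) (g v)} = 2 ^ (2 * m - 1) + 2 ^ (m - 1) ∧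
    Nat.card {q : (Fin m ⊕ Fin m → ZMod 2) → ZMod 2 // (∀ u v : (Fin m ⊕ Fin m → ZMod 2), q (u + v) = q u + q v + (Cfsg.quadFormPlus m (ZMod 2) (u + v) - Cfsg.quadFormPlus m (ZMod 2) u - Cfsg.quadFormPlus m (ZMod 2) v)) ∧ ∃ g : (Fin m ⊕ Fin m → ZMod 2) ≃ₗ[ZMod 2] ((Fin (m - 1) ⊕ Fin (m - 1)) ⊕ Fin 2 → ZMod 2), ∀ v, q v = Cfsg.quadFormMinus (m - 1) (ZMod 2) 1 1 (g v)} = 2 ^ (2 * m - 1) - 2 ^ (m - 1) := by
  set V := Fin m ⊕ Fin m → ZMod 2
  set Q := qPlus m (ZMod 2) with hQdef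
  have hQ : Nondeg Q := nondeg_qPlus m
  let P : (V → ZMod 2) → Prop := fun q => ∀ u v, q (u + v) = q u + q v + polar Q u v
  let A : (V → ZMod 2) → Prop := fun q => ∃ g : V ≃ₗ[ZMod 2] V, ∀ v, q v = Q (g v)
  let B : (V → ZMod 2) → Prop := fun q => ∃ g : V ≃ₗ[ZMod 2] ((Fin (m - 1) ⊕ Fin (m - 1)) ⊕ Fin 2 → ZMod 2),
    ∀ v, q v = qMinus (m - 1) (ZMod 2) 1 1 (g v)
  change Nat.card {q // P q} = _ ∧ (∀ q, P q → A q ∨ B q) ∧ Nat.card {q // P q ∧ A q} = _ ∧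
    Nat.card {q // P q ∧ B q} = _
  have hab : ∀ z₁ z₂ : ZMod 2, z₁ ^ 2 + 1 * z₁ * z₂ + 1 * z₂ ^ 2 = 0 → z₁ = 0 ∧ z₂ = 0 := by decide
  have hV : Fintype.card V = 2 ^ (2 * m) := by simp [V, two_mul]
  have hP : ∀ w, P fun v => Q v + polar Q v w := fun w u v => by
    simp only [Q_add, polar_add_left]; ring
  have hinj : Function.Injective fun w v => Q v + polar Q v w := fun w w' h =>
    hQ.eq_of_polar fun v => by
      rw [polar_comm, polar_comm Q w']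
      exact add_left_cancel (congrFun h v)
  have hc : ∀ R : (V → ZMod 2) → Prop, Nat.card {q // P q ∧ R q} = Nat.card {w // R fun v => Q v + polar Q v w} := by
    intro R
    refine (Nat.card_congr (Equiv.ofBijective
      (fun w : {w // R fun v => Q v + polar Q v w} => (⟨_, hP w.1, w.2⟩ : {q // P q ∧ R q})) ⟨?_, ?_⟩)).symm
    · intro w w' h
      exact Subtype.ext (hinj (congrArg Subtype.val h))
    · rintro ⟨q, h1, h2⟩
      obtain ⟨w, rfl⟩ := hQ.exists_eq_add_polar q h1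
      exact ⟨⟨w, h2⟩, rfl⟩
  have hAB : ∀ q, P q → A q ∨ B q := by
    intro q hq
    obtain ⟨Q', rfl, hQ'⟩ := exists_quad_of_polar Q q hq
    have hn : Nondeg Q' := nondeg_of fun x hx => hQ.eq_zero fun v => by rw [← hQ', hx]
    rcases hn.classify_even' hm (by simp [V, two_mul]) hab with ⟨φ, h⟩ | ⟨φ, h⟩
    · exact .inl ⟨φ, fun v => (h v).symm⟩
    · exact .inr ⟨φ, fun v => (h v).symm⟩
  have hnAB : ∀ q, A q → ¬ B q := by
    rintro q ⟨g, hg⟩ ⟨g', hg'⟩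
    exact not_isom_plus_minus hm hab (g.symm.trans g') fun v => by
      rw [LinearEquiv.trans_apply, ← hg', hg, LinearEquiv.apply_symm_apply]
  have h0 : Nat.card {w // Q w = 0} = 2 ^ (2 * m - 1) + 2 ^ (m - 1) := by
    have := card_zero_eq (V := V) Q
    rw [hV, hQdef, csum_qPlus] at this
    obtain ⟨k, rfl⟩ : ∃ k, m = k + 1 := ⟨m - 1, by omega⟩
    rw [show 2 * (k + 1) - 1 = 2 * k + 1 by omega, Nat.add_sub_cancel]
    zify
    push_cast at this
    rw [← hQdef] at this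
    apply mul_left_cancel₀ (two_ne_zero (α := ℤ))
    linear_combination this
  refine ⟨?_, hAB, ?_, ?_⟩
  · have := hc fun _ => True
    simp only [and_true] at this
    rw [this, Nat.card_eq_fintype_card]
    simp [two_mul]
  · rw [hc, ← h0]
    exact Nat.card_congr (Equiv.subtypeEquivRight fun w => hQ.add_polar_equiv_iff w)
  · have e : Nat.card {w // B fun v => Q v + polar Q v w} = Nat.card {w // ¬ Q w = 0} :=
      Nat.card_congr (Equiv.subtypeEquivRight fun w => by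
        rw [← hQ.add_polar_equiv_iff w]
        exact ⟨fun h h' => hnAB _ h' h, fun h => (hAB _ (hP w)).resolve_left h⟩)
    rw [hc, e, Nat.card_eq_fintype_card, Fintype.card_subtype_compl, hV, ← Nat.card_eq_fintype_card, h0]
    obtain ⟨k, rfl⟩ : ∃ k, m = k + 1 := ⟨m - 1, by omega⟩
    rw [show 2 * (k + 1) - 1 = 2 * k + 1 by omega, Nat.add_sub_cancel, show 2 * (k + 1) = 2 * k + 1 + 1 by ring,
      pow_succ 2 (2 * k + 1)]
    omega

end Cfsg.Agent.S2561
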