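import Cfsg.Statements.S2563
import Cfsg.Agent.Lib.Forms.QuadSym

set_option autoImplicit false
open Cfsg

namespace Cfsg.Agent.S2563

open Cfsg.Agent.Lib.Forms Module QuadraticMap

open Cfsg.Agent.Lib.GL.OrthConj

/-- For k ≥ 1 the symmetric group of degree 4k + 4 embeds in a full orthogonal group in dimension 4k + 2 over the field of two elements: in the isometry group of the plus-type form Σ xᵢyᵢ when k is odd, and in that of the minus-type form Σ xᵢyᵢ + (z₁² + z₁z₂ + z₂²) when k is even (through its action on even partitions of a (4k+4)-set, with the form 'half the size of a part, modulo 2'). -/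
theorem result (k : ℕ) (hk : 1 ≤ k) :
    (Odd k → ∃ φ : Equiv.Perm (Fin (4 * k + 4)) →* ↥(Cfsg.isometryGroup (ZMod 2) (Cfsg.quadFormPlus (2 * k + 1) (ZMod 2))), Function.Injective φ) ∧
    (Even k → ∃ φ : Equiv.Perm (Fin (4 * k + 4)) →* ↥(Cfsg.isometryGroup (ZMod 2) (Cfsg.quadFormMinus (2 * k) (ZMod 2) 1 1)), Function.Injective φ) := by
  obtain ⟨Q, hQ, ht, hc, -⟩ := exists_chain k
  have key : ∀ {ι : Type} [Fintype ι] [DecidableEq ι] (Q' : QuadraticForm (ZMod 2) (ι → ZMod 2)), Nondeg Q' →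
      Fintype.card ι = 2 * (2 * k + 1) → tp Q' = (-1) ^ (k + 1) * 2 ^ (2 * k + 1) →
      ∃ φ : Equiv.Perm (Fin (4 * k + 4)) →* Cfsg.isometryGroup (ZMod 2) Q', Function.Injective φ := by
    intro ι _ _ Q' hQ' hι ht'
    obtain ⟨e, he⟩ := isom_of_tp hQ hQ' (by simp) (by simp [hι]; ring) (ht.trans ht'.symm)
    obtain ⟨φ, hφ, -⟩ := (hc.map e he).exists_hom (by omega)
    exact ⟨(toOG Q').symm.toMonoidHom.comp φ, (toOG Q').symm.injective.comp hφ⟩
  refine ⟨fun h => key (qPlus _ _) (nondeg_qPlus _) (by simp; ring) ?_,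
    fun h => key (qMinus _ _ 1 1) (nondeg_qMinus _ (by decide)) (by simp; ring) ?_⟩
  · rw [tp_qPlus, h.add_one.neg_one_pow]; simp
  · rw [tp_qMinus _ (by decide), h.add_one.neg_one_pow]; simp

end Cfsg.Agent.S2563
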