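import Cfsg.Statements.S2565
import Cfsg.Agent.Lib.Forms.QuadSym
import Cfsg.Agent.Lib.Forms.OrthField2

set_option autoImplicit false
open Cfsg

namespace Cfsg.Agent.S2565

open Cfsg.Agent.Lib.Forms Module QuadraticMap

open Cfsg.Agent.Lib.GL.OrthConj

def q (v : Fin 3 ⊕ Fin 3 → ZMod 2) : ZMod 2 :=
  ∑ i, v (.inl i) * v (.inr i) + ∑ i, (v (.inl i) * chainW 3 (.inr i) + v (.inr i) * chainW 3 (.inl i))

def w (a : ℕ) : ℕ → Fin 3 ⊕ Fin 3 → ZMod 2
  | 0 => chainV 3 a
  | d + 1 => w a d + (∑ i, (w a d (.inl i) * chainV 3 (a + d + 1) (.inr i) +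
      w a d (.inr i) * chainV 3 (a + d + 1) (.inl i))) • chainV 3 (a + d + 1)

theorem key : ∀ u, q u = 1 → ∃ a < 7, ∃ d < 7, a + d < 7 ∧ u = w a d := by decide +kernel

/-- The commutator subgroup of the full orthogonal group of the plus-type form Σ xᵢyᵢ in dimension 6 over the field of two elements (the group Ω⁺₆(2), of index 2) is isomorphic to the alternating group of degree 8. -/
theorem result :
    (Cfsg.Omega (ZMod 2) (Cfsg.quadFormPlus 3 (ZMod 2))).index = 2 ∧
    Nonempty (↥(Cfsg.Omega (ZMod 2) (Cfsg.quadFormPlus 3 (ZMod 2))) ≃* alternatingGroup (Fin 8)) := by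
  obtain ⟨Q, hQ, ht, hc, hq⟩ := exists_chain 1
  obtain ⟨φ, hφ, hs⟩ := hc.exists_hom (by omega)
  have hp : ∀ u v, polar Q u v = polar (qPlus 3 (ZMod 2)) u v := fun u v => by
    rw [polar, hq, hq, hq, polar_add_left, Q_add]; ring
  have h1 : ∀ a d, a + d < 7 → refl Q (w a d) ∈ φ.range := by
    intro a d
    induction d with
    | zero => exact fun h => ⟨_, hs ⟨a, h⟩⟩
    | succ d ih =>
      intro h
      have h2 : refl Q (chainV 3 (a + d + 1)) ∈ φ.range := ⟨_, hs ⟨a + d + 1, h⟩⟩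
      have h3 := conj_refl (refl Q (chainV 3 (a + d + 1))) (w a d)
      rw [refl_apply_f2 (show Q (chainV 3 (a + d + 1)) = 1 from hc.one _ h), hp, polar_qPlus] at h3
      rw [w, ← h3]
      exact mul_mem (mul_mem h2 (ih (by omega))) (inv_mem h2)
  have h2 : Function.Surjective φ := fun g =>
    hQ.refl_induction (hQ.nonExc_of_finrank (by simp)) (fun g => g ∈ φ.range) (one_mem _) (fun v hv g hg => by
      obtain ⟨a, -, d, -, h, rfl⟩ := key v (by
        rw [← (zmod2_cases _).resolve_left hv, hq, qPlus_apply, polar_qPlus]; rfl)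
      exact mul_mem (h1 a d h) hg) g
  obtain ⟨e, he⟩ := isom_of_tp hQ (nondeg_qPlus 3) (by simp; decide) rfl (by rw [ht, tp_qPlus]; simp)
  let ψ : Equiv.Perm (Fin 8) ≃* Cfsg.isometryGroup (ZMod 2) (Cfsg.quadFormPlus 3 (ZMod 2)) :=
    ((MulEquiv.ofBijective φ ⟨hφ, h2⟩).trans (ogCongr e one_ne_zero fun v => by rw [he, one_mul])).trans
      (toOG (qPlus 3 (ZMod 2))).symm
  have h3 : Cfsg.Omega (ZMod 2) (Cfsg.quadFormPlus 3 (ZMod 2)) = (alternatingGroup (Fin 8)).map ψ := by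
    rw [← alternatingGroup.commutator_perm_eq (by simp)]
    ext g
    obtain ⟨g, rfl⟩ := ψ.surjective g
    exact (mem_commutator_equiv ψ g).trans (Subgroup.mem_map_iff_mem (f := ψ.toMonoidHom) ψ.injective).symm
  rw [h3]
  exact ⟨by rw [Subgroup.index_map_equiv, alternatingGroup.index_eq_two], ⟨(ψ.subgroupMap _).symm⟩⟩

end Cfsg.Agent.S2565
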