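import Cfsg.Statements.S2566
import Cfsg.Agent.Lib.Forms.QuadMatrix

set_option autoImplicit false
open Cfsg

namespace Cfsg.Agent.S2566

open Cfsg.Agent.Lib.Forms Module QuadraticMap

open Matrix

abbrev I := Fin 2 ⊕ Fin 2
abbrev M := Matrix I I (ZMod 2)
abbrev G := ↥(Cfsg.isometryGroup (ZMod 2) (Cfsg.quadFormPlus 2 (ZMod 2)))

def pos : I → Fin 2 × Fin 2 := Sum.elim (fun k => (0, k)) (fun k => (1, 1 - k))

def a (σ : Equiv.Perm (Fin 3)) (i j : Fin 2) : ZMod 2 :=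
  (if σ j.castSucc = i.castSucc then 1 else 0) + if σ j.castSucc = 2 then 1 else 0

def mA (σ : Equiv.Perm (Fin 3)) : M :=
  Matrix.of fun p p' => if (pos p).2 = (pos p').2 then a σ (pos p).1 (pos p').1 else 0

def mB (σ : Equiv.Perm (Fin 3)) : M :=
  Matrix.of fun p p' => if (pos p).1 = (pos p').1 then a σ (pos p).2 (pos p').2 else 0

def mS : M := Matrix.of fun p p' => if pos p = (pos p').swap then 1 else 0

def q (v : I → ZMod 2) : ZMod 2 := v (.inl 0) * v (.inr 0) + v (.inl 1) * v (.inr 1)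

theorem q_eq : Cfsg.quadFormPlus 2 (ZMod 2) = q := by
  funext v; simp [Cfsg.quadFormPlus, q]

def mkHom (f : Equiv.Perm (Fin 3) → M) (h1 : f 1 = 1) (h2 : ∀ σ τ, f (σ * τ) = f σ * f τ)
    (h3 : ∀ σ v, q (f σ *ᵥ v) = q v) : Equiv.Perm (Fin 3) →* G :=
  (MonoidHom.toHomUnits (⟨⟨f, h1⟩, h2⟩ : Equiv.Perm (Fin 3) →* M)).codRestrict _ fun σ =>
    (mem_isometryGroup_iff _ _).mpr (by rw [q_eq]; exact h3 σ)

def φA : Equiv.Perm (Fin 3) →* G := mkHom mA (by decide +kernel) (by decide +kernel) (by decide +kernel)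
def φB : Equiv.Perm (Fin 3) →* G := mkHom mB (by decide +kernel) (by decide +kernel) (by decide +kernel)
def g : G := ⟨⟨mS, mS, by decide +kernel, by decide +kernel⟩,
  (mem_isometryGroup_iff _ _).mpr (by rw [q_eq]; decide +kernel)⟩

theorem ext {x y : G} (h : (x.1 : M) = y.1) : x = y := Subtype.ext (Units.ext h)

theorem comm (σ τ : Equiv.Perm (Fin 3)) : Commute (φA σ) (φB τ) :=
  ext ((by decide +kernel : ∀ σ τ, mA σ * mB τ = mB τ * mA σ) σ τ)

def mk4 (c₁ c₂ c₃ c₄ : I → ZMod 2) : M := Matrix.of fun i => Sum.elim ![c₁ i, c₂ i] ![c₃ i, c₄ i]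

set_option synthInstance.maxSize 4000 in
set_option synthInstance.maxHeartbeats 200000 in
theorem key : ∀ c₁ : I → ZMod 2, q c₁ = 0 → ∀ c₃, q c₃ = 0 → q (c₁ + c₃) = 1 → ∀ c₂, q c₂ = 0 → q (c₁ + c₂) = 0 →
    q (c₃ + c₂) = 0 → ∀ c₄, q c₄ = 0 → q (c₂ + c₄) = 1 → q (c₁ + c₄) = 0 → q (c₃ + c₄) = 0 →
    ∃ σ τ, mk4 c₁ c₂ c₃ c₄ = mA σ * mB τ ∨ mk4 c₁ c₂ c₃ c₄ * mS = mA σ * mB τ := by
  decide +kernel

theorem key' (x : G) : ∃ σ τ, x = φA σ * φB τ ∨ x * g = φA σ * φB τ := by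
  have h : ∀ v, q ((x.1 : M) *ᵥ v) = q v := fun v => q_eq ▸ (mem_isometryGroup_iff _ _).mp x.2 v
  have h1 : ∀ j, q (fun i => (x.1 : M) i j) = q (Pi.single j 1) := fun j => by
    rw [← h (Pi.single j 1), mulVec_single_one]; rfl
  have h2 : ∀ j k, q ((fun i => (x.1 : M) i j) + fun i => (x.1 : M) i k) = q (Pi.single j 1 + Pi.single k 1) :=
    fun j k => by rw [← h (Pi.single j 1 + Pi.single k 1), mulVec_add, mulVec_single_one, mulVec_single_one]; rfl
  obtain ⟨σ, τ, h3⟩ := key _ ((h1 (.inl 0)).trans (by decide)) _ ((h1 (.inr 0)).trans (by decide))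
    ((h2 _ _).trans (by decide)) _ ((h1 (.inl 1)).trans (by decide)) ((h2 _ _).trans (by decide))
    ((h2 _ _).trans (by decide)) _ ((h1 (.inr 1)).trans (by decide)) ((h2 _ _).trans (by decide))
    ((h2 _ _).trans (by decide)) ((h2 _ _).trans (by decide))
  have h4 : mk4 (fun i => (x.1 : M) i (.inl 0)) (fun i => (x.1 : M) i (.inl 1))
      (fun i => (x.1 : M) i (.inr 0)) (fun i => (x.1 : M) i (.inr 1)) = (x.1 : M) := by
    ext i (j | j) <;> fin_cases j <;> rfl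
  rw [h4] at h3
  exact ⟨σ, τ, h3.imp ext ext⟩

/-- The full orthogonal group of the plus-type form x₁y₁ + x₂y₂ in dimension 4 over the field of two elements has order 72 and is isomorphic to the wreath product of the symmetric group of degree 3 by a group of order 2: it has a normal subgroup isomorphic to the direct product of two symmetric groups of degree 3, of index 2, whose two direct factors are interchanged by conjugation by some element. -/
theorem result :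
    Nat.card ↥(Cfsg.isometryGroup (ZMod 2) (Cfsg.quadFormPlus 2 (ZMod 2))) = 72 ∧
    ∃ (A B : Subgroup ↥(Cfsg.isometryGroup (ZMod 2) (Cfsg.quadFormPlus 2 (ZMod 2)))),
      Nonempty (↥A ≃* Equiv.Perm (Fin 3)) ∧ Nonempty (↥B ≃* Equiv.Perm (Fin 3)) ∧ A ⊓ B = ⊥ ∧ (∀ a ∈ A, ∀ b ∈ B, a * b = b * a) ∧
      (A ⊔ B).index = 2 ∧ ∃ g : ↥(Cfsg.isometryGroup (ZMod 2) (Cfsg.quadFormPlus 2 (ZMod 2))), A.map (MulAut.conj g).toMonoidHom = B := by
  let ψ := φA.noncommCoprod φB comm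
  have h1 : ψ.range = φA.range ⊔ φB.range := MonoidHom.noncommCoprod_range _ _ _
  have h2 : ∀ σ τ, φA σ * φB τ = 1 → σ = 1 ∧ τ = 1 := fun σ τ h =>
    (by decide +kernel : ∀ σ τ, mA σ * mB τ = 1 → σ = 1 ∧ τ = 1) σ τ (congrArg (fun x : G => (x.1 : M)) h)
  have h3 : Function.Injective ψ := (injective_iff_map_eq_one _).mpr fun x h => Prod.ext (h2 _ _ h).1 (h2 _ _ h).2
  have h4 : ψ.range.index = 2 := by
    rw [Subgroup.index_eq_two_iff_exists_notMem_and]
    refine ⟨g, ?_, fun x => ?_⟩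
    · rintro ⟨⟨σ, τ⟩, h⟩
      exact (by decide +kernel : ∀ σ τ, mA σ * mB τ ≠ mS) σ τ (congrArg (fun x : G => (x.1 : M)) h)
    · obtain ⟨σ, τ, h⟩ := key' x
      exact h.symm.imp (fun h => ⟨(σ, τ), h.symm⟩) fun h => ⟨(σ, τ), h.symm⟩
  have hA : Function.Injective φA := (injective_iff_map_eq_one _).mpr fun σ h => (h2 σ 1 (by simpa)).1
  have hB : Function.Injective φB := (injective_iff_map_eq_one _).mpr fun σ h => (h2 1 σ (by simpa)).2
  refine ⟨?_, φA.range, φB.range, ⟨(MonoidHom.ofInjective hA).symm⟩, ⟨(MonoidHom.ofInjective hB).symm⟩, ?_, ?_,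
    h1 ▸ h4, g, ?_⟩
  · rw [← ψ.range.card_mul_index, h4, ← Nat.card_congr (MonoidHom.ofInjective h3).toEquiv]
    simp [Fintype.card_perm, Nat.factorial]
  · rw [eq_bot_iff]
    rintro _ ⟨⟨σ, rfl⟩, τ, h⟩
    simp [(h2 σ τ⁻¹ (by simp [← h])).1]
  · rintro _ ⟨σ, rfl⟩ _ ⟨τ, rfl⟩
    exact comm σ τ
  · rw [MonoidHom.map_range]
    congr 1
    ext1 σ
    exact ext ((by decide +kernel : ∀ σ, mS * mA σ * mS = mB σ) σ)

end Cfsg.Agent.S2566
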