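import Cfsg.Statements.S2567


set_option autoImplicit false
open Cfsg

namespace Cfsg.Agent.S2567

/-- Lifting elements of prime order from PGL to GL: let F be a finite field with q elements, r a prime not dividing q − 1, and x an element of order r in GL_n(F) modulo its centre (the scalar matrices). Then x has exactly one preimage in GL_n(F) of order r. -/
theorem result {F : Type*} [Field F] [Fintype F] {q n r : ℕ} (hF : Fintype.card F = q) (hr : r.Prime) (hdiv : ¬ r ∣ q - 1) (x : GL (Fin n) F ⧸ Subgroup.center (GL (Fin n) F)) (hx : orderOf x = r) : ∃! g : GL (Fin n) F, (QuotientGroup.mk g : GL (Fin n) F ⧸ Subgroup.center (GL (Fin n) F)) = x ∧ orderOf g = r := by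
  classical
  have hZ : ∀ z ∈ Subgroup.center (GL (Fin n) F), z ^ (q - 1) = 1 := by
    intro z hz
    rw [Matrix.GeneralLinearGroup.center_eq_range_scalar] at hz
    obtain ⟨c, rfl⟩ := hz
    rw [← map_pow]
    have : c ^ (q - 1) = 1 := by rw [← hF, ← Fintype.card_units]; exact pow_card_eq_one
    rw [this, map_one]
  have hcop : Nat.Coprime r (q - 1) := (Nat.Prime.coprime_iff_not_dvd hr).2 hdiv
  have := Fact.mk hr
  obtain ⟨g, rfl⟩ := QuotientGroup.mk_surjective x
  have hgr : g ^ r ∈ Subgroup.center (GL (Fin n) F) := by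
    rw [← QuotientGroup.eq_one_iff, QuotientGroup.mk_pow, ← hx, pow_orderOf_eq_one]
  obtain ⟨k, hk⟩ : ∃ k, (r * k + 1) % (q - 1) = 0 := by
    obtain ⟨k, hk⟩ := Nat.exists_mul_mod_eq_of_coprime (q - 1 - 1) hcop (by
      have : 1 < q := hF ▸ Fintype.one_lt_card
      omega)
    refine ⟨k, ?_⟩
    have : 1 < q := hF ▸ Fintype.one_lt_card
    rw [Nat.add_mod, hk.2, ← Nat.add_mod, Nat.sub_add_cancel (by omega), Nat.mod_self]
  have hmk : (QuotientGroup.mk (g ^ (r * k + 1)) : GL (Fin n) F ⧸ Subgroup.center (GL (Fin n) F)) =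
      QuotientGroup.mk g := by
    rw [pow_succ, pow_mul, QuotientGroup.mk_mul,
      (QuotientGroup.eq_one_iff _).2 (Subgroup.pow_mem _ hgr k), one_mul]
  have hne : ∀ h : GL (Fin n) F, (QuotientGroup.mk h : GL (Fin n) F ⧸ Subgroup.center (GL (Fin n) F)) =
      QuotientGroup.mk g → h ≠ 1 := by
    rintro h hh rfl
    rw [← hh, QuotientGroup.mk_one, orderOf_one] at hx
    exact hr.one_lt.ne hx
  refine ⟨g ^ (r * k + 1), ⟨hmk, orderOf_eq_prime ?_ (hne _ hmk)⟩, ?_⟩
  · obtain ⟨c, hc⟩ := Nat.dvd_of_mod_eq_zero hk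
    rw [← pow_mul, mul_comm, pow_mul, hc, pow_mul, hZ _ hgr, one_pow]
  · rintro h ⟨hh, hh'⟩
    have h1 : g⁻¹ * h ∈ Subgroup.center (GL (Fin n) F) := QuotientGroup.eq.1 hh.symm
    have h2 : h = g * (g⁻¹ * h) := by group
    have hc : Commute g (g⁻¹ * h) := Subgroup.mem_center_iff.1 h1 g
    have h3 : h ^ (r * k + 1) = h := by rw [pow_succ, pow_mul, ← hh', pow_orderOf_eq_one, one_pow, one_mul]
    obtain ⟨c, hc'⟩ := Nat.dvd_of_mod_eq_zero hk
    rw [← h3, h2, hc.mul_pow, hc', pow_mul (g⁻¹ * h), hZ _ h1, one_pow, mul_one]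

end Cfsg.Agent.S2567
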