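import Cfsg.Statements.S2568
import Cfsg.Agent.Lib.GL.MultRoot

set_option autoImplicit false
open Cfsg

namespace Cfsg.Agent.S2568

open Cfsg.Agent.Lib.GL.Mult Cfsg.Agent.Lib.GL.ClassCount Cfsg.Agent.Lib.GL.Sim

/-- Number of conjugacy classes of elements of a given prime order r, coprime to the characteristic, in GL_n(q): if i is the multiplicative order of q modulo r and t = (r − 1)/i, the classes correspond to the non-zero t-tuples of natural numbers (a_1, …, a_t) with i(a_1 + ⋯ + a_t) ≤ n (a_j is the multiplicity of the j-th Frobenius orbit of nontrivial r-th roots of unity among the eigenvalues), so there are exactly C(⌊n/i⌋ + t, t) − 1 of them. -/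
theorem result {F : Type*} [Field F] [Fintype F] {p q : ℕ} [Fact p.Prime] [CharP F p] (hF : Fintype.card F = q) (n r i t : ℕ) (hr : r.Prime) (hrp : r ≠ p) (hi : i = orderOf (q : ZMod r)) (ht : t * i = r - 1) : Nat.card {C : ConjClasses (GL (Fin n) F) // ∃ g : GL (Fin n) F, ConjClasses.mk g = C ∧ orderOf g = r} = Nat.choose (n / i + t) t - 1 := by
  have : Fact r.Prime := ⟨hr⟩
  have : NeZero r := ⟨hr.ne_zero⟩
  have hrF : (r : F) ≠ 0 := natCast_ne_zero_of_prime_ne hr hrp
  let φ := algebraMap F (AlgebraicClosure F)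
  obtain ⟨ζ, hζ⟩ := exists_primitiveRoot (L := AlgebraicClosure F) (r := r)
    (by rw [← map_natCast φ]; exact (map_ne_zero φ).2 hrF)
  let u : (ZMod r)ˣ := Units.mk0 _ (card_ne_zero_zmod hr hrF)
  have hH : Nat.card (Subgroup.zpowers u) = i := by
    rw [Nat.card_zpowers, hi, ← orderOf_units, ← hF]; rfl
  have := finite_sum_eq_and n (fun m : ZMod r → ℕ => ∀ h ∈ Subgroup.zpowers u, ∀ j, m (h * j) = m j)
  rw [card_classes_orderOf hr (fun g : GL (Fin n) F => mv φ ζ 1 r (g : Matrix (Fin n) (Fin n) F))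
    (fun m => ∑ j, m j = n ∧ ∀ h ∈ Subgroup.zpowers u, ∀ j, m (h * j) = m j),
    card_invariant _ n t (by rw [hH, ht, ZMod.card]), hH]
  · intro g g' hg hg'
    rw [isConj_units_iff]
    exact isConj_iff_mv_one φ hζ (congrArg Units.val hg) (congrArg Units.val hg')
  · intro m
    rw [invariant_zpowers_iff]
    constructor
    · rintro ⟨h1, h2⟩
      exact exists_mv_one φ hζ m (by simpa using h1) h2
    · rintro ⟨g, hg, rfl⟩
      exact ⟨by simpa using sum_mv_one φ hζ (congrArg Units.val hg), mv_one_frob φ hζ _⟩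

end Cfsg.Agent.S2568
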