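import Cfsg.Statements.S2569
import Cfsg.Agent.Lib.GL.SemiSimple

set_option autoImplicit false
open Cfsg

namespace Cfsg.Agent.S2569

open Module Matrix Cfsg.Agent.Lib.GL.SemiSimple Cfsg.Agent.Lib.GL.Jordan

/-- In GL_n over a finite field of characteristic p, the conjugacy class of a semisimple element (an element of order prime to p) under the special linear group is its whole GL-conjugacy class: for every such x and every invertible g there is h of determinant one with h x h⁻¹ = g x g⁻¹. -/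
theorem result {F : Type*} [Field F] [Fintype F] {p : ℕ} [Fact p.Prime] [CharP F p] {n : ℕ} (x g : GL (Fin n) F) (hx : (orderOf x).Coprime p) : ∃ h : GL (Fin n) F, (h : Matrix (Fin n) (Fin n) F).det = 1 ∧ h * x * h⁻¹ = g * x * g⁻¹ := by
  rcases Nat.eq_zero_or_pos n with rfl | hn
  · exact ⟨g, by simp, rfl⟩
  have : Nonempty (Fin n) := ⟨⟨0, hn⟩⟩
  obtain ⟨c, h1, h2⟩ := exists_commute_det (isSemisimple_of_pow_eq_one (T := toLin' x.1)
    (n := orderOf x)
    (fun h => (Nat.Prime.coprime_iff_not_dvd Fact.out).1 hx.symm ((CharP.cast_eq_zero_iff F p _).1 h))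
    (by rw [← toLin'_pow, ← Units.val_pow_eq_pow_val, pow_orderOf_eq_one]; simp [End.one_eq_id]))
    (g⁻¹).1.det
  obtain ⟨c, rfl⟩ := toLin'.surjective c
  rw [LinearMap.det_toLin'] at h2
  obtain ⟨c, rfl⟩ := (isUnit_iff_isUnit_det c).2 (h2 ▸ (isUnit_iff_isUnit_det _).1 (g⁻¹).isUnit)
  refine ⟨g * c, by rw [Units.val_mul, det_mul, h2, ← det_mul, g.mul_inv, det_one], ?_⟩
  have h3 : c * x = x * c := Units.ext (commute_toLin'_iff.1 h1)
  rw [mul_assoc g, h3]; group

end Cfsg.Agent.S2569
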