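import Cfsg.Statements.S2574
import Cfsg.Agent.Lib.GL.JordanSp

set_option autoImplicit false
open Cfsg

namespace Cfsg.Agent.S2574

open Module Matrix Cfsg.Agent.Lib.GL.Jordan Cfsg.Agent.Lib.GL.Alt

/-- A regular unipotent element of the symplectic group has totally isotropic small invariant subspaces: over a finite field, if u ∈ Sp_2m(F) satisfies (u − 1)^(2m) = 0 and rank(u − 1) = 2m − 1, and W is a u-invariant subspace with 2 dim W ≤ 2m, then the alternating form vanishes identically on W. -/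
theorem result {F : Type*} [Field F] [Finite F] {m : ℕ} (u : Matrix.symplecticGroup (Fin m) F) (hnil : ((u : Matrix (Fin m ⊕ Fin m) (Fin m ⊕ Fin m) F) - 1) ^ (2 * m) = 0) (hreg : ((u : Matrix (Fin m ⊕ Fin m) (Fin m ⊕ Fin m) F) - 1).rank = 2 * m - 1) (W : Submodule F (Fin m ⊕ Fin m → F)) (hW : ∀ v ∈ W, (u : Matrix (Fin m ⊕ Fin m) (Fin m ⊕ Fin m) F).mulVec v ∈ W) (hdim : 2 * Module.finrank F W ≤ 2 * m) : ∀ v ∈ W, ∀ w ∈ W, Cfsg.sympForm m F v w = 0 := by
  intro v hv w hw
  rcases Nat.eq_zero_or_pos m with rfl | hm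
  · rw [← sympBilin_apply, Subsingleton.elim v 0]; simp
  obtain ⟨b, hb⟩ := exists_isJordan_regular_mat (n := 2 * m) (by omega) (by simp [two_mul]) hnil hreg
  rw [← sympBilin_apply]
  exact hb.isotropic (inv_sympBilin u) W (fun v hv => by
    rw [toLin'_apply, sub_mulVec, one_mulVec]; exact W.sub_mem (hW v hv) hv) hdim hv hw

end Cfsg.Agent.S2574
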