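import Cfsg.Statements.S2576
import Cfsg.Agent.Lib.GL.Cyc

set_option autoImplicit false
open Cfsg

namespace Cfsg.Agent.S2576

open Cfsg.Agent.Lib.GL.Cyc

/-- Which involutions of PGL_2m(q) coming from a scalar of the quadratic extension field lie in PSL_2m(q), q odd: let μ generate the Sylow 2-subgroup of the multiplicative group of the field with q elements (μ has order the 2-part of q − 1) and let t be the block-diagonal matrix with m diagonal blocks [[0, 1], [μ, 0]] (so t² is the scalar μ and t is an involution modulo scalars). Then some non-zero scalar multiple of t has determinant one if and only if q ≡ 3 (mod 4) or the 2-part of q − 1 is less than the 2-part of 2m. -/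
theorem result {F : Type*} [Field F] [Fintype F] {q : ℕ} (hF : Fintype.card F = q) (hq : Odd q) {m : ℕ} (hm : 1 ≤ m) (μ : F) (hμ : orderOf μ = 2 ^ padicValNat 2 (q - 1)) : (∃ c : F, c ≠ 0 ∧ (c • Matrix.blockDiagonal (fun _ : Fin m => !![(0 : F), 1; μ, 0])).det = 1) ↔ (q % 4 = 3 ∨ padicValNat 2 (q - 1) < padicValNat 2 (2 * m)) := by
  classical
  have hq1 : 1 < q := hF ▸ Fintype.one_lt_card
  have h1 : q - 1 ≠ 0 := by omega
  have hdet : ∀ c : F, (c • Matrix.blockDiagonal (fun _ : Fin m => !![(0 : F), 1; μ, 0])).det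
      = c ^ (2 * m) * (-μ) ^ m := by
    intro c
    rw [Matrix.det_smul, Matrix.det_blockDiagonal]
    simp [Matrix.det_fin_two]
  simp only [hdet]
  set a := padicValNat 2 (q - 1) with ha
  have hμ0 : μ ≠ 0 := by
    rintro rfl
    rw [orderOf_zero] at hμ
    exact (pow_pos two_pos a).ne hμ
  have ha1 : 1 ≤ a := by
    rw [ha, ← padicValNat_dvd_iff_le h1]
    obtain ⟨k, rfl⟩ := hq
    simp
  have hneg : μ ^ (2 ^ (a - 1)) = -1 := by
    have h2 : (μ ^ (2 ^ (a - 1))) ^ 2 = 1 := by
      rw [← pow_mul, ← pow_succ, Nat.sub_add_cancel ha1, ← hμ, pow_orderOf_eq_one]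
    rcases sq_eq_one_iff.1 h2 with h | h
    · have := orderOf_dvd_of_pow_eq_one h
      rw [hμ, Nat.pow_dvd_pow_iff_le_right one_lt_two] at this
      omega
    · exact h
  have hiff : (∃ c : F, c ≠ 0 ∧ c ^ (2 * m) * (-μ) ^ m = 1) ↔
      (∃ c : F, c ≠ 0 ∧ c ^ (2 * m) = (-μ) ^ m) := by
    have h0 : (-μ) ^ m ≠ 0 := by simp [hμ0]
    constructor
    · rintro ⟨c, hc, h⟩
      refine ⟨c⁻¹, inv_ne_zero hc, ?_⟩
      rw [inv_pow]
      exact inv_eq_of_mul_eq_one_right h
    · rintro ⟨c, hc, h⟩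
      refine ⟨c⁻¹, inv_ne_zero hc, ?_⟩
      rw [inv_pow, h, inv_mul_cancel₀ h0]
  rw [hiff, field_exists_pow_eq_iff hF _ (by simp [hμ0]), ← pow_mul]
  have h4 : q % 4 = 3 ↔ a = 1 := by
    have := padicValNat_dvd_iff_le (p := 2) (n := 2) h1
    rw [← ha] at this
    obtain ⟨k, hk⟩ := hq
    omega
  rw [h4]
  by_cases ha' : a = 1
  · rw [ha'] at hneg
    simp only [Nat.sub_self, pow_zero, pow_one] at hneg
    simp [ha', hneg]
  · have hord : orderOf (-μ) = 2 ^ a := by
      have : -μ = μ ^ (2 ^ (a - 1) + 1) := by rw [pow_succ, hneg]; ring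
      rw [this, Nat.Coprime.orderOf_pow, hμ]
      rw [hμ]
      apply Nat.Coprime.pow_left
      rw [Nat.coprime_two_left]
      exact Even.add_one (Nat.even_pow.2 ⟨even_two, by omega⟩)
    rw [← orderOf_dvd_iff_pow_eq_one, hord,
      padicValNat_dvd_iff_le (mul_ne_zero (by omega) (div_gcd_ne_zero h1 _)),
      padicValNat.mul (by omega) (div_gcd_ne_zero h1 _), padicValNat_div_gcd h1 (by omega), ← ha,
      padicValNat.mul (by omega) (by omega), padicValNat_self]
    omega

end Cfsg.Agent.S2576
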