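import Cfsg.Statements.S2578
import Cfsg.Agent.Lib.GL.Jordan3

set_option autoImplicit false
open Cfsg

namespace Cfsg.Agent.S2578

open Module Matrix Cfsg.Agent.Lib.GL.Jordan Cfsg.Agent.Lib.GL.Sim

/-- Regular unipotent classes of SL_n(q): for n ≥ 2 over the field with q elements, the matrices u of determinant one with (u − 1)^n = 0 and rank(u − 1) = n − 1 form a single GL_n(q)-class which splits into exactly gcd(n, q − 1) conjugacy classes of SL_n(q). -/
theorem result {F : Type*} [Field F] [Fintype F] {q : ℕ} (hF : Fintype.card F = q) {n : ℕ} (hn : 2 ≤ n) : Nat.card {C : ConjClasses (Matrix.SpecialLinearGroup (Fin n) F) // ∃ u : Matrix.SpecialLinearGroup (Fin n) F, ConjClasses.mk u = C ∧ ((u : Matrix (Fin n) (Fin n) F) - 1) ^ n = 0 ∧ ((u : Matrix (Fin n) (Fin n) F) - 1).rank = n - 1} = Nat.gcd n (q - 1) := by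
  classical
  obtain ⟨u, b, hb⟩ : ∃ (u : Matrix (Fin n) (Fin n) F) (b : _),
      Cfsg.Agent.Lib.GL.Jordan.IsJordan (toLin' (u - 1)) (fun _ : Unit => n) b :=
    ⟨_, isJordan_reindex (K := F) (d := fun _ : Unit => n) (fun _ => by omega)
      (Fintype.equivOfCardEq (by simp) : (Σ _ : Unit, Fin n) ≃ Fin n)⟩
  have hdet : u.det = 1 := by
    have := det_smul_one_add_of_isNilpotent (1 : F) hb.exists_pow_eq_zero
    simpa [End.one_eq_id] using this
  rw [card_classes_split SpecialLinearGroup.toGL SpecialLinearGroup.toGL_injective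
    GeneralLinearGroup.det ?_ (SetLike.ext' SpecialLinearGroup.range_toGL) ⟨u, hdet⟩]
  · rw [Nat.gcd_comm, ← hF, ← Nat.card_eq_fintype_card, ← Nat.card_units,
      ← IsCyclic.index_powMonoidHom_range]
    congr 1
    ext a
    constructor
    · rintro ⟨g, hg, rfl⟩
      have h1 : Commute (toLin' g.1) (toLin' (u - 1)) := commute_toLin'_iff.2
        (commute_sub_one_iff.2 (congrArg Units.val (Subgroup.mem_centralizer_singleton_iff.1 hg)))
      have h2 := hb.det_eq_pow h1
      rw [LinearMap.det_toLin'] at h2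
      have h3 : genMat b (toLin' g.1) () () ≠ 0 := fun h => g.det_ne_zero (by
        rw [h2, h, zero_pow (by omega)])
      exact ⟨Units.mk0 _ h3, Units.ext h2.symm⟩
    · rintro ⟨c, rfl⟩
      refine ⟨GeneralLinearGroup.scalar _ c, ?_, Units.ext (by simp)⟩
      exact Subgroup.mem_centralizer_singleton_iff.2 (Subgroup.mem_center_iff.1
        (GeneralLinearGroup.center_eq_range_scalar (n := Fin n) (R := F) ▸ ⟨c, rfl⟩) _).symm
  · intro x
    rw [isConj_units_iff]
    constructor
    · rintro ⟨h1, h2⟩
      obtain ⟨b', hb'⟩ := exists_isJordan_regular_mat (by omega) (Fintype.card_fin n) h1 h2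
      exact hb.isConj hb'
    · intro h
      obtain ⟨b', hb'⟩ := hb.of_isConj h
      have h1 := hb'.pow_eq_zero (j := n) fun _ => le_rfl
      rw [← toLin'_pow, LinearEquiv.map_eq_zero_iff] at h1
      have h2 := hb'.finrank_ker_pow 1
      have h3 := finrank_ker_add_rank (x.1 - 1)
      rw [pow_one] at h2
      refine ⟨h1, ?_⟩
      simp only [Finset.univ_unique, Finset.sum_singleton, Fintype.card_fin] at h2 h3
      have h4 := h2.symm ▸ h3
      omega
  · intro a
    refine ⟨GeneralLinearGroup.mkOfDetNeZero (diagonal (Function.update 1 ⟨0, by omega⟩ a))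
      (by simp [Finset.prod_update_of_mem]), Units.ext ?_⟩
    simp [Finset.prod_update_of_mem]

end Cfsg.Agent.S2578
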