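import Cfsg.Statements.S2579
import Cfsg.Agent.Lib.GL.Jordan3

set_option autoImplicit false
open Cfsg

namespace Cfsg.Agent.S2579

open Module Matrix Cfsg.Agent.Lib.GL.Jordan Cfsg.Agent.Lib.GL.Sim

/-- In SL_n(F) with n ≥ 3, over a finite field F, any two transvections (matrices t with t − 1 of rank one and square zero) are conjugate by an element of SL_n(F). -/
theorem result {F : Type*} [Field F] [Finite F] {n : ℕ} (hn : 3 ≤ n) (s t : Matrix.SpecialLinearGroup (Fin n) F) (hs : Cfsg.IsTransvection (s : Matrix (Fin n) (Fin n) F)) (ht : Cfsg.IsTransvection (t : Matrix (Fin n) (Fin n) F)) : IsConj s t := by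
  obtain ⟨b, hb⟩ := exists_isJordan_transvection (by omega) hs
  obtain ⟨b', hb'⟩ := exists_isJordan_transvection (by omega) ht
  refine isConj_of_centralizer SpecialLinearGroup.toGL SpecialLinearGroup.toGL_injective
    GeneralLinearGroup.det (SetLike.ext' SpecialLinearGroup.range_toGL) (isConj_units_iff.2 (hb.isConj hb')) fun g => ?_
  obtain ⟨c, h1, h2⟩ := hb.exists_det_eq
    (Function.update 1 (some ⟨0, by omega⟩) (g : Matrix (Fin n) (Fin n) F).det)
  obtain ⟨c, rfl⟩ := toLin'.surjective c
  rw [LinearMap.det_toLin', Finset.prod_eq_single (some ⟨0, by omega⟩)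
    (fun k _ hk => by simp [hk]) (by simp)] at h2
  simp only [Function.update_self, trType, Option.elim, pow_one] at h2
  refine ⟨GeneralLinearGroup.mkOfDetNeZero c (h2 ▸ g.det_ne_zero), Units.ext ?_, Units.ext h2⟩
  exact commute_sub_one_iff.1 (commute_toLin'_iff.1 h1)

end Cfsg.Agent.S2579
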