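import Cfsg.Statements.S2582
import Cfsg.Agent.Lib.GL.JordanSp

set_option autoImplicit false
open Cfsg

namespace Cfsg.Agent.S2582

open Module Matrix Cfsg.Agent.Lib.GL.Jordan Cfsg.Agent.Lib.GL.Alt

/-- Which unipotent Jordan types occur in the finite symplectic group: over a finite field, a unipotent matrix with Jordan block sizes d_1, …, d_t (sum 2m, all at least 1) is similar to an element of Sp_2m(F) if and only if every odd block size occurs an even number of times. -/
theorem result {F : Type*} [Field F] [Fintype F] {m t : ℕ} (d : Fin t → ℕ) (hd : ∀ k, 1 ≤ d k) (hsum : ∑ k, d k = 2 * m) : (∃ e : ((k : Fin t) × Fin (d k)) ≃ (Fin m ⊕ Fin m), ∃ A : Matrix.symplecticGroup (Fin m) F, IsConj (Matrix.reindex e e (Cfsg.jordanTypeMatrix d F)) (A : Matrix (Fin m ⊕ Fin m) (Fin m ⊕ Fin m) F)) ↔ ∀ j : ℕ, Odd j → Even (Finset.univ.filter (fun k : Fin t => d k = j)).card := by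
  constructor
  · rintro ⟨e, A, hA⟩ j hj
    obtain ⟨b, hb⟩ := isJordan_reindex (K := F) hd e
    obtain ⟨b', hb'⟩ := hb.of_isConj hA
    have := hb'.even_card (inv_sympBilin A) (sympBilin_isAlt m) (sympBilin_nondegenerate m) hj
    rwa [Fintype.card_subtype] at this
  · intro h
    let e : ((k : Fin t) × Fin (d k)) ≃ (Fin m ⊕ Fin m) := Fintype.equivOfCardEq (by simp [hsum, two_mul])
    obtain ⟨A, hA⟩ := (spType_of_even (K := F) (partOf d hd hsum).parts
      (fun a ha => (partOf d hd hsum).parts_pos ha) (fun j hj => by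
        convert h j hj using 1
        simp only [partOf, Multiset.count_map, eq_comm, Finset.card, Finset.filter])).exists_mem
      (partOf d hd hsum).parts_sum
    obtain ⟨b, hb⟩ := isJordan_reindex (K := F) hd e
    have hk : kerSeq (reindex e e (jordanMat d F)) = minSum (partOf d hd hsum).parts :=
      funext fun j => by rw [minSum_partOf, kerSeq, hb.finrank_ker_pow]
    have hs : minSum (partOf d hd hsum).parts (2 * m) = Fintype.card (Fin m ⊕ Fin m) := by
      rw [minSum_partOf, Finset.sum_congr rfl fun k _ => min_eq_right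
        (hsum ▸ Finset.single_le_sum (fun _ _ => Nat.zero_le _) (Finset.mem_univ k)), hsum]
      simp [two_mul]
    exact ⟨e, A, (isConj_iff_kerSeq (p := 2 * m) (pow_eq_zero_of_kerSeq (by rw [← hs, ← hk]; rfl))
      (pow_eq_zero_of_kerSeq (by rw [hA, hs]))).2 (hk.trans hA.symm)⟩

end Cfsg.Agent.S2582
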