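import Cfsg.Statements.S2583
import Cfsg.Agent.Lib.GL.JordanSp2

set_option autoImplicit false
open Cfsg

namespace Cfsg.Agent.S2583

open Module Matrix Cfsg.Agent.Lib.GL.Jordan Cfsg.Agent.Lib.GL.SpReal Cfsg.Agent.Lib.Forms

/-- Which unipotent Jordan types occur in a finite orthogonal group in odd characteristic: over a finite field of odd order, a unipotent matrix with Jordan block sizes d_1, …, d_t (sum n, all at least 1) is similar to an isometry of some quadratic form on F^n with non-degenerate polar form if and only if every even block size occurs an even number of times. -/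
theorem result {F : Type*} [Field F] [Fintype F] (h2 : (2 : F) ≠ 0) {n t : ℕ} (d : Fin t → ℕ) (hd : ∀ k, 1 ≤ d k) (hsum : ∑ k, d k = n) : (∃ Q : QuadraticForm F (Fin n → F), (QuadraticMap.polarBilin Q).Nondegenerate ∧ ∃ e : ((k : Fin t) × Fin (d k)) ≃ Fin n, ∃ A : ↥(Cfsg.isometryGroup F ⇑Q), IsConj (Matrix.reindex e e (Cfsg.jordanTypeMatrix d F)) ((A : Matrix.GeneralLinearGroup (Fin n) F) : Matrix (Fin n) (Fin n) F)) ↔ ∀ j : ℕ, Even j → 0 < j → Even (Finset.univ.filter (fun k : Fin t => d k = j)).card := by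
  constructor
  · rintro ⟨Q, hQ, e, A, hA⟩ j hj hj0
    obtain ⟨b, hb⟩ := isJordan_reindex (K := F) hd e
    obtain ⟨b', hb'⟩ := hb.of_isConj hA
    have hB : Cfsg.Agent.Lib.GL.Jordan.Inv (QuadraticMap.polarBilin Q) (toLin' (A.1.1 - 1)) := by
      rw [map_sub, toLin'_one, ← End.one_eq_id, inv_iff_sub_one]
      exact polar_map_of_isom (toLin' A.1.1) ((mem_isometryGroup_iff _ _).1 A.2)
    have h1 := hb'.fblk_transpose hB (ε := 1)
      (fun x y => by simp [QuadraticMap.polar_comm]) j
    rw [neg_one_pow_pred_of_even hj hj0] at h1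
    have := (isSp_of_matrix (A := 1) (hb'.isUnit_fblk hB hQ.1 j) (fun v => by
      have h3 : v ⬝ᵥ fblk (QuadraticMap.polarBilin Q) b' j *ᵥ v =
          - (v ⬝ᵥ fblk (QuadraticMap.polarBilin Q) b' j *ᵥ v) := by
        conv_lhs => rw [dotProduct_mulVec, ← mulVec_transpose, h1, dotProduct_comm]
        simp [neg_mulVec]
      exact (mul_eq_zero.1 (by linear_combination h3)).resolve_left h2) (by simp)).even_finrank
    rwa [finrank_fintype_fun_eq_card, Fintype.card_subtype] at this
  · intro h
    let e : ((k : Fin t) × Fin (d k)) ≃ Fin n := Fintype.equivOfCardEq (by simp [hsum])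
    obtain ⟨b, hb⟩ := isJordan_reindex (K := F) hd e
    obtain ⟨p, hp⟩ := hb.exists_pow_eq_zero
    rw [← toLin'_pow, LinearEquiv.map_eq_zero_iff] at hp
    obtain ⟨u, hu⟩ := isUnit_of_unipotent hp
    rw [← hu] at hp hb
    have hk : kerSeq u.1 = kerSeq (u⁻¹).1ᵀ := by rw [kerSeq_transpose, kerSeq_inv u.mul_inv]
    obtain ⟨P, hP⟩ := (isConj_iff_kerSeq hp (pow_eq_zero_of_kerSeq (hk ▸ kerSeq_of_pow hp))).2 hk
    have hB : Cfsg.Agent.Lib.GL.Jordan.Inv (toBilin' P.1) (toLin' (u.1 - 1)) := by
      rw [map_sub, toLin'_one, ← End.one_eq_id, inv_iff_sub_one]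
      intro x y
      rw [toBilin'_apply', toBilin'_apply', toLin'_apply, toLin'_apply, mulVec_mulVec, hP.eq,
        ← mulVec_mulVec, mulVec_transpose, dotProduct_comm, ← dotProduct_mulVec, mulVec_mulVec,
        u.inv_mul, one_mulVec, dotProduct_comm]
    have hM : ∀ i, ∃ M : Matrix {k // d k = i} {k // d k = i} F, IsUnit M ∧
        Mᵀ = (1 * (-1) ^ (i - 1) : F) • M := fun i => by
      by_cases hi : Even i
      · rcases Nat.eq_zero_or_pos i with rfl | h0
        · exact ⟨1, isUnit_one, by simp⟩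
        obtain ⟨c, hc⟩ := h i hi h0
        let f : (Fin c ⊕ Fin c) ≃ {k // d k = i} :=
          Fintype.equivOfCardEq (by simp [Fintype.card_subtype, hc])
        refine ⟨reindexAlgEquiv F F f (J (Fin c) F), IsUnit.map _
          (IsUnit.of_mul_eq_one (-J (Fin c) F) (by simp [J_squared])), ?_⟩
        rw [neg_one_pow_pred_of_even hi h0]
        simp [J_transpose]
        rfl
      · exact ⟨1, isUnit_one, by simp [neg_one_pow_pred_of_odd hi]⟩
    choose M h3 h4 using hM
    obtain ⟨B, h5, h6, h7, -⟩ := hb.exists_form h2 hB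
      (LinearMap.BilinForm.nondegenerate_toBilin'_of_det_ne_zero' _
        ((isUnit_iff_isUnit_det _).1 P.isUnit).ne_zero).1 (one_mul 1) M h3 h4
    rw [map_sub, toLin'_one, ← End.one_eq_id, inv_iff_sub_one] at h5
    refine ⟨LinearMap.BilinMap.toQuadraticMap B, nondeg_of fun x hx => h6 x fun y => ?_, e,
      ⟨u, (mem_isometryGroup_iff _ _).2 fun v => h5 v v⟩, hu ▸ IsConj.refl _⟩
    have := hx y
    simp only [QuadraticMap.polar, LinearMap.BilinMap.toQuadraticMap_apply, map_add,
      LinearMap.add_apply, h7 x y] at this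
    exact (mul_eq_zero.1 (by linear_combination this)).resolve_left h2

end Cfsg.Agent.S2583
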