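import Cfsg.Statements.S2585
import Cfsg.Agent.Lib.GL.JordanSp2

set_option autoImplicit false
open Cfsg

namespace Cfsg.Agent.S2585

open Module Matrix Cfsg.Agent.Lib.Forms

/-- Over a finite field of characteristic two every element of the symplectic group is orthogonal for a suitable quadratic form: for each A in Sp_2m(F) there is a quadratic form Q on F^(2m) whose polar form is the alternating form defining Sp_2m(F) (so Q is non-degenerate) and which A preserves. Equivalently, for m ≥ 1, Sp_2m(F) is the union of the conjugates of its two orthogonal subgroups O⁺_2m(F) and O⁻_2m(F). -/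
theorem result {F : Type*} [Field F] [Fintype F] [CharP F 2] {m : ℕ} (A : Matrix.symplecticGroup (Fin m) F) : ∃ Q : QuadraticForm F (Fin m ⊕ Fin m → F), (∀ u v : Fin m ⊕ Fin m → F, QuadraticMap.polar ⇑Q u v = Cfsg.sympForm m F u v) ∧ ∀ v : Fin m ⊕ Fin m → F, Q ((A : Matrix (Fin m ⊕ Fin m) (Fin m ⊕ Fin m) F).mulVec v) = Q v := by
  have h2 : (2 : F) = 0 := CharTwo.two_eq_zero
  have hA := (mem_symplecticGroup_iff_sympForm _).1 A.2
  have h0 : ∀ u v, QuadraticMap.polar (qPlus m F) u v = Cfsg.sympForm m F u v := fun u v => by
    rw [polar_qPlus, sympForm_apply]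
    exact Finset.sum_congr rfl fun i _ => by rw [CharTwo.sub_eq_add, add_comm]
  let r := (frobeniusEquiv F 2).symm
  have hr : ∀ a, r a ^ 2 = a := fun a => (frobeniusEquiv F 2).apply_symm_apply a
  let l : (Fin m ⊕ Fin m → F) →ₗ[F] F :=
    { toFun := fun v => r (qPlus m F (A.1 *ᵥ v) + qPlus m F v)
      map_add' := fun u v => by
        rw [← map_add r, mulVec_add, Q_add _ (A.1 *ᵥ u), Q_add _ u, h0, h0, hA]
        congr 1
        linear_combination Cfsg.sympForm m F u v * h2
      map_smul' := fun c v => by
        apply (frobeniusEquiv F 2).injective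
        simp only [frobeniusEquiv_def, smul_eq_mul, RingHom.id_apply, mul_pow, hr, mulVec_smul,
          Q_smul]
        ring }
  obtain ⟨l', hl'⟩ : l ∈ LinearMap.range (toLin' (A.1 - 1)).dualMap := by
    rw [LinearMap.range_dualMap_eq_dualAnnihilator_ker, Submodule.mem_dualAnnihilator]
    intro v hv
    have : A.1 *ᵥ v = v := by simpa [sub_mulVec, sub_eq_zero, -map_sub] using hv
    simp [l, this, CharTwo.add_self_eq_zero]
  have h1 : ∀ v, l' (A.1 *ᵥ v) = l' v + l v := fun v => by
    have := LinearMap.congr_fun hl' v
    rw [LinearMap.dualMap_apply, toLin'_apply, sub_mulVec, one_mulVec, map_sub] at this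
    linear_combination this
  refine ⟨qPlus m F + QuadraticMap.linMulLin l' l', fun u v => ?_, fun v => ?_⟩
  · rw [← h0]
    simp only [QuadraticMap.polar, _root_.add_apply, QuadraticMap.linMulLin_apply, map_add l']
    linear_combination l' u * l' v * h2
  · simp only [_root_.add_apply, QuadraticMap.linMulLin_apply, h1]
    have : l v ^ 2 = _ := hr _
    linear_combination this + (l' v * l v + qPlus m F (A.1 *ᵥ v)) * h2

end Cfsg.Agent.S2585
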