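import Cfsg.Statements.S2584
import Cfsg.Agent.S2582
import Cfsg.Agent.S2585

set_option autoImplicit false
open Cfsg

namespace Cfsg.Agent.S2584

open Module Matrix Cfsg.Agent.Lib.GL.Jordan Cfsg.Agent.Lib.GL.Alt Cfsg.Agent.Lib.Forms

/-- Which unipotent Jordan types occur in a finite orthogonal group in characteristic two: over a finite field of characteristic 2 and in even dimension 2m, a unipotent matrix with Jordan block sizes d_1, …, d_t (sum 2m, all at least 1) is similar to an isometry of some quadratic form on F^(2m) with non-degenerate polar form if and only if every odd block size occurs an even number of times (the same condition as for the symplectic group, which contains these orthogonal groups). -/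
theorem result {F : Type*} [Field F] [Fintype F] [CharP F 2] {m t : ℕ} (d : Fin t → ℕ) (hd : ∀ k, 1 ≤ d k) (hsum : ∑ k, d k = 2 * m) : (∃ Q : QuadraticForm F (Fin (2 * m) → F), (QuadraticMap.polarBilin Q).Nondegenerate ∧ ∃ e : ((k : Fin t) × Fin (d k)) ≃ Fin (2 * m), ∃ A : ↥(Cfsg.isometryGroup F ⇑Q), IsConj (Matrix.reindex e e (Cfsg.jordanTypeMatrix d F)) ((A : Matrix.GeneralLinearGroup (Fin (2 * m)) F) : Matrix (Fin (2 * m)) (Fin (2 * m)) F)) ↔ ∀ j : ℕ, Odd j → Even (Finset.univ.filter (fun k : Fin t => d k = j)).card := by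
  constructor
  · rintro ⟨Q, hQ, e, A, hA⟩ j hj
    obtain ⟨b, hb⟩ := isJordan_reindex (K := F) hd e
    obtain ⟨b', hb'⟩ := hb.of_isConj hA
    have hB : Cfsg.Agent.Lib.GL.Jordan.Inv (QuadraticMap.polarBilin Q) (toLin' (A.1.1 - 1)) := by
      rw [map_sub, toLin'_one, ← End.one_eq_id, inv_iff_sub_one]
      exact polar_map_of_isom (toLin' A.1.1) ((mem_isometryGroup_iff _ _).1 A.2)
    have := hb'.even_card hB (fun v => by simp [CharTwo.two_eq_zero, two_smul, CharTwo.add_self_eq_zero]) hQ hj
    rwa [Fintype.card_subtype] at this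
  · intro h
    obtain ⟨e, A, hA⟩ := (Cfsg.Agent.S2582.result (F := F) d hd hsum).2 h
    obtain ⟨Q, h1, h2⟩ := Cfsg.Agent.S2585.result A
    let f : (Fin m ⊕ Fin m) ≃ Fin (2 * m) := Fintype.equivOfCardEq (by simp [two_mul])
    let φ := LinearEquiv.funCongrLeft F F f
    have hQ : Nondeg Q := nondeg_of fun x hx =>
      (sympBilin_nondegenerate m).1 x fun y => by rw [sympBilin_apply, ← h1, hx]
    refine ⟨Q.comp φ.toLinearMap, nondeg_of_isom hQ φ fun _ => rfl, e.trans f,
      ⟨Units.map (reindexAlgEquiv F F f).toMonoidHom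
        ((Group.isUnit A).map (Submonoid.subtype _)).unit, (mem_isometryGroup_iff _ _).2 fun v => ?_⟩,
      (reindexAlgEquiv F F f).toMonoidHom.map_isConj hA⟩
    refine Eq.trans ?_ (h2 (φ v))
    change Q (φ (reindex f f A.1 *ᵥ v)) = _
    rw [reindex_apply, submatrix_mulVec_equiv]
    congr 1
    ext i
    simp [φ, Function.comp_def]
    rfl

end Cfsg.Agent.S2584
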