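import Cfsg.Statements.S2589
import Cfsg.Agent.Lib.GL.AltConj

set_option autoImplicit false
open Cfsg

namespace Cfsg.Agent.S2589

open Polynomial Cfsg.Agent.Lib.GL.AltConj

/-- Two semisimple elements of the finite symplectic group Sp_2m(F) (elements of order prime to the characteristic) are conjugate in Sp_2m(F) if and only if they are conjugate in GL_2m(F). -/
theorem result {F : Type*} [Field F] [Fintype F] {p : ℕ} [Fact p.Prime] [CharP F p] {m : ℕ} (A B : Matrix.symplecticGroup (Fin m) F) (hA : (orderOf A).Coprime p) : IsConj A B ↔ IsConj (A : Matrix (Fin m ⊕ Fin m) (Fin m ⊕ Fin m) F) (B : Matrix (Fin m ⊕ Fin m) (Fin m ⊕ Fin m) F) := by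
  have hp : p.Prime := Fact.out
  have h0 : ((orderOf A : ℕ) : F) ≠ 0 := by
    rw [Ne, CharP.cast_eq_zero_iff F p]
    exact (Nat.Prime.coprime_iff_not_dvd hp).1 hA.symm
  refine isConj_symplectic_iff A B (P := X ^ orderOf A - C 1)
    (separable_X_pow_sub_C 1 h0 one_ne_zero).squarefree ?_
  have := congrArg Subtype.val (pow_orderOf_eq_one A)
  simp only [map_sub, map_pow, aeval_X, map_one, sub_eq_zero]
  exact this

end Cfsg.Agent.S2589
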