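import Cfsg.Statements.S2591
import Cfsg.Agent.Lib.GL.JordanSp2

set_option autoImplicit false
open Cfsg

namespace Cfsg.Agent.S2591

open Module Matrix Cfsg.Agent.Lib.GL.Jordan Cfsg.Agent.Lib.GL.ClassCount Cfsg.Agent.Lib.Forms

/-- Over a finite field of odd order and for m ≥ 1, the regular unipotent elements of Sp_2m(F) (u − 1 nilpotent of rank 2m − 1, a single Jordan block) form exactly two conjugacy classes of Sp_2m(F) (one class under the similarity group, which splits in two). -/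
theorem result {F : Type*} [Field F] [Fintype F] {q : ℕ} (hF : Fintype.card F = q) (hq : Odd q) {m : ℕ} (hm : 1 ≤ m) : Nat.card {C : ConjClasses ↥(Matrix.symplecticGroup (Fin m) F) // ∃ u : Matrix.symplecticGroup (Fin m) F, ConjClasses.mk u = C ∧ ((u : Matrix (Fin m ⊕ Fin m) (Fin m ⊕ Fin m) F) - 1) ^ (2 * m) = 0 ∧ ((u : Matrix (Fin m ⊕ Fin m) (Fin m ⊕ Fin m) F) - 1).rank = 2 * m - 1} = 2 := by
  classical
  obtain ⟨Φ, h3, h4, h5⟩ := exists_sp_invariant (two_ne_zero_of_odd_card (hF ▸ hq)) m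
  let μ₀ : Nat.Partition (2 * m) := ⟨{2 * m}, by simp; omega, by simp⟩
  have hc := card_signed (fun μ : Nat.Partition (2 * m) => μ = μ₀) fun _ => {2 * m}
  rw [Finset.filter_eq', if_pos (Finset.mem_univ _)] at hc
  refine (card_classes_of_iff _ Φ _ (fun g g' hg hg' => h4 g g' ⟨_, hg.1⟩ ⟨_, hg'.1⟩)
    fun x => ⟨?_, ?_⟩).trans (hc.trans (by simp))
  · rintro ⟨h7, h8⟩
    obtain ⟨u, hu, rfl⟩ := (h5 x).2 ⟨fun j hj => by
      rw [h7, Multiset.count_eq_zero.2 (by
        simp only [μ₀, Multiset.mem_singleton]; rintro rfl; obtain ⟨k, hk⟩ := hj; omega)]; exact Even.zero,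
      fun i hi => h8 i fun h => hi (by simp_all [μ₀])⟩
    have h9 := h3 u hu
    rw [h7] at h9
    refine ⟨u, ⟨pow_eq_zero_of_kerSeq (by simp [h9, μ₀, minSum, two_mul]), ?_⟩, rfl⟩
    have h10 := finrank_ker_add_rank (u.1 - 1)
    rw [← kerSeq_one_eq, h9] at h10
    simp [μ₀, minSum] at h10
    omega
  · rintro ⟨u, ⟨hu, hu'⟩, rfl⟩
    have h9 : (Φ u).1 = μ₀ := by
      apply minSum_parts_injective
      have h10 := finrank_ker_add_rank (u.1 - 1)
      rw [← kerSeq_one_eq, hu'] at h10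
      simp only [Fintype.card_sum, Fintype.card_fin] at h10
      simpa [← h3 u ⟨_, hu⟩, μ₀, two_mul] using kerSeq_of_regular hu (by omega)
    exact ⟨h9, fun i hi => ((h5 _).1 ⟨u, ⟨_, hu⟩, rfl⟩).2 i fun h => hi (by simpa [h9, μ₀] using h.2)⟩

end Cfsg.Agent.S2591
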