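import Cfsg.Statements.S2592
import Cfsg.Agent.Lib.GL.JordanSp3

set_option autoImplicit false
open Cfsg

namespace Cfsg.Agent.S2592

open Module Matrix Cfsg.Agent.Lib.GL.Jordan Cfsg.Agent.Lib.GL.Alt Cfsg.Agent.Lib.Forms

/-- Over a finite field with q elements, q odd, the centraliser in Sp_2m(F) (m ≥ 1) of a regular unipotent element (u − 1 nilpotent of rank 2m − 1) has order 2 q^m. -/
theorem result {F : Type*} [Field F] [Fintype F] {q : ℕ} (hF : Fintype.card F = q) (hq : Odd q) {m : ℕ} (hm : 1 ≤ m) (u : Matrix.symplecticGroup (Fin m) F) (hnil : ((u : Matrix (Fin m ⊕ Fin m) (Fin m ⊕ Fin m) F) - 1) ^ (2 * m) = 0) (hreg : ((u : Matrix (Fin m ⊕ Fin m) (Fin m ⊕ Fin m) F) - 1).rank = 2 * m - 1) : Nat.card ↥(Subgroup.centralizer ({u} : Set ↥(Matrix.symplecticGroup (Fin m) F))) = 2 * q ^ m := by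
  obtain ⟨b, hb⟩ := exists_isJordan_regular_mat (n := 2 * m) (by omega) (by simp [two_mul]) hnil hreg
  rw [← hF, ← hb.card_isometry_commute (two_ne_zero_of_odd_card (hF ▸ hq)) (inv_sympBilin u)
    (sympBilin_isAlt m) (sympBilin_nondegenerate m).1 rfl]
  refine Nat.card_congr (Equiv.ofBijective (fun g => ⟨toLin' g.1.1, commute_toLin'_iff.2
    (commute_sub_one_iff.2 (congrArg Subtype.val (Subgroup.mem_centralizer_singleton_iff.1 g.2))),
    fun x y => by
      simp only [toLin'_apply, sympBilin_apply, (mem_symplecticGroup_iff_sympForm _).1 g.1.2]⟩)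
    ⟨fun g g' h => Subtype.ext (Subtype.ext (toLin'.injective (congrArg Subtype.val h))), ?_⟩)
  rintro ⟨g, h1, h2⟩
  obtain ⟨g, rfl⟩ := toLin'.surjective g
  exact ⟨⟨⟨g, (mem_symplecticGroup_iff_sympForm _).2 fun x y => by
    simpa only [toLin'_apply, sympBilin_apply] using h2 x y⟩,
    Subgroup.mem_centralizer_singleton_iff.2
      (Subtype.ext (commute_sub_one_iff.1 (commute_toLin'_iff.1 h1)))⟩, rfl⟩

end Cfsg.Agent.S2592
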