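import Cfsg.Statements.S2593
import Cfsg.Agent.Lib.GL.Invol3

set_option autoImplicit false
open Cfsg

namespace Cfsg.Agent.S2593

open Cfsg.Agent.Lib.GL.SymTwo Cfsg.Agent.Lib.GL.Alt

/-- Number of conjugacy classes of involutions in the symplectic group Sp_2m(F) over a finite field of characteristic two (m ≥ 1): for each s with 1 ≤ s ≤ m there is one class with rank(t − 1) = s if s is odd and two if s is even (according as v ↦ f(v, tv), f the symplectic form, vanishes identically or not), so m + ⌊m/2⌋ classes in all. -/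
theorem result {F : Type*} [Field F] [Fintype F] [CharP F 2] {m : ℕ} (hm : 1 ≤ m) : Nat.card {C : ConjClasses ↥(Matrix.symplecticGroup (Fin m) F) // ∃ g : Matrix.symplecticGroup (Fin m) F, ConjClasses.mk g = C ∧ orderOf g = 2} = m + m / 2 := by
  have hA := sympBilin_isAlt (F := F) m
  have hB := sympBilin_nondegenerate (F := F) m
  have he : LinearIndependent F fun k : Fin m => (Pi.single (.inl k) 1 : Fin m ⊕ Fin m → F) :=
    (Pi.linearIndependent_single_one _ F).comp _ Sum.inl_injective
  have h0 : ∀ k l : Fin m, sympBilin m F (Pi.single (.inl k) 1) (Pi.single (.inl l) 1) = 0 :=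
    fun k l => by simp [sympBilin_apply, Cfsg.Agent.Lib.Forms.sympForm_apply]
  have h1 : ∀ (g : IsoG (sympBilin m F)) s p, g * g = 1 → ty (sympBilin m F) g.1 = (s, p) →
      s ≤ m ∧ (p → Even s) := fun g s p hg h => by
    simpa [← two_mul] using le_of_ty hA hB g.2 (fun x => by rw [← IsoG.mul_apply, hg]; rfl) h
  have h2 := card_classes_two (fun g : IsoG (sympBilin m F) => ty (sympBilin m F) g.1)
    (fun g => by simp [ty_eq_zero_iff]) (isConj_IsoG_iff hA hB) (fun s => Even s ∧ s ≤ m) (· ≤ m) m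
    (by omega) (fun s _ => ⟨fun h => (exists_ty_alt hA hB he h0 h.1 h.2).imp fun T h => ⟨h.1, h.2.1⟩,
      fun ⟨g, hg, h⟩ => ⟨(h1 g _ _ hg h).2 trivial, (h1 g _ _ hg h).1⟩⟩)
    fun s hs => ⟨fun h => (exists_ty_nonalt hA hB he h0 hs h).imp fun T h => ⟨h.1, h.2.1⟩,
      fun ⟨g, hg, h⟩ => (h1 g _ _ hg h).1⟩
  rw [card_classes_congr (toSp m F), h2, card_even_subtype, card_le_subtype, add_comm]

end Cfsg.Agent.S2593
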