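import Cfsg.Statements.S2594
import Cfsg.Agent.Lib.GL.Invol3

set_option autoImplicit false
open Cfsg

namespace Cfsg.Agent.S2594

open Cfsg.Agent.Lib.GL.SymTwo Cfsg.Agent.Lib.GL.Alt Matrix Cfsg.Agent.Lib.Forms

/-- Over a finite field with q elements, q even, an element t of Sp_2m(F) with rank(t − 1) = 1 (a symplectic transvection) has centraliser in Sp_2m(F) of order q^(2m−1) · |Sp_(2m−2)(q)| = q^(2m−1) · q^((m−1)²) · Π_(i=1)^(m−1) (q^(2i) − 1). -/
theorem result {F : Type*} [Field F] [Fintype F] [CharP F 2] {q : ℕ} (hF : Fintype.card F = q) {m : ℕ} (hm : 1 ≤ m) (t : Matrix.symplecticGroup (Fin m) F) (ht : ((t : Matrix (Fin m ⊕ Fin m) (Fin m ⊕ Fin m) F) - 1).rank = 1) : Nat.card ↥(Subgroup.centralizer ({t} : Set ↥(Matrix.symplecticGroup (Fin m) F))) = q ^ (2 * m - 1) * (q ^ ((m - 1) ^ 2) * ∏ i : Fin (m - 1), (q ^ (2 * ((i : ℕ) + 1)) - 1)) := by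
  have hA := sympBilin_isAlt (F := F) m
  have h0 : ∀ x, t.1 *ᵥ (t.1 *ᵥ x - x) = t.1 *ᵥ x - x := by
    obtain ⟨v, -, hv⟩ := finrank_eq_one_iff'.1 ht
    have h1 : ∀ x, ∃ a : F, t.1 *ᵥ x = x + a • v := fun x => (hv ⟨_, x, rfl⟩).imp fun a ha => by
      rw [← Submodule.coe_smul, ha]; simp [sub_mulVec]
    intro x
    refine sub_eq_zero.1 ((sympBilin_nondegenerate m).1 _ fun y => ?_)
    obtain ⟨y, rfl⟩ := (toSp m F t).1.surjective y
    obtain ⟨a, ha⟩ := h1 x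
    obtain ⟨b, hb⟩ := h1 y
    rw [map_sub, LinearMap.sub_apply, ← toSp_apply, IsoG.map_B, toSp_apply, ha, hb]
    simp [hA v]
  have h1 : t ^ 2 = 1 := Subtype.ext (matrix_ext_mulVec fun x =>
    funext fun k => by
      have := congrFun (h0 x) k
      rw [mulVec_sub, Pi.sub_apply, Pi.sub_apply, CharTwo.sub_eq_add, CharTwo.sub_eq_add, add_comm,
        add_right_inj] at this
      simpa [sq] using this)
  obtain ⟨M, c, z, E, h1, h2, -, h3, h4⟩ := card_centralizer_Sp t h1 ht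
  rw [h4, h2.card_IsoG_odd (k := 0) h1, hF, show E = 2 * m - 1 by omega]
  simp [spOrder]

end Cfsg.Agent.S2594
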