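import Cfsg.Statements.S2599
import Cfsg.Agent.Lib.Forms.QuadMatrix

set_option autoImplicit false
open Cfsg

namespace Cfsg.Agent.S2599

open Cfsg.Agent.Lib.Forms Module QuadraticMap


/-- An irreducible invariant subspace of a semisimple isometry is non-degenerate or totally singular: let Q be a quadratic form on F^n (F finite of characteristic p) with non-degenerate polar form f, x an isometry of Q of order prime to p, and U a non-zero x-invariant subspace containing no x-invariant subspace other than 0 and U. Then U meets its f-orthogonal trivially, or Q vanishes on U, or p = 2, U is a line spanned by a non-singular vector and x fixes U pointwise. -/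
theorem result {F : Type*} [Field F] [Fintype F] {p : ℕ} [Fact p.Prime] [CharP F p] {n : ℕ} (Q : QuadraticForm F (Fin n → F)) (hQ : (QuadraticMap.polarBilin Q).Nondegenerate) (x : ↥(Cfsg.isometryGroup F ⇑Q)) (hx : (orderOf x).Coprime p) (U : Submodule F (Fin n → F)) (hU0 : U ≠ ⊥) (hUx : ∀ u ∈ U, ((x : Matrix.GeneralLinearGroup (Fin n) F) : Matrix (Fin n) (Fin n) F).mulVec u ∈ U) (hirr : ∀ W : Submodule F (Fin n → F), W ≤ U → (∀ w ∈ W, ((x : Matrix.GeneralLinearGroup (Fin n) F) : Matrix (Fin n) (Fin n) F).mulVec w ∈ W) → W = ⊥ ∨ W = U) : U ⊓ LinearMap.BilinForm.orthogonal (QuadraticMap.polarBilin Q) U = ⊥ ∨ (∀ u ∈ U, Q u = 0) ∨ (p = 2 ∧ Module.finrank F U = 1 ∧ (∃ u ∈ U, Q u ≠ 0) ∧ ∀ u ∈ U, ((x : Matrix.GeneralLinearGroup (Fin n) F) : Matrix (Fin n) (Fin n) F).mulVec u = u) := by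
  have hQ' : Nondeg Q := hQ
  set g := toOG Q x with hg
  have hgU : ∀ u ∈ U, g.1 u ∈ U := hUx
  have himg : U.map (g.1 : (Fin n → F) →ₗ[F] (Fin n → F)) = U :=
    Submodule.eq_of_le_of_finrank_eq (by rintro _ ⟨y, hy, rfl⟩; exact hgU y hy) (LinearEquiv.finrank_map_eq _ _)
  rcases hirr (U ⊓ perp Q U) inf_le_left (fun w hw => ⟨hUx w hw.1, fun u hu => by
    rw [← himg] at hu
    obtain ⟨y, hy, rfl⟩ := hu
    exact (OG.map_polar g y w).trans (hw.2 y hy)⟩) with h | h
  · exact .inl h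
  right
  have hp : ∀ u ∈ U, ∀ w ∈ U, polar Q u w = 0 := fun u hu w hw => (h.ge hw).2 u hu
  let K : Submodule F (Fin n → F) :=
    { carrier := {u | u ∈ U ∧ Q u = 0}
      add_mem' := fun {a b} ha hb => ⟨U.add_mem ha.1 hb.1, by rw [Q_add, ha.2, hb.2, hp a ha.1 b hb.1]; simp⟩
      zero_mem' := ⟨U.zero_mem, map_zero Q⟩
      smul_mem' := fun c a ha => ⟨U.smul_mem c ha.1, by rw [Q_smul, ha.2, mul_zero]⟩ }
  rcases hirr K (fun u hu => hu.1) (fun w hw => ⟨hUx w hw.1, (OG.map_Q g w).trans hw.2⟩) with hK | hK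
  swap
  · exact .inl fun u hu => (hK.ge hu).2
  right
  have hK' : ∀ u ∈ U, Q u = 0 → u = 0 := fun u hu h0 => (Submodule.eq_bot_iff K).mp hK u ⟨hu, h0⟩
  obtain ⟨u, hu, hu0⟩ := (Submodule.ne_bot_iff U).mp hU0
  have hQu : Q u ≠ 0 := fun h0 => hu0 (hK' u hu h0)
  have h2 : (2 : F) = 0 := by
    have := hp u hu u hu
    rw [polar_self'] at this
    exact (mul_eq_zero.mp this).resolve_right hQu
  have hp2 : p = 2 := ((Nat.prime_dvd_prime_iff_eq Fact.out Nat.prime_two).mp
    ((CharP.cast_eq_zero_iff F p 2).mp (by exact_mod_cast h2)))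
  subst hp2
  refine ⟨rfl, ?_, ⟨u, hu, hQu⟩, fun w hw => ?_⟩
  · rw [finrank_eq_one_iff_of_nonzero' (⟨u, hu⟩ : U) (fun hc => hu0 (congrArg Subtype.val hc))]
    intro w
    obtain ⟨a, ha⟩ := FiniteField.isSquare_of_char_two (ringChar.eq F 2) (Q w / Q u)
    refine ⟨a, Subtype.ext (sub_eq_zero.mp (hK' _ (U.sub_mem (U.smul_mem a hu) w.2) ?_))⟩
    change Q (a • u - w) = 0
    rw [Q_sub, Q_smul, ← ha, div_mul_cancel₀ _ hQu, hp _ (U.smul_mem a hu) _ w.2]
    linear_combination Q w * h2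
  · refine sub_eq_zero.mp (hK' _ (U.sub_mem (hUx w hw) hw) ?_)
    rw [Q_sub, hp _ (hUx w hw) _ hw]
    have : Q _ = Q w := OG.map_Q g w
    rw [hg, toOG_apply] at this
    linear_combination this + Q w * h2

end Cfsg.Agent.S2599
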