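import Cfsg.Statements.S2600
import Cfsg.Agent.Lib.Aut.Sp4

set_option autoImplicit false
open Cfsg

namespace Cfsg.Agent.S2600

open Cfsg.Agent.Lib.Aut Cfsg.Agent.Lib.Aut.Sp SemidirectProduct in

/-- Outer automorphism group of PSp_4(q) for q = 2^f even: it is cyclic of order 2f, generated by the class of the exceptional (graph-field) automorphism whose square is the Frobenius field automorphism. -/
theorem result {F : Type*} [Field F] [Fintype F] {f : ℕ} (hf : 1 ≤ f) (hF : Fintype.card F = 2 ^ f) : IsCyclic (Cfsg.Out (Cfsg.PSp 2 F)) ∧ Nat.card (Cfsg.Out (Cfsg.PSp 2 F)) = 2 * f := by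
  have := charP_of_card F hF
  obtain ⟨h1, h2⟩ := frob_gen hF
  let x : Out (PSp 2 F) := QuotientGroup.mk (hat F)
  have h3 : ∀ k : ℤ, hat F ^ (2 * k) = (X 2 F).Θ ⟨_, inr_mem (frobeniusEquiv F 2 ^ k)⟩ := fun k => by
    rw [zpow_mul, zpow_ofNat, hat_sq, ← map_zpow]
    exact congrArg _ (Subtype.ext (map_zpow inr _ _).symm)
  have h4 : ∀ β ∈ (X 2 F).Θ.range, (QuotientGroup.mk β : Out (PSp 2 F)) ∈ Subgroup.zpowers x := by
    rintro _ ⟨a, rfl⟩
    obtain ⟨d, hd⟩ := SemiSetup.Θ_eq_mul a (inr_mem _)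
    obtain ⟨k, hk⟩ := h2 a.1.right
    refine ⟨2 * k, ?_⟩
    rw [hd, QuotientGroup.mk_mul, (QuotientGroup.eq_one_iff _).mpr ((range_ψ_two le_rfl).le ⟨d, rfl⟩),
      one_mul]
    simp only [x, ← QuotientGroup.mk_zpow, h3, ← hk]
  have h5 : Subgroup.zpowers x = ⊤ := by
    rw [eq_top_iff]
    rintro y -
    obtain ⟨β, rfl⟩ := QuotientGroup.mk_surjective y
    rcases mem_range_or β with h | h
    · simpa [x] using mul_mem (Subgroup.mem_zpowers x) (h4 _ h)
    · exact h4 _ h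
  refine ⟨⟨x, fun y => h5.ge (Subgroup.mem_top y)⟩, ?_⟩
  rw [← Subgroup.card_top, ← h5, Nat.card_zpowers]
  have h6 : ∀ k : ℕ, x ^ (2 * k) = 1 ↔ f ∣ k := fun k => by
    have := h3 k
    rw [show (2 * k : ℤ) = (2 * k : ℕ) by simp, zpow_natCast] at this
    rw [← QuotientGroup.mk_pow, QuotientGroup.eq_one_iff, this, ← range_ψ_two le_rfl, ← h1,
      orderOf_dvd_iff_pow_eq_one, ← zpow_natCast]
    refine ⟨fun h => (ker le_rfl).right_eq_one _ h, fun h => ⟨1, ?_⟩⟩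
    simp only [h, map_one]
    exact (map_one _).symm
  refine Nat.dvd_antisymm (orderOf_dvd_of_pow_eq_one ((h6 f).mpr dvd_rfl)) ?_
  obtain ⟨k, hk | hk⟩ := (orderOf x).even_or_odd'
  · rw [hk]
    exact Nat.mul_dvd_mul_left 2 ((h6 k).mp (hk ▸ pow_orderOf_eq_one x))
  · have h7 := pow_orderOf_eq_one x
    rw [hk, ← QuotientGroup.mk_pow, QuotientGroup.eq_one_iff, ← range_ψ_two le_rfl] at h7
    obtain ⟨d, hd⟩ := h7
    refine (hat_notMem (F := F) ?_).elim
    have := mul_mem (inv_mem (pow_mem (sq_mem (hat F)) k))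
      (show (X 2 F).ψ d ∈ (X 2 F).Θ.range from ⟨_, rfl⟩)
    rwa [hd, pow_succ _ (2 * k), pow_mul, inv_mul_cancel_left] at this

end Cfsg.Agent.S2600
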