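import Cfsg.Statements.S2601
import Cfsg.Agent.Lib.Aut.PSLSpec

set_option autoImplicit false
open Cfsg

namespace Cfsg.Agent.S2601

open Cfsg.Agent.Lib.Aut Cfsg.Agent.Lib.Aut.PSL SemidirectProduct in

/-- Structure of the outer automorphism group of PSL_n(q), n ≥ 3, q = p^f: it has a normal cyclic subgroup of order gcd(n, q − 1) (the diagonal automorphisms) whose quotient is the direct product of a cyclic group of order f (field automorphisms) and a group of order 2 (the inverse-transpose graph automorphism). -/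
theorem result {F : Type*} [Field F] [Fintype F] {p f n : ℕ} [Fact p.Prime] (hf : 1 ≤ f) (hF : Fintype.card F = p ^ f) (hn : 3 ≤ n) : ∃ φ : Cfsg.Out (Matrix.ProjectiveSpecialLinearGroup (Fin n) F) →* Multiplicative (ZMod f × ZMod 2), Function.Surjective φ ∧ IsCyclic φ.ker ∧ Nat.card φ.ker = Nat.gcd n (p ^ f - 1) := by
  have h3 : 3 ≤ Fintype.card (Fin n) := by simpa using hn
  have h2 : 2 ≤ Fintype.card (Fin n) := by omega
  have : Nonempty (Fin n) := ⟨⟨0, by omega⟩⟩
  obtain ⟨e⟩ := ringAut_equiv_zmod F hF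
  let e' : A F ≃* Multiplicative (ZMod f × ZMod 2) :=
    (e.prodCongr (MulEquiv.refl _)).trans (MulEquiv.prodMultiplicative _ _).symm
  let r : Gam (Fin n) F →* Multiplicative (ZMod f × ZMod 2) := e'.toMonoidHom.comp rightHom
  have hr : ∀ a, r a = 1 ↔ a.right = 1 := fun a => by
    show e' a.right = 1 ↔ _
    exact EmbeddingLike.map_eq_one_iff
  let l : r.ker →* GL (Fin n) F :=
    { toFun := fun a => a.1.left
      map_one' := rfl
      map_mul' := fun a b => by
        have := (hr _).mp a.2
        simp [this] }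
  have hl : ∀ d : r.ker, d.1 = inl (l d) := fun d => by
    have := (hr _).mp d.2
    ext : 1
    · rfl
    · simp [this]
  obtain ⟨φ, h1, ⟨k⟩⟩ := out_structure (Θ (Fin n) F) (Θ_surjective h2) r
    (e'.surjective.comp rightHom_surjective)
    (fun a ha => (hr a).mpr (right_eq_one_of_mem_inn h3 a (inn_le_range_ψ ha)))
    ((κ (Fin n) F).comp l)
    (κ_surjective.comp (fun g => ⟨⟨inl g, (hr _).mpr rfl⟩, rfl⟩))
    (fun d => by rw [hl d]; exact ψ_mem_inn_iff h2 _)
  refine ⟨φ, h1, ?_, ?_⟩
  · exact isCyclic_of_surjective k.symm.toMonoidHom k.symm.surjective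
  · rw [Nat.card_congr k.toEquiv, card_quot_pow_range, Nat.card_units, Nat.card_eq_fintype_card, hF,
      Fintype.card_fin]

end Cfsg.Agent.S2601
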