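import Cfsg.Statements.S2604
import Cfsg.Agent.Lib.Forms.OrthOut

set_option autoImplicit false
open Cfsg

namespace Cfsg.Agent.S2604

open Cfsg.Agent.Lib.Forms Module QuadraticMap


/-- Outer automorphism group of the simple orthogonal group Ω_(2m+1)(q), m ≥ 3, q = p^f odd: it is the direct product of a group of order 2 (diagonal automorphisms, from SO) and a cyclic group of order f (field automorphisms). -/
theorem result {F : Type*} [Field F] [Fintype F] {p f m : ℕ} [Fact p.Prime] (hf : 1 ≤ f) (hF : Fintype.card F = p ^ f) (hp : p ≠ 2) (hm : 3 ≤ m) : Nonempty (Cfsg.Out (Cfsg.POmega F (Cfsg.quadFormOdd m F)) ≃* Multiplicative (ZMod 2 × ZMod f)) := by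
  have h2 := two_ne_zero_of_card hF hp
  have hQ := nondeg_qOdd h2 m
  obtain ⟨σ, h1, h3, -⟩ := exists_frob_gen hF
  obtain ⟨χ, k1, k2⟩ := exists_sign_odd hQ (by simp [parity_simps]) (by simp; omega)
  obtain ⟨e⟩ := out_split hQ (by simp; omega) (Phi_surjective_odd h2 hm) (fieldSemi _ σ (qOdd_map m σ)) hf h1 h3
    (sgnZ.toMonoidHom.comp χ) (sgnZ.surjective.comp k1) (fun d => sgnZ.map_eq_one_iff.trans (k2 d))
    (by rw [fieldSemi_pow σ _ (by rw [← h1, pow_orderOf_eq_one])]; exact one_mem _) (fun d hd => by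
      generalize fieldSemi _ σ (qOdd_map m σ) = φ
      rw [mul_assoc d, mul_assoc d]
      have hd' : (φ * d⁻¹ * φ⁻¹).σ = 1 := σ_conj φ (by simp [hd])
      refine (k2 (⟨d, hd⟩ * ⟨φ * d⁻¹ * φ⁻¹, hd'⟩)).mp ?_
      have : χ ⟨φ * d⁻¹ * φ⁻¹, hd'⟩ = 1 ↔ χ ⟨d, hd⟩ = 1 := by rw [k2, k2, conj_mem_NO_iff, inv_mem_iff]
      rw [map_mul]
      revert this
      generalize χ ⟨φ * d⁻¹ * φ⁻¹, hd'⟩ = x, χ ⟨d, hd⟩ = y
      revert x y; decide)
  exact ⟨e.trans (MulEquiv.prodMultiplicative _ _).symm⟩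

end Cfsg.Agent.S2604
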