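import Cfsg.Statements.S2605
import Cfsg.Agent.Lib.Forms.OrthOut

set_option autoImplicit false
open Cfsg

namespace Cfsg.Agent.S2605

open Cfsg.Agent.Lib.Forms Module QuadraticMap


/-- Outer automorphism group of PΩ⁻_2m(q), m ≥ 4, q = 2^f: cyclic of order 2f, generated by a semilinear map inducing the Frobenius automorphism of the field (its f-th power is a graph automorphism, an orthogonal transvection). -/
theorem result {F : Type*} [Field F] [Fintype F] {f m : ℕ} (hf : 1 ≤ f) (hF : Fintype.card F = 2 ^ f) (hm : 4 ≤ m) (a b : F) (hab : ∀ z₁ z₂ : F, z₁ ^ 2 + a * z₁ * z₂ + b * z₂ ^ 2 = 0 → z₁ = 0 ∧ z₂ = 0) : IsCyclic (Cfsg.Out (Cfsg.POmega F (Cfsg.quadFormMinus (m - 1) F a b))) ∧ Nat.card (Cfsg.Out (Cfsg.POmega F (Cfsg.quadFormMinus (m - 1) F a b))) = 2 * f := by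
  have h2 := two_eq_zero_of_card hF
  have hQ := nondeg_qMinus (m - 1) (disc_ne_zero_of_anisotropic hab)
  have hN := nonExc_qMinus (m - 1) hab
  have hev := even_card_minus (m - 1)
  obtain ⟨φ, u, h1, h3, h4, h5⟩ := exists_frob_minus hF (m - 1) hab
  obtain ⟨e⟩ := out_twist hQ hN hev (by simp; omega) (Phi_surjective_minus (by omega) hab) φ hf h1 h3
    (1 : _ →* Unit) (fun _ => ⟨1, rfl⟩)
    (fun d => iff_of_true rfl (mem_NO_of_two hQ hN hev h2 (mem_DG.mp d.2).1 (mem_DG.mp d.2).2))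
    (by rw [h5, dl_ofOG hQ hN hev, hQ.dick_refl h4]) fun s hs h _ => mem_NO_of_two hQ hN hev h2 hs h
  have e' := e.trans MulEquiv.uniqueProd
  exact ⟨e'.isCyclic.mpr inferInstance, (Nat.card_congr e'.toEquiv).trans ((Nat.card_congr Multiplicative.toAdd).trans (Nat.card_zmod _))⟩

end Cfsg.Agent.S2605
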