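import Cfsg.Statements.S2606
import Cfsg.Agent.Lib.Forms.OrthOut

set_option autoImplicit false
open Cfsg

namespace Cfsg.Agent.S2606

open Cfsg.Agent.Lib.Forms Module QuadraticMap


/-- Outer automorphism group of PΩ⁻_2m(q), m ≥ 4, q = p^f odd: it is dihedral of order 8 times cyclic of order f when q ≡ 3 (mod 4) and m is odd, and otherwise the direct product of a group of order 2 with a cyclic group of order 2f. -/
theorem result {F : Type*} [Field F] [Fintype F] {p f m : ℕ} [Fact p.Prime] (hf : 1 ≤ f) (hF : Fintype.card F = p ^ f) (hp : p ≠ 2) (hm : 4 ≤ m) (a b : F) (hab : ∀ z₁ z₂ : F, z₁ ^ 2 + a * z₁ * z₂ + b * z₂ ^ 2 = 0 → z₁ = 0 ∧ z₂ = 0) : if p ^ f % 4 = 3 ∧ Odd m then Nonempty (Cfsg.Out (Cfsg.POmega F (Cfsg.quadFormMinus (m - 1) F a b)) ≃* DihedralGroup 4 × Multiplicative (ZMod f)) else Nonempty (Cfsg.Out (Cfsg.POmega F (Cfsg.quadFormMinus (m - 1) F a b)) ≃* Multiplicative (ZMod 2 × ZMod (2 * f))) := by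
  have h2 := two_ne_zero_of_card hF hp
  have hQ := nondeg_qMinus (m - 1) (disc_ne_zero_of_anisotropic hab)
  have hN := nonExc_qMinus (m - 1) hab
  have hev := even_card_minus (m - 1)
  have hn := neg_mem_Om_minus h2 (m - 1) hab
  have hm1 : Even (m - 1) ↔ Odd m := by rw [Nat.even_sub (by omega)]; simp
  rw [hF, hm1, and_comm] at hn
  obtain ⟨φ, u, h1, h3, h4, h5⟩ := exists_frob_minus hF (m - 1) hab
  split_ifs with h
  · refine out_D4 hQ hN hev h2 (by simp; omega) (Phi_surjective_minus (by omega) hab) (hn.mpr h) φ hf h1 h3 (.inl ?_)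
    rw [← Nat.not_even_iff_odd]
    rintro ⟨k, rfl⟩
    have := h.1
    rw [pow_add, Nat.mul_mod] at this
    have h4 : p ^ k % 4 < 4 := Nat.mod_lt _ (by norm_num)
    generalize p ^ k % 4 = x at this h4
    interval_cases x <;> simp at this
  · obtain ⟨κ, k1, k2⟩ := dg_C2 hQ hN hev h2 (by rwa [hn])
    obtain ⟨e⟩ := out_twist hQ hN hev (by simp; omega) (Phi_surjective_minus (by omega) hab) φ hf h1 h3 κ k1 k2
      (by rw [h5, dl_ofOG hQ hN hev, hQ.dick_refl h4]) fun s => mem_NO_of_notMem hQ hN hev (by rwa [hn])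
    exact ⟨e.trans (MulEquiv.prodMultiplicative _ _).symm⟩

end Cfsg.Agent.S2606
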