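import Cfsg.Statements.S2607
import Cfsg.Agent.Lib.Forms.OrthTri4

set_option autoImplicit false
open Cfsg

namespace Cfsg.Agent.S2607

open Cfsg.Agent.Lib.Forms Module QuadraticMap


/-- Outer automorphism group of PΩ⁺_2m(q), q = 2^f: for m ≥ 5 it is the direct product of a group of order 2 (graph automorphism, an orthogonal transvection) and a cyclic group of order f (field automorphisms); for m = 4 triality enlarges it to S_3 × C_f. -/
theorem result {F : Type*} [Field F] [Fintype F] {f m : ℕ} (hf : 1 ≤ f) (hF : Fintype.card F = 2 ^ f) (hm : 4 ≤ m) : if m = 4 then Nonempty (Cfsg.Out (Cfsg.POmega F (Cfsg.quadFormPlus m F)) ≃* Equiv.Perm (Fin 3) × Multiplicative (ZMod f)) else Nonempty (Cfsg.Out (Cfsg.POmega F (Cfsg.quadFormPlus m F)) ≃* Multiplicative (ZMod 2 × ZMod f)) := by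
  have h2 := two_eq_zero_of_card hF
  split_ifs with h4
  · subst h4
    exact (out_eight hF).1 h2
  have hQ := nondeg_qPlus (F := F) m
  have hN := nonExc_qPlus (F := F) (m := m) (.inr (by omega))
  have hev := even_card_plus m
  obtain ⟨σ, h1, h3, -⟩ := exists_frob_gen hF
  obtain ⟨v, hv⟩ := hQ.exists_Q_eq (by simp; omega) 1
  have hv0 : qPlus m F v ≠ 0 := by simp [hv]
  obtain ⟨e⟩ := out_split hQ (by simp; omega) (Phi_surjective_plus (by omega)) (fieldSemi _ σ (qPlus_map m σ)) hf h1 h3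
    (sgnZ.toMonoidHom.comp (dlHom hQ hN hev)) (sgnZ.surjective.comp (sign_surjective
      (a := ⟨Semi.ofOG _ (refl _ v), rfl⟩) (by rw [dlHom_apply, dl_ofOG hQ hN hev, hQ.dick_refl hv0]; decide)))
    (fun d => sgnZ.map_eq_one_iff.trans ⟨mem_NO_of_two hQ hN hev h2 d.2, dl_of_mem_NO hQ hN hev⟩)
    (by rw [fieldSemi_pow σ _ (by rw [← h1, pow_orderOf_eq_one])]; exact one_mem _)
    fun d hd => mem_NO_of_two hQ hN hev h2 (σ_comm hd _) (dl_comm hQ hN hev hd _)
  exact ⟨e.trans (MulEquiv.prodMultiplicative _ _).symm⟩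

end Cfsg.Agent.S2607
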