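import Cfsg.Statements.S2608
import Cfsg.Agent.Lib.Forms.OrthTri4

set_option autoImplicit false
open Cfsg

namespace Cfsg.Agent.S2608

open Cfsg.Agent.Lib.Forms Module QuadraticMap


/-- Outer automorphism group of PΩ⁺_2m(q), q = p^f odd: for m = 4 it is S_4 × C_f (triality); for m ≥ 5 it is C_2 × C_2 × C_f when q ≡ 3 (mod 4) and m is odd, and D_8 × C_f otherwise. -/
theorem result {F : Type*} [Field F] [Fintype F] {p f m : ℕ} [Fact p.Prime] (hf : 1 ≤ f) (hF : Fintype.card F = p ^ f) (hp : p ≠ 2) (hm : 4 ≤ m) : if m = 4 then Nonempty (Cfsg.Out (Cfsg.POmega F (Cfsg.quadFormPlus m F)) ≃* Equiv.Perm (Fin 4) × Multiplicative (ZMod f)) else if p ^ f % 4 = 3 ∧ Odd m then Nonempty (Cfsg.Out (Cfsg.POmega F (Cfsg.quadFormPlus m F)) ≃* Multiplicative (ZMod 2 × ZMod 2 × ZMod f)) else Nonempty (Cfsg.Out (Cfsg.POmega F (Cfsg.quadFormPlus m F)) ≃* DihedralGroup 4 × Multiplicative (ZMod f)) := by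
  have h2 := two_ne_zero_of_card hF hp
  by_cases h4 : m = 4
  · rw [if_pos h4]
    subst h4
    exact (out_eight hF).2 h2
  rw [if_neg h4]
  have hQ := nondeg_qPlus (F := F) m
  have hN := nonExc_qPlus (F := F) (m := m) (.inr (by omega))
  have hev := even_card_plus m
  have hn := neg_mem_Om_plus h2 m
  rw [hF, and_comm] at hn
  obtain ⟨σ, h1, h3, -⟩ := exists_frob_gen hF
  have h5 := fieldSemi_pow σ (qPlus_map m σ) (n := f) (by rw [← h1, pow_orderOf_eq_one])
  have : Nonempty (Fin m) := ⟨⟨0, by omega⟩⟩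
  split_ifs with h
  · have hn' := mt hn.mp (not_not.mpr h)
    obtain ⟨e⟩ := out_split hQ (by simp; omega) (Phi_surjective_plus (by omega)) (fieldSemi _ σ (qPlus_map m σ)) hf h1 h3
      (sgnZZ.toMonoidHom.comp (dlsc hQ hN hev)) (sgnZZ.surjective.comp (dlsc_surjective hQ hN hev h2))
      (fun d => sgnZZ.map_eq_one_iff.trans (dlsc_eq_one_iff_of_notMem hQ hN hev hn'))
      (by rw [h5]; exact one_mem _)
      fun d hd => mem_NO_of_notMem hQ hN hev hn' (σ_comm hd _) (dl_comm hQ hN hev hd _) (sc_comm _ _)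
    exact ⟨e.trans ((MulEquiv.prodMultiplicative _ _).symm.trans (AddEquiv.toMultiplicative AddEquiv.prodAssoc))⟩
  · let i : Fin m := ⟨0, by omega⟩
    refine out_D4 hQ hN hev h2 (by simp; omega) (Phi_surjective_plus (by omega)) (hn.mpr h)
      (fieldSemi _ σ (qPlus_map m σ)) hf h1 h3 (.inr ⟨h5, Pi.single (.inl i) 1 + Pi.single (.inr i) 1, ?_, ?_⟩)
    · have := isHypSys_qPlus (F := F) m
      rw [Q_add_of_hyp (this.qe i) (this.qf i) (by simpa using this.ef i i)]
      exact one_ne_zero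
    · ext k
      simp [fieldSemi_e, Pi.single_apply, apply_ite σ]

end Cfsg.Agent.S2608
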