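import Cfsg.Statements.S2612
import Cfsg.Agent.Lib.Forms.QuadSum

set_option autoImplicit false
open Cfsg

namespace Cfsg.Agent.S2612

open Cfsg.Agent.Lib.Forms Module QuadraticMap


/-- For the hyperbolic quadratic form Σ x_i y_i on F^(2m) (F finite, m ≥ 1, excluding m = 2 over the field of two elements), Ω⁺_2m(F) (the commutator subgroup of the orthogonal group) contains an element interchanging the two complementary maximal totally singular subspaces {y = 0} and {x = 0} if and only if m is even (dimension divisible by 4). -/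
theorem result {F : Type*} [Field F] [Fintype F] {m : ℕ} (hm : 1 ≤ m) (h : Fintype.card F ≠ 2 ∨ m ≠ 2) : (∃ g : ↥(Cfsg.isometryGroup F (Cfsg.quadFormPlus m F)), g ∈ Cfsg.Omega F (Cfsg.quadFormPlus m F) ∧ (∀ v : Fin m ⊕ Fin m → F, (∀ i, v (Sum.inr i) = 0) → ∀ i, (((g : Matrix.GeneralLinearGroup (Fin m ⊕ Fin m) F) : Matrix (Fin m ⊕ Fin m) (Fin m ⊕ Fin m) F).mulVec v) (Sum.inl i) = 0) ∧ (∀ v : Fin m ⊕ Fin m → F, (∀ i, v (Sum.inl i) = 0) → ∀ i, (((g : Matrix.GeneralLinearGroup (Fin m ⊕ Fin m) F) : Matrix (Fin m ⊕ Fin m) (Fin m ⊕ Fin m) F).mulVec v) (Sum.inr i) = 0)) ↔ Even m := by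
  have hN := nonExc_qPlus (F := F) h
  have hQ := nondeg_qPlus (F := F) m
  have hH := isHypSys_qPlus (F := F) m
  constructor
  · rintro ⟨g, hg, h1, -⟩
    have hL := isLag_ker_funLeft_inr (F := F) m
    have hd := ((hQ.mem_Om_iff hN _).mp ((mem_Omega_iff (Q := qPlus m F) g).mp hg)).1
    rw [← hQ.even_sub_img_iff hN hL, finrank_ker_funLeft_inr] at hd
    have : LinearMap.ker (LinearMap.funLeft F F (Sum.inr : Fin m → Fin m ⊕ Fin m)) ⊓
        img (toOG (qPlus m F) g) (LinearMap.ker (LinearMap.funLeft F F (Sum.inr : Fin m → Fin m ⊕ Fin m))) = ⊥ := by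
      rw [eq_bot_iff]
      rintro _ ⟨hx, y, hy, rfl⟩
      rw [Submodule.mem_bot]
      ext (k | k)
      · exact h1 y (fun i => congrFun (LinearMap.mem_ker.mp hy) i) k
      · exact congrFun (LinearMap.mem_ker.mp hx) k
    rwa [this, finrank_bot, Nat.sub_zero] at hd
  · intro he
    have hb : ∀ i : Fin m, qPlus m F (Pi.single (.inl i) 1 - Pi.single (.inr i) 1) = -1 := fun i => by
      rw [Q_sub, hH.qe, hH.qf, hH.ef]; simp
    obtain ⟨g, h1, h2, h3⟩ := hQ.exists_refl_prod hN
      (fun i : Fin m => (Pi.single (Sum.inl i) 1 - Pi.single (Sum.inr i) 1 : Fin m ⊕ Fin m → F))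
      (fun i => by rw [hb]; simp) (fun i j hij => by
        rw [polar_sub_left, polar_sub_right, polar_sub_right, hH.ee, hH.ef, hH.fe, hH.ff]; simp [hij]) Finset.univ
    have h4 : ∀ x : Fin m ⊕ Fin m → F, g.1 x = x ∘ Sum.swap := fun x => by
      rw [h3]
      simp only [hb, polar_sub_right, polar_comm _ x, polar_qPlus_e, polar_qPlus_f]
      ext (k | k) <;> simp [Finset.sum_apply, Pi.single_apply, polar_qPlus_e, polar_qPlus_f]
    refine ⟨(toOG (qPlus m F)).symm g, ?_, fun v hv i => ?_, fun v hv i => ?_⟩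
    · refine (mem_Omega_iff (Q := qPlus m F) _).mpr ?_
      rw [MulEquiv.apply_symm_apply, hQ.mem_Om_iff hN, h1, h2]
      simp [hb, he.neg_one_pow, sqc_one]
    · exact (congrFun ((toOG_symm_mulVec g v).trans (h4 v)) _).trans (hv i)
    · exact (congrFun ((toOG_symm_mulVec g v).trans (h4 v)) _).trans (hv i)

end Cfsg.Agent.S2612
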