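import Cfsg.Statements.S2614
import Cfsg.Agent.Lib.Forms.QuadTorus

set_option autoImplicit false
open Cfsg

namespace Cfsg.Agent.S2614

open Cfsg.Agent.Lib.Forms Module QuadraticMap

theorem diag_single {F ι : Type*} [Field F] [Fintype ι] [DecidableEq ι] (d : ι → F) (k : ι) :
    (Matrix.diagonal d).mulVec (Pi.single k 1) = d k • Pi.single k 1 := by
  rw [Matrix.diagonal_mulVec_single, ← Pi.single_smul', smul_eq_mul]


/-- For the form x_0² + Σ x_j y_j on F^(2m+1), F finite with q elements, q odd, and 1 ≤ i ≤ m: the involution of determinant one negating the first i hyperbolic pairs (and fixing x_0 and the other pairs) lies in Ω_(2m+1)(q) (commutator subgroup of the orthogonal group) if and only if q^i ≡ 1 (mod 4); its (−1)-eigenspace is a hyperbolic 2i-space. -/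
theorem result {F : Type*} [Field F] [Fintype F] {q : ℕ} (hF : Fintype.card F = q) (hq : Odd q) {m : ℕ} (i : ℕ) (hi : 1 ≤ i) (him : i ≤ m) : (∃ g : ↥(Cfsg.isometryGroup F (Cfsg.quadFormOdd m F)), g ∈ Cfsg.Omega F (Cfsg.quadFormOdd m F) ∧ ((g : Matrix.GeneralLinearGroup (Unit ⊕ (Fin m ⊕ Fin m)) F) : Matrix (Unit ⊕ (Fin m ⊕ Fin m)) (Unit ⊕ (Fin m ⊕ Fin m)) F) = Matrix.diagonal (fun k : Unit ⊕ (Fin m ⊕ Fin m) => if (Sum.elim (fun _ : Unit => i) (Sum.elim (fun j : Fin m => (j : ℕ)) (fun j : Fin m => (j : ℕ))) k) < i then (-1 : F) else 1)) ↔ q ^ i % 4 = 1 := by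
  have hodd : Odd (Fintype.card F) := hF ▸ hq
  have h2 := two_ne_zero_of_odd_card hodd
  have hQ := nondeg_qOdd (F := F) h2 m
  have hN := hQ.nonExc_of_two h2
  have h := isHypSys_qOdd (F := F) m
  obtain ⟨g, h1, h3, h4, h5, h6⟩ := h.exists_diag hQ hN (fun j : Fin m => if (j : ℕ) < i then (-1 : F) else 1)
    (fun j => by split_ifs <;> simp)
  have hp : ∏ j : Fin m, (if (j : ℕ) < i then (-1 : F) else 1) = (-1) ^ i := by
    rw [Finset.prod_ite, Finset.prod_const_one, mul_one, Finset.prod_const, Fin.card_filter_val_lt, min_eq_right him]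
  refine (exists_mem_Omega_eq_iff (Q := qOdd m F) g _ ?_).trans ?_
  · intro v
    refine LinearMap.congr_fun (h.ext_lin (φ := g.1.toLinearMap) (ψ := Matrix.mulVecLin _) (fun j => ?_)
      (fun j => ?_) (fun w hw => ?_)) v
    · rw [LinearEquiv.coe_coe, h4, Matrix.mulVecLin_apply, diag_single]; rfl
    · rw [LinearEquiv.coe_coe, h5, Matrix.mulVecLin_apply, diag_single]
      congr 1
      by_cases hj : (j : ℕ) < i <;> simp [hj]
    · rw [LinearEquiv.coe_coe, h6 w hw]
      ext (k | k | k)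
      · simp [Matrix.mulVec_diagonal]
      · simp [Matrix.mulVec_diagonal, (polar_qOdd_f m k w).symm.trans (hw.2 k)]
      · simp [Matrix.mulVec_diagonal, (polar_qOdd_e m k w).symm.trans (hw.1 k)]
  · rw [hQ.mem_Om_iff hN, h1, h3, hp, sqc_eq_one_iff, isSquare_neg_one_pow_iff hodd, hF]
    simp

end Cfsg.Agent.S2614
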