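import Cfsg.Statements.S2615
import Cfsg.Agent.Lib.Forms.QuadTorus

set_option autoImplicit false
open Cfsg

namespace Cfsg.Agent.S2615

open Cfsg.Agent.Lib.Forms Module QuadraticMap

theorem diag_single {F ι : Type*} [Field F] [Fintype ι] [DecidableEq ι] (d : ι → F) (k : ι) :
    (Matrix.diagonal d).mulVec (Pi.single k 1) = d k • Pi.single k 1 := by
  rw [Matrix.diagonal_mulVec_single, ← Pi.single_smul', smul_eq_mul]


/-- For an elliptic form Σ_(j<m−1) x_j y_j + (z₁² + a z₁z₂ + b z₂²) (anisotropic binary part) on F^(2m), F finite with q elements, q odd, and 1 ≤ i ≤ m − 1: the involution negating the first i hyperbolic pairs and fixing the rest lies in Ω⁻_2m(q) (commutator subgroup of the orthogonal group) if and only if q^i ≡ 1 (mod 4). -/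
theorem result {F : Type*} [Field F] [Fintype F] {q : ℕ} (hF : Fintype.card F = q) (hq : Odd q) {m : ℕ} (a b : F) (hab : ∀ z₁ z₂ : F, z₁ ^ 2 + a * z₁ * z₂ + b * z₂ ^ 2 = 0 → z₁ = 0 ∧ z₂ = 0) (i : ℕ) (hi : 1 ≤ i) (him : i + 1 ≤ m) : (∃ g : ↥(Cfsg.isometryGroup F (Cfsg.quadFormMinus (m - 1) F a b)), g ∈ Cfsg.Omega F (Cfsg.quadFormMinus (m - 1) F a b) ∧ ((g : Matrix.GeneralLinearGroup ((Fin (m - 1) ⊕ Fin (m - 1)) ⊕ Fin 2) F) : Matrix ((Fin (m - 1) ⊕ Fin (m - 1)) ⊕ Fin 2) ((Fin (m - 1) ⊕ Fin (m - 1)) ⊕ Fin 2) F) = Matrix.diagonal (fun k : (Fin (m - 1) ⊕ Fin (m - 1)) ⊕ Fin 2 => if (Sum.elim (Sum.elim (fun j : Fin (m - 1) => (j : ℕ)) (fun j : Fin (m - 1) => (j : ℕ))) (fun _ : Fin 2 => i) k) < i then (-1 : F) else 1)) ↔ q ^ i % 4 = 1 := by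
  have hodd : Odd (Fintype.card F) := hF ▸ hq
  have h2 := two_ne_zero_of_odd_card hodd
  have hQ := nondeg_qMinus (F := F) (m - 1) (disc_ne_zero_of_anisotropic hab)
  have hN := hQ.nonExc_of_two h2
  have h := isHypSys_qMinus (F := F) (m - 1) a b
  obtain ⟨g, h1, h3, h4, h5, h6⟩ := h.exists_diag hQ hN
    (fun j : Fin (m - 1) => if (j : ℕ) < i then (-1 : F) else 1) (fun j => by split_ifs <;> simp)
  have hp : ∏ j : Fin (m - 1), (if (j : ℕ) < i then (-1 : F) else 1) = (-1) ^ i := by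
    rw [Finset.prod_ite, Finset.prod_const_one, mul_one, Finset.prod_const, Fin.card_filter_val_lt,
      min_eq_right (by omega)]
  refine (exists_mem_Omega_eq_iff (Q := qMinus (m - 1) F a b) g _ ?_).trans ?_
  · intro v
    refine LinearMap.congr_fun (h.ext_lin (φ := g.1.toLinearMap) (ψ := Matrix.mulVecLin _) (fun j => ?_)
      (fun j => ?_) (fun w hw => ?_)) v
    · rw [LinearEquiv.coe_coe, h4, Matrix.mulVecLin_apply, diag_single]; rfl
    · rw [LinearEquiv.coe_coe, h5, Matrix.mulVecLin_apply, diag_single]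
      congr 1
      by_cases hj : (j : ℕ) < i <;> simp [hj]
    · rw [LinearEquiv.coe_coe, h6 w hw]
      ext ((k | k) | k)
      · simp [Matrix.mulVec_diagonal, (polar_qMinus_f _ a b k w).symm.trans (hw.2 k)]
      · simp [Matrix.mulVec_diagonal, (polar_qMinus_e _ a b k w).symm.trans (hw.1 k)]
      · simp [Matrix.mulVec_diagonal]
  · rw [hQ.mem_Om_iff hN, h1, h3, hp, sqc_eq_one_iff, isSquare_neg_one_pow_iff hodd, hF]
    simp

end Cfsg.Agent.S2615
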