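import Cfsg.Statements.S2618
import Cfsg.Agent.Lib.Forms.QuadClassify2

set_option autoImplicit false
open Cfsg

namespace Cfsg.Agent.S2618

open Cfsg.Agent.Lib.Forms Module QuadraticMap


/-- Standard (parabolic) basis of a non-degenerate quadratic space of odd dimension 2m + 1 over a finite field (the non-degeneracy of the polar form forces the characteristic to be odd): there is a basis e_i, f_i (i < m), x with Q(e_i) = Q(f_i) = 0, B(e_i, f_j) = δ_ij (B the polar form), the e's pairwise orthogonal and the f's pairwise orthogonal, x orthogonal to all of them and Q(x) ≠ 0. -/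
theorem result {F V : Type*} [Field F] [Finite F] [AddCommGroup V] [Module F V] [FiniteDimensional F V] {m : ℕ} (hV : Module.finrank F V = 2 * m + 1) (Q : QuadraticForm F V) (hQ : (QuadraticMap.polarBilin Q).Nondegenerate) : ∃ b : Module.Basis (Unit ⊕ (Fin m ⊕ Fin m)) F V, Q (b (Sum.inl ())) ≠ 0 ∧ (∀ i, QuadraticMap.polar ⇑Q (b (Sum.inl ())) (b (Sum.inr (Sum.inl i))) = 0 ∧ QuadraticMap.polar ⇑Q (b (Sum.inl ())) (b (Sum.inr (Sum.inr i))) = 0) ∧ (∀ i, Q (b (Sum.inr (Sum.inl i))) = 0 ∧ Q (b (Sum.inr (Sum.inr i))) = 0) ∧ (∀ i j, QuadraticMap.polar ⇑Q (b (Sum.inr (Sum.inl i))) (b (Sum.inr (Sum.inr j))) = if i = j then 1 else 0) ∧ (∀ i j, QuadraticMap.polar ⇑Q (b (Sum.inr (Sum.inl i))) (b (Sum.inr (Sum.inl j))) = 0 ∧ QuadraticMap.polar ⇑Q (b (Sum.inr (Sum.inr i))) (b (Sum.inr (Sum.inr j))) = 0) := by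
  obtain ⟨c, hc, φ, hφ⟩ := Nondeg.simil_qOdd hQ hV
  have hq : ∀ u, Q (φ.symm u) = c⁻¹ * qOdd m F u := fun u => by
    have := hφ (φ.symm u)
    rw [LinearEquiv.apply_symm_apply] at this
    rw [this]; field_simp
  have hp : ∀ u v, polar Q (φ.symm u) (φ.symm v) = c⁻¹ * polar (qOdd m F) u v := fun u v => by
    simp only [polar, ← map_add, hq]; ring
  let w : Unit ⊕ (Fin m ⊕ Fin m) → Fˣ := Sum.elim (fun _ => 1) (Sum.elim (fun _ => Units.mk0 c hc) (fun _ => 1))
  refine ⟨((Pi.basisFun F _).map φ.symm).unitsSMul w, ?_, ?_, ?_, ?_, ?_⟩ <;>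
    simp [Basis.unitsSMul_apply, w, Units.smul_def, Q_smul, hp, hq, qOdd_apply, polar_qOdd, Pi.single_apply,
      eq_comm, hc]

end Cfsg.Agent.S2618
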