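import Cfsg.Statements.S2619
import Cfsg.Agent.Lib.Forms.QuadBasic

set_option autoImplicit false
open Cfsg

namespace Cfsg.Agent.S2619

open Cfsg.Agent.Lib.Forms Module QuadraticMap


/-- Over a finite field of characteristic two, given an alternating bilinear form B on a finite-dimensional space, a basis (v_i) and scalars (λ_i), there is exactly one quadratic form whose polar form is B and whose value at each v_i is λ_i. -/
theorem result {F V ι : Type*} [Field F] [Finite F] [CharP F 2] [AddCommGroup V] [Module F V] [Fintype ι] (b : Module.Basis ι F V) (B : LinearMap.BilinForm F V) (hB : B.IsAlt) (c : ι → F) : ∃! Q : QuadraticForm F V, QuadraticMap.polarBilin Q = B ∧ ∀ i, Q (b i) = c i := by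
  classical
  let e := Fintype.equivFin ι
  let B' : LinearMap.BilinForm F V := b.constr F fun i => b.constr F fun j =>
    if i = j then c i else if e i < e j then B (b i) (b j) else 0
  have hB' : ∀ i j, B' (b i) (b j) = if i = j then c i else if e i < e j then B (b i) (b j) else 0 := by
    intro i j; simp only [B', Basis.constr_basis]
  have h2 : (2 : F) = 0 := CharP.cast_eq_zero F 2
  refine ⟨LinearMap.BilinMap.toQuadraticMap B', ⟨?_, fun i => by simp [hB']⟩, ?_⟩
  · rw [LinearMap.BilinMap.polarBilin_toQuadraticMap]
    refine b.ext fun i => b.ext fun j => ?_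
    rw [LinearMap.add_apply, LinearMap.add_apply, LinearMap.flip_apply, hB', hB']
    by_cases hij : i = j
    · subst hij
      rw [if_pos rfl, hB (b i)]
      linear_combination c i * h2
    · rw [if_neg hij, if_neg (Ne.symm hij)]
      rcases lt_or_gt_of_ne (e.injective.ne hij) with h | h
      · rw [if_pos h, if_neg h.not_gt, add_zero]
      · rw [if_neg h.not_gt, if_pos h, zero_add, ← hB.neg_eq]
        linear_combination (-B (b i) (b j)) * h2
  · have uniq : ∀ Q Q' : QuadraticForm F V, polarBilin Q = polarBilin Q' → (∀ i, Q (b i) = Q' (b i)) → Q = Q' := by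
      intro Q Q' h1 h3
      ext v
      have hv : v ∈ Submodule.span F (Set.range b) := by rw [b.span_eq]; trivial
      induction hv using Submodule.span_induction with
      | mem x hx => obtain ⟨i, rfl⟩ := hx; exact h3 i
      | zero => simp
      | add x y _ _ hx hy => rw [Q_add, Q_add, hx, hy, ← polarBilin_apply_apply, h1, polarBilin_apply_apply]
      | smul a x _ hx => rw [Q_smul, Q_smul, hx]
    rintro Q ⟨h1, h3⟩
    refine uniq _ _ ?_ fun i => by simp [hB', h3]
    rw [h1, LinearMap.BilinMap.polarBilin_toQuadraticMap]
    refine b.ext fun i => b.ext fun j => ?_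
    rw [LinearMap.add_apply, LinearMap.add_apply, LinearMap.flip_apply, hB', hB']
    by_cases hij : i = j
    · subst hij
      rw [if_pos rfl, hB (b i)]
      linear_combination (-c i) * h2
    · rw [if_neg hij, if_neg (Ne.symm hij)]
      rcases lt_or_gt_of_ne (e.injective.ne hij) with h | h
      · rw [if_pos h, if_neg h.not_gt, add_zero]
      · rw [if_neg h.not_gt, if_pos h, zero_add, ← hB.neg_eq]
        linear_combination (-B (b j) (b i)) * h2

end Cfsg.Agent.S2619
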