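import Cfsg.Statements.S2623
import Cfsg.Agent.Lib.Forms.QuadClassify2

set_option autoImplicit false
open Cfsg

namespace Cfsg.Agent.S2623

open Cfsg.Agent.Lib.Forms Module QuadraticMap


/-- Over a finite field of odd order, two quadratic forms on F^n with non-degenerate polar forms are isometric (related by an invertible linear change of variables) if and only if their discriminants (determinants of the Gram matrices of their polar forms) lie in the same square class. -/
theorem result {F : Type*} [Field F] [Fintype F] (h2 : (2 : F) ≠ 0) {n : ℕ} (Q₁ Q₂ : QuadraticForm F (Fin n → F)) (h₁ : (QuadraticMap.polarBilin Q₁).Nondegenerate) (h₂ : (QuadraticMap.polarBilin Q₂).Nondegenerate) : (∃ g : (Fin n → F) ≃ₗ[F] (Fin n → F), ∀ v, Q₂ (g v) = Q₁ v) ↔ IsSquare ((Matrix.of (fun i j : Fin n => QuadraticMap.polar ⇑Q₁ (Pi.single i 1) (Pi.single j 1))).det * (Matrix.of (fun i j : Fin n => QuadraticMap.polar ⇑Q₂ (Pi.single i 1) (Pi.single j 1))).det) := by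
  have e1 := Nondeg.disc_eq h₁ (Pi.basisFun F _)
  have e2 := Nondeg.disc_eq h₂ (Pi.basisFun F _)
  have g1 : gram Q₁ (Pi.basisFun F (Fin n)) =
      Matrix.of (fun i j : Fin n => polar ⇑Q₁ (Pi.single i 1) (Pi.single j 1)) := by
    ext i j; simp [gram]
  have g2 : gram Q₂ (Pi.basisFun F (Fin n)) =
      Matrix.of (fun i j : Fin n => polar ⇑Q₂ (Pi.single i 1) (Pi.single j 1)) := by
    ext i j; simp [gram]
  rw [← g1, ← g2, isSquare_mul_iff_sqc (Nondeg.gram_det_ne_zero h₁ _) (Nondeg.gram_det_ne_zero h₂ _),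
    ← e1, ← e2]
  exact ⟨fun ⟨g, hg⟩ => (disc_of_isom h₂ g hg).symm, fun h => Nondeg.isom_of_disc h2 h₁ h₂ rfl h⟩

end Cfsg.Agent.S2623
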