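import Cfsg.Statements.S2625
import Cfsg.Agent.Lib.Forms.QuadClassify2

set_option autoImplicit false
open Cfsg

namespace Cfsg.Agent.S2625

open Cfsg.Agent.Lib.Forms Module QuadraticMap


/-- For a quadratic form Q on F^n with non-degenerate polar form, F finite and n odd (so |F| is odd), the multiplier of any similarity is a square: if g is an invertible linear map with Q(g v) = c·Q(v) for all v then c is a square. -/
theorem result {F : Type*} [Field F] [Fintype F] {n : ℕ} (hn : Odd n) (Q : QuadraticForm F (Fin n → F)) (hQ : (QuadraticMap.polarBilin Q).Nondegenerate) (g : (Fin n → F) ≃ₗ[F] (Fin n → F)) (c : F) (hg : ∀ v, Q (g v) = c * Q v) : IsSquare c := by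
  by_cases hc : c = 0
  · exact ⟨0, by simp [hc]⟩
  have := disc_of_simil hQ g hc hg
  obtain ⟨k, rfl⟩ := hn
  rw [finrank_fintype_fun_eq_card, Fintype.card_fin, right_eq_mul, pow_succ, pow_mul, Int.units_sq, one_pow,
    one_mul] at this
  exact sqc_eq_one_iff.mp this

end Cfsg.Agent.S2625
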