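import Cfsg.Statements.S2634
import Cfsg.Agent.Lib.Forms.QuadSum

set_option autoImplicit false
open Cfsg

namespace Cfsg.Agent.S2634

open Cfsg.Agent.Lib.Forms Module QuadraticMap


/-- Over a finite field of characteristic two, Ω (the commutator subgroup of the orthogonal group of a quadratic form Q on F^n with non-degenerate polar form; excluding dimension 4 over the field of two elements) acts transitively on the non-singular 1-spaces: for u, v with Q(u) ≠ 0 and Q(v) ≠ 0 some element of Ω carries the line through u to the line through v. -/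
theorem result {F : Type*} [Field F] [Fintype F] [CharP F 2] {n : ℕ} (h : Fintype.card F ≠ 2 ∨ n ≠ 4) (Q : QuadraticForm F (Fin n → F)) (hQ : (QuadraticMap.polarBilin Q).Nondegenerate) (u v : Fin n → F) (hu : Q u ≠ 0) (hv : Q v ≠ 0) : ∃ g : ↥(Cfsg.isometryGroup F ⇑Q), g ∈ Cfsg.Omega F ⇑Q ∧ (F ∙ ((g : Matrix.GeneralLinearGroup (Fin n) F) : Matrix (Fin n) (Fin n) F).mulVec u) = F ∙ v := by
  have hQ' : Nondeg Q := hQ
  have hN := hQ'.nonExc_of_card (by simpa using h)
  obtain ⟨a, ha⟩ := FiniteField.isSquare_of_char_two (ringChar.eq F 2) (Q v / Q u)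
  have hQa : Q (a • u) = Q v := by rw [Q_smul, ← ha, div_mul_cancel₀ _ hu]
  have ha0 : a ≠ 0 := by rintro rfl; rw [zero_smul, map_zero] at hQa; exact hv hQa.symm
  have hu0 : u ≠ 0 := by rintro rfl; exact hu (map_zero Q)
  obtain ⟨g, hg⟩ := hQ'.witt_one (smul_ne_zero ha0 hu0) (by rintro rfl; exact hv (map_zero Q)) hQa
  have key : ∃ g' ∈ Om Q, (F ∙ g'.1 u) = F ∙ v := by
    have hgu : (F ∙ g.1 u) = F ∙ v := by
      rw [← hg, map_smul, Submodule.span_singleton_smul_eq ha0.isUnit]
    rcases Int.units_eq_one_or (dick g) with hd | hd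
    · exact ⟨g, (hQ'.mem_Om_iff_of_char_two hN g).mpr hd, hgu⟩
    · refine ⟨g * refl Q u, (hQ'.mem_Om_iff_of_char_two hN _).mpr ?_, ?_⟩
      · rw [hQ'.dick_mul hN, hd, hQ'.dick_refl hu]; simp
      · rw [OG.mul_apply, refl_apply_self hu, map_neg, ← hgu, ← Set.neg_singleton, Submodule.span_neg]
  obtain ⟨g', h1, h2⟩ := key
  exact ⟨(toOG Q).symm g', by rwa [mem_Omega_iff, MulEquiv.apply_symm_apply], by rw [toOG_symm_mulVec, h2]⟩

end Cfsg.Agent.S2634
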