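import Cfsg.Statements.S2635
import Cfsg.Agent.Lib.Forms.QuadMatrix

set_option autoImplicit false
open Cfsg

namespace Cfsg.Agent.S2635

open Cfsg.Agent.Lib.Forms Module QuadraticMap


/-- Over a finite field of characteristic two, for a quadratic form Q on F^n with non-degenerate polar form, n ≥ 2, other than dimension 4 over the field of two elements, Ω (the commutator subgroup of the orthogonal group) is exactly the subgroup generated by the products of two reflections (orthogonal transvections) x ↦ x − Q(v)⁻¹ f(x, v) v, Q(v) ≠ 0: the products of an even number of reflections. -/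
theorem result {F : Type*} [Field F] [Fintype F] [CharP F 2] {n : ℕ} (hn : 2 ≤ n) (h : Fintype.card F ≠ 2 ∨ n ≠ 4) (Q : QuadraticForm F (Fin n → F)) (hQ : (QuadraticMap.polarBilin Q).Nondegenerate) : Cfsg.Omega F ⇑Q = Subgroup.closure {g : ↥(Cfsg.isometryGroup F ⇑Q) | ∃ u v : Fin n → F, Q u ≠ 0 ∧ Q v ≠ 0 ∧ ((g : Matrix.GeneralLinearGroup (Fin n) F) : Matrix (Fin n) (Fin n) F) = Cfsg.reflectionMatrix ⇑Q u * Cfsg.reflectionMatrix ⇑Q v} := by
  have hN : NonExc Q := Nondeg.nonExc_of_card hQ (by simpa using h)
  apply le_antisymm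
  · intro g hg
    rw [mem_Omega_iff] at hg
    obtain ⟨l, hl, hgl⟩ := Nondeg.exists_refl_list hQ hN (toOG Q g)
    rw [hgl, Nondeg.list_mem_Om_iff hQ hN l hl] at hg
    have hg' : g = (toOG Q).symm (l.map (refl Q)).prod := by rw [← hgl]; simp
    rw [hg']
    obtain ⟨k, hk⟩ := hg.1
    clear hg hgl hg'
    induction k generalizing l with
    | zero =>
      rw [List.length_eq_zero_iff.mp hk]
      simp
    | succ k ih =>
      match l, hl, hk with
      | [], _, hk => simp at hk
      | [_], _, hk => simp at hk; omega
      | u :: v :: l, hl, hk =>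
        rw [List.map_cons, List.map_cons, List.prod_cons, List.prod_cons, ← mul_assoc, map_mul]
        refine mul_mem (Subgroup.subset_closure ⟨u, v, hl u (by simp), hl v (by simp), ?_⟩)
          (ih l (fun x hx => hl x (by simp [hx])) (by simp at hk; omega))
        refine matrix_ext_mulVec fun x => ?_
        rw [toOG_symm_mulVec, ← Matrix.mulVec_mulVec, reflectionMatrix_mulVec, reflectionMatrix_mulVec,
          OG.mul_apply]
  · rw [Subgroup.closure_le]
    rintro g ⟨u, v, hu, hv, hg⟩
    have : toOG Q g = refl Q u * refl Q v := OG.ext' fun x => by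
      rw [toOG_apply, hg, ← Matrix.mulVec_mulVec, reflectionMatrix_mulVec, reflectionMatrix_mulVec,
        OG.mul_apply]
    rw [SetLike.mem_coe, mem_Omega_iff, this]
    exact Nondeg.refl_mul_refl_mem_Om hQ hu hv (FiniteField.isSquare_of_char_two (ringChar.eq F 2) _)

end Cfsg.Agent.S2635
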