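import Cfsg.Statements.S2636
import Cfsg.Agent.Lib.GL.FixedField

set_option autoImplicit false
open Cfsg

namespace Cfsg.Agent.S2636

open Cfsg.Agent.Lib.GL.H90 Cfsg.Agent.Lib.GL.Count

/-- Centraliser of a field automorphism in PGL_n: let F be the field with q = q₀^r elements, σ a field automorphism of F of prime order r (so its fixed field has q₀ elements) and n ≥ 1. The invertible matrices g whose entrywise image under σ is a scalar multiple of g — those whose coset modulo scalars is fixed by σ — number (q − 1)/(q₀ − 1) · |GL_n(q₀)|; equivalently the centraliser in PGL_n(q) of the induced automorphism has the order of PGL_n(q₀). -/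
theorem result {F : Type*} [Field F] [Fintype F] {q₀ r n : ℕ} (hr : r.Prime) (hn : 1 ≤ n) (hF : Fintype.card F = q₀ ^ r) (σ : F ≃+* F) (hσ : orderOf σ = r) : Nat.card {g : GL (Fin n) F // ∃ c : F, c ≠ 0 ∧ (g : Matrix (Fin n) (Fin n) F).map σ = c • (g : Matrix (Fin n) (Fin n) F)} = (q₀ ^ r - 1) / (q₀ - 1) * ∏ i : Fin n, (q₀ ^ n - q₀ ^ (i : ℕ)) := by
  classical
  have : Nonempty (Fin n) := ⟨⟨0, hn⟩⟩
  have hF₀ : Nat.card (fixedSub σ) = q₀ := card_fixedSub σ hσ (by rw [Nat.card_eq_fintype_card, hF])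
  let F₀ := fixedSub σ
  let : Fintype F₀ := Fintype.ofFinite _
  let m := Matrix.GeneralLinearGroup.map (n := Fin n) F₀.subtype
  let S := {g : GL (Fin n) F // ∃ c : F, c ≠ 0 ∧
    (g : Matrix (Fin n) (Fin n) F).map σ = c • (g : Matrix (Fin n) (Fin n) F)}
  have hm : ∀ g₀ : GL (Fin n) F₀, glAut (Fin n) σ (m g₀) = m g₀ := fun g₀ =>
    (glAut_eq_self_iff σ _).2 ⟨g₀, rfl⟩
  let π : Fˣ × GL (Fin n) F₀ → S := fun z =>
    ⟨Matrix.GeneralLinearGroup.scalar (Fin n) z.1 * m z.2, σ z.1 / z.1, by simp, by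
      have h1 : glAut (Fin n) σ (Matrix.GeneralLinearGroup.scalar (Fin n) z.1 * m z.2) =
          Matrix.GeneralLinearGroup.scalar (Fin n) (Units.map (σ : F →* F) z.1) * m z.2 := by
        rw [map_mul, hm, glAut_scalar]
      have h2 := congrArg Units.val h1
      rw [coe_glAut] at h2
      rw [h2]
      ext i j
      simp
      field_simp⟩
  have hfib : ∀ s : S, Nonempty ({z // π z = s} ≃ F₀ˣ) := by
    rintro ⟨g, c, hc0, hc⟩
    obtain ⟨d, hd0, -, hd⟩ := exists_smul_fixed σ hr.pos hσ g c hc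
    have h1 : glAut (Fin n) σ (Matrix.GeneralLinearGroup.scalar (Fin n) (Units.mk0 d hd0) * g) =
        Matrix.GeneralLinearGroup.scalar (Fin n) (Units.mk0 d hd0) * g := by
      have h2 : ((Matrix.GeneralLinearGroup.scalar (Fin n) (Units.mk0 d hd0) * g : GL (Fin n) F) :
          Matrix (Fin n) (Fin n) F) = d • (g : Matrix (Fin n) (Fin n) F) := by
        ext i j; simp
      apply Units.ext
      rw [coe_glAut, h2, hd]
    obtain ⟨g₀, hg₀⟩ := (glAut_eq_self_iff σ _).1 h1
    change m g₀ = _ at hg₀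
    let u : F₀ˣ →* Fˣ := Units.map (F₀.subtype : F₀ →* F)
    have hmu : ∀ e : F₀ˣ, m (Matrix.GeneralLinearGroup.scalar (Fin n) e) =
        Matrix.GeneralLinearGroup.scalar (Fin n) (u e) := by
      intro e
      ext i j
      by_cases h : i = j <;> simp [m, u, h]
    refine ⟨(Equiv.ofBijective (fun e : F₀ˣ => (⟨((Units.mk0 d hd0)⁻¹ * u e,
      Matrix.GeneralLinearGroup.scalar (Fin n) e⁻¹ * g₀), ?_⟩ : {z // π z = ⟨g, c, hc0, hc⟩}))
      ⟨?_, ?_⟩).symm⟩
    · simp only [π, Subtype.mk.injEq, map_mul, hmu, hg₀, map_inv]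
      group
    · intro e e' h
      simp only [Subtype.mk.injEq, Prod.mk.injEq, mul_right_inj] at h
      exact Units.map_injective F₀.subtype_injective h.1
    · rintro ⟨⟨a, g₁⟩, hz⟩
      replace hz : Matrix.GeneralLinearGroup.scalar (Fin n) a * m g₁ = g := congrArg Subtype.val hz
      have h3 : m g₀ = Matrix.GeneralLinearGroup.scalar (Fin n) (Units.mk0 d hd0 * a) * m g₁ := by
        rw [hg₀, ← hz, map_mul, mul_assoc]
      have h4 := hm g₀
      rw [h3, map_mul, hm, glAut_scalar] at h4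
      have h5 : σ (d * a) = d * a := by
        simpa using congrArg (fun x : GL (Fin n) F => (x : Matrix (Fin n) (Fin n) F) ⟨0, hn⟩ ⟨0, hn⟩)
          (mul_right_cancel h4)
      have h6 : u (Units.mk0 ⟨d * a, h5⟩ (by simp [Subtype.ext_iff, hd0])) = Units.mk0 d hd0 * a := by
        ext; simp [u]
      refine ⟨Units.mk0 ⟨d * a, h5⟩ (by simp [Subtype.ext_iff, hd0]), ?_⟩
      simp only [Subtype.mk.injEq, Prod.mk.injEq]
      refine ⟨by rw [h6]; group, gl_map_injective _ F₀.subtype_injective ?_⟩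
      change m _ = m _
      rw [map_mul, hmu, h3, map_inv, h6, map_inv]
      group
  have h1 := card_eq_mul_of_fibers π hfib
  rw [Nat.card_prod, Nat.card_units, Nat.card_units, hF₀, Matrix.card_GL_field,
    Nat.card_eq_fintype_card, hF, ← Nat.card_eq_fintype_card, hF₀] at h1
  have hq₀ : 1 < q₀ := by rw [← hF₀]; exact Finite.one_lt_card
  obtain ⟨k, hk⟩ : q₀ - 1 ∣ q₀ ^ r - 1 := by simpa using Nat.sub_dvd_pow_sub_pow q₀ 1 r
  rw [hk, Nat.mul_div_cancel_left _ (by omega)]
  rw [hk] at h1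
  refine Nat.eq_of_mul_eq_mul_right (by omega : 0 < q₀ - 1) ?_
  change Nat.card S * _ = _
  rw [← h1]; ring

end Cfsg.Agent.S2636
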