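import Cfsg.Statements.S2637
import Cfsg.Agent.Lib.GL.JordanGU
import Cfsg.Agent.Lib.GL.AltConj

set_option autoImplicit false
open Cfsg

namespace Cfsg.Agent.S2637

open Module Matrix Polynomial Cfsg.Agent.Lib.GL.Jordan Cfsg.Agent.Lib.GL.Isom
  Cfsg.Agent.Lib.GL.Herm Cfsg.Agent.Lib.GL.HermConj Cfsg.Agent.Lib.GL.Alt Cfsg.Agent.Lib.Forms

theorem card_comm {F K V : Type*} [Field F] [Fintype F] [Field K] [Fintype K] [Algebra F K]
    [AddCommGroup V] [Module F V] [Module K V] [IsScalarTower F K V] [FiniteDimensional F V] {q m : ℕ}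
    (hF : Fintype.card F = q) (hK : Fintype.card K = q ^ 2) (hq : q % 3 = 2) {ω : K}
    (hω : ω ^ 2 + ω + 1 = 0) (hgen : ∀ a : K, ∃ s t : F, a = s • ω + t • 1)
    (hm : finrank F V = 2 * m) {B : LinearMap.BilinForm F V} (hA : B.IsAlt) (hB : B.Nondegenerate)
    (hi : ∀ u v, B (ω • u) (ω • v) = B u v) :
    (Nat.card {T : End K V // ∀ u v, B (T u) (T v) = B u v} : ℤ) = guOrder q m := by
  obtain ⟨σ, hσq, hσ⟩ := exists_isInvol hK
  have h3 : ω ^ 3 = 1 := by linear_combination (ω - 1) * hω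
  have hσω : σ ω = ω ^ 2 := by
    rw [hσq, ← Nat.div_add_mod q 3, hq, pow_add, pow_mul, h3, one_pow, one_mul]
  have hσF : ∀ c : F, σ (algebraMap F K c) = algebraMap F K c := fun c => by
    rw [hσq, ← map_pow, ← hF, FiniteField.pow_card]
  have h1 : ∀ u v, B (ω • ω • u) v = - B u v - B (ω • u) v := fun u v => by
    rw [smul_smul, show ω * ω = -1 - ω by linear_combination hω]
    simp [sub_smul]
  have h2 : ∀ u v, B u (ω • v) = - B u v - B (ω • u) v := fun u v => by
    rw [← h1, ← hi (ω • ω • u), smul_smul, smul_smul, show ω * ω * ω = 1 by linear_combination h3,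
      one_smul]
  have hind : ∀ s t : F, ω ^ 2 * algebraMap F K s - algebraMap F K t = 0 → s = 0 := fun s t h => by
    by_contra hs
    have h4 := congrArg σ h
    rw [map_sub, map_mul, map_pow, hσω, hσF, hσF, map_zero] at h4
    have h5 : ω ^ 2 = ω := mul_right_cancel₀ ((map_ne_zero (algebraMap F K)).2 hs)
      (by linear_combination h - h4 + ω * algebraMap F K s * h3)
    obtain ⟨a, ha⟩ := hσ.ne
    obtain ⟨s, t, rfl⟩ := hgen a
    simp [Algebra.smul_def, hσF, hσω, h5] at ha
  let h : V →ₗ[K] V →ₛₗ[σ] K := LinearMap.mk₂'ₛₗ (RingHom.id K) σ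
    (fun u v => ω ^ 2 * algebraMap F K (B u v) - algebraMap F K (B (ω • u) v))
    (fun _ _ _ => by simp; ring)
    (fun c u v => by
      obtain ⟨s, t, rfl⟩ := hgen c
      simp only [add_smul, smul_assoc, one_smul, smul_add, smul_comm ω s, smul_comm ω t, map_add,
        map_smul, LinearMap.add_apply, LinearMap.smul_apply, h1]
      simp [Algebra.smul_def]
      linear_combination (-(algebraMap F K s * algebraMap F K (B u v))) * h3 +
        (algebraMap F K s * algebraMap F K (B (ω • u) v)) * hω)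
    (fun _ _ _ => by simp; ring)
    (fun c u v => by
      obtain ⟨s, t, rfl⟩ := hgen c
      simp only [add_smul, smul_assoc, one_smul, map_add, map_smul, hi, h2 u]
      simp [Algebra.smul_def, hσF, hσω]
      linear_combination (-(algebraMap F K s * algebraMap F K (B u v)) * ω) * h3 +
        (-(algebraMap F K s * algebraMap F K (B u v))) * hω)
  have hh : ∀ u v, h u v = ω ^ 2 * algebraMap F K (B u v) - algebraMap F K (B (ω • u) v) :=
    fun _ _ => rfl
  have hH : IsHerm h := ⟨fun u v => by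
    rw [hh, hh, ← LinearMap.IsAlt.neg hA u, ← LinearMap.IsAlt.neg hA u, h2]
    simp [hσF, hσω]
    linear_combination (-ω * algebraMap F K (B u v)) * h3 - algebraMap F K (B u v) * hω,
    fun v hv => hB.2 v fun u => hind _ _ (hv u)⟩
  have : Finite V := Module.finite_of_finite F
  have h4 : finrank K V = m := by
    have := Module.finrank_mul_finrank F K V
    rw [finrank_eq_two_of_card hK hF] at this
    omega
  obtain ⟨e, he⟩ := hH.exists_equiv hσ (ι := Fin m) (by simp [h4])
  have h5 := card_unitary_matrix (κ := Fin m) hK hσq hσ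
  rw [Fintype.card_fin] at h5
  rw [← h5]
  congr 1
  refine Nat.card_congr ((matOf e).toEquiv.subtypeEquiv fun T => ?_)
  rw [← unitary_iff hσ]
  refine Iff.trans ⟨fun h6 u v => by rw [hh, hh, ← map_smul, h6, h6], fun h6 u v => ?_⟩
    (matOf_unitary_iff e he T).symm
  refine sub_eq_zero.1 (hind _ (B (ω • T u) (T v) - B (ω • u) v) ?_)
  have := h6 u v
  rw [hh, hh] at this
  rw [map_sub, map_sub]
  linear_combination this


/-- Centraliser of a fixed-point-free element of order three in Sp_2m(q) when q ≡ 2 (mod 3): if x ∈ Sp_2m(F) (|F| = q, m ≥ 1) satisfies x³ = 1 and x − 1 is invertible, then its centraliser in Sp_2m(F) has the order of the unitary group GU_m(q), namely q^(m(m−1)/2) Π_(i=1)^m (q^i − (−1)^i) (x lies in the centre of a subgroup GU_m(q) of Sp_2m(q)). -/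
theorem result {F : Type*} [Field F] [Fintype F] {q : ℕ} (hF : Fintype.card F = q) (hq : q % 3 = 2) {m : ℕ} (hm : 1 ≤ m) (x : Matrix.symplecticGroup (Fin m) F) (hx3 : x ^ 3 = 1) (hfpf : IsUnit ((x : Matrix (Fin m ⊕ Fin m) (Fin m ⊕ Fin m) F) - 1)) : (Nat.card ↥(Subgroup.centralizer ({x} : Set ↥(Matrix.symplecticGroup (Fin m) F))) : ℤ) = (q : ℤ) ^ (m * (m - 1) / 2) * ∏ i : Fin m, ((q : ℤ) ^ ((i : ℕ) + 1) - (-1) ^ ((i : ℕ) + 1)) := by
  have hx := (mem_symplecticGroup_iff_sympForm _).1 x.2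
  have h0 : x.1 ^ 2 + x.1 + 1 = 0 := hfpf.mul_right_eq_zero.1 (by
    have : x.1 ^ 3 = 1 := congrArg Subtype.val hx3
    rw [← sub_eq_zero] at this
    rw [← this]; noncomm_ring)
  have h1 : (X ^ 2 + X + 1 : F[X]).natDegree = 2 := by compute_degree!
  have : Fact (Irreducible (X ^ 2 + X + 1 : F[X])) :=
    ⟨irreducible_of_degree_le_three_of_not_isRoot (by simp [h1]) fun z hz => by
      have hz' : z ^ 2 + z + 1 = 0 := by simpa using hz
      have h3 : z ^ 3 = 1 := by linear_combination (z - 1) * hz'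
      have h4 := FiniteField.pow_card z
      rw [hF, ← Nat.div_add_mod q 3, hq, pow_add, pow_mul, h3, one_pow, one_mul] at h4
      have h5 : z = 1 := by linear_combination h3 - (z + 1) * h4
      have h6 : (3 : F) = 0 := by rw [h5] at hz'; linear_combination hz'
      have h7 := FiniteField.cast_card_eq_zero F
      rw [hF, ← Nat.div_add_mod q 3, hq] at h7
      push_cast at h7
      exact one_ne_zero (α := F) (by linear_combination (1 + (q / 3 : ℕ)) * h6 - h7)⟩
  let pb := AdjoinRoot.powerBasis this.out.ne_zero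
  have : FiniteDimensional F (AdjoinRoot (X ^ 2 + X + 1 : F[X])) := pb.finite
  have : Finite (AdjoinRoot (X ^ 2 + X + 1 : F[X])) := Module.finite_of_finite F
  have := Fintype.ofFinite (AdjoinRoot (X ^ 2 + X + 1 : F[X]))
  let θ : AdjoinRoot (X ^ 2 + X + 1 : F[X]) →ₐ[F] End F (Fin m ⊕ Fin m → F) :=
    Ideal.Quotient.liftₐ _ (aeval (toLin' x.1)) fun a ha => by
      obtain ⟨c, rfl⟩ := Ideal.mem_span_singleton.1 ha
      rw [map_mul, Cfsg.Agent.Lib.GL.Sim.aeval_toLin'_eq_zero.2 (by simpa using h0), zero_mul]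
  let : Module (AdjoinRoot (X ^ 2 + X + 1 : F[X])) (Fin m ⊕ Fin m → F) :=
    Module.compHom _ θ.toRingHom
  have hs : ∀ (a : AdjoinRoot (X ^ 2 + X + 1 : F[X])) (v : Fin m ⊕ Fin m → F), a • v = θ a v :=
    fun _ _ => rfl
  have : IsScalarTower F (AdjoinRoot (X ^ 2 + X + 1 : F[X])) (Fin m ⊕ Fin m → F) :=
    ⟨fun c a v => by rw [hs, hs, map_smul]; rfl⟩
  have hω : ∀ v : Fin m ⊕ Fin m → F, AdjoinRoot.root (X ^ 2 + X + 1 : F[X]) • v = x.1 *ᵥ v :=
    fun v => LinearMap.congr_fun (aeval_X (toLin' x.1)) v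
  have hgen : ∀ a : AdjoinRoot (X ^ 2 + X + 1 : F[X]), ∃ s t : F,
      a = s • AdjoinRoot.root _ + t • 1 := fun a => by
    obtain ⟨f, hf, rfl⟩ := pb.exists_eq_aeval a
    rw [eq_X_add_C_of_natDegree_le_one (p := f) (by
      simp only [pb, AdjoinRoot.powerBasis_dim, h1] at hf; omega)]
    exact ⟨f.coeff 1, f.coeff 0, by simp [pb, Algebra.smul_def]⟩
  change _ = guOrder q m
  rw [← card_comm (K := AdjoinRoot (X ^ 2 + X + 1 : F[X])) hF
    (by rw [Module.card_eq_pow_finrank (K := F), pb.finrank, AdjoinRoot.powerBasis_dim, h1, hF]) hq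
    (by
      have := AdjoinRoot.eval₂_root (X ^ 2 + X + 1 : F[X])
      rwa [eval₂_add, eval₂_add, eval₂_X_pow, eval₂_X, eval₂_one] at this) hgen (by simp [two_mul])
    (sympBilin_isAlt m) (sympBilin_nondegenerate m)
    (fun u v => by rw [hω, hω, sympBilin_apply, hx, sympBilin_apply])]
  congr 1
  refine Nat.card_congr (Equiv.ofBijective (fun g => ⟨⟨(toLin' g.1.1).toAddHom, fun a v => ?_⟩,
    fun u v => ?_⟩) ⟨fun g g' h => Subtype.ext (Subtype.ext (toLin'.injective
      (LinearMap.ext fun v => LinearMap.congr_fun (congrArg Subtype.val h) v))), ?_⟩)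
  · obtain ⟨s, t, rfl⟩ := hgen a
    have := congrArg Subtype.val (Subgroup.mem_centralizer_singleton_iff.1 g.2)
    simp only [Submonoid.coe_mul] at this
    simp [add_smul, hω, mulVec_add, mulVec_smul, this]
  · rw [sympBilin_apply, sympBilin_apply]
    exact (mem_symplecticGroup_iff_sympForm _).1 g.1.2 u v
  · rintro ⟨T, hT⟩
    refine ⟨⟨⟨LinearMap.toMatrix' (T.restrictScalars F), (mem_symplecticGroup_iff_sympForm _).2
      fun u v => by simpa [sympBilin_apply] using hT u v⟩,
      Subgroup.mem_centralizer_singleton_iff.2 (Subtype.ext (toLin'.injective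
        (LinearMap.ext fun v => ?_)))⟩, Subtype.ext (LinearMap.ext fun v => by simp)⟩
    simp [← mulVec_mulVec, ← hω]

end Cfsg.Agent.S2637
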