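import Cfsg.Statements.S2638
import Cfsg.Agent.Lib.GL.SemiSimple

set_option autoImplicit false
open Cfsg

namespace Cfsg.Agent.S2638

open Module Matrix Polynomial Cfsg.Agent.Lib.GL.SemiSimple Cfsg.Agent.Lib.GL.Jordan
  Cfsg.Agent.Lib.GL.Isom Cfsg.Agent.Lib.GL.AltConj

/-- If an element x of GL_n(q), n ≥ 1, has prime order r and the multiplicative order of q modulo r is n (r is a primitive prime divisor of q^n − 1, so x acts irreducibly), then the centraliser of x in GL_n(q) is cyclic of order q^n − 1 (the multiplicative group of the field with q^n elements, a Singer cycle). -/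
theorem result {F : Type*} [Field F] [Fintype F] {p q : ℕ} [Fact p.Prime] [CharP F p] (hF : Fintype.card F = q) {n r : ℕ} (hn : 1 ≤ n) (hr : r.Prime) (hrp : r ≠ p) (hi : orderOf (q : ZMod r) = n) (x : GL (Fin n) F) (hx : orderOf x = r) : IsCyclic ↥(Subgroup.centralizer ({x} : Set (GL (Fin n) F))) ∧ Nat.card ↥(Subgroup.centralizer ({x} : Set (GL (Fin n) F))) = q ^ n - 1 := by
  have hrF : (r : F) ≠ 0 := fun h => hrp ((Nat.prime_dvd_prime_iff_eq Fact.out hr).1
    ((CharP.cast_eq_zero_iff F p _).1 h)).symm
  have h0 : toLin' x.1 ^ r = 1 := by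
    rw [← toLin'_pow, ← Units.val_pow_eq_pow_val, ← hx, pow_orderOf_eq_one]; simp [End.one_eq_id]
  obtain ⟨L, _, _, z, W, _, _, T', e, h1, h2, h3⟩ := exists_field_summand
    (isSemisimple_of_pow_eq_one hrF h0) _ (range_sub_mapsTo (toLin' x.1) 1) (fun h => by
      rw [LinearMap.range_eq_bot, sub_eq_zero, one_smul, End.one_eq_id, ← toLin'_one,
        toLin'.injective.eq_iff, Units.val_eq_one] at h
      exact hr.one_lt.ne (by rw [← hx, h, orderOf_one]))
  have : FiniteDimensional F (L × W) := e.finiteDimensional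
  have : FiniteDimensional F L := .of_surjective (LinearMap.fst F L W) Prod.fst_surjective
  have : FiniteDimensional F W := .of_surjective (LinearMap.snd F L W) Prod.snd_surjective
  have : Finite L := Module.finite_of_finite F
  have h4 : ∀ k v, (e ((toLin' x.1 ^ k) v)).1 = z ^ k * (e v).1 := fun k => by
    induction k with
    | zero => simp
    | succ k ih => intro v; rw [pow_succ, End.mul_apply, ih, h1, pow_succ, mul_assoc]
  have h5 : z ^ r = 1 := by simpa [h0] using (h4 r (e.symm (1, 0))).symm
  have h6 : z ≠ 1 := by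
    rintro rfl
    obtain ⟨w, hw⟩ := h3 1
    have h7 := semisimple_of_squarefree (separable_X_pow_sub_C 1 hrF one_ne_zero).squarefree
      (A := toLin' x.1) (by simp [h0]) 1 w (e.injective (by
        rw [hw, LinearMap.sub_apply, map_sub, h1]; simp))
    rw [hw] at h7
    simpa using congrArg e h7
  have : Fact r.Prime := ⟨hr⟩
  have hL : Nat.card L = q ^ finrank F L := by
    rw [Module.natCard_eq_pow_finrank (K := F), Nat.card_eq_fintype_card, hF]
  have h7 : n ∣ finrank F L := by
    have := Fintype.ofFinite L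
    have h8 := FiniteField.pow_card_sub_one_eq_one z (by rintro rfl; simp [hr.ne_zero] at h5)
    rw [← orderOf_dvd_iff_pow_eq_one, orderOf_eq_prime h5 h6, ← Nat.card_eq_fintype_card, hL,
      ← ZMod.natCast_eq_zero_iff, Nat.cast_sub (hL ▸ Nat.card_pos), sub_eq_zero] at h8
    rw [← hi, orderOf_dvd_iff_pow_eq_one]
    simpa using h8
  have h8 := e.finrank_eq
  rw [finrank_prod, finrank_fintype_fun_eq_card, Fintype.card_fin] at h8
  have h9 := Nat.le_of_dvd finrank_pos h7
  have : Subsingleton W := finrank_zero_iff.1 (show finrank F W = 0 by omega)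
  have : Unique W := uniqueOfSubsingleton 0
  let e' := (e.trans (LinearEquiv.prodUnique (R := F))).symm
  have h10 : ∀ y, x.1 *ᵥ e' y = e' (z * y) := fun y => by
    obtain ⟨v, rfl⟩ := e'.symm.surjective y
    rw [e'.apply_symm_apply, ← LinearEquiv.symm_apply_eq]
    exact congrArg Prod.fst (h1 v)
  let θ : Lˣ →* GL (Fin n) F := Units.map ((matOf e').toAlgHom.comp (Algebra.lmul F L)).toMonoidHom
  have hθ : ∀ y w, (θ y).1 *ᵥ e' w = e' (y * w) := fun y w => matOf_mulVec e' _ w
  have : Nonempty (Fin n) := ⟨⟨0, hn⟩⟩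
  have hinj : Function.Injective θ := Units.map_injective (RingHom.injective
    ((matOf e').toAlgHom.comp (Algebra.lmul F L)).toRingHom)
  have hext : ∀ {A B : GL (Fin n) F}, (∀ w, A.1 *ᵥ e' w = B.1 *ᵥ e' w) → A = B := fun h =>
    Units.ext (toLin'.injective (LinearMap.ext fun v => by
      obtain ⟨w, rfl⟩ := e'.surjective v; exact h w))
  have hr : θ.range = Subgroup.centralizer {x} := by
    ext g
    rw [Subgroup.mem_centralizer_singleton_iff]
    constructor
    · rintro ⟨y, rfl⟩
      exact hext fun w => by simp only [Units.val_mul, ← mulVec_mulVec, hθ, h10, mul_left_comm]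
    · intro hg
      obtain ⟨y, hy⟩ := e'.surjective (g.1 *ᵥ e' 1)
      have h11 : ∀ w, g.1 *ᵥ e' w = e' (w * y) := fun w => by
        obtain ⟨f, rfl⟩ := h2 w
        induction f using Polynomial.induction_on with
        | C a => rw [aeval_C, ← Algebra.smul_def, Algebra.algebraMap_eq_smul_one, map_smul,
            mulVec_smul, map_smul, hy]
        | add f f' h h' => rw [map_add, map_add, mulVec_add, h, h', add_mul, map_add]
        | monomial k a h =>
          rw [pow_succ, ← mul_assoc, map_mul, aeval_X, mul_comm, ← h10, mulVec_mulVec,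
            ← Units.val_mul, hg, Units.val_mul, ← mulVec_mulVec, h, h10, mul_assoc]
      have h12 : y ≠ 0 := by
        rintro rfl
        have := mulVec_injective_iff_isUnit.2 g.isUnit (hy.symm.trans (by simp) :
          g.1 *ᵥ e' 1 = g.1 *ᵥ 0)
        simp at this
      exact ⟨Units.mk0 y h12, hext fun w => by rw [hθ, h11, mul_comm]; rfl⟩
  rw [← hr]
  exact ⟨isCyclic_of_surjective _ θ.rangeRestrict_surjective, by
    rw [← Nat.card_congr (MonoidHom.ofInjective hinj).toEquiv, Nat.card_units, hL,
      show finrank F L = n by omega]⟩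

end Cfsg.Agent.S2638
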