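import Cfsg.Statements.S2639
import Cfsg.Agent.Lib.GL.Isom

set_option autoImplicit false
open Cfsg

namespace Cfsg.Agent.S2639

open Module Matrix Cfsg.Agent.Lib.GL.Isom Cfsg.Agent.Lib.GL.Herm

/-- The unitary group embeds in the symplectic group of twice the dimension over the subfield: for a field K with q² elements and a field F with q elements (isomorphic to the subfield of K of order q), there is an injective homomorphism GU_m(q) → Sp_2m(F). -/
theorem result {K F : Type*} [Field K] [Fintype K] [Field F] [Fintype F] {q : ℕ} (hK : Fintype.card K = q ^ 2) (hF : Fintype.card F = q) (m : ℕ) : ∃ φ : ↥(Cfsg.GU m K q) →* ↥(Matrix.symplecticGroup (Fin m) F), Function.Injective φ := by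
  obtain ⟨σ, hσq, hσ⟩ := exists_isInvol hK
  obtain ⟨φ, hφ⟩ := exists_ringHom_range_eq_fixed hσ hK hF
  let : Algebra F K := φ.toAlgebra
  have h2 : finrank F K = 2 := finrank_eq_two_of_card hK hF
  have hσφ : ∀ c : F, σ (algebraMap F K c) = algebraMap F K c := fun c => (hφ _).1 ⟨c, rfl⟩
  obtain ⟨l, hl0, hl⟩ := Submodule.exists_le_ker_of_lt_top (Submodule.span F {(1 : K)}) (by
    refine lt_top_iff_ne_top.2 fun h => ?_
    have := finrank_span_singleton (K := F) (one_ne_zero (α := K))
    rw [h, finrank_top, h2] at this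
    omega)
  have hl1 : ∀ a : K, σ a = a → l a = 0 := by
    intro a ha
    obtain ⟨c, rfl⟩ := (hφ a).2 ha
    exact hl (Submodule.mem_span_singleton.2 ⟨c, by simp [Algebra.smul_def]; rfl⟩)
  let B : LinearMap.BilinForm F (Fin m → K) := LinearMap.mk₂ F
    (fun u v => l (stdHerm (Fin m) σ u v)) (fun _ _ _ => by simp)
    (fun c u v => by
      rw [← map_smul, ← algebraMap_smul K c u, LinearMap.map_smulₛₗ]; simp [Algebra.smul_def])
    (fun _ _ _ => by simp)
    (fun c u v => by
      rw [← map_smul, ← algebraMap_smul K c v, LinearMap.map_smulₛₗ, hσφ]; simp [Algebra.smul_def])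
  have hBa : ∀ u v, B u v = l (stdHerm (Fin m) σ u v) := fun _ _ => rfl
  have hA : B.IsAlt := fun v => hl1 _ ((isHerm_stdHerm hσ _).herm v v).symm
  have hsep : ∀ v, (∀ u, B u v = 0) → v = 0 := by
    intro v hv
    refine (isHerm_stdHerm hσ _).nondeg v fun u => ?_
    by_contra h
    apply hl0
    ext a
    have := hv ((a / stdHerm (Fin m) σ u v) • u)
    rwa [hBa, LinearMap.map_smulₛₗ, LinearMap.smul_apply, RingHom.id_apply, smul_eq_mul,
      div_mul_cancel₀ _ h] at this
  have hB : B.Nondegenerate :=
    ⟨fun v hv => hsep v fun u => by rw [← LinearMap.IsAlt.neg hA, hv, neg_zero], hsep⟩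
  let ρ : Cfsg.GU m K q →* Module.End F (Fin m → K) :=
    { toFun := fun g => (Matrix.toLin' ((g : GL (Fin m) K) : Matrix (Fin m) (Fin m) K)).restrictScalars F
      map_one' := LinearMap.ext fun v => by simp
      map_mul' := fun a b => LinearMap.ext fun v => by simp }
  refine exists_hom_symplecticGroup hA hB ?_ ρ ?_ ?_
  · rw [← Module.finrank_mul_finrank F K, h2]; simp
  · intro a b h
    refine Subtype.ext (Units.ext (Matrix.toLin'.injective (LinearMap.ext fun v => ?_)))
    exact LinearMap.congr_fun h v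
  · intro g u v
    rw [hBa, hBa]
    exact congrArg l ((mem_GU_iff hσq _).1 g.2 u v)

end Cfsg.Agent.S2639
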