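import Cfsg.Statements.S2642
import Cfsg.Agent.Lib.GL.JordanGU

set_option autoImplicit false
open Cfsg

namespace Cfsg.Agent.S2642

open Module Matrix Cfsg.Agent.Lib.GL.Jordan Cfsg.Agent.Lib.GL.Sim Cfsg.Agent.Lib.GL.Herm Cfsg.Agent.Lib.GL.HermConj Cfsg.Agent.Lib.GL.Isom

/-- Number of conjugacy classes of elements of order p in the general unitary group GU_n(q), q a power of p: every unipotent Jordan type occurs and the classes correspond to the partitions of n with all parts at most p other than the all-ones partition, exactly as in GL_n; so there are (number of partitions of n with parts ≤ p) − 1 classes. -/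
theorem result {K : Type*} [Field K] [Fintype K] {p q n : ℕ} [Fact p.Prime] [CharP K p] (hK : Fintype.card K = q ^ 2) : Nat.card {C : ConjClasses ↥(Cfsg.GU n K q) // ∃ g : ↥(Cfsg.GU n K q), ConjClasses.mk g = C ∧ orderOf g = p} = (Finset.univ.filter (fun μ : Nat.Partition n => ∀ a ∈ μ.parts, a ≤ p)).card - 1 := by
  refine card_classes_unipotent (Fintype.card_fin n)
    ((Units.coeHom (Matrix (Fin n) (Fin n) K)).comp (Cfsg.GU n K q).subtype)
    (Units.val_injective.comp Subtype.val_injective)
    (fun g g' h => (isConj_GU_iff hK g g').2 (isConj_units_iff.2 h)) fun u hu => ?_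
  obtain ⟨g, hg⟩ := exists_GU_of_unipotent hK u hu
  exact ⟨g, isConj_units_iff.1 hg⟩

end Cfsg.Agent.S2642
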