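import Cfsg.Statements.S2643
import Cfsg.Agent.Lib.GL.JordanGU

set_option autoImplicit false
open Cfsg

namespace Cfsg.Agent.S2643

open Module Matrix Cfsg.Agent.Lib.GL.Jordan Cfsg.Agent.Lib.GL.Sim Cfsg.Agent.Lib.GL.Herm Cfsg.Agent.Lib.GL.HermConj Cfsg.Agent.Lib.GL.Isom

/-- Regular unipotent classes of SU_n(q), n ≥ 2: the elements u of the special unitary group (isometries of Σ u_i v_i^q of determinant one over the field with q² elements) with (u − 1)^n = 0 and rank(u − 1) = n − 1 form exactly gcd(n, q + 1) conjugacy classes of SU_n(q). -/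
theorem result {K : Type*} [Field K] [Fintype K] {q n : ℕ} (hK : Fintype.card K = q ^ 2) (hn : 2 ≤ n) : Nat.card {C : ConjClasses ↥(Cfsg.SU n K q) // ∃ u : ↥(Cfsg.SU n K q), ConjClasses.mk u = C ∧ (((u : GL (Fin n) K) : Matrix (Fin n) (Fin n) K) - 1) ^ n = 0 ∧ (((u : GL (Fin n) K) : Matrix (Fin n) (Fin n) K) - 1).rank = n - 1} = Nat.gcd n (q + 1) := by
  classical
  obtain ⟨σ, hσq, hσ⟩ := exists_isInvol hK
  obtain ⟨u₀, b₀, hb₀⟩ : ∃ (u : Matrix (Fin n) (Fin n) K) (b : _),
      Cfsg.Agent.Lib.GL.Jordan.IsJordan (toLin' (u - 1)) (fun _ : Unit => n) b :=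
    ⟨_, isJordan_reindex (K := K) (d := fun _ : Unit => n) (fun _ => by omega)
      (Fintype.equivOfCardEq (by simp) : (Σ _ : Unit, Fin n) ≃ Fin n)⟩
  have h0 := hb₀.pow_eq_zero (j := n) fun _ => le_rfl
  rw [← toLin'_pow, LinearEquiv.map_eq_zero_iff] at h0
  obtain ⟨u₀, rfl⟩ := isUnit_of_unipotent h0
  obtain ⟨u, hu⟩ := exists_GU_of_unipotent hK u₀ h0
  obtain ⟨b, hb⟩ := hb₀.of_isConj (isConj_units_iff.1 hu)
  have hdet : u.1.1.det = 1 := by
    have := det_smul_one_add_of_isNilpotent (1 : K) hb.exists_pow_eq_zero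
    simpa [End.one_eq_id] using this
  have hB := inv_stdHerm hσ ((mem_GU_iff_adj hσq hσ _).1 u.2)
  have hH := isHerm_stdHerm hσ (Fin n)
  let x₀ : Cfsg.SU n K q := ⟨⟨u.1.1, hdet⟩, u.2⟩
  have hx₀ : suToGU n K q x₀ = u := Subtype.ext (Units.ext rfl)
  rw [card_classes_split (suToGU n K q) suToGU_injective (detGU n hσq hσ)
    (detGU_surjective hσq hσ (by omega)) (range_suToGU hσq hσ) x₀]
  · rw [Nat.gcd_comm, ← card_normOne hK hσ, ← IsCyclic.index_powMonoidHom_range, hx₀]
    congr 1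
    ext a
    constructor
    · rintro ⟨g, hg, rfl⟩
      have h1 : Commute (toLin' g.1.1) (toLin' (u.1.1 - 1)) := commute_toLin'_iff.2
        (commute_sub_one_iff.2 (congrArg (fun x : Cfsg.GU n K q => x.1.1)
          (Subgroup.mem_centralizer_singleton_iff.1 hg)))
      have h2 := hb.det_eq_pow h1
      rw [LinearMap.det_toLin'] at h2
      have h3 := hb.fblk_isometry hB h1 n
      have h4 : (stdHerm (Fin n) σ ∘ₗ toLin' g.1.1).compl₂ (toLin' g.1.1) = stdHerm (Fin n) σ :=
        LinearMap.ext₂ ((mem_GU_iff hσq _).1 g.2)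
      have : Unique {k : Unit // n = n} := ⟨⟨⟨(), rfl⟩⟩, fun _ => rfl⟩
      have h5 := (isUnit_iff_isUnit_det _).1 (hb.isUnit_fblk hB hH.nondeg' n)
      rw [h4] at h3
      replace h3 := congrArg det h3
      rw [det_mul, det_mul, det_transpose, det_unique (Matrix.map _ _), det_unique (toSquareBlock _ _ _),
        mul_right_comm, eq_comm, h5.mul_eq_right] at h3
      exact ⟨⟨Units.mk0 _ (left_ne_zero_of_mul_eq_one h3), mem_normOne.2 h3⟩,
        Subtype.ext (Units.ext h2.symm)⟩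
    · rintro ⟨c, rfl⟩
      refine ⟨guMk hσq ((c.1 : K) • 1) ?_, ?_, Subtype.ext (Units.ext ?_)⟩
      · rw [unitary_iff hσ, adj_smul, adj_one, smul_mul_smul_comm, mul_comm, mem_normOne.1 c.2,
          one_mul, one_smul]
      · exact Subgroup.mem_centralizer_singleton_iff.2 (Subtype.ext (Units.ext (by simp)))
      · rw [coe_detGU, coe_guMk]; simp
  · intro x
    rw [isConj_GU_iff hK, isConj_units_iff, hx₀]
    constructor
    · rintro ⟨h1, h2⟩
      obtain ⟨b', hb'⟩ := exists_isJordan_regular_mat (by omega) (Fintype.card_fin n) h1 h2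
      exact hb.isConj hb'
    · intro h
      obtain ⟨b', hb'⟩ := hb.of_isConj h
      have h1 := hb'.pow_eq_zero (j := n) fun _ => le_rfl
      rw [← toLin'_pow, LinearEquiv.map_eq_zero_iff] at h1
      have h2 := hb'.finrank_ker_pow 1
      have h3 := finrank_ker_add_rank (x.1.1 - 1)
      rw [pow_one] at h2
      refine ⟨h1, ?_⟩
      simp only [Finset.univ_unique, Finset.sum_singleton, Fintype.card_fin] at h2 h3
      have h4 : min 1 n + (x.1.1 - 1).rank = n := h2.symm ▸ h3
      change (x.1.1 - 1).rank = _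
      omega

end Cfsg.Agent.S2643
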