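import Cfsg.Statements.S2644
import Cfsg.Agent.Lib.GL.JordanGU

set_option autoImplicit false
open Cfsg

namespace Cfsg.Agent.S2644

open Module Matrix Cfsg.Agent.Lib.GL.Jordan Cfsg.Agent.Lib.GL.Sim Cfsg.Agent.Lib.GL.Herm Cfsg.Agent.Lib.GL.HermConj Cfsg.Agent.Lib.GL.Isom

/-- In the special unitary group SU_n(q) with n ≥ 3 (isometries of Σ u_i v_i^q of determinant one over the field with q² elements), any two transvections (elements t with t − 1 of rank one and square zero) are conjugate. -/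
theorem result {K : Type*} [Field K] [Fintype K] {q n : ℕ} (hK : Fintype.card K = q ^ 2) (hn : 3 ≤ n) (s t : ↥(Cfsg.SU n K q)) (hs : Cfsg.IsTransvection (((s : GL (Fin n) K) : Matrix (Fin n) (Fin n) K))) (ht : Cfsg.IsTransvection (((t : GL (Fin n) K) : Matrix (Fin n) (Fin n) K))) : IsConj s t := by
  obtain ⟨σ, hσq, hσ⟩ := exists_isInvol hK
  obtain ⟨b, hb⟩ := exists_isJordan_transvection (by omega) hs
  obtain ⟨b', hb'⟩ := exists_isJordan_transvection (by omega) ht
  refine isConj_of_centralizer (suToGU n K q) suToGU_injective (detGU n hσq hσ) (range_suToGU hσq hσ)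
    ((isConj_GU_iff hK _ _).2 (isConj_units_iff.2 (hb.isConj hb'))) fun g => ?_
  have hB := inv_stdHerm hσ ((mem_GU_iff_adj hσq hσ _).1 (suToGU n K q s).2)
  have hH := isHerm_stdHerm hσ (Fin n)
  obtain ⟨M, hM⟩ := hb.isUnit_fblk hB hH.nondeg' 1
  let L : ({k // trType (n - 2) k = 1} → K) →ₗ[K] (Fin n → K) :=
    Fintype.linearCombination K fun k => bb b k.1 0
  have hL : ∀ c, L c = ∑ k, c k • bb b k.1 0 := fun c => rfl
  have hH' : IsHerm (((stdHerm (Fin n) σ) ∘ₗ L).compl₂ L) := ⟨fun u v => hH.herm _ _, fun v hv => by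
    have h1 : M.1 *ᵥ (fun k => σ (v k)) = 0 := by
      ext k
      have := hb.apply_sum_gen (B := stdHerm (Fin n) σ) (Pi.single k 1) v
      rw [Nat.sub_self, pow_zero, ← hM, single_one_dotProduct] at this
      exact this.symm.trans (hv _)
    have h2 := congrArg ((M⁻¹).1 *ᵥ ·) h1
    simp only [mulVec_mulVec, M.inv_mul, one_mulVec, mulVec_zero] at h2
    ext k
    simpa using congrFun h2 k⟩
  have : Nonempty {k // trType (n - 2) k = 1} := ⟨⟨some ⟨0, by omega⟩, rfl⟩⟩
  obtain ⟨c, hc⟩ := hH'.exists_norm_ne_zero hσ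
  obtain ⟨r, h1, h2, h3⟩ := exists_reflection hH (w := L c) hc (mem_normOne.1 (detGU n hσq hσ g).2)
  have h4 := hb.pow_sum_gen c
  obtain ⟨r, rfl⟩ := toLin'.surjective r
  have h5 := h3 _ h4 fun x => hB.pow_left_eq_zero x h4
  rw [pow_one] at h5
  rw [LinearMap.det_toLin'] at h2
  exact ⟨guMk hσq r ((preserves_stdHerm_iff r).1 h1), Subtype.ext (Units.ext
    (commute_sub_one_iff.1 (commute_toLin'_iff.1 h5))), Subtype.ext (Units.ext h2)⟩

end Cfsg.Agent.S2644
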