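import Cfsg.Statements.S2645
import Cfsg.Agent.Lib.GL.SpReal

set_option autoImplicit false
open Cfsg

namespace Cfsg.Agent.S2645

open Cfsg.Agent.Lib.GL.Mult Cfsg.Agent.Lib.GL.ClassCount Cfsg.Agent.Lib.GL.SpReal

/-- Number of conjugacy classes of elements of odd prime order r, r different from the characteristic, in the symplectic group Sp_2m(q): let i be the multiplicative order of q modulo r and t = (r − 1)/i. If i is odd the eigenvalue orbits pair off (Λ ≠ Λ⁻¹) and the classes correspond to the non-zero (t/2)-tuples (a_j) with 2i Σ a_j ≤ 2m, giving C(⌊m/i⌋ + t/2, t/2) − 1 classes; if i is even (Λ = Λ⁻¹) they correspond to the non-zero t-tuples with i Σ a_j ≤ 2m, giving C(⌊2m/i⌋ + t, t) − 1 classes. -/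
theorem result {F : Type*} [Field F] [Fintype F] {p q : ℕ} [Fact p.Prime] [CharP F p] (hF : Fintype.card F = q) (m r i t : ℕ) (hr : r.Prime) (hr2 : r ≠ 2) (hrp : r ≠ p) (hi : i = orderOf (q : ZMod r)) (ht : t * i = r - 1) : Nat.card {C : ConjClasses ↥(Matrix.symplecticGroup (Fin m) F) // ∃ g : Matrix.symplecticGroup (Fin m) F, ConjClasses.mk g = C ∧ orderOf g = r} = if Odd i then Nat.choose (m / i + t / 2) (t / 2) - 1 else Nat.choose (2 * m / i + t) t - 1 := by
  have : Fact r.Prime := ⟨hr⟩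
  have : Fact (2 < r) := ⟨lt_of_le_of_ne hr.two_le hr2.symm⟩
  have hrF : (r : F) ≠ 0 := natCast_ne_zero_of_prime_ne hr hrp
  let x : (ZMod r)ˣ := Units.mk0 _ (card_ne_zero_zmod hr hrF)
  have hx : (x : ZMod r) = Fintype.card F := rfl
  have hxi : orderOf x = i := by rw [hi, ← orderOf_units, ← hF]; rfl
  have hi0 : 0 < i := hxi ▸ orderOf_pos x
  split_ifs with hodd
  · have h1 : orderOf (-1 : (ZMod r)ˣ) = 2 := by
      rw [← orderOf_units]; exact orderOf_neg_one.trans (by
        rw [if_neg]; rw [ZMod.ringChar_zmod_n]; exact hr2)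
    have h2 : orderOf (-x) = 2 * i := by
      rw [← neg_one_mul, (Commute.all _ _).orderOf_mul_eq_mul_orderOf_of_coprime
        (by rw [h1, hxi]; exact (Nat.coprime_two_left).2 hodd), h1, hxi]
    have h3 : 2 ∣ t := by
      have := orderOf_dvd_card (x := -x)
      rw [h2, ZMod.card_units, ← ht] at this
      exact Nat.dvd_of_mul_dvd_mul_right hi0 this
    have h4 : (-x) ^ i = -1 := by rw [hodd.neg_pow, ← hxi, pow_orderOf_eq_one]
    rw [card_classes_symplectic hr2 hrF m (t / 2) (-x) ?_
      (by rw [h2, ← mul_assoc, Nat.div_mul_cancel h3, ht]), h2, Nat.mul_div_mul_left _ _ two_pos]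
    intro f
    constructor
    · intro h
      have h5 := (invariant_zpowers_iff _ _).2 h
      have h6 : ∀ j, f (-j) = f j := fun j => by
        simpa [h4] using h5 ((-x) ^ i) (Subgroup.npow_mem_zpowers _ _) j
      exact ⟨fun j => by rw [← h6, ← h j, ← hx]; simp, h6⟩
    · rintro ⟨h5, h6⟩ j
      rw [Units.val_neg, neg_mul, h6, hx, h5]
  · obtain ⟨b, hb⟩ := Nat.not_odd_iff_even.1 hodd
    have h4 : x ^ b = -1 := pow_half_eq_neg_one (by omega) (by omega)
    rw [card_classes_symplectic hr2 hrF m t x ?_ (by rw [hxi, ht]), hxi]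
    intro f
    refine ⟨fun h => ⟨h, fun j => ?_⟩, fun h => h.1⟩
    simpa [h4] using (invariant_zpowers_iff _ _).2 h (x ^ b) (Subgroup.npow_mem_zpowers _ _) j

end Cfsg.Agent.S2645
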