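import Cfsg.Statements.S2653
import Cfsg.Agent.Lib.Forms.AltMain

set_option autoImplicit false
open scoped MatrixGroups
open Cfsg

namespace Cfsg.Agent.S2653

open Cfsg.Agent.Lib.Forms Module QuadraticMap


/-- Alternating sections of finite linear groups. Let `F` be a finite field of characteristic `p` and `n` a natural number, and suppose some subgroup `H` of GL_n(F) has a normal subgroup `K` with `H ⧸ K` isomorphic to the alternating group of degree `r ≥ 9`. Then `n ≥ r - 2` when `p` divides `r`, and `n ≥ r - 1` otherwise (the smallest degree of a nontrivial projective representation of that alternating group in characteristic `p`). The same bound follows for every classical group with natural module of dimension `n` over `F`, since each is a section of a subgroup of GL_n(F). -/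
theorem result {F : Type*} [Field F] [Fintype F] (p : ℕ) [Fact p.Prime] [CharP F p]
    (n : ℕ) (r : ℕ) (H : Subgroup (GL (Fin n) F)) (K : Subgroup ↥H) [K.Normal]
    (h : Nonempty (↥H ⧸ K ≃* ↥(alternatingGroup (Fin r)))) (hr : 9 ≤ r) :
    r - 1 - (if p ∣ r then 1 else 0) ≤ n := by
  obtain ⟨e⟩ := h
  let π : H →* Equiv.Perm (Fin r) := (alternatingGroup (Fin r)).subtype.comp (e.toMonoidHom.comp (QuotientGroup.mk' K))
  let ρ : H →* Module.End F (Fin n → F) :=
    (Matrix.toLinAlgEquiv' (R := F) (n := Fin n)).toRingEquiv.toMonoidHom.comp ((Units.coeHom _).comp H.subtype)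
  have hρ : Function.Injective ρ := (Matrix.toLinAlgEquiv' (R := F) (n := Fin n)).injective.comp
    (Units.val_injective.comp Subtype.val_injective)
  have h1 : AS π := ⟨fun σ hσ => by
      obtain ⟨x, hx⟩ := (e.surjective.comp (QuotientGroup.mk'_surjective K)) ⟨σ, hσ⟩
      exact ⟨x, congrArg Subtype.val hx⟩, fun x => (e _).2, by simpa⟩
  have := (mainP n).finite p ρ (by simp) h1 fun x hx => by rw [hρ (hx.trans (map_one ρ).symm), map_one]
  rw [Fintype.card_fin] at this
  split_ifs with h2
  · exact this.1
  · exact this.2 (mt (CharP.cast_eq_zero_iff F p r).mp h2)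

end Cfsg.Agent.S2653
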