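import Cfsg.Statements.S2654
import Cfsg.Agent.Lib.AltSec.E8Alt

set_option autoImplicit false
open scoped MatrixGroups
open Cfsg

namespace Cfsg.Agent.S2654

open Cfsg.Agent.Lib.Chev Cfsg.Agent.Lib.AltSec

/-- Alternating sections of the groups of type E₈. Let `F` be a finite field of characteristic `p` and let `G` be the Chevalley group of type E₈ over `F`. If some subgroup of `G` has a quotient isomorphic to the alternating group of degree `r`, then `r` is at most 17, or 18 in characteristic 3. (Only an upper bound is asserted.) -/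
theorem result {F : Type*} [Field F] [Fintype F] (p : ℕ) [Fact p.Prime] [CharP F p]
    (r : ℕ) (H : Subgroup ↥(Cfsg.Lie.chevE8.group F)) (K : Subgroup ↥H) [K.Normal]
    (h : Nonempty (↥H ⧸ K ≃* ↥(alternatingGroup (Fin r)))) :
    r ≤ 17 + (if p = 3 then 1 else 0) := by
  obtain ⟨e⟩ := h
  by_contra! h1
  split_ifs at h1 with h2
  · subst h2
    obtain ⟨E, _, _, -, ζ, H', _, _, ι, π, hζ, he, h⟩ := exists_emb e8Cert le_rfl e (Fin 19) (by simpa) (by simp)
      (17 ^ (1 + 1 + 1)) (mt (CharP.cast_eq_zero_iff F 3 _).mp (by norm_num))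
    exact e8_19 he hζ h.toAS
  · obtain ⟨E, _, _, -, ζ, H', _, _, ι, π, hζ, he, h⟩ := exists_emb e8Cert le_rfl e (Fin 6 × Z3) (by simpa) (by simp)
      (3 ^ (4 + 3 + 1)) (mt (CharP.cast_eq_zero_iff F p _).mp fun h => h2
      ((Nat.prime_dvd_prime_iff_eq Fact.out (by norm_num)).mp ((Fact.out : p.Prime).dvd_of_dvd_pow h)))
    exact e8_18 he hζ h

end Cfsg.Agent.S2654
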