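import Cfsg.Statements.S2655
import Cfsg.Agent.Lib.AltSec.No14

set_option autoImplicit false
open scoped MatrixGroups
open Cfsg

namespace Cfsg.Agent.S2655

open Cfsg.Agent.Lib.Chev Cfsg.Agent.Lib.AltSec


/-- Alternating sections of the groups of type E₇. Let `F` be a finite field of characteristic `p` and let `G` be the Chevalley group of type E₇ over `F`. If some subgroup of `G` has a quotient isomorphic to the alternating group of degree `r`, then `r` is at most 13, or 14 in characteristic 7. (Only an upper bound is asserted.) -/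
theorem result {F : Type*} [Field F] [Fintype F] (p : ℕ) [Fact p.Prime] [CharP F p]
    (r : ℕ) (H : Subgroup ↥(Cfsg.Lie.chevE7.group F)) (K : Subgroup ↥H) [K.Normal]
    (h : Nonempty (↥H ⧸ K ≃* ↥(alternatingGroup (Fin r)))) :
    r ≤ 13 + (if p = 7 then 1 else 0) := by
  obtain ⟨e⟩ := h
  by_contra! h1
  split_ifs at h1 with h2
  · subst h2
    obtain ⟨E, _, _, -, ζ, H', _, _, ι, π, hζ, he, h⟩ := exists_emb e7Cert le_rfl e (Fin 3 × ZMod 5) (by simpa) (by simp)
      (5 ^ (3 + 2 + 1)) (mt (CharP.cast_eq_zero_iff F 7 _).mp (by norm_num))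
    exact e7_15 he hζ h
  · obtain ⟨E, _, _, -, ζ, H', _, _, ι, π, hζ, he, h⟩ := exists_emb e7Cert le_rfl e (Fin 2 × ZMod 7) (by simpa) (by simp)
      (7 ^ (2 + 1 + 1)) (mt (CharP.cast_eq_zero_iff F p _).mp fun h => h2
      ((Nat.prime_dvd_prime_iff_eq Fact.out (by norm_num)).mp ((Fact.out : p.Prime).dvd_of_dvd_pow h)))
    exact e7_14 he hζ h

end Cfsg.Agent.S2655
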