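import Cfsg.Statements.S2657
import Cfsg.Agent.Lib.Chev.F4Alt

set_option autoImplicit false
open scoped MatrixGroups
open Cfsg

namespace Cfsg.Agent.S2657

open Cfsg.Agent.Lib.Forms Cfsg.Agent.Lib.Chev Cfsg.Agent.Lib.Chev.F4W Equiv

/-- Alternating sections of the groups of type F₄. Let `F` be a finite field of characteristic `p` and let `G` be the Chevalley group of type F₄ over `F`. If some subgroup of `G` has a quotient isomorphic to the alternating group of degree `r`, then `r` is at most 10, or 11 in characteristic 11. (Only an upper bound is asserted.) -/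
theorem result {F : Type*} [Field F] [Fintype F] (p : ℕ) [Fact p.Prime] [CharP F p]
    (r : ℕ) (H : Subgroup ↥(Cfsg.Lie.chevF4.group F)) (K : Subgroup ↥H) [K.Normal]
    (h : Nonempty (↥H ⧸ K ≃* ↥(alternatingGroup (Fin r)))) :
    r ≤ 10 + (if p = 11 then 1 else 0) := by
  obtain ⟨e⟩ := h
  haveI : Finite H := inferInstance
  let π := (alternatingGroup _).subtype.comp (e.toMonoidHom.comp (QuotientGroup.mk' K))
  have hπ : Function.Surjective (e.toMonoidHom.comp (QuotientGroup.mk' K)) :=
    e.surjective.comp (QuotientGroup.mk'_surjective K)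
  have surj : ∀ {m : ℕ} (hm : m ≤ r) (σ : Perm (Fin m)), Perm.sign σ = 1 → ∃ g, π g = Jp (Fin.castLEEmb hm) σ :=
    fun hm σ hσ => (hπ ⟨_, (sign_Jp _ σ).trans hσ⟩).imp fun _ h => congrArg Subtype.val h
  have emb : ∀ {E : Type _} [Field E] (f : F →+* E), Emb ((Matrix.GeneralLinearGroup.map f).comp
      ((Subgroup.subtype _).comp H.subtype)) := fun f =>
    emb_map f (Subtype.val_injective.comp Subtype.val_injective) fun x => x.1.2
  by_contra! h1
  split_ifs at h1 with h2
  · subst h2
    obtain ⟨E, _, _, f, ζ, hζ⟩ := exists_ext_prim F (5 ^ 2 * 7 ^ 2)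
      (mt (CharP.cast_eq_zero_iff F 11 _).mp (by norm_num))
    exact (emb f).not_twelve (hζ.pow (by norm_num) (mul_comm _ _)) (hζ.pow (by norm_num) rfl)
      (Perm.viaEmbeddingHom_injective (Fin.castLEEmb h1)) (surj h1)
  · obtain ⟨E, _, _, f, ζ, hζ⟩ := exists_ext_prim F (11 ^ 2) (mt (CharP.cast_eq_zero_iff F p _).mp fun h => h2
      ((Nat.prime_dvd_prime_iff_eq Fact.out (by norm_num)).mp ((Fact.out : p.Prime).dvd_of_dvd_pow h)))
    exact (emb f).not_eleven hζ (Perm.viaEmbeddingHom_injective (Fin.castLEEmb h1)) (surj h1)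

end Cfsg.Agent.S2657
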