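import Cfsg.Statements.S2658
import Cfsg.Agent.Lib.Forms.TriD4

set_option autoImplicit false
open scoped MatrixGroups
open Cfsg

namespace Cfsg.Agent.S2658

open Cfsg.Agent.Lib.Forms Module QuadraticMap

open Cfsg.Agent.Lib.Chev Cfsg.Agent.Lib.Chev.Tri Cfsg.Lie

/-- Alternating sections of the groups of type G₂. Let `F` be a finite field of characteristic `p` and let `G` be the Chevalley group of type G₂ over `F`. If some subgroup of `G` has a quotient isomorphic to the alternating group of degree `r`, then `r` is at most 6, or 7 in characteristic 5. (Only an upper bound is asserted.) -/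
theorem result {F : Type*} [Field F] [Fintype F] (p : ℕ) [Fact p.Prime] [CharP F p]
    (r : ℕ) (H : Subgroup ↥(Cfsg.Lie.chevG2.group F)) (K : Subgroup ↥H) [K.Normal]
    (h : Nonempty (↥H ⧸ K ≃* ↥(alternatingGroup (Fin r)))) :
    r ≤ 6 + (if p = 5 then 1 else 0) := by
  obtain ⟨e⟩ := h
  letI := ZMod.algebra F p
  let k := AlgebraicClosure (ZMod p)
  let φ : F →+* k := (IsAlgClosed.lift : F →ₐ[ZMod p] k).toRingHom
  let Λ := Γ F ⊓ ((D4Tri.Λ φ (RingEquiv.refl k)).map (.fst _ _)).comap (.fst _ _)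
  have hle : chevG2.group F ≤ Λ.map (.snd _ _) := by
    refine G.le_of_simple _ (fun j t => ?_) fun j t => ?_ <;> rcases nd'_cases j with rfl | rfl
    · exact ⟨_, ⟨Γ_a t, D4Tri.mem_three (fun i => by refine ⟨?_, ?_, ?_, ?_⟩ <;> revert i <;> decide +kernel) rfl rfl rfl⟩, rfl⟩
    · exact ⟨_, ⟨Γ_b t, D4Tri.mem_one (by decide +kernel) rfl⟩, rfl⟩
    · exact ⟨_, ⟨Γ_na t, D4Tri.mem_three (fun i => by refine ⟨?_, ?_, ?_, ?_⟩ <;> revert i <;> decide +kernel) rfl rfl rfl⟩, rfl⟩
    · exact ⟨_, ⟨Γ_nb t, D4Tri.mem_one (by decide +kernel) rfl⟩, rfl⟩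
  let X := Λ.comap ((MonoidHom.id _).prodMap ((Subgroup.subtype _).comp H.subtype))
  refine D4Tri.bound p (f := (MonoidHom.fst _ _).comp X.subtype) ((injective_iff_map_eq_one _).mpr fun x hx => ?_)
    (fun x => x.2.2) (π := e.toMonoidHom.comp ((QuotientGroup.mk' K).comp ((MonoidHom.snd _ _).comp X.subtype)))
    (e.surjective.comp ((QuotientGroup.mk'_surjective K).comp fun y => ?_))
  · have h1 : x.1.1 = 1 := hx
    have h2 : x.1.1.val * E F = E F * x.1.2.1.1.val := x.2.1.1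
    rw [h1, Units.val_one, Matrix.one_mul] at h2
    exact Subtype.ext (Prod.ext h1 (Subtype.ext (Subtype.ext (Units.ext (E_cancel h2)))))
  · obtain ⟨q, hq, e⟩ := hle y.1.2
    exact ⟨⟨(q.1, y), (show q = (q.1, y.1.1) from Prod.ext rfl e) ▸ hq⟩, rfl⟩

end Cfsg.Agent.S2658
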