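import Cfsg.Statements.S2660
import Cfsg.Agent.Lib.Forms.TriD4

set_option autoImplicit false
open scoped MatrixGroups
open Cfsg

namespace Cfsg.Agent.S2660

open Cfsg.Agent.Lib.Forms Module QuadraticMap

open Cfsg.Agent.Lib.Chev Cfsg.Agent.Lib.Chev.Tri Cfsg.Lie

/-- Alternating sections of the triality-twisted groups ³D₄. Let `q = p^a` be a prime power and `K` a field with `q³` elements, and let `G` be the twisted group ³D₄(q) realised over `K`. If some subgroup of `G` has a quotient isomorphic to the alternating group of degree `r`, then `r` is at most 6, or 7 in characteristic 5. (Only an upper bound is asserted.) -/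
theorem result {K : Type*} [Field K] [Fintype K] (p a : ℕ) [Fact p.Prime] [CharP K p]
    (ha : 1 ≤ a) (hK : Fintype.card K = (p ^ a) ^ 3) (r : ℕ) (H : Subgroup ↥(Cfsg.Lie.twistedD4 K (p ^ a))) (N : Subgroup ↥H) [N.Normal]
    (h : Nonempty (↥H ⧸ N ≃* ↥(alternatingGroup (Fin r)))) :
    r ≤ 6 + (if p = 5 then 1 else 0) := by
  obtain ⟨e⟩ := h
  letI := ZMod.algebra K p
  let k := AlgebraicClosure (ZMod p)
  let φ : K →+* k := (IsAlgClosed.lift : K →ₐ[ZMod p] k).toRingHom
  let σ : k ≃+* k := iterateFrobeniusEquiv k p a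
  have hσ : ∀ t, σ (φ t) = φ (t ^ p ^ a) := fun t => by rw [map_pow]; rfl
  have hle : twistedD4 K (p ^ a) ≤ (D4Tri.Λ φ σ).map (.fst _ _) := by
    refine (Subgroup.closure_le _).mpr ?_
    have h3 : ∀ t : K, σ (φ t) = φ (t ^ p ^ a) ∧ σ (φ (t ^ p ^ a)) = φ (t ^ (p ^ a) ^ 2) ∧
        σ (φ (t ^ (p ^ a) ^ 2)) = φ t := fun t => ⟨hσ t, by rw [hσ, ← pow_mul, pow_two],
      by rw [hσ, ← pow_mul, ← pow_succ, ← hK, FiniteField.pow_card]⟩
    rintro g ⟨w, ⟨t, ht, r, hr, rfl⟩ | ⟨t, rs, hr, rfl⟩, hg⟩ <;>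
      simp only [List.mem_cons, List.not_mem_nil, or_false] at hr <;> rcases hr with rfl | rfl
    · rw [show g = Tri.K.x p1 t from Units.ext (by rw [hg, Cert.x_val']; exact mul_one _)]
      exact D4Tri.mem_one (by decide +kernel) (by rw [hσ, ht])
    · rw [show g = Tri.K.x m1 t from Units.ext (by rw [hg, Cert.x_val']; exact mul_one _)]
      exact D4Tri.mem_one (by decide +kernel) (by rw [hσ, ht])
    · rw [show g = Tri.K.x p0 t * (Tri.K.x p2 (t ^ p ^ a) * Tri.K.x p3 (t ^ (p ^ a) ^ 2)) from Units.ext (by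
        simp only [hg, Units.val_mul, Cert.x_val', ChevalleyDatum.wordMat, List.map_cons, List.map_nil,
          List.prod_cons, List.prod_nil, mul_one]; rfl)]
      exact D4Tri.mem_three (fun i => by refine ⟨?_, ?_, ?_, ?_⟩ <;> revert i <;> decide +kernel) (h3 t).1 (h3 t).2.1 (h3 t).2.2
    · rw [show g = Tri.K.x m0 t * (Tri.K.x m2 (t ^ p ^ a) * Tri.K.x m3 (t ^ (p ^ a) ^ 2)) from Units.ext (by
        simp only [hg, Units.val_mul, Cert.x_val', ChevalleyDatum.wordMat, List.map_cons, List.map_nil,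
          List.prod_cons, List.prod_nil, mul_one]; rfl)]
      exact D4Tri.mem_three (fun i => by refine ⟨?_, ?_, ?_, ?_⟩ <;> revert i <;> decide +kernel) (h3 t).1 (h3 t).2.1 (h3 t).2.2
  exact D4Tri.bound p (f := (Subgroup.subtype _).comp H.subtype) (Subtype.val_injective.comp Subtype.val_injective)
    (fun x => hle x.1.2) (π := e.toMonoidHom.comp (QuotientGroup.mk' N))
    (e.surjective.comp (QuotientGroup.mk'_surjective N))

end Cfsg.Agent.S2660
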