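import Cfsg.Statements.S2661
import Cfsg.Agent.Lib.Chev.F4Ree

set_option autoImplicit false
open scoped MatrixGroups
open Cfsg

namespace Cfsg.Agent.S2661

open Cfsg.Agent.Lib.Forms Cfsg.Agent.Lib.Chev Cfsg.Agent.Lib.Chev.F4W Equiv

/-- Alternating sections of the large Ree groups ²F₄. Let `m ≥ 1`, let `K` be a field with `2^(2m+1)` elements and let `G` be the large Ree group ²F₄(2^(2m+1)) realised over `K`. If some subgroup of `G` has a quotient isomorphic to the alternating group of degree `r`, then `r ≤ 6`. (Only an upper bound is asserted.) -/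
theorem result {K : Type*} [Field K] [Fintype K] {m : ℕ} (hm : 1 ≤ m)
    (hK : Fintype.card K = 2 ^ (2 * m + 1)) (r : ℕ) (H : Subgroup ↥(Cfsg.Lie.twistedF4 K (2 ^ m))) (N : Subgroup ↥H) [N.Normal]
    (h : Nonempty (↥H ⧸ N ≃* ↥(alternatingGroup (Fin r)))) :
    r ≤ 6 := by
  obtain ⟨e⟩ := h
  haveI : Finite H := inferInstance
  let π := (alternatingGroup _).subtype.comp (e.toMonoidHom.comp (QuotientGroup.mk' N))
  have hπ : Function.Surjective (e.toMonoidHom.comp (QuotientGroup.mk' N)) :=
    e.surjective.comp (QuotientGroup.mk'_surjective N)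
  haveI : CharP K 2 := charP_of_card_eq_prime_pow hK
  by_contra! h1
  obtain ⟨E, _, _, f, ζ, hζ⟩ := exists_ext_prim K (7 ^ 2) (mt (CharP.cast_eq_zero_iff K 2 _).mp (by norm_num))
  haveI : CharP E 2 := charP_of_injective_ringHom f.injective 2
  have h2 : ∀ x : H, Matrix.GeneralLinearGroup.map f x.1.1 ∈ Fix E (m + 1) := fun x => twisted_le hK f x.1.2
  have h3 : Emb ((Matrix.GeneralLinearGroup.map f).comp ((Subgroup.subtype _).comp H.subtype)) :=
    ⟨fun a b e => Subtype.ext (Subtype.ext (Units.ext (Matrix.map_injective f.injective (congrArg Units.val e)))),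
      fun x => (h2 x).2⟩
  exact h3.not_seven (π := π) h2 hζ (Perm.viaEmbeddingHom_injective (Fin.castLEEmb h1))
    fun σ hσ => (hπ ⟨_, (sign_Jp _ σ).trans hσ⟩).imp fun _ h => congrArg Subtype.val h

end Cfsg.Agent.S2661
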