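import Cfsg.Statements.S2669
import Cfsg.Agent.Lib.GL.Shintani
import Cfsg.Agent.Lib.GL.Count

set_option autoImplicit false
open Cfsg

namespace Cfsg.Agent.S2669

open Cfsg.Agent.Lib.GL.Shintani Cfsg.Agent.Lib.GL.Count

/-- Shintani descent preserves numbers of fixed points on coset spaces (abstract form). Let `σ` be an automorphism of a group `X` and `e ≥ 1`; write `G` for the fixed points of `σᵉ` and `H` for the fixed points of `σ`, and assume `G` is finite. Let `Y` be a `σ`-stable subgroup of `X` on which the maps `a ↦ a σ(a)⁻¹` and `a ↦ a σᵉ(a)⁻¹` are surjective (as for a closed connected `σ`-stable subgroup of an algebraic group). Let `g ∈ G`, let `a ∈ X` satisfy `g = a σ(a)⁻¹` and put `x = σᵉ(a)⁻¹ a` (the Shintani image, an element of `H`). The element `g σ` of the semidirect product acts on the cosets of `Y ∩ G` in `G` by `k (Y ∩ G) ↦ g σ(k) (Y ∩ G)`, fixing that coset exactly when `k⁻¹ g σ(k)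 ∈ Y`; and `x` fixes the coset `h (Y ∩ H)` of `H` exactly when `h⁻¹ x h ∈ Y`. Then the two numbers of fixed cosets agree; in cross-multiplied form, `#{k ∈ G : k⁻¹ g σ(k) ∈ Y} · |Y ∩ H| = #{h ∈ H : h⁻¹ x h ∈ Y} · |Y ∩ G|`. -/
theorem result {X : Type*} [Group X] (σ : MulAut X) (e : ℕ) (he : 1 ≤ e)
    [Finite ↥((MulEquiv.toMonoidHom (σ ^ e)).eqLocus (MonoidHom.id X))]
    (Y : Subgroup X) (hY : ∀ y : X, y ∈ Y ↔ σ y ∈ Y)
    (hYL : ∀ y ∈ Y, ∃ a ∈ Y, y = a * (σ a)⁻¹) (hYLe : ∀ y ∈ Y, ∃ a ∈ Y, y = a * ((σ ^ e) a)⁻¹)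
    (g : X) (hg : g ∈ (MulEquiv.toMonoidHom (σ ^ e)).eqLocus (MonoidHom.id X)) (a : X) (ha : g = a * (σ a)⁻¹) :
    Nat.card {k : ↥((MulEquiv.toMonoidHom (σ ^ e)).eqLocus (MonoidHom.id X)) // (k : X)⁻¹ * g * σ k ∈ Y} *
        Nat.card ↥(Y ⊓ (MulEquiv.toMonoidHom σ).eqLocus (MonoidHom.id X)) =
      Nat.card {h : ↥((MulEquiv.toMonoidHom σ).eqLocus (MonoidHom.id X)) // (h : X)⁻¹ * (((σ ^ e) a)⁻¹ * a) * h ∈ Y} *
        Nat.card ↥(Y ⊓ (MulEquiv.toMonoidHom (σ ^ e)).eqLocus (MonoidHom.id X)) := by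
  set G := (MulEquiv.toMonoidHom (σ ^ e)).eqLocus (MonoidHom.id X) with hG
  set H := (MulEquiv.toMonoidHom σ).eqLocus (MonoidHom.id X) with hH
  have hYe : ∀ (i : ℕ) (y : X), y ∈ Y → (σ ^ i) y ∈ Y := by
    intro i
    induction i with
    | zero => intro y hy; exact hy
    | succ i ih => intro y hy; rw [pow_succ_apply]; exact ih _ ((hY y).1 hy)
  let Z := {z : G × H // (z.1 : X)⁻¹ * a * z.2 ∈ Y}
  have hA : ∀ z : Z, (z.1.1 : X)⁻¹ * g * σ z.1.1 ∈ Y := by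
    rintro ⟨⟨⟨k, hk⟩, ⟨h, hh⟩⟩, hz⟩
    have hh' : σ h = h := hh
    simp only at hz ⊢
    have h1 := Y.mul_mem hz (Y.inv_mem ((hY _).1 hz))
    simp only [map_mul, map_inv, hh'] at h1
    rw [ha]
    convert h1 using 1
    group
  have hB : ∀ z : Z, (z.1.2 : X)⁻¹ * (((σ ^ e) a)⁻¹ * a) * z.1.2 ∈ Y := by
    rintro ⟨⟨⟨k, hk⟩, ⟨h, hh⟩⟩, hz⟩
    have hh' : σ h = h := hh
    have hk' : (σ ^ e) k = k := hk
    simp only at hz ⊢
    have h1 := Y.mul_mem (Y.inv_mem (hYe e _ hz)) hz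
    simp only [map_mul, map_inv, pow_fixed hh' e, hk'] at h1
    convert h1 using 1
    group
  have e1 := card_eq_mul_of_fibers (Z := Z) (A := {k : G // (k : X)⁻¹ * g * σ k ∈ Y})
    (C := ↥(Y ⊓ H)) (fun z => ⟨z.1.1, hA z⟩) (by
      rintro ⟨⟨k, hk⟩, hkY⟩
      simp only at hkY
      obtain ⟨y, hy, hy'⟩ := hYL _ hkY
      have h0 : σ (a⁻¹ * k * y) = a⁻¹ * k * y := by
        simp only [map_mul, map_inv]
        rw [ha] at hy'
        have : σ y = (k⁻¹ * (a * (σ a)⁻¹) * σ k)⁻¹ * y := by rw [hy']; group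
        rw [this]; group
      refine ⟨⟨fun z => ⟨(a⁻¹ * k * y)⁻¹ * z.1.1.2, ?_, ?_⟩,
        fun c => ⟨⟨(⟨k, hk⟩, ⟨a⁻¹ * k * y * c, H.mul_mem h0 c.2.2⟩), ?_⟩, rfl⟩, ?_, ?_⟩⟩
      · obtain ⟨⟨⟨k', h⟩, hz⟩, hz'⟩ := z
        simp only [Subtype.mk.injEq] at hz'
        subst hz'
        have := Y.mul_mem (Y.inv_mem hy) hz
        show _ ∈ Y
        convert this using 1
        simp only
        group
      · exact H.mul_mem (H.inv_mem h0) z.1.1.2.2
      · have := Y.mul_mem hy c.2.1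
        convert this using 1
        simp only
        group
      · rintro ⟨⟨⟨k', h⟩, hz⟩, hz'⟩
        simp only [Subtype.mk.injEq] at hz'
        subst hz'
        simp [mul_assoc]
      · rintro ⟨c, hc⟩
        simp [mul_assoc])
  have e2 := card_eq_mul_of_fibers (Z := Z)
    (A := {h : H // (h : X)⁻¹ * (((σ ^ e) a)⁻¹ * a) * h ∈ Y})
    (C := ↥(Y ⊓ G)) (fun z => ⟨z.1.2, hB z⟩) (by
      rintro ⟨⟨h, hh⟩, hhY⟩
      simp only at hhY
      have hh' : σ h = h := hh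
      obtain ⟨y, hy, hy'⟩ := hYLe _ (Y.inv_mem hhY)
      have h0 : (σ ^ e) (a * h * y) = a * h * y := by
        simp only [map_mul, map_inv, pow_fixed hh' e]
        have : (σ ^ e) y = (h⁻¹ * (((σ ^ e) a)⁻¹ * a) * h) * y := by
          rw [← inv_inv (h⁻¹ * (((σ ^ e) a)⁻¹ * a) * h), hy']; group
        rw [this]; group
      refine ⟨⟨fun z => ⟨(a * h * y)⁻¹ * z.1.1.1, ?_, ?_⟩,
        fun c => ⟨⟨(⟨a * h * y * c, G.mul_mem h0 c.2.2⟩, ⟨h, hh⟩), ?_⟩, rfl⟩, ?_, ?_⟩⟩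
      · obtain ⟨⟨⟨k', h'⟩, hz⟩, hz'⟩ := z
        simp only [Subtype.mk.injEq] at hz'
        subst hz'
        have := Y.mul_mem (Y.inv_mem hy) (Y.inv_mem hz)
        show _ ∈ Y
        convert this using 1
        simp only
        group
      · exact G.mul_mem (G.inv_mem h0) z.1.1.1.2
      · have := Y.inv_mem (Y.mul_mem hy c.2.1)
        convert this using 1
        simp only
        group
      · rintro ⟨⟨⟨k', h'⟩, hz⟩, hz'⟩
        simp only [Subtype.mk.injEq] at hz'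
        subst hz'
        simp [mul_assoc]
      · rintro ⟨c, hc⟩
        simp [mul_assoc])
  rw [← e1, ← e2]

end Cfsg.Agent.S2669
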