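import Cfsg.Statements.S2671
import Cfsg.Agent.Lib.GL.SpReal

set_option autoImplicit false
open Cfsg

namespace Cfsg.Agent.S2671

open Cfsg.Agent.Lib.GL.Mult Cfsg.Agent.Lib.GL.ClassCount Cfsg.Agent.Lib.GL.SpReal

/-- Number of conjugacy classes of elements of odd prime order r in the general unitary group GU_n(q), for r not dividing q(q + 1): let i be the multiplicative order of q modulo r, b = i if i is odd and b = i/2 if i is even, and s = (r − 1)/b. If i ≢ 2 (mod 4) the eigenvalue orbits pair off into dual pairs of totally isotropic blocks and there are C(⌊n/(2b)⌋ + s/2, s/2) − 1 classes; if i ≡ 2 (mod 4) each orbit gives a non-degenerate block of dimension i/2 and there are C(⌊2n/i⌋ + s, s) − 1 classes. -/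
theorem result {K : Type*} [Field K] [Fintype K] {p q n r i b s : ℕ} [Fact p.Prime] [CharP K p] (hK : Fintype.card K = q ^ 2) (hr : r.Prime) (hr2 : r ≠ 2) (hrp : r ≠ p) (hi : i = orderOf (q : ZMod r)) (hi2 : i ≠ 2) (hb : b = if Odd i then i else i / 2) (hs : s * b = r - 1) : Nat.card {C : ConjClasses ↥(Cfsg.GU n K q) // ∃ g : ↥(Cfsg.GU n K q), ConjClasses.mk g = C ∧ orderOf g = r} = if i % 4 = 2 then Nat.choose (2 * n / i + s) s - 1 else Nat.choose (n / (2 * b) + s / 2) (s / 2) - 1 := by
  have : Fact r.Prime := ⟨hr⟩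
  have hrK : (r : K) ≠ 0 := natCast_ne_zero_of_prime_ne hr hrp
  have hq0 : (q : ZMod r) ≠ 0 := by
    have := card_ne_zero_zmod hr hrK
    rw [hK, Nat.cast_pow] at this
    exact fun h => this (by rw [h]; simp)
  let x : (ZMod r)ˣ := Units.mk0 _ hq0
  have hxi : orderOf x = i := by rw [hi, ← orderOf_units]; rfl
  have hi0 : 0 < i := hxi ▸ orderOf_pos x
  have hev : ∀ c, i = 2 * c → orderOf (-x) = 2 * c / Nat.gcd (2 * c) (c + 1) := by
    intro c hc
    have h4 : x ^ c = -1 := pow_half_eq_neg_one (by omega) (by omega)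
    rw [show -x = x ^ (c + 1) by rw [pow_succ, h4, neg_one_mul], orderOf_pow' _ (by omega), hxi, hc]
  have hgcd : ∀ c : ℕ, Nat.gcd (2 * c) (c + 1) = Nat.gcd 2 (c + 1) := fun c =>
    Nat.Coprime.gcd_mul_right_cancel 2 (by simp)
  split_ifs with h4
  · have hb' : i = 2 * b := by
      rw [hb, if_neg (by rw [Nat.odd_iff]; omega)]; omega
    have h1 : orderOf (-x) = b := by
      rw [hev b hb', hgcd, Nat.gcd_eq_left (by omega), Nat.mul_div_cancel_left _ two_pos]
    rw [card_classes_GU hK hrK n s (-x) rfl (by rw [h1, hs]), h1, hb',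
      Nat.mul_div_mul_left _ _ two_pos]
  · have h2 : orderOf (-x) = 2 * b := by
      by_cases hodd : Odd i
      · have h1 : orderOf (-1 : (ZMod r)ˣ) = 2 := by
          rw [← orderOf_units]; exact orderOf_neg_one.trans (by
            rw [if_neg]; rw [ZMod.ringChar_zmod_n]; exact hr2)
        rw [← neg_one_mul, (Commute.all _ _).orderOf_mul_eq_mul_orderOf_of_coprime
          (by rw [h1, hxi]; exact (Nat.coprime_two_left).2 hodd), h1, hxi, hb, if_pos hodd]
      · rw [if_neg hodd] at hb
        rw [Nat.odd_iff] at hodd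
        rw [hev b (by omega), hgcd, Nat.Coprime.gcd_eq_one (Nat.coprime_two_left.2
          (by rw [Nat.odd_iff]; omega)), Nat.div_one]
    have hb0 : 0 < b := by have := orderOf_pos (-x); omega
    have h3 : 2 ∣ s := by
      have := orderOf_dvd_card (x := -x)
      rw [h2, ZMod.card_units, ← hs] at this
      exact Nat.dvd_of_mul_dvd_mul_right hb0 this
    rw [card_classes_GU hK hrK n (s / 2) (-x) rfl
      (by rw [h2, ← mul_assoc, Nat.div_mul_cancel h3, hs]), h2]

end Cfsg.Agent.S2671
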