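import Cfsg.Statements.S2673
import Cfsg.Agent.Lib.GL.OrthCount

set_option autoImplicit false
open Cfsg

namespace Cfsg.Agent.S2673

open Cfsg.Agent.Lib.GL.Mult Cfsg.Agent.Lib.GL.OrthConj Cfsg.Agent.Lib.Forms

/-- Number of conjugacy classes of elements of odd prime order r ≠ p in the orthogonal group O_(2m+1)(q) of x_0² + Σ x_j y_j, q odd: with i the multiplicative order of q mod r and t = (r − 1)/i, there are C(⌊m/i⌋ + t/2, t/2) − 1 classes if i is odd (dual pairs of totally singular i-blocks) and C(⌊(2m+1)/i⌋ + t, t) − 1 if i is even (elliptic i-blocks). -/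
theorem result {F : Type*} [Field F] [Fintype F] {p q : ℕ} [Fact p.Prime] [CharP F p] (hF : Fintype.card F = q) (hq : Odd q) (m r i t : ℕ) (hr : r.Prime) (hr2 : r ≠ 2) (hrp : r ≠ p) (hi : i = orderOf (q : ZMod r)) (ht : t * i = r - 1) : Nat.card {C : ConjClasses ↥(Cfsg.isometryGroup F (Cfsg.quadFormOdd m F)) // ∃ g : ↥(Cfsg.isometryGroup F (Cfsg.quadFormOdd m F)), ConjClasses.mk g = C ∧ orderOf g = r} = if Odd i then Nat.choose (m / i + t / 2) (t / 2) - 1 else Nat.choose ((2 * m + 1) / i + t) t - 1 := by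
  have : Fact r.Prime := ⟨hr⟩
  have hrF : (r : F) ≠ 0 := natCast_ne_zero_of_prime_ne hr hrp
  subst hF
  obtain ⟨u, hu, h1, h2⟩ := exists_unit_data hr2 (card_ne_zero_zmod hr hrF) hi ht
  have hi0 : 0 < i := Nat.pos_of_ne_zero (by rintro rfl; have := hr.two_le; omega)
  have hs : 1 ≤ if Odd i then t / 2 else t :=
    Nat.pos_of_ne_zero fun h => by rw [h] at h2; have := hr.two_le; omega
  have h3 := two_ne_zero_of_odd_card hq
  rw [← coe_qOdd, card_classes_orth hr2 hrF (nondeg_qOdd h3 m) (by simp) True (fun _ => trivial)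
    (fun n Q₁ h4 h5 _ h6 _ => emb_odd h3 m n h4 h5 (by simp at h6; omega)) _ u hu h2, h1]
  have h4 : Fintype.card (Unit ⊕ (Fin m ⊕ Fin m)) = 2 * m + 1 := by simp; omega
  rw [if_pos trivial, h4]
  split_ifs
  · rw [← Nat.div_div_eq_div_mul, show (2 * m + 1) / 2 = m by omega]
  · rfl

end Cfsg.Agent.S2673
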