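import Cfsg.Statements.S2674
import Cfsg.Agent.Lib.GL.OrthCount

set_option autoImplicit false
open Cfsg

namespace Cfsg.Agent.S2674

open Cfsg.Agent.Lib.GL.Mult Cfsg.Agent.Lib.GL.OrthConj Cfsg.Agent.Lib.Forms

/-- Number of conjugacy classes of elements of odd prime order r ≠ p in the orthogonal group O⁺_2m(q) of Σ x_j y_j (m ≥ 1): with i the multiplicative order of q mod r and t = (r − 1)/i — if i is odd, C(⌊m/i⌋ + t/2, t/2) − 1; if i is even, C(⌊2m/i⌋ + t, t) − 1 minus, when i divides 2m with odd quotient, the C(2m/i + t − 1, t − 1) tuples using the whole space (an odd number of elliptic i-blocks fills an elliptic, not a hyperbolic, space). -/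
theorem result {F : Type*} [Field F] [Fintype F] {p q : ℕ} [Fact p.Prime] [CharP F p] (hF : Fintype.card F = q) (m r i t : ℕ) (hm : 1 ≤ m) (hr : r.Prime) (hr2 : r ≠ 2) (hrp : r ≠ p) (hi : i = orderOf (q : ZMod r)) (ht : t * i = r - 1) : Nat.card {C : ConjClasses ↥(Cfsg.isometryGroup F (Cfsg.quadFormPlus m F)) // ∃ g : ↥(Cfsg.isometryGroup F (Cfsg.quadFormPlus m F)), ConjClasses.mk g = C ∧ orderOf g = r} = if Odd i then Nat.choose (m / i + t / 2) (t / 2) - 1 else Nat.choose (2 * m / i + t) t - 1 - (if i ∣ 2 * m ∧ Odd (2 * m / i) then Nat.choose (2 * m / i + t - 1) (t - 1) else 0) := by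
  have : Fact r.Prime := ⟨hr⟩
  have hrF : (r : F) ≠ 0 := natCast_ne_zero_of_prime_ne hr hrp
  subst hF
  obtain ⟨u, hu, h1, h2⟩ := exists_unit_data hr2 (card_ne_zero_zmod hr hrF) hi ht
  have hi0 : 0 < i := Nat.pos_of_ne_zero (by rintro rfl; have := hr.two_le; omega)
  have hs : 1 ≤ if Odd i then t / 2 else t :=
    Nat.pos_of_ne_zero fun h => by rw [h] at h2; have := hr.two_le; omega
  have h4 : Fintype.card (Fin m ⊕ Fin m) = 2 * m := by simp; omega
  have h5 : tp (qPlus m F) ≡ 1 [ZMOD r] ↔ i ∣ m := by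
    rw [tp_qPlus, ← ZMod.intCast_eq_intCast_iff, hi, orderOf_dvd_iff_pow_eq_one]; simp
  rw [← coe_qPlus, card_classes_orth hr2 hrF (nondeg_qPlus m) (by omega) (i ∣ m) h5.1
    (fun n Q₁ h6 h7 h8 h9 h10 => emb_even hr hr2 (nondeg_qPlus m) h4 n Q₁ h6 h7 h8 h9
      fun h => h5.2 (h10 h)) _ u hu h2, h1, h4]
  by_cases h6 : i ∣ m
  · rw [if_pos h6]
    split_ifs with h7 h8
    · rw [Nat.mul_div_mul_left _ _ two_pos]
    · exact absurd h8.2 (by rw [Nat.mul_div_assoc _ h6]; simp)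
    · rfl
  · rw [if_neg h6, choose_pred (by omega) (by split_ifs <;> omega) hs]
    by_cases h7 : Odd i
    · simp only [if_pos h7, Nat.mul_div_mul_left _ _ two_pos, Nat.mul_dvd_mul_iff_left two_pos,
        if_neg h6, Nat.sub_zero]
    · simp only [if_neg h7]
      congr 2
      refine propext ⟨fun h => ⟨h, Nat.not_even_iff_odd.1 fun ⟨k, hk⟩ => h6 ⟨k, ?_⟩⟩, fun h => h.1⟩
      have := Nat.mul_div_cancel' h
      rw [hk, mul_add] at this
      omega

end Cfsg.Agent.S2674
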