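import Cfsg.Statements.S2675
import Cfsg.Agent.Lib.GL.OrthCount

set_option autoImplicit false
open Cfsg

namespace Cfsg.Agent.S2675

open Cfsg.Agent.Lib.GL.Mult Cfsg.Agent.Lib.GL.OrthConj Cfsg.Agent.Lib.Forms

/-- Number of conjugacy classes of elements of odd prime order r ≠ p in the orthogonal group O⁻_2m(q) of an elliptic form Σ_(j<m−1) x_j y_j + z₁² + a z₁z₂ + c z₂² (binary part anisotropic, m ≥ 1): with i the multiplicative order of q mod r and t = (r − 1)/i — if i is odd, C(⌊m/i⌋ + t/2, t/2) − 1 minus, when i divides m, the C(m/i + t/2 − 1, t/2 − 1) tuples filling the whole space (dual pairs of totally singular blocks fill a hyperbolic space); if i is even, C(⌊2m/i⌋ + t, t) − 1 minus, when i divides 2m with even quotient, the C(2m/i + t − 1, t − 1) tuples filling the whole space with an even number of elliptic blocks. -/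
theorem result {F : Type*} [Field F] [Fintype F] {p q : ℕ} [Fact p.Prime] [CharP F p] (hF : Fintype.card F = q) (m r i t : ℕ) (hm : 1 ≤ m) (a c : F) (hac : ∀ z₁ z₂ : F, z₁ ^ 2 + a * z₁ * z₂ + c * z₂ ^ 2 = 0 → z₁ = 0 ∧ z₂ = 0) (hr : r.Prime) (hr2 : r ≠ 2) (hrp : r ≠ p) (hi : i = orderOf (q : ZMod r)) (ht : t * i = r - 1) : Nat.card {C : ConjClasses ↥(Cfsg.isometryGroup F (Cfsg.quadFormMinus (m - 1) F a c)) // ∃ g : ↥(Cfsg.isometryGroup F (Cfsg.quadFormMinus (m - 1) F a c)), ConjClasses.mk g = C ∧ orderOf g = r} = if Odd i then Nat.choose (m / i + t / 2) (t / 2) - 1 - (if i ∣ m then Nat.choose (m / i + t / 2 - 1) (t / 2 - 1) else 0) else Nat.choose (2 * m / i + t) t - 1 - (if i ∣ 2 * m ∧ Even (2 * m / i) then Nat.choose (2 * m / i + t - 1) (t - 1) else 0) := by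
  have : Fact r.Prime := ⟨hr⟩
  have hrF : (r : F) ≠ 0 := natCast_ne_zero_of_prime_ne hr hrp
  subst hF
  obtain ⟨u, hu, h1, h2⟩ := exists_unit_data hr2 (card_ne_zero_zmod hr hrF) hi ht
  have hi0 : 0 < i := Nat.pos_of_ne_zero (by rintro rfl; have := hr.two_le; omega)
  have hs : 1 ≤ if Odd i then t / 2 else t :=
    Nat.pos_of_ne_zero fun h => by rw [h] at h2; have := hr.two_le; omega
  have h4 : Fintype.card ((Fin (m - 1) ⊕ Fin (m - 1)) ⊕ Fin 2) = 2 * m := by simp; omega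
  have h0 := nondeg_qMinus (m - 1) (disc_ne_zero_of_anisotropic hac)
  have : Fact (2 < r) := ⟨lt_of_le_of_ne hr.two_le hr2.symm⟩
  have h5 : tp (qMinus (m - 1) F a c) ≡ 1 [ZMOD r] ↔ i ∣ 2 * m ∧ ¬ i ∣ m := by
    rw [tp_qMinus _ hac, Nat.sub_add_cancel hm, ← ZMod.intCast_eq_intCast_iff, hi,
      orderOf_dvd_iff_pow_eq_one, orderOf_dvd_iff_pow_eq_one, mul_comm, pow_mul, sq_eq_one_iff]
    push_cast
    rw [neg_eq_iff_eq_neg]
    exact ⟨fun h => ⟨Or.inr h, fun h' => ZMod.neg_one_ne_one (h.symm.trans h')⟩,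
      fun h => h.1.resolve_left h.2⟩
  rw [← coe_qMinus, card_classes_orth hr2 hrF h0 (by omega) _ h5.1
    (fun n Q₁ h6 h7 h8 h9 h10 => emb_even hr hr2 h0 h4 n Q₁ h6 h7 h8 h9
      fun h => h5.2 (h10 h)) _ u hu h2, h1, h4]
  by_cases h6 : i ∣ 2 * m ∧ ¬ i ∣ m
  · rw [if_pos h6]
    have h7 : ¬ Odd i := fun h => h6.2 ((Nat.coprime_two_right.2 h).dvd_of_dvd_mul_left h6.1)
    simp only [if_neg h7]
    rw [if_neg, Nat.sub_zero]
    rintro ⟨h, k, hk⟩
    refine h6.2 ⟨k, ?_⟩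
    have := Nat.mul_div_cancel' h
    rw [hk, mul_add] at this
    omega
  · rw [if_neg h6, choose_pred (by omega) (by split_ifs <;> omega) hs]
    by_cases h7 : Odd i
    · simp only [if_pos h7, Nat.mul_div_mul_left _ _ two_pos, Nat.mul_dvd_mul_iff_left two_pos]
    · simp only [if_neg h7]
      congr 2
      refine propext ⟨fun h => ⟨h, ?_⟩, fun h => h.1⟩
      rw [Nat.mul_div_assoc _ (by tauto)]; simp

end Cfsg.Agent.S2675
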