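import Cfsg.Statements.S2676
import Cfsg.Agent.Lib.GL.JordanSp2

set_option autoImplicit false
open Classical
open Cfsg

namespace Cfsg.Agent.S2676

open Module Matrix Cfsg.Agent.Lib.GL.Jordan Cfsg.Agent.Lib.GL.ClassCount

/-- Number of conjugacy classes of elements of order p in Sp_2m(q), q a power of the odd prime p: the classes correspond to the signed partitions of 2m — partitions with all parts at most p in which every odd part has even multiplicity, each even part size that occurs carrying a sign — other than the all-ones partition; so the count is the sum over such partitions of 2^(number of distinct even parts), minus one. -/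
theorem result {F : Type*} [Field F] [Fintype F] {p : ℕ} [Fact p.Prime] [CharP F p] (hp : p ≠ 2) (m : ℕ) : Nat.card {C : ConjClasses ↥(Matrix.symplecticGroup (Fin m) F) // ∃ g : Matrix.symplecticGroup (Fin m) F, ConjClasses.mk g = C ∧ orderOf g = p} = (∑ μ ∈ Finset.univ.filter (fun μ : Nat.Partition (2 * m) => (∀ a ∈ μ.parts, a ≤ p) ∧ ∀ j : ℕ, Odd j → Even (μ.parts.count j)), 2 ^ ((μ.parts.toFinset.filter (fun j : ℕ => Even j)).card)) - 1 := by
  have h2 : (2 : F) ≠ 0 := fun h => hp ((Nat.prime_dvd_prime_iff_eq Fact.out Nat.prime_two).1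
    ((CharP.cast_eq_zero_iff F p 2).1 h))
  obtain ⟨Φ, h3, h4, h5⟩ := exists_sp_invariant h2 m
  have hc := card_signed (fun μ : Nat.Partition (2 * m) => (∀ a ∈ μ.parts, a ≤ p) ∧
    ∀ j : ℕ, Odd j → Even (μ.parts.count j)) fun μ => μ.parts.toFinset.filter (fun j : ℕ => Even j)
  have hp' : ∀ g : Matrix.symplecticGroup (Fin m) F, g ^ p = 1 ↔ (g.1 - 1) ^ p = 0 := fun g => by
    rw [← pow_char_eq_one_iff, Subtype.ext_iff]; rfl
  have h6 : ∀ g : Matrix.symplecticGroup (Fin m) F, IsNilpotent (g.1 - 1) →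
      (g ^ p = 1 ↔ ∀ a ∈ (Φ g).1.parts, a ≤ p) := fun g hg => by
    rw [hp', ← minSum_eq_sum_iff, ← h3 g hg, Nat.Partition.parts_sum]
    exact ⟨fun h => (kerSeq_of_pow h).trans (by simp [two_mul]),
      fun h => pow_eq_zero_of_kerSeq (h.trans (by simp [two_mul]))⟩
  have : Finite {x : Nat.Partition (2 * m) × (ℕ → ℤˣ) // ((∀ a ∈ x.1.parts, a ≤ p) ∧
      ∀ j : ℕ, Odd j → Even (x.1.parts.count j)) ∧
      ∀ i, i ∉ x.1.parts.toFinset.filter (fun j : ℕ => Even j) → x.2 i = 1} := by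
    refine Nat.finite_of_card_ne_zero (hc ▸ Finset.sum_pos (fun _ _ => by positivity)
      ⟨(Φ 1).1, ?_⟩).ne'
    have h7 : IsNilpotent ((1 : Matrix.symplecticGroup (Fin m) F).1 - 1) := by simp
    exact Finset.mem_filter.2 ⟨Finset.mem_univ _, (h6 1 h7).1 (one_pow _), ((h5 _).1 ⟨1, h7, rfl⟩).1⟩
  rw [← hc]
  refine card_classes_orderOf Fact.out Φ _ (fun g g' hg hg' =>
    h4 g g' ⟨p, (hp' g).1 hg⟩ ⟨p, (hp' g').1 hg'⟩) fun x => ⟨fun ⟨⟨h7, h8⟩, h9⟩ => ?_, ?_⟩
  · obtain ⟨u, hu, rfl⟩ := (h5 x).2 ⟨h8, fun i hi => h9 i (by simpa [and_comm] using hi)⟩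
    exact ⟨u, (h6 u hu).2 h7, rfl⟩
  · rintro ⟨u, hu, rfl⟩
    have h7 : IsNilpotent (u.1 - 1) := ⟨p, (hp' u).1 hu⟩
    have h8 := (h5 _).1 ⟨u, h7, rfl⟩
    exact ⟨⟨(h6 u h7).1 hu, h8.1⟩, fun i hi => h8.2 i (by simpa [and_comm] using hi)⟩

end Cfsg.Agent.S2676
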