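import Cfsg.Statements.S2677
import Cfsg.Agent.Lib.GL.Isom

set_option autoImplicit false
open Cfsg

namespace Cfsg.Agent.S2677

open Module Matrix Cfsg.Agent.Lib.GL.Isom Cfsg.Agent.Lib.GL.Herm Cfsg.Agent.Lib.GL.H90 Cfsg.Agent.Lib.GL.Count

/-- Centraliser of a field automorphism of odd prime order in PGU_n(q): let q = q₀^r with r an odd prime, K the field with q² elements and σ a field automorphism of K of order r (fixed field of order q₀²). The elements g of GU_n(q) whose entrywise image under σ is a scalar multiple of g — those whose coset modulo the q + 1 unitary scalars is fixed by σ — number (q + 1)/(q₀ + 1) · |GU_n(q₀)|; equivalently the centraliser in PGU_n(q) of the induced automorphism has the order of PGU_n(q₀). -/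
theorem result {K : Type*} [Field K] [Fintype K] {q₀ q r n : ℕ} (hr : r.Prime) (hr2 : r ≠ 2) (hn : 1 ≤ n) (hq : q = q₀ ^ r) (hK : Fintype.card K = q ^ 2) (σ : K ≃+* K) (hσ : orderOf σ = r) : (Nat.card {g : ↥(Cfsg.GU n K q) // ∃ c : K, c ≠ 0 ∧ ((g : GL (Fin n) K) : Matrix (Fin n) (Fin n) K).map σ = c • ((g : GL (Fin n) K) : Matrix (Fin n) (Fin n) K)} : ℤ) = ((q + 1) / (q₀ + 1) : ℕ) * ((q₀ : ℤ) ^ (n * (n - 1) / 2) * ∏ i : Fin n, ((q₀ : ℤ) ^ ((i : ℕ) + 1) - (-1) ^ ((i : ℕ) + 1))) := by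
  classical
  have : Nonempty (Fin n) := ⟨⟨0, hn⟩⟩
  have hodd : Odd r := hr.odd_of_ne_two hr2
  obtain ⟨τ, hτq, hτ⟩ := exists_isInvol hK
  let K₀ := fixedSub σ
  let : Fintype K₀ := Fintype.ofFinite _
  have hK₀ : Fintype.card K₀ = q₀ ^ 2 := by
    rw [← Nat.card_eq_fintype_card]
    exact card_fixedSub σ hσ (by rw [Nat.card_eq_fintype_card, hK, hq, ← pow_mul, ← pow_mul, mul_comm])
  obtain ⟨τ₀, hτq₀, hτ₀⟩ := exists_isInvol hK₀
  have hττ : ∀ a : K₀, τ a = τ₀ a := by
    intro a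
    obtain ⟨k, hk⟩ := hodd
    have : ∀ j : ℕ, a ^ (q₀ ^ (2 * j + 1)) = τ₀ a := by
      intro j
      induction j with
      | zero => simp [hτq₀]
      | succ j ih =>
        rw [show 2 * (j + 1) + 1 = (2 * j + 1) + 1 + 1 by ring, pow_succ, pow_succ, pow_mul, pow_mul,
          ih, ← hτq₀, ← hτq₀, hτ₀.invol]
    rw [hτq, hq, hk, ← this k]; simp
  have hστ : ∀ a, σ (τ a) = τ (σ a) := fun a => by simp [hτq]
  let S := {g : ↥(Cfsg.GU n K q) // ∃ c : K, c ≠ 0 ∧ ((g : GL (Fin n) K) : (Matrix (Fin n) (Fin n) K)).map σ =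
    c • ((g : GL (Fin n) K) : (Matrix (Fin n) (Fin n) K))}
  let m : Matrix (Fin n) (Fin n) K₀ → (Matrix (Fin n) (Fin n) K) := fun A => A.map K₀.subtype
  have hm_inj : Function.Injective m := Matrix.map_injective K₀.subtype_injective
  have hmU : ∀ A, (m A)ᵀ * (m A).map τ = 1 ↔ Aᵀ * A.map τ₀ = 1 := by
    intro A
    have h1 : (m A)ᵀ * (m A).map τ = m (Aᵀ * A.map τ₀) := by
      ext i j; simp [m, Matrix.mul_apply, hττ]
    have h2 : (1 : (Matrix (Fin n) (Fin n) K)) = m 1 := by simp [m]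
    rw [h1, h2, hm_inj.eq_iff]
  have hmσ : ∀ A, (m A).map σ = m A := fun A => by ext i j; exact (A i j).2
  have hsmul : ∀ (c : K) (A : (Matrix (Fin n) (Fin n) K)), (c • A)ᵀ * (c • A).map τ = (c * τ c) • (Aᵀ * A.map τ) := by
    intro c A
    ext i j; simp [Matrix.mul_apply, Finset.mul_sum]; exact Finset.sum_congr rfl fun _ _ => by ring
  have hne : ∀ c : K, c * τ c = 1 → c ≠ 0 := fun c hc => left_ne_zero_of_mul_eq_one hc
  have hone : ∀ c d : K, c • (1 : (Matrix (Fin n) (Fin n) K)) = d • (1 : (Matrix (Fin n) (Fin n) K)) → c = d := fun c d h => by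
    simpa using congrFun (congrFun h ⟨0, hn⟩) ⟨0, hn⟩
  let π : {c : K // c * τ c = 1} × Cfsg.GU n K₀ q₀ → S := fun z =>
    ⟨guMk hτq (z.1.1 • m (z.2 : GL (Fin n) K₀)) (by
        rw [hsmul, z.1.2, one_smul, hmU]; exact (mem_GU_iff' hτq₀ _).1 z.2.2),
      σ z.1 / z.1, by simp [hne _ z.1.2], by
        rw [coe_guMk, smul_smul, div_mul_cancel₀ _ (hne _ z.1.2)]
        conv_rhs => rw [← hmσ]
        ext i j; simp⟩
  have hπ : ∀ z (g : S), π z = g ↔ z.1.1 • m (z.2 : GL (Fin n) K₀) = ((g.1 : GL (Fin n) K) : (Matrix (Fin n) (Fin n) K)) :=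
    fun z g => ⟨fun h => by rw [← h]; rfl, fun h => Subtype.ext (Subtype.ext (Units.ext h))⟩
  have hfib : ∀ s : S, Nonempty ({z // π z = s} ≃ {c : K₀ // c * τ₀ c = 1}) := by
    rintro ⟨g, c, hc0, hc⟩
    have hg := (mem_GU_iff' hτq _).1 g.2
    obtain ⟨d, hd0, hcd, hd⟩ := exists_smul_fixed σ hr.pos hσ (g : GL (Fin n) K) c hc
    have hcn : c * τ c = 1 := by
      apply hone
      rw [← hg, ← hsmul, ← hc, hg]
      have := congrArg (fun A : (Matrix (Fin n) (Fin n) K) => A.map σ) hg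
      rw [Matrix.map_one _ (map_zero _) (map_one _)] at this
      rw [← this]
      ext i j; simp [Matrix.mul_apply, hστ]
    have he : σ (d * τ d) = d * τ d := by
      rw [map_mul, hστ]
      conv_rhs => rw [← hcd, map_mul]
      linear_combination (-(σ d * τ (σ d))) * hcn
    obtain ⟨f, hf⟩ := hτ₀.exists_norm_eq (a := ⟨d * τ d, he⟩)
      (Subtype.ext (by rw [← hττ]; simp [hτ.invol, mul_comm]))
    have hf' : (f : K) * τ f = d * τ d := by rw [hττ]; exact congrArg Subtype.val hf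
    have hdτ : τ d ≠ 0 := by simpa using hd0
    have hf0 : (f : K) ≠ 0 := by
      intro h; rw [h, zero_mul] at hf'; exact mul_ne_zero hd0 hdτ hf'.symm
    have hfτ : τ f ≠ 0 := by simpa using hf0
    obtain ⟨A₀, hA₀⟩ : ∃ A₀, m A₀ = (d / f) • ((g : GL (Fin n) K) : (Matrix (Fin n) (Fin n) K)) := by
      refine ⟨Matrix.of fun i j => ⟨(d / f) * ((g : GL (Fin n) K) : (Matrix (Fin n) (Fin n) K)) i j, ?_⟩, rfl⟩
      have h1 := congrFun (congrFun hd i) j
      have h2 : σ f = f := f.2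
      simp only [map_apply, Matrix.smul_apply, smul_eq_mul, map_mul] at h1
      rw [mem_fixedSub, map_mul, map_div₀, h2, div_mul_eq_mul_div, h1, div_mul_eq_mul_div]
    have hdf : (d / f) * τ (d / f) = 1 := by
      rw [map_div₀, div_mul_div_comm, hf', div_self (mul_ne_zero hd0 hdτ)]
    have hA₀U : A₀ᵀ * A₀.map τ₀ = 1 := by rw [← hmU, hA₀, hsmul, hdf, hg, one_smul]
    have hms : ∀ (e : K₀) A, m (e • A) = (e : K) • m A := fun e A => by ext i j; simp [m]
    have hcoe : ∀ e : {c : K₀ // c * τ₀ c = 1}, (e : K) * τ e = 1 := fun e => by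
      rw [hττ]; exact congrArg Subtype.val e.2
    refine ⟨(Equiv.ofBijective (fun e : {c : K₀ // c * τ₀ c = 1} =>
      (⟨(⟨τ (d / f) * τ e, ?_⟩, guMk hτq₀ (e.1 • A₀) ?_), ?_⟩ : {z // π z = ⟨g, c, hc0, hc⟩}))
      ⟨?_, ?_⟩).symm⟩
    · rw [map_mul, hτ.invol, hτ.invol]
      linear_combination (e.1 : K) * τ e * hdf + hcoe e
    · rw [← hmU, hms, hA₀, hsmul, hsmul, hcoe, hdf, hg, one_smul, one_smul]
    · rw [hπ]
      dsimp only
      rw [coe_guMk, hms, hA₀, smul_smul, smul_smul]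
      have : τ (d / f) * τ e * e * (d / f) = 1 := by
        linear_combination (e.1 : K) * τ e * hdf + hcoe e
      rw [this, one_smul]
    · intro e e' h
      simp only [Subtype.mk.injEq, Prod.mk.injEq] at h
      have h1 : τ (d / f) ≠ 0 := by simp [hd0, hf0]
      exact Subtype.ext (Subtype.ext (τ.injective (mul_left_cancel₀ h1 h.1)))
    · rintro ⟨⟨⟨a, ha⟩, g₁⟩, hz⟩
      have hz' := (hπ _ _).1 hz
      simp only at hz'
      have hg₁ := (mem_GU_iff' hτq₀ _).1 g₁.2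
      have h3 : m A₀ = (d / f * a) • m (g₁ : GL (Fin n) K₀) := by rw [hA₀, ← hz', smul_smul]
      have h4 : σ (d / f * a) = d / f * a := by
        apply hone
        have h5 := hmσ A₀
        have h6 : ((d / f * a) • m (g₁ : GL (Fin n) K₀)).map σ =
            σ (d / f * a) • m (g₁ : GL (Fin n) K₀) := by
          conv_rhs => rw [← hmσ]
          ext i j; simp
        rw [h3, h6] at h5
        have h7 := congrArg (fun A : (Matrix (Fin n) (Fin n) K) => Aᵀ * (m (g₁ : GL (Fin n) K₀)).map τ) h5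
        simpa [(hmU _).2 hg₁] using h7
      have h8 : (d / f * a) * τ (d / f * a) = 1 := by
        rw [map_mul]; linear_combination (a * τ a) * hdf + ha
      refine ⟨⟨τ₀ ⟨d / f * a, h4⟩, Subtype.ext ?_⟩, ?_⟩
      · rw [hτ₀.invol, mul_comm]
        simp only [Subfield.coe_mul, ← hττ, Subfield.coe_one]
        exact h8
      · refine Subtype.ext (Prod.ext (Subtype.ext ?_) (Subtype.ext (Units.ext (hm_inj ?_))))
        · simp only [← hττ, hτ.invol]
          linear_combination a * hdf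
        · rw [coe_guMk, hms, h3, smul_smul, ← hττ, mul_comm, h8, one_smul]
  have h1 := card_eq_mul_of_fibers π hfib
  rw [Nat.card_prod, hτ.card_norm_one hK, hτ₀.card_norm_one hK₀] at h1
  obtain ⟨k, hk⟩ : q₀ + 1 ∣ q + 1 := by simpa [hq] using hodd.nat_add_dvd_pow_add_pow q₀ 1
  have h2 : Nat.card S = k * Nat.card (Cfsg.GU n K₀ q₀) := by
    refine Nat.eq_of_mul_eq_mul_right (by omega : 0 < q₀ + 1) ?_
    rw [← h1, hk]; ring
  change (Nat.card S : ℤ) = _
  rw [h2, hk, Nat.mul_div_cancel_left _ (by omega), Nat.cast_mul, card_GU hK₀]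
  rfl

end Cfsg.Agent.S2677
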