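import Cfsg.Statements.S2678
import Cfsg.Agent.Lib.GL.Isom

set_option autoImplicit false
open Cfsg

namespace Cfsg.Agent.S2678

open Module Matrix Cfsg.Agent.Lib.GL.Isom Cfsg.Agent.Lib.GL.Herm Cfsg.Agent.Lib.GL.Alt Cfsg.Agent.Lib.Forms

/-- Field-extension embedding of symplectic groups: for a field K with q² elements and a field F with q elements there is an injective homomorphism Sp_2a(K) → Sp_4a(F). -/
theorem result {K F : Type*} [Field K] [Fintype K] [Field F] [Fintype F] {q : ℕ} (hK : Fintype.card K = q ^ 2) (hF : Fintype.card F = q) (a : ℕ) : ∃ φ : ↥(Matrix.symplecticGroup (Fin a) K) →* ↥(Matrix.symplecticGroup (Fin (2 * a)) F), Function.Injective φ := by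
  obtain ⟨σ, hσq, hσ⟩ := exists_isInvol hK
  obtain ⟨φ, hφ⟩ := exists_ringHom_range_eq_fixed hσ hK hF
  let : Algebra F K := φ.toAlgebra
  have h2 : finrank F K = 2 := finrank_eq_two_of_card hK hF
  obtain ⟨l, hl0, -⟩ := Submodule.exists_le_ker_of_lt_top (⊥ : Submodule F K) bot_lt_top
  let B : LinearMap.BilinForm F (Fin a ⊕ Fin a → K) := LinearMap.mk₂ F
    (fun u v => l (sympBilin a K u v)) (fun _ _ _ => by simp)
    (fun c u v => by
      rw [← map_smul, ← algebraMap_smul K c u, LinearMap.map_smul]; simp [Algebra.smul_def])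
    (fun _ _ _ => by simp)
    (fun c u v => by
      rw [← map_smul, ← algebraMap_smul K c v, LinearMap.map_smul]; simp [Algebra.smul_def])
  have hBa : ∀ u v, B u v = l (sympBilin a K u v) := fun _ _ => rfl
  have hA : B.IsAlt := fun v => by rw [hBa, sympBilin_isAlt a v, map_zero]
  have hsep : ∀ v, (∀ u, B u v = 0) → v = 0 := by
    intro v hv
    refine (sympBilin_nondegenerate (F := K) a).2 v fun u => ?_
    by_contra h
    apply hl0
    ext c
    have := hv ((c / sympBilin a K u v) • u)
    rwa [hBa, LinearMap.map_smul, LinearMap.smul_apply, smul_eq_mul,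
      div_mul_cancel₀ _ h] at this
  have hB : B.Nondegenerate :=
    ⟨fun v hv => hsep v fun u => by rw [← LinearMap.IsAlt.neg hA, hv, neg_zero], hsep⟩
  let ρ : Matrix.symplecticGroup (Fin a) K →* Module.End F (Fin a ⊕ Fin a → K) :=
    { toFun := fun g => (Matrix.toLin' (g : Matrix (Fin a ⊕ Fin a) (Fin a ⊕ Fin a) K)).restrictScalars F
      map_one' := LinearMap.ext fun v => by simp
      map_mul' := fun a b => LinearMap.ext fun v => by simp }
  refine exists_hom_symplecticGroup hA hB ?_ ρ ?_ ?_
  · rw [← Module.finrank_mul_finrank F K, h2]; simp; ring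
  · intro a b h
    refine Subtype.ext (Matrix.toLin'.injective (LinearMap.ext fun v => ?_))
    exact LinearMap.congr_fun h v
  · intro g u v
    rw [hBa, hBa, sympBilin_apply, sympBilin_apply]
    exact congrArg l ((mem_symplecticGroup_iff_sympForm _).1 g.2 u v)

end Cfsg.Agent.S2678
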