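import Cfsg.Statements.S2679
import Cfsg.Agent.Lib.GL.OrthCount

set_option autoImplicit false
open Cfsg

namespace Cfsg.Agent.S2679

open Cfsg.Agent.Lib.GL.Isom Cfsg.Agent.Lib.GL.OrthConj Cfsg.Agent.Lib.Forms Cfsg.Agent.Lib.GL.Herm
  Polynomial Matrix Module QuadraticMap

theorem quad_ext {F K ι : Type*} [Field F] [Field K] [Fintype ι] [DecidableEq ι] (φ : F →+* K)
    {Q Q' : QuadraticForm K (ι → K)} (h : ∀ v : ι → F, Q (φ ∘ v) = Q' (φ ∘ v)) (v : ι → K) :
    Q v = Q' v := by
  have h0 : ∀ i, (Pi.single i 1 : ι → K) = φ ∘ (Pi.single i 1 : ι → F) := fun i => by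
    ext j; by_cases hj : j = i <;> simp [hj]
  have h1 : polarBilin Q = polarBilin Q' := (Pi.basisFun K ι).ext fun i => (Pi.basisFun K ι).ext fun j => by
    have := h (Pi.single i 1 + Pi.single j 1)
    rw [show φ ∘ (Pi.single i 1 + Pi.single j 1 : ι → F) = φ ∘ (Pi.single i 1 : ι → F) +
      φ ∘ (Pi.single j 1 : ι → F) from funext fun _ => map_add φ _ _] at this
    simp [polar, h0, h, this]
  have h2 : v ∈ Submodule.span K (Set.range (Pi.basisFun K ι)) := by simp
  induction h2 using Submodule.span_induction with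
  | mem x hx => obtain ⟨i, rfl⟩ := hx; simp [h0, h]
  | zero => simp
  | add x y _ _ hx hy =>
    rw [Q_add, Q_add, hx, hy, ← polarBilin_apply_apply, h1, polarBilin_apply_apply]
  | smul a x _ hx => rw [Q_smul, Q_smul, hx]


/-- An elliptic orthogonal group embeds in the hyperbolic orthogonal group of the same dimension over the quadratic extension: for a field F with q elements and a field K with q² elements there is an injective homomorphism from O⁻_2m(F) (isometries of Σ_(j<m−1) x_j y_j + z₁² + a z₁z₂ + c z₂², binary part anisotropic) to O⁺_2m(K) (isometries of Σ_(j<m) x_j y_j over K). -/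
theorem result {F K : Type*} [Field F] [Fintype F] [Field K] [Fintype K] {q : ℕ} (hF : Fintype.card F = q) (hK : Fintype.card K = q ^ 2) {m : ℕ} (hm : 1 ≤ m) (a c : F) (hac : ∀ z₁ z₂ : F, z₁ ^ 2 + a * z₁ * z₂ + c * z₂ ^ 2 = 0 → z₁ = 0 ∧ z₂ = 0) : ∃ φ : ↥(Cfsg.isometryGroup F (Cfsg.quadFormMinus (m - 1) F a c)) →* ↥(Cfsg.isometryGroup K (Cfsg.quadFormPlus m K)), Function.Injective φ := by
  obtain ⟨σ, hσq, hσ⟩ := exists_isInvol hK
  obtain ⟨φ, -⟩ := exists_ringHom_range_eq_fixed hσ hK hF
  let : Algebra F K := φ.toAlgebra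
  obtain ⟨z, hz⟩ : ∃ z : K, z ^ 2 + φ a * z + φ c = 0 := by
    have h1 : (X ^ 2 + C a * X + C c : F[X]).natDegree = 2 := by compute_degree!
    have : Fact (Irreducible (X ^ 2 + C a * X + C c : F[X])) :=
      ⟨irreducible_of_degree_le_three_of_not_isRoot (by simp [h1]) fun x hx =>
        one_ne_zero (hac x 1 (by simpa using hx)).2⟩
    have : FiniteDimensional F (AdjoinRoot (X ^ 2 + C a * X + C c : F[X])) :=
      (AdjoinRoot.powerBasis this.out.ne_zero).finite
    have : Finite (AdjoinRoot (X ^ 2 + C a * X + C c : F[X])) := Module.finite_of_finite F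
    obtain ⟨f⟩ := FiniteField.nonempty_algHom_of_finrank_dvd (F := F)
      (K := AdjoinRoot (X ^ 2 + C a * X + C c : F[X])) (L := K) (by
        rw [(AdjoinRoot.powerBasis (Fact.out : Irreducible _).ne_zero).finrank,
          AdjoinRoot.powerBasis_dim, h1, finrank_eq_two_of_card hK hF])
    refine ⟨f (AdjoinRoot.root _), ?_⟩
    have h2 := congrArg f (AdjoinRoot.aeval_eq (X ^ 2 + C a * X + C c : F[X]))
    rw [AdjoinRoot.mk_self, map_zero, ← aeval_algHom_apply] at h2
    simp only [map_add, map_mul, map_pow, aeval_X, aeval_C] at h2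
    exact h2
  have h0 : Nondeg (qMinus (m - 1) K (φ a) (φ c)) := nondeg_qMinus _ (by
    simpa [map_ofNat] using (map_ne_zero φ).2 (disc_ne_zero_of_anisotropic hac))
  have h3 : ∀ v, qMinus (m - 1) K (φ a) (φ c) (φ ∘ v) = φ (qMinus (m - 1) F a c v) := fun v => by
    simp [qMinus_apply]
  obtain ⟨a', b', hab⟩ := exists_anisotropic K
  obtain ⟨e, he⟩ | ⟨e, he⟩ := h0.classify_even' hm (by simp; omega) hab
  · let ρ : Cfsg.isometryGroup F (qMinus (m - 1) F a c) →* Module.End K (_ → K) :=
      { toFun := fun g => toLin' (g.1.1.map φ)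
        map_one' := LinearMap.ext fun v => by simp
        map_mul' := fun a b => LinearMap.ext fun v => by simp [Matrix.map_mul] }
    obtain ⟨ψ, hψ⟩ := exists_hom_isometryGroup (Q := qMinus (m - 1) K (φ a) (φ c)) (Q' := qPlus m K)
      e (fun u v h => by rw [he, he, h]) ρ fun g => quad_ext φ (Q := (qMinus (m - 1) K (φ a) (φ c)).comp (ρ g))
        (Q' := qMinus (m - 1) K (φ a) (φ c)) fun v => by
          change qMinus (m - 1) K (φ a) (φ c) (g.1.1.map φ *ᵥ (φ ∘ v)) = _
          rw [show g.1.1.map φ *ᵥ (φ ∘ v) = φ ∘ (g.1.1 *ᵥ v) from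
            funext fun i => (RingHom.map_mulVec φ _ _ i).symm, h3, h3,
            (mem_isometryGroup_iff _ _).1 g.2]
    exact ⟨ψ, fun x y h => Subtype.ext (Units.ext (Matrix.map_injective φ.injective
      (toLin'.injective ((matOf e).injective ((hψ x).symm.trans (h ▸ hψ y))))))⟩
  · let T : ((Fin (m - 1) → K) × K) →ₗ[K] ((Fin (m - 1) ⊕ Fin (m - 1)) ⊕ Fin 2 → K) :=
      { toFun := fun x => Sum.elim (Sum.elim x.1 0) ![x.2 * z, x.2]
        map_add' := fun x y => by
          ext ((i | i) | i)
          · rfl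
          · simp
          · fin_cases i <;> simp [add_mul]
        map_smul' := fun t x => by
          ext ((i | i) | i)
          · rfl
          · simp
          · fin_cases i <;> simp [mul_assoc] }
    have h4 := finrank_ts_le_qMinus (m - 1) hab (U := LinearMap.range (e.toLinearMap ∘ₗ T)) (by
      rintro _ ⟨x, rfl⟩
      rw [LinearMap.comp_apply, LinearEquiv.coe_coe, he, qMinus_apply]
      simp [T]
      linear_combination x.2 ^ 2 * hz)
    have h5 : Function.Injective T := fun x y h => Prod.ext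
      (_root_.funext fun i => congrFun h (.inl (.inl i))) (congrFun h (.inr 1))
    rw [LinearMap.finrank_range_of_inj (f := e.toLinearMap ∘ₗ T) (e.injective.comp h5)] at h4
    simp at h4

end Cfsg.Agent.S2679
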