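import Cfsg.Statements.S2681
import Cfsg.Agent.Lib.GL.Invol3

set_option autoImplicit false
open Cfsg

namespace Cfsg.Agent.S2681

open Cfsg.Agent.Lib.GL.SymTwo Cfsg.Agent.Lib.GL.Alt

/-- Centraliser order of an involution t of Sp_2m(q), q even, with s = rank(t − 1) even and f(v, tv) = 0 for every v, f the symplectic form (type a_s): |C(t)| = q^(2ms − (3s² − s)/2) · |Sp_s(q)| · |Sp_(2m−2s)(q)|. -/
theorem result {F : Type*} [Field F] [Fintype F] [CharP F 2] {q : ℕ} (hF : Fintype.card F = q) {m s : ℕ} (t : Matrix.symplecticGroup (Fin m) F) (ht : t ^ 2 = 1) (ht1 : t ≠ 1) (hs : ((t : Matrix (Fin m ⊕ Fin m) (Fin m ⊕ Fin m) F) - 1).rank = s) (heven : Even s) (halt : ∀ v : Fin m ⊕ Fin m → F, Cfsg.sympForm m F v ((t : Matrix (Fin m ⊕ Fin m) (Fin m ⊕ Fin m) F).mulVec v) = 0) : Nat.card ↥(Subgroup.centralizer ({t} : Set ↥(Matrix.symplecticGroup (Fin m) F))) = q ^ (2 * m * s - (3 * s ^ 2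 - s) / 2) * ((q : ℕ) ^ ((s / 2) ^ 2) * ∏ i : Fin (s / 2), (q ^ (2 * ((i : ℕ) + 1)) - 1)) * ((q : ℕ) ^ ((m - s) ^ 2) * ∏ i : Fin (m - s), (q ^ (2 * ((i : ℕ) + 1)) - 1)) := by
  obtain ⟨M, c, z, E, h1, h2, h5, h3, h4⟩ := card_centralizer_Sp t ht hs
  obtain rfl := h5.1 halt
  rw [h4, card_IsoG_alt (m := s / 2) (h2.eq_zero_iff.1 rfl) ⟨h2.nondeg, fun v hv => h2.nondeg v
    fun u => by rw [h2.symm, hv]⟩ (by rw [h1, Nat.two_mul_div_two_of_even heven]), hF,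
    show E = 2 * m * s - (3 * s ^ 2 - s) / 2 by
      have := Nat.le_self_pow two_ne_zero s
      rw [mul_assoc 2 m]
      omega]
  rfl

end Cfsg.Agent.S2681
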