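import Cfsg.Statements.S2682
import Cfsg.Agent.Lib.GL.Invol3

set_option autoImplicit false
open Cfsg

namespace Cfsg.Agent.S2682

open Cfsg.Agent.Lib.GL.SymTwo Cfsg.Agent.Lib.GL.Alt

/-- Centraliser order of an involution t of Sp_2m(q), q even, with s = rank(t − 1) even and f(v, tv) ≠ 0 for some v, f the symplectic form (type c_s): |C(t)| = q^(2ms − (3s² − 3s)/2 − 1) · |Sp_(s−2)(q)| · |Sp_(2m−2s)(q)|. -/
theorem result {F : Type*} [Field F] [Fintype F] [CharP F 2] {q : ℕ} (hF : Fintype.card F = q) {m s : ℕ} (t : Matrix.symplecticGroup (Fin m) F) (ht : t ^ 2 = 1) (hs : ((t : Matrix (Fin m ⊕ Fin m) (Fin m ⊕ Fin m) F) - 1).rank = s) (heven : Even s) (hna : ∃ v : Fin m ⊕ Fin m → F, Cfsg.sympForm m F v ((t : Matrix (Fin m ⊕ Fin m) (Fin m ⊕ Fin m) F).mulVec v) ≠ 0) : Nat.card ↥(Subgroup.centralizer ({t} : Set ↥(Matrix.symplecticGroup (Fin m) F))) = q ^ (2 * m * s - (3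 * s ^ 2 - 3 * s) / 2 - 1) * ((q : ℕ) ^ (((s - 2) / 2) ^ 2) * ∏ i : Fin ((s - 2) / 2), (q ^ (2 * ((i : ℕ) + 1)) - 1)) * ((q : ℕ) ^ ((m - s) ^ 2) * ∏ i : Fin (m - s), (q ^ (2 * ((i : ℕ) + 1)) - 1)) := by
  obtain ⟨M, c, z, E, h1, h2, h5, h3, h4⟩ := card_centralizer_Sp t ht hs
  have hz : z ≠ 0 := fun h => hna.elim fun v hv => hv (h5.2 h v)
  have : Nontrivial M := ⟨z, 0, hz⟩
  have h6 := Module.finrank_pos (R := F) (M := M)
  obtain ⟨k, rfl⟩ : ∃ k, s = 2 * (k + 1) := ⟨s / 2 - 1, by obtain ⟨k, rfl⟩ := heven; omega⟩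
  rw [h4, h2.card_IsoG_even h1 hz, hF, show (2 * (k + 1) - 2) / 2 = k by omega, ← mul_assoc,
    ← pow_add, show E + (2 * k + 1) =
      2 * m * (2 * (k + 1)) - (3 * (2 * (k + 1)) ^ 2 - 3 * (2 * (k + 1))) / 2 - 1 by
      have := Nat.le_self_pow two_ne_zero (2 * (k + 1))
      rw [mul_assoc 2 m]
      omega]
  rfl

end Cfsg.Agent.S2682
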