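import Cfsg.Statements.S2684
import Cfsg.Agent.Lib.GL.Invol4

set_option autoImplicit false
open Cfsg

namespace Cfsg.Agent.S2684

open Cfsg.Agent.Lib.GL.SymTwo Cfsg.Agent.Lib.GL.Alt Cfsg.Agent.Lib.Forms Cfsg.Agent.Lib.GL.OrthConj

/-- For the hyperbolic form Q = Σ x_j y_j on F^(2m) over a finite field with q elements, q even (excluding m = 2 over the field of two elements), and an involution x ≠ 1 of the orthogonal group with s = rank(x − 1) even and Q vanishing on the image of x − 1 (equivalently f(v, xv) = 0 for all v, where f(u, w) = Q(u + w) − Q(u) − Q(w) is the bilinear form of Q; type a_s, which lies in Ω): its centraliser in Ω (the commutator subgroup of the orthogonal group) has order q^(2ms − (3s² + s)/2) · |Sp_s(q)| · |Ω⁺_(2m−2s)(q)|, where |Ω⁺_2k(q)| = q^(k(k−1)) (q^k − 1) Π_(i=1)^(k−1) (q^(2i) − 1) for k ≥ 1 and the last factor is 1 when s = m. -/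
theorem result {F : Type*} [Field F] [Fintype F] [CharP F 2] {q : ℕ} (hF : Fintype.card F = q) {m s : ℕ} (h : Fintype.card F ≠ 2 ∨ m ≠ 2) (x : ↥(Cfsg.isometryGroup F (Cfsg.quadFormPlus m F))) (hx : x ^ 2 = 1) (hx1 : x ≠ 1) (hs : (((x : Matrix.GeneralLinearGroup (Fin m ⊕ Fin m) F) : Matrix (Fin m ⊕ Fin m) (Fin m ⊕ Fin m) F) - 1).rank = s) (heven : Even s) (halt : ∀ v : Fin m ⊕ Fin m → F, Cfsg.quadFormPlus m F ((((x : Matrix.GeneralLinearGroup (Fin m ⊕ Fin m) F) : Matrix (Fin m ⊕ Fin m) (Fin m ⊕ Fin m) F) - 1).mulVec v) = 0) : Nat.card {g : ↥(Cfsg.Omega F (Cfsg.quadFormPlus m F)) // (g : ↥(Cfsg.isometryGroup F (Cfsg.quadFormPlus m F))) * x = x * (g : ↥(Cfsg.isometryGroup F (Cfsg.quadFormPlus m F)))} = q ^ (2 * m * s - (3 * s ^ 2 + s) / 2) * ((q : ℕ) ^ ((s / 2) ^ 2) * ∏ i : Fin (s / 2), (q ^ (2 * ((i : ℕ) + 1)) - 1)) * (if s = m then 1 else q ^ ((m - s) * (m - s - 1)) * (q ^ (m - s) - 1) * ∏ i : Fin (m - s - 1), (q ^ (2 * ((i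 : ℕ) + 1)) - 1)) := by
  revert x
  rw [← coe_qPlus]
  intro x hx hx1 hs halt
  have h0 := (finrank_resSp_toOG x).trans hs
  obtain ⟨c, z, E, h2, h6, h3, h5, -, h4⟩ := card_centralizer_Om (nondeg_qPlus m) (nonExc_qPlus h)
    (m := m) (by simp [two_mul]) (T := toOG (qPlus m F) x) (by rw [← map_mul, ← sq, hx, map_one]) h0
  obtain rfl := h6.1 (by
    rintro _ ⟨v, rfl⟩
    simpa [Matrix.sub_mulVec] using halt v)
  replace h4 := h4 rfl (tp_qPlus m)
  have hq : 0 < q := hF ▸ Fintype.card_pos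
  rw [card_IsoG_alt (m := s / 2) (h2.eq_zero_iff.1 rfl) ⟨h2.nondeg, fun v hv => h2.nondeg v
    fun u => by rw [h2.symm, hv]⟩ (by rw [h0, Nat.two_mul_div_two_of_even heven]), hF,
    show E = 2 * m * s - (3 * s ^ 2 + s) / 2 + s by
      have : s ^ 2 ≤ m * s := by nlinarith
      have := Nat.le_self_pow two_ne_zero s
      rw [mul_assoc 2 m]
      omega] at h4
  refine (card_centralizer_Omega x).trans (Nat.eq_of_mul_eq_mul_left
    (show 0 < (if s = m then 1 else 2) * q ^ (2 * m - s) * (q ^ s + q ^ m) by split_ifs <;> positivity)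
    ((mul_right_comm _ _ _).trans ((congrArg (· * _) (mul_right_comm _ _ _)).trans (h4.trans ?_))))
  generalize 2 * m * s - (3 * s ^ 2 + s) / 2 = E
  split_ifs with h7
  · subst h7
    rw [Nat.sub_self]
    simp [spOrder, two_mul s]
    ring
  obtain ⟨j, rfl⟩ : ∃ j, m = s + (j + 1) := ⟨m - s - 1, by omega⟩
  rw [Nat.add_sub_cancel_left, Nat.add_sub_cancel, spOrder_succ, mul_comm 2 (j + 1), pow_mul,
    show (q ^ (j + 1)) ^ 2 - 1 = _ from Nat.sq_sub_sq _ 1, show 2 * (s + (j + 1)) - s = s + 2 * (j + 1) by omega]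
  simp only [spOrder]
  ring

end Cfsg.Agent.S2684
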