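import Cfsg.Statements.S2685
import Cfsg.Agent.Lib.GL.Invol4

set_option autoImplicit false
open Cfsg

namespace Cfsg.Agent.S2685

open Cfsg.Agent.Lib.GL.SymTwo Cfsg.Agent.Lib.GL.Alt Cfsg.Agent.Lib.Forms

/-- For the hyperbolic form Q = Σ x_j y_j on F^(2m) over a finite field with q elements, q even (excluding m = 2 over the field of two elements), and an involution x of the orthogonal group with s = rank(x − 1) even and Q not vanishing on the image of x − 1 (f(v, xv) ≠ 0 for some v, where f(u, w) = Q(u + w) − Q(u) − Q(w) is the bilinear form of Q; type c_s, which lies in Ω): its centraliser in Ω (the commutator subgroup of the orthogonal group) has order q^(2m(s−1) − (3s² − 5s)/2 − 1) · |Sp_(s−2)(q)| · |Sp_(2m−2s)(q)|. -/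
theorem result {F : Type*} [Field F] [Fintype F] [CharP F 2] {q : ℕ} (hF : Fintype.card F = q) {m s : ℕ} (h : Fintype.card F ≠ 2 ∨ m ≠ 2) (x : ↥(Cfsg.isometryGroup F (Cfsg.quadFormPlus m F))) (hx : x ^ 2 = 1) (hs : (((x : Matrix.GeneralLinearGroup (Fin m ⊕ Fin m) F) : Matrix (Fin m ⊕ Fin m) (Fin m ⊕ Fin m) F) - 1).rank = s) (heven : Even s) (hna : ∃ v : Fin m ⊕ Fin m → F, Cfsg.quadFormPlus m F ((((x : Matrix.GeneralLinearGroup (Fin m ⊕ Fin m) F) : Matrix (Fin m ⊕ Fin m) (Fin m ⊕ Fin m) F) - 1).mulVec v) ≠ 0) : Nat.card {g : ↥(Cfsg.Omega F (Cfsg.quadFormPlus m F)) // (g : ↥(Cfsg.isometryGroup F (Cfsg.quadFormPlus m F))) * x = x * (g : ↥(Cfsg.isometryGroup F (Cfsg.quadFormPlus m F)))} = q ^ (2 * m * (s - 1) - (3 * s ^ 2 - 5 * s) / 2 - 1) * ((q : ℕ) ^ (((s - 2) / 2) ^ 2) * ∏ i : Fin ((s - 2) / 2), (q ^ (2 * ((i : ℕ) + 1)) - 1)) * ((q : ℕ) ^ ((m - s) ^ 2) * ∏ i : Fin (m - s), (q ^ (2 * ((i : ℕ) + 1)) - 1)) :=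 by
  revert x
  rw [← coe_qPlus]
  intro x hx hs hna
  have h0 := (finrank_resSp_toOG x).trans hs
  obtain ⟨c, z, E, h2, h6, h3, h5, h4, -⟩ := card_centralizer_Om (nondeg_qPlus m) (nonExc_qPlus h)
    (m := m) (by simp [two_mul]) (T := toOG (qPlus m F) x) (by rw [← map_mul, ← sq, hx, map_one]) h0
  have hz : z ≠ 0 := fun h => hna.elim fun v hv => hv (by
    simpa [Matrix.sub_mulVec] using h6.2 h _ (sub_mem_resSp _ v))
  have : Nontrivial (resSp (toOG (qPlus m F) x)) := ⟨z, 0, hz⟩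
  have h6 := Module.finrank_pos (R := F) (M := resSp (toOG (qPlus m F) x))
  obtain ⟨k, rfl⟩ : ∃ k, s = 2 * (k + 1) := ⟨s / 2 - 1, by obtain ⟨k, rfl⟩ := heven; omega⟩
  refine (card_centralizer_Omega x).trans (Nat.eq_of_mul_eq_mul_right
    (pow_pos Fintype.card_pos _) ((h4 hz).trans ?_))
  rw [h2.card_IsoG_even h0 hz, hF, show (2 * (k + 1) - 2) / 2 = k by omega, ← mul_assoc, ← pow_add,
    show E + (2 * k + 1) = 2 * m * (2 * (k + 1) - 1) -
      (3 * (2 * (k + 1)) ^ 2 - 5 * (2 * (k + 1))) / 2 - 1 + (2 * m - 2 * (k + 1)) by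
      have : 2 * (2 * (k + 1)) ≤ (2 * (k + 1)) ^ 2 := by nlinarith
      have : (2 * (k + 1)) ^ 2 + m ≤ m * (2 * (k + 1)) + 2 * (k + 1) := by nlinarith
      rw [Nat.mul_sub_one, mul_assoc 2 m]
      omega, pow_add]
  simp only [spOrder]
  ring

end Cfsg.Agent.S2685
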