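import Cfsg.Statements.S2689
import Cfsg.Agent.Lib.Aut.PSLSpec

set_option autoImplicit false
open Cfsg

namespace Cfsg.Agent.S2689

open Cfsg.Agent.Lib.Aut Cfsg.Agent.Lib.Aut.PSL SemidirectProduct in

/-- The automorphism group of a simple projective special linear group PSL_n(F) over a finite field (n ≥ 2; |F| ≥ 4 when n = 2) is generated by the automorphisms induced by invertible semilinear maps of F^n (the image of the projective semilinear group) together with the inverse-transpose automorphism. -/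
theorem result {F : Type*} [Field F] [Fintype F] {p f : ℕ} [Fact p.Prime] (hF : Fintype.card F = p ^ f) (hf : 1 ≤ f) {n : ℕ} (hn : 2 ≤ n) (hs : n = 2 → 4 ≤ Fintype.card F) :
    Cfsg.gammaPSL n F ⊔ Cfsg.autSubgroupOf (fun β : Matrix.ProjectiveSpecialLinearGroup (Fin n) F ≃* Matrix.ProjectiveSpecialLinearGroup (Fin n) F => Cfsg.IsInverseTransposeAutPSL β) = ⊤ := by
  rw [eq_top_iff]
  intro β _
  obtain ⟨⟨g, σ, e⟩, rfl⟩ := Θ_surjective (ι := Fin n) (by simpa using hn) β
  rcases c2_cases e with rfl | rfl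
  · exact Subgroup.mem_sup_left (Subgroup.subset_closure ⟨g, σ, (isInduced_iff _ _ _).mpr rfl⟩)
  · have : (⟨g, (σ, Multiplicative.ofAdd 1)⟩ : Gam (Fin n) F) =
        ⟨g, (σ, 1)⟩ * inr (1, Multiplicative.ofAdd 1) := by ext <;> simp
    rw [this, map_mul]
    exact Subgroup.mul_mem_sup
      (Subgroup.subset_closure ⟨g, σ, (isInduced_iff _ _ _).mpr rfl⟩)
      (Subgroup.subset_closure ((isInverseTranspose_iff _).mpr rfl))

end Cfsg.Agent.S2689
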