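import Cfsg.Statements.S2697
import Cfsg.Agent.Lib.Aut.PSLCent

set_option autoImplicit false
open Cfsg

namespace Cfsg.Agent.S2697

open Cfsg.Agent.Lib.Aut Cfsg.Agent.Lib.Aut.PSL SemidirectProduct in

/-- Let T = PSL_n(F) be simple over a finite field (n ≥ 2; |F| ≥ 4 when n = 2) and let x be a field automorphism or a graph-field automorphism of T of prime order r. Then an element y of the coset Inndiag(T)·x (that is, y = δ x with δ in the inner-diagonal group, the image of PGL_n(F)) has order r if and only if y is conjugate to x by an element of Inndiag(T). -/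
theorem result {F : Type*} [Field F] [Fintype F] {p f : ℕ} [Fact p.Prime] (hF : Fintype.card F = p ^ f) (hf : 1 ≤ f) {n : ℕ} (hn : 2 ≤ n) (hs : n = 2 → 4 ≤ Fintype.card F) (x δ : MulAut (Matrix.ProjectiveSpecialLinearGroup (Fin n) F)) (hx : Cfsg.IsFieldAutClassPSL x ∨ Cfsg.IsGraphFieldAutClassPSL x) {r : ℕ} (hr : r.Prime) (hxr : orderOf x = r) (hδ : δ ∈ Cfsg.inndiagPSL n F) :
    orderOf (δ * x) = r ↔ Cfsg.IsConjUnder (Cfsg.inndiagPSL n F) x (δ * x) := by
  have h2 : 2 ≤ Fintype.card (Fin n) := by simpa using hn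
  have := normal_range_ψ (F := F) h2
  rw [inndiag_eq] at hδ ⊢
  have hc : ∀ α : MulAut (Matrix.ProjectiveSpecialLinearGroup (Fin n) F),
      orderOf (α * x * α⁻¹) = r := fun α => ((MulAut.conj α).orderOf_eq x).trans hxr
  rcases hx with ⟨α, σ, hσ, h⟩ | ⟨h3, α, φ, γ, σ, hσ, hφ, hγ, h⟩
  · rw [isStdField_iff] at h
    refine coset_conj_reduce _ h hxr (lang_fld h2 ?_) hδ
    rw [← orderOf_fld h2, ← h, hc]
  · rw [isStdField_iff] at hφ
    rw [isInverseTranspose_iff] at hγ
    have h3' : 3 ≤ Fintype.card (Fin n) := by simpa using h3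
    rw [hφ, hγ, ← map_mul, ← map_mul, Prod.mk_mul_mk, mul_one, one_mul] at h
    have h4 := hc α
    rw [h, orderOf_inr h3'] at h4
    have h5 := pow_orderOf_eq_one ((σ, Multiplicative.ofAdd 1) : A F)
    rw [h4, Prod.pow_mk, Prod.mk_eq_one] at h5
    have h6 : r = 2 := by
      have h7 : orderOf (Multiplicative.ofAdd (1 : ZMod 2)) = 2 :=
        orderOf_eq_prime (by decide) (by decide)
      have h8 := orderOf_dvd_of_pow_eq_one h5.2
      rw [h7] at h8
      exact ((Nat.prime_dvd_prime_iff_eq Nat.prime_two hr).mp h8).symm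
    subst h6
    exact coset_conj_reduce _ h hxr (lang_graphfld h3' (orderOf_eq_prime h5.1 hσ)) hδ

end Cfsg.Agent.S2697
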