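import Cfsg.Statements.S2698
import Cfsg.Agent.Lib.Aut.PSLCent

set_option autoImplicit false
open Cfsg

namespace Cfsg.Agent.S2698

open Cfsg.Agent.Lib.Aut Cfsg.Agent.Lib.Aut.PSL SemidirectProduct in

/-- Let T = PSL_n(F) be simple over the field F with p^f elements (n ≥ 2; p^f ≥ 4 when n = 2), G = Inndiag(T) the image of PGL_n(F) in Aut(T), and x a field automorphism of T of prime order r. Then r divides f; the centralizer C_G(x) is isomorphic to PGL_n(F₀) for the subfield size |F₀| = p^(f/r); and the G-class of x is the union of exactly gcd(n, (p^f − 1)/(p^(f/r) − 1)) classes under conjugation by T (the inner automorphism group). -/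
theorem result {F : Type*} [Field F] [Fintype F] {p f : ℕ} [Fact p.Prime] (hF : Fintype.card F = p ^ f) (hf : 1 ≤ f) {n : ℕ} (hn : 2 ≤ n) (hs : n = 2 → 4 ≤ Fintype.card F) (x : MulAut (Matrix.ProjectiveSpecialLinearGroup (Fin n) F)) (hx : Cfsg.IsFieldAutClassPSL x) {r : ℕ} (hr : r.Prime) (hxr : orderOf x = r) (F₀ : Type*) [Field F₀] [Fintype F₀] (hF₀ : Fintype.card F₀ = p ^ (f / r)) :
    r ∣ f ∧ Nonempty (↥(Cfsg.inndiagPSL n F ⊓ Subgroup.centralizer {x}) ≃* Matrix.ProjGenLinGroup (Fin n) F₀) ∧ Cfsg.splitClassCount (Cfsg.inndiagPSL n F) (Cfsg.Inn (Matrix.ProjectiveSpecialLinearGroup (Fin n) F)) x = Nat.gcd n ((p ^ f - 1) / (p ^ (f / r) - 1)) := by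
  have h2 : 2 ≤ Fintype.card (Fin n) := by simpa using hn
  have : Nonempty (Fin n) := ⟨⟨0, by omega⟩⟩
  have := normal_range_ψ (F := F) h2
  rw [inndiag_eq]
  obtain ⟨α, σ, hσ, h⟩ := hx
  rw [isStdField_iff] at h
  have h1 : orderOf σ = r := by
    rw [← orderOf_fld h2, ← h]; exact ((MulAut.conj α).orderOf_eq x).trans hxr
  have hrf : r ∣ f := by
    rw [← h1, ← (ringAut_cyclic_card F hF).2]; exact orderOf_dvd_natCard σ
  obtain ⟨φ, hφ⟩ := exists_ringHom_fixed σ h1 (q₀ := p ^ (f / r))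
    (by rw [← pow_mul, Nat.div_mul_cancel hrf, Nat.card_eq_fintype_card, hF]) F₀ hF₀
  refine ⟨hrf, ?_, ?_⟩
  · obtain ⟨e⟩ := centralizer_conj_equiv (ψ (Fin n) F).range α x
    rw [h] at e
    obtain ⟨e'⟩ := nonempty_equiv_quot _ _ _ (ker_fld_map h2 φ) (range_fld h2 σ φ hφ)
    exact ⟨e.symm.trans e'⟩
  · rw [← splitClassCount_conj _ _ α, h, splitClassCount_eq_of_range _ _ κ_surjective _
      inn_le_range_ψ (ψ_mem_inn_iff h2) _ _ (range_fld h2 σ φ hφ), κ, MonoidHom.comp_assoc,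
      MonoidHom.range_comp, range_det_map, index_map_mk_pow, index_units_map, Fintype.card_fin,
      Nat.card_eq_fintype_card, Nat.card_eq_fintype_card, hF, hF₀]

end Cfsg.Agent.S2698
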