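import Cfsg.Statements.S2702
import Cfsg.Agent.Lib.Aut.GraphPSL

set_option autoImplicit false
open Cfsg

namespace Cfsg.Agent.S2702

open Cfsg.Agent.Lib.Aut Cfsg.Agent.Lib.Aut.Gr in

/-- Let T = PSL_n(F) over the field with q = p^f elements, n ≥ 3, G = Inndiag(T) the image of PGL_n(F), and γ an involutory graph automorphism of T. The G-class of γ is the union of exactly c T-classes, where: if n is even and q is odd, c = gcd(n/2, q − 1) when C_G(γ) is isomorphic to the projective conformal symplectic group PGSp_n(F) (symplectic type) and c = gcd(n, q − 1)/2 otherwise; and c = gcd(n, q − 1) when n is odd or q is even. -/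
theorem result {F : Type*} [Field F] [Fintype F] {p f : ℕ} [Fact p.Prime] (hF : Fintype.card F = p ^ f) (hf : 1 ≤ f) {n : ℕ} (hn : 3 ≤ n) (γ : MulAut (Matrix.ProjectiveSpecialLinearGroup (Fin n) F)) (hγ : Cfsg.IsGraphAutClassPSL γ) (hγ2 : orderOf γ = 2) :
    ((Even n ∧ Odd p ∧ Nonempty (↥(Cfsg.inndiagPSL n F ⊓ Subgroup.centralizer {γ}) ≃* Cfsg.PGSp (n / 2) F)) → Cfsg.splitClassCount (Cfsg.inndiagPSL n F) (Cfsg.Inn (Matrix.ProjectiveSpecialLinearGroup (Fin n) F)) γ = Nat.gcd (n / 2) (p ^ f - 1)) ∧ ((Even n ∧ Odd p ∧ ¬ Nonempty (↥(Cfsg.inndiagPSL n F ⊓ Subgroup.centralizer {γ}) ≃* Cfsg.PGSp (n / 2) F)) → Cfsg.splitClassCount (Cfsg.inndiagPSL n F) (Cfsg.Inn (Matrix.ProjectiveSpecialLinearGroup (Fin n) F)) γ = Nat.gcd n (p ^ f - 1) / 2) ∧ (¬ (Even n ∧ Odd p) → Cfsg.splitClassCount (Cfsg.inndiagPSL n F) (Cfsg.Inn (Matrix.ProjectiveSpecialLinearGroup (Fin n) F)) γ = Nat.gcd n (p ^ f - 1)) := by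
  obtain ⟨B, hB, hs⟩ := (sysPSL hn).ex γ hγ hγ2
  have hc : Nat.card Fˣ = p ^ f - 1 := by rw [Nat.card_units, Nat.card_eq_fintype_card, hF]
  have := charP_of_card F hF
  have hp : Odd p ↔ (2 : F) ≠ 0 := by
    rw [show (2 : F) = (2 : ℕ) by simp, Ne, CharP.cast_eq_zero_iff F p,
      Nat.prime_dvd_prime_iff_eq Fact.out Nat.prime_two]
    exact ⟨fun h h2 => by rw [h2] at h; exact absurd h (by decide), (Fact.out : p.Prime).odd_of_ne_two⟩
  have : Nonempty (Fin n) := ⟨⟨0, by omega⟩⟩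
  have hB' : γ = gr B := hB
  refine ⟨fun ⟨⟨m, hm⟩, ho, ⟨e⟩⟩ => ?_, fun ⟨⟨m, hm⟩, ho, he⟩ => ?_, fun h => ?_⟩
  · have hm' : n / 2 = m := by omega
    have hm2 : Fintype.card (Fin n) = 2 * m := by simp; omega
    have : NeZero m := ⟨by omega⟩
    rw [hm'] at e ⊢
    have ha := alt_of_skew (hp.mp ho) (hs.resolve_left fun h =>
      not_equiv_pgsp (hp.mp ho) h hm2 ⟨((sysPSL hn).cent hB).some.symm.trans e⟩)
    rw [hB', split_gr hn B (powMonoidHom m).range, IsCyclic.index_powMonoidHom_range, hc,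
      Nat.gcd_comm]
    exact fun x => ⟨fun ⟨c, hc⟩ => (ha.exists_simM c).imp fun g hg =>
      ⟨c, hg, (ha.det_eq hm2 hg).trans hc⟩, fun ⟨g, c, hg, h⟩ => ⟨c, (ha.det_eq hm2 hg).symm.trans h⟩⟩
  · have hm' : n / 2 = m := by omega
    have hm2 : Fintype.card (Fin n) = 2 * m := by simp; omega
    rw [hm'] at he
    have hs' := hs.resolve_right fun h =>
      he ((sysPSL hn).cent' hB ((alt_of_skew (hp.mp ho) h).projQuot hm2))
    rw [hB', split_gr hn B ((powMonoidHom (2 * m)).range.comap (powMonoidHom 2)), index_comap_sq, hc,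
      hm, two_mul]
    · rw [hc]; exact Nat.Odd.sub_odd ho.pow odd_one
    · exact fun x => ⟨fun ⟨c, hc⟩ => (exists_simM_symm (hp.mp ho) hs' ⟨m, by omega⟩ c x
        (by rw [hm2]; exact hc.symm)).imp fun g hg => ⟨c, hg⟩,
        fun ⟨g, c, hg, h⟩ => ⟨c, by rw [← h, ← hm2]; exact hg.det_sq.symm⟩⟩
  · rw [hB', split_gr hn B (powMonoidHom n).range, IsCyclic.index_powMonoidHom_range, hc,
      Nat.gcd_comm]
    refine fun x => ⟨fun ⟨c, hc⟩ => ⟨_, _, simM_scalar _ c, by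
      rw [PSL.det_scalar', Fintype.card_fin]; exact hc⟩, fun ⟨g, c, hg, k⟩ => ?_⟩
    obtain ⟨d, -, hd⟩ := hg.det_of_not (by rwa [Fintype.card_fin, ← hp])
    exact ⟨d, by rw [← k, hd, Fintype.card_fin]; rfl⟩

end Cfsg.Agent.S2702
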