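import Cfsg.Statements.S2704
import Cfsg.Agent.Lib.Aut.PSLCent

set_option autoImplicit false
open Cfsg

namespace Cfsg.Agent.S2704

open Cfsg.Agent.Lib.Aut Cfsg.Agent.Lib.Aut.PSL SemidirectProduct in

/-- Let T = PSL_n(F) over the field F with p^f elements, n ≥ 3, and G = Inndiag(T) the image of PGL_n(F). If x is an involutory graph-field automorphism of T then f is even; x is G-conjugate to every other involutory graph-field automorphism; C_G(x) is isomorphic to the projective general unitary group PGU_n(q₀) with q₀² = p^f, realised over F itself through the Hermitian form Σ uᵢ vᵢ^{q₀}; and the G-class of x is the union of exactly gcd(n, q₀ − 1) T-classes. -/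
theorem result {F : Type*} [Field F] [Fintype F] {p f : ℕ} [Fact p.Prime] (hF : Fintype.card F = p ^ f) (hf : 1 ≤ f) {n : ℕ} (hn : 3 ≤ n) (x : MulAut (Matrix.ProjectiveSpecialLinearGroup (Fin n) F)) (hx : Cfsg.IsGraphFieldAutClassPSL x) (hx2 : orderOf x = 2) :
    Even f ∧ (∀ y : MulAut (Matrix.ProjectiveSpecialLinearGroup (Fin n) F), Cfsg.IsGraphFieldAutClassPSL y → orderOf y = 2 → Cfsg.IsConjUnder (Cfsg.inndiagPSL n F) x y) ∧ Nonempty (↥(Cfsg.inndiagPSL n F ⊓ Subgroup.centralizer {x}) ≃* Cfsg.PGU n F (p ^ (f / 2))) ∧ Cfsg.splitClassCount (Cfsg.inndiagPSL n F) (Cfsg.Inn (Matrix.ProjectiveSpecialLinearGroup (Fin n) F)) x = Nat.gcd n (p ^ (f / 2) - 1) := by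
  have h3 : 3 ≤ Fintype.card (Fin n) := by simpa using hn
  have h2 : 2 ≤ Fintype.card (Fin n) := by omega
  have : Nonempty (Fin n) := ⟨⟨0, by omega⟩⟩
  have := normal_range_ψ (F := F) h2
  rw [inndiag_eq]
  have key : ∀ y : MulAut (Matrix.ProjectiveSpecialLinearGroup (Fin n) F),
      Cfsg.IsGraphFieldAutClassPSL y → orderOf y = 2 → ∃ σ : F ≃+* F, orderOf σ = 2 ∧
        IsConjUnder (ψ (Fin n) F).range (Θ (Fin n) F (inr (σ, Multiplicative.ofAdd 1))) y := by
    rintro y ⟨-, α, φ, γ, σ, hσ, hφ, hγ, h⟩ hy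
    rw [isStdField_iff] at hφ
    rw [isInverseTranspose_iff] at hγ
    rw [hφ, hγ, ← map_mul, ← map_mul, Prod.mk_mul_mk, mul_one, one_mul] at h
    have h4 : orderOf (α * y * α⁻¹) = 2 := ((MulAut.conj α).orderOf_eq y).trans hy
    rw [h, orderOf_inr h3] at h4
    have h5 := pow_orderOf_eq_one ((σ, Multiplicative.ofAdd 1) : A F)
    rw [h4, Prod.pow_mk, Prod.mk_eq_one] at h5
    have h6 := orderOf_eq_prime h5.1 hσ
    refine ⟨σ, h6, ?_⟩
    obtain ⟨g, hg⟩ := exists_conj_eq_mul h2 α⁻¹ (inr (σ, Multiplicative.ofAdd 1))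
    rw [← h, right_inr, show α⁻¹ * (α * y * α⁻¹) * α⁻¹⁻¹ = y by group] at hg
    rw [hg]
    apply lang_graphfld h3 h6 _ ⟨g, rfl⟩
    rw [← hg]; exact hy ▸ pow_orderOf_eq_one y
  obtain ⟨σ, hσ, hc⟩ := key x hx hx2
  have h2f : 2 ∣ f := by
    rw [← hσ, ← (ringAut_cyclic_card F hF).2]; exact orderOf_dvd_natCard σ
  have hF' : Fintype.card F = (p ^ (f / 2)) ^ 2 := by
    rw [← pow_mul, Nat.div_mul_cancel h2f, hF]
  have hσq := eq_pow_of_orderOf_two hF' hσ
  refine ⟨even_iff_two_dvd.mpr h2f, fun y hy hy2 => ?_, ?_⟩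
  · obtain ⟨σ', hσ', hc'⟩ := key y hy hy2
    have := isCyclic_ringAut F
    have := finite_ringAut F
    rw [eq_of_orderOf_two hσ' hσ] at hc'
    exact (isConjUnder_equivalence _).trans ((isConjUnder_equivalence _).symm hc) hc'
  obtain ⟨α, -, rfl⟩ := hc
  constructor
  · obtain ⟨e⟩ := centralizer_conj_equiv (ψ (Fin n) F).range α
      (Θ (Fin n) F (inr (σ, Multiplicative.ofAdd 1)))
    obtain ⟨e'⟩ := nonempty_equiv_quot _ _ _ (ker_subtype (n := n) (by omega) _)
      (range_graphfld (by omega) hσ hσq)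
    exact ⟨e.trans e'⟩
  · rw [splitClassCount_conj, splitClassCount_eq_of_range _ _ κ_surjective _
      inn_le_range_ψ (ψ_mem_inn_iff h2) _ _ (range_graphfld (by omega) hσ hσq), κ,
      MonoidHom.comp_assoc, MonoidHom.range_comp, range_det_GU (by omega) hσq, index_map_mk_pow,
      index_ker_pow hF', Fintype.card_fin]

end Cfsg.Agent.S2704
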