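import Cfsg.Statements.S2705
import Cfsg.Agent.Lib.Aut.SU

set_option autoImplicit false
open Cfsg

namespace Cfsg.Agent.S2705

open Cfsg.Agent.Lib.Aut Cfsg.Agent.Lib.Aut.SU in

/-- Let T = PSU_n(q) be simple (n ≥ 3, (n, q) ≠ (3, 2), q = p^f), realised over the field F with q² elements, G = Inndiag(T) the image of PGU_n(q) in Aut(T), and x a field automorphism of T (conjugate to a standard field automorphism of odd order) of odd prime order r. Then r divides f; C_G(x) is isomorphic to PGU_n(q₀) with q₀ = p^(f/r), realised over a field F₀ with q₀² elements; and the G-class of x is the union of exactly gcd(n, (q + 1)/(q₀ + 1)) T-classes. -/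
theorem result {F : Type*} [Field F] [Fintype F] {p f q : ℕ} [Fact p.Prime] (hq : q = p ^ f) (hf : 1 ≤ f) (hF : Fintype.card F = q ^ 2) {n : ℕ} (hn : 3 ≤ n) (hs : ¬ (n = 3 ∧ q = 2)) (x : MulAut (Cfsg.PSU n F q)) (hx : Cfsg.IsFieldAutClassPSU x) {r : ℕ} (hr : r.Prime) (hro : Odd r) (hxr : orderOf x = r) (F₀ : Type*) [Field F₀] [Fintype F₀] (hF₀ : Fintype.card F₀ = p ^ (2 * (f / r))) :
    r ∣ f ∧ Nonempty (↥(Cfsg.inndiagPSU n F q ⊓ Subgroup.centralizer {x}) ≃* Cfsg.PGU n F₀ (p ^ (f / r))) ∧ Cfsg.splitClassCount (Cfsg.inndiagPSU n F q) (Cfsg.Inn (Cfsg.PSU n F q)) x = Nat.gcd n ((q + 1) / (p ^ (f / r) + 1)) := by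
  have := (X n F q).normal_range_ψ (surj hF hn hs)
  rw [inndiag_eq]
  obtain ⟨α, φ, σ, -, -, h, rfl⟩ := hx
  rw [isField_iff] at h
  have h1 : orderOf σ = r := by
    rw [← (ker hF hn).orderOf_inr (inr_mem σ), ← h]; exact ((MulAut.conj α).orderOf_eq x).trans hxr
  have hrf : r ∣ f := by
    refine (Nat.coprime_two_right.mpr hro).dvd_of_dvd_mul_left ?_
    rw [← h1, ← (ringAut_cyclic_card F (p := p) (f := 2 * f)
      (by rw [hF, hq, ← pow_mul, mul_comm])).2]
    exact orderOf_dvd_natCard σ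
  obtain ⟨⟨e'⟩, h3⟩ := centralizer_fld (q₀ := p ^ (f / r)) (F₀ := F₀) hF hn h1 hro
    (by rw [← pow_mul, Nat.div_mul_cancel hrf, hq]) (by rw [hF₀, ← pow_mul, mul_comm])
  refine ⟨hrf, ?_, ?_⟩
  · obtain ⟨e⟩ := centralizer_conj_equiv (X n F q).ψ.range α x
    rw [h] at e
    exact ⟨e.symm.trans e'⟩
  · rw [← splitClassCount_conj _ _ α, h, h3]

end Cfsg.Agent.S2705
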