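import Cfsg.Statements.S2709
import Cfsg.Agent.Lib.Aut.GraphPSU

set_option autoImplicit false
open Cfsg

namespace Cfsg.Agent.S2709

open Cfsg.Agent.Lib.Aut Cfsg.Agent.Lib.Aut.Gr Cfsg.Agent.Lib.Aut.SU in

/-- Let T = PSU_n(q) be simple (n ≥ 3, (n,q) ≠ (3,2), q = p^f), realised over the field F with q² elements, G = Inndiag(T) the image of PGU_n(q), and γ an involutory graph automorphism of T. The G-class of γ is the union of exactly c T-classes, where: if n is even and q is odd, c = gcd(n/2, q + 1) when C_G(γ) is isomorphic to PGSp_n(F₀) for a field F₀ with q elements (symplectic type) and c = gcd(n, q + 1)/2 otherwise; and c = gcd(n, q + 1) when n is odd or q is even. -/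
theorem result {F : Type*} [Field F] [Fintype F] {p f q : ℕ} [Fact p.Prime] (hq : q = p ^ f) (hf : 1 ≤ f) (hF : Fintype.card F = q ^ 2) {n : ℕ} (hn : 3 ≤ n) (hs : ¬ (n = 3 ∧ q = 2)) (F₀ : Type*) [Field F₀] [Fintype F₀] (hF₀ : Fintype.card F₀ = q) (γ : MulAut (Cfsg.PSU n F q)) (hγ : Cfsg.IsGraphAutClassPSU γ) (hγ2 : orderOf γ = 2) :
    ((Even n ∧ Odd q ∧ Nonempty (↥(Cfsg.inndiagPSU n F q ⊓ Subgroup.centralizer {γ}) ≃* Cfsg.PGSp (n / 2) F₀)) → Cfsg.splitClassCount (Cfsg.inndiagPSU n F q) (Cfsg.Inn (Cfsg.PSU n F q)) γ = Nat.gcd (n / 2) (q + 1)) ∧ ((Even n ∧ Odd q ∧ ¬ Nonempty (↥(Cfsg.inndiagPSU n F q ⊓ Subgroup.centralizer {γ}) ≃* Cfsg.PGSp (n / 2) F₀)) → Cfsg.splitClassCount (Cfsg.inndiagPSU n F q) (Cfsg.Inn (Cfsg.PSU n F q)) γ = Nat.gcd n (q + 1) / 2) ∧ (¬ (Even n ∧ Odd q) → Cfsg.splitClassCount (Cfsg.inndiagPSU n F q) (Cfsg.Inn (Cfsg.PSU n F q)) γ = Nat.gcd n (q + 1)) := by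
  obtain ⟨τ, φ, h1, h2, h3⟩ := exists_sys hF F₀ hF₀
  obtain ⟨B, hB, hs⟩ := (sysPSU hF hn h1 h2 h3).ex γ hγ hγ2
  have hc : Nat.card (U F q) = q + 1 := card_ker_pow hF
  have hp : Odd q ↔ (2 : F₀) ≠ 0 := by
    refine ⟨fun h => Lib.Forms.two_ne_zero_of_odd_card (hF₀ ▸ h), fun h => ?_⟩
    rw [← hF₀, Nat.odd_iff]
    exact FiniteField.odd_card_of_char_ne_two fun h4 => h (by
      have := ringChar.Nat.cast_ringChar (R := F₀)
      rw [h4] at this; exact_mod_cast this)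
  have : Nonempty (Fin n) := ⟨⟨0, by omega⟩⟩
  have hU : ∀ (u x : U F q) (k : ℕ), powMonoidHom k u = x ↔ (u.1 : F) ^ k = x.1 := fun u x k => by
    rw [Subtype.ext_iff, Units.ext_iff]; simp
  refine ⟨fun ⟨⟨m, hm⟩, ho, ⟨e⟩⟩ => ?_, fun ⟨⟨m, hm⟩, ho, he⟩ => ?_, fun h => ?_⟩
  · have hm' : n / 2 = m := by omega
    have hm2 : Fintype.card (Fin n) = 2 * m := by simp; omega
    have hm3 : n = 2 * m := by omega
    have : NeZero m := ⟨by omega⟩
    rw [hm'] at e ⊢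
    have ha := alt_of_skew (hp.mp ho) (hs.resolve_left fun h =>
      not_equiv_pgsp (hp.mp ho) h hm2 ⟨((sysPSU hF hn h1 h2 h3).cent hB).some.symm.trans e⟩)
    rw [split_ga hF hn h1 h2 h3 hB (powMonoidHom m).range, IsCyclic.index_powMonoidHom_range, hc,
      Nat.gcd_comm]
    refine fun x => ⟨fun ⟨u, hu⟩ => ?_, fun ⟨g, c, a, k1, k2, k3⟩ => ?_⟩
    · obtain ⟨a, c, k1, k2⟩ := exists_ac h1 h2 h3 u
      obtain ⟨g, hg⟩ := ha.exists_simM c
      refine ⟨g, c, a, hg, k1, ?_⟩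
      rw [← (hU _ _ _).mp hu, k2, ha.det_eq hm2 hg, hm3, mul_pow, pow_mul]; simp
    · obtain ⟨u, hu⟩ := exists_U h1 h2 h3 k2
      refine ⟨u, (hU _ _ _).mpr ?_⟩
      rw [k3, hu, ha.det_eq hm2 k1, hm3, mul_pow, pow_mul]; simp
  · have hm' : n / 2 = m := by omega
    have hm2 : Fintype.card (Fin n) = 2 * m := by simp; omega
    have hm3 : n = 2 * m := by omega
    rw [hm'] at he
    have hs' := hs.resolve_right fun h =>
      he ((sysPSU hF hn h1 h2 h3).cent' hB ((alt_of_skew (hp.mp ho) h).projQuot hm2))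
    rw [split_ga hF hn h1 h2 h3 hB ((powMonoidHom (2 * m)).range.comap (powMonoidHom 2)),
      index_comap_sq, hc, hm3]
    · rw [hc]; exact ho.add_one
    refine fun x => ⟨fun ⟨u, hu⟩ => ?_, fun ⟨g, c, a, k1, k2, k3⟩ => ?_⟩
    · obtain ⟨a, c, k1, k2⟩ := exists_ac h1 h2 h3 u
      have k3 : ((a : F) ^ n * φ (c ^ m : F₀ˣ)) ^ 2 = (x.1 : F) ^ 2 := by
        have := (hU _ _ _).mp hu
        rw [k2] at this
        refine Eq.trans ?_ (this.trans (by simp))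
        rw [hm3, Units.val_pow_eq_pow_val, map_pow]; ring
      rcases sq_eq_sq_iff_eq_or_eq_neg.mp k3.symm with k4 | k4
      · obtain ⟨g, hg, hg'⟩ := exists_simM_symm (hp.mp ho) hs' ⟨m, by omega⟩ c (c ^ m)
          (by rw [hm2, ← pow_mul, mul_comm])
        exact ⟨g, c, a, hg, k1, by rw [hg', k4]⟩
      · obtain ⟨g, hg, hg'⟩ := exists_simM_symm (hp.mp ho) hs' ⟨m, by omega⟩ c (-c ^ m)
          (by rw [hm2, neg_sq, ← pow_mul, mul_comm])
        exact ⟨g, c, a, hg, k1, by rw [hg', k4]; simp⟩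
    · obtain ⟨u, hu⟩ := exists_U h1 h2 h3 k2
      refine ⟨u, (hU _ _ _).mpr ?_⟩
      have k4 := congrArg (fun x : F₀ˣ => φ x) k1.det_sq
      simp only [Units.val_pow_eq_pow_val, map_pow, hm2] at k4
      refine Eq.trans ?_ (show (x.1 : F) ^ 2 = _ by simp)
      rw [hu, k3, mul_pow, mul_pow, k4, hm3]; ring
  · rw [split_ga hF hn h1 h2 h3 hB (powMonoidHom n).range, IsCyclic.index_powMonoidHom_range, hc,
      Nat.gcd_comm]
    refine fun x => ⟨fun ⟨u, hu⟩ => ⟨1, 1, u, by simp [SimM], by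
      simpa using (mem_U_iff h2 _).mp u.2, by simpa using ((hU _ _ _).mp hu).symm⟩,
      fun ⟨g, c, a, k1, k2, k3⟩ => ?_⟩
    obtain ⟨d, rfl, hd⟩ := k1.det_of_not (by rwa [Fintype.card_fin, ← hp])
    refine ⟨⟨a * Units.map (φ : F₀ →* F) d, (mem_U_iff h2 _).mpr ?_⟩, (hU _ _ _).mpr ?_⟩
    · have : τ (φ d) = φ d := (h3 _).mpr ⟨_, rfl⟩
      simp only [Units.val_mul, Units.val_pow_eq_pow_val, Units.coe_map, MonoidHom.coe_coe, map_mul,
        map_pow, this] at k2 ⊢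
      linear_combination k2
    · rw [k3, hd]; simp [mul_pow]

end Cfsg.Agent.S2709
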