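import Cfsg.Statements.S2711
import Cfsg.Agent.Lib.Aut.SU

set_option autoImplicit false
open Cfsg

namespace Cfsg.Agent.S2711

open Cfsg.Agent.Lib.Aut Cfsg.Agent.Lib.Aut.SU in

/-- Let T = PSU_n(q) be simple (n ≥ 3, (n,q) ≠ (3,2)), realised over the field F with q² elements, and let x be a field automorphism of T (conjugate to a standard field automorphism of odd order) of prime order r. Then an element y of the coset Inndiag(T)·x (y = δ x with δ in the image of PGU_n(q)) has order r if and only if y is conjugate to x by an element of Inndiag(T). (T has no graph-field automorphisms.) -/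
theorem result {F : Type*} [Field F] [Fintype F] {p f q : ℕ} [Fact p.Prime] (hq : q = p ^ f) (hf : 1 ≤ f) (hF : Fintype.card F = q ^ 2) {n : ℕ} (hn : 3 ≤ n) (hs : ¬ (n = 3 ∧ q = 2)) (x δ : MulAut (Cfsg.PSU n F q)) (hx : Cfsg.IsFieldAutClassPSU x) {r : ℕ} (hr : r.Prime) (hxr : orderOf x = r) (hδ : δ ∈ Cfsg.inndiagPSU n F q) :
    orderOf (δ * x) = r ↔ Cfsg.IsConjUnder (Cfsg.inndiagPSU n F q) x (δ * x) := by
  have := (X n F q).normal_range_ψ (surj hF hn hs)
  rw [inndiag_eq] at hδ ⊢
  obtain ⟨α, φ, σ, -, ho, h, rfl⟩ := hx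
  rw [isField_iff] at h
  have h1 : orderOf σ = r := by
    rw [← (ker hF hn).orderOf_inr (inr_mem σ), ← h]; exact ((MulAut.conj α).orderOf_eq x).trans hxr
  rw [h1] at ho
  have hrf : r ∣ f := by
    refine (Nat.coprime_two_right.mpr ho).dvd_of_dvd_mul_left ?_
    rw [← h1, ← (ringAut_cyclic_card F (p := p) (f := 2 * f)
      (by rw [hF, hq, ← pow_mul, mul_comm])).2]
    exact orderOf_dvd_natCard σ
  exact coset_conj_reduce _ h hxr (lang (q₀ := p ^ (f / r)) hF hn h1 ho
    (by rw [← pow_mul, Nat.div_mul_cancel hrf, hq])) hδ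

end Cfsg.Agent.S2711
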