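import Cfsg.Statements.S2712
import Cfsg.Agent.Lib.Aut.Sp

set_option autoImplicit false
open Cfsg

namespace Cfsg.Agent.S2712

theorem aux {a r : ℕ} (ha : 2 ≤ a) (hr : 0 < r) :
    Nat.gcd 2 ((a ^ r - 1) / (a - 1)) = Nat.gcd (Nat.gcd 2 (a ^ r - 1)) r := by
  have h1 : (a ^ r - 1) / (a - 1) = ∑ i ∈ Finset.range r, a ^ i := (Nat.geomSum_eq ha r).symm
  have h2 : 1 ≤ a ^ r := Nat.one_le_pow _ _ (by omega)
  have k : ∀ n, Nat.gcd 2 n = if n % 2 = 0 then 2 else 1 := fun n => by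
    rw [Nat.gcd_rec]
    rcases Nat.mod_two_eq_zero_or_one n with h | h <;> simp [h]
  rw [h1, k, k, Finset.sum_nat_mod]
  rcases Nat.mod_two_eq_zero_or_one a with h | h
  · have h3 : a ^ r % 2 = 0 := by rw [Nat.pow_mod, h, zero_pow hr.ne', Nat.zero_mod]
    obtain ⟨s, rfl⟩ : ∃ s, r = s + 1 := ⟨r - 1, by omega⟩
    rw [if_neg (show ¬ (a ^ (s + 1) - 1) % 2 = 0 by omega), Finset.sum_range_succ',
      Finset.sum_eq_zero (fun i _ => by rw [Nat.pow_mod, h, zero_pow (by omega), Nat.zero_mod])]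
    simp
  · have h3 : ∀ i, a ^ i % 2 = 1 := fun i => by rw [Nat.pow_mod, h, one_pow, Nat.one_mod]
    have := h3 r
    rw [if_pos (show (a ^ r - 1) % 2 = 0 by omega), k]
    simp [h3]

open Cfsg.Agent.Lib.Aut Cfsg.Agent.Lib.Aut.Sp in

/-- Let T = PSp_{2m}(F) be simple over the field F with p^f elements (m ≥ 2, (2m, |F|) ≠ (4, 2)), G = Inndiag(T) the image of the projective conformal symplectic group PGSp_{2m}(F), and x a field automorphism of T of prime order r. Then r divides f; C_G(x) is isomorphic to PGSp_{2m}(F₀) for a field F₀ with p^(f/r) elements; and the G-class of x is the union of exactly gcd(gcd(2, p^f − 1), r) T-classes. -/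
theorem result {F : Type*} [Field F] [Fintype F] {p f : ℕ} [Fact p.Prime] (hF : Fintype.card F = p ^ f) (hf : 1 ≤ f) {m : ℕ} (hm : 2 ≤ m) (hs : m = 2 → 3 ≤ Fintype.card F) (x : MulAut (Cfsg.PSp m F)) (hx : Cfsg.IsFieldAutClassPSp x) {r : ℕ} (hr : r.Prime) (hxr : orderOf x = r) (F₀ : Type*) [Field F₀] [Fintype F₀] (hF₀ : Fintype.card F₀ = p ^ (f / r)) :
    r ∣ f ∧ Nonempty (↥(Cfsg.inndiagPSp m F ⊓ Subgroup.centralizer {x}) ≃* Cfsg.PGSp m F₀) ∧ Cfsg.splitClassCount (Cfsg.inndiagPSp m F) (Cfsg.Inn (Cfsg.PSp m F)) x = Nat.gcd (Nat.gcd 2 (p ^ f - 1)) r := by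
  have := normal_range_ψ (F := F) hm
  have : NeZero m := ⟨by omega⟩
  rw [inndiag_eq]
  obtain ⟨α, σ, -, h⟩ := hx
  rw [isStdField_iff] at h
  have h1 : orderOf σ = r := by
    rw [← (ker hm).orderOf_inr (inr_mem σ), ← h]; exact ((MulAut.conj α).orderOf_eq x).trans hxr
  have hrf : r ∣ f := by
    rw [← h1, ← (ringAut_cyclic_card F hF).2]; exact orderOf_dvd_natCard σ
  have h2 : p ^ f = (p ^ (f / r)) ^ r := by rw [← pow_mul, Nat.div_mul_cancel hrf]
  obtain ⟨φ, hφ⟩ := exists_ringHom_fixed σ h1 (q₀ := p ^ (f / r))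
    (by rw [← h2, Nat.card_eq_fintype_card, hF]) F₀ hF₀
  obtain ⟨⟨e'⟩, h3⟩ := centralizer_fld hm φ hφ
  refine ⟨hrf, ?_, ?_⟩
  · obtain ⟨e⟩ := centralizer_conj_equiv (X m F).ψ.range α x
    rw [h] at e
    exact ⟨e.symm.trans e'⟩
  · rw [← splitClassCount_conj _ _ α, h, h3, Nat.card_eq_fintype_card, Nat.card_eq_fintype_card, hF,
      hF₀, h2, aux (hF₀ ▸ Fintype.one_lt_card) hr.pos]

end Cfsg.Agent.S2712
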