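import Cfsg.Statements.S2714
import Cfsg.Agent.Lib.Forms.OrthField2

set_option autoImplicit false
open Cfsg

set_option maxHeartbeats 800000

namespace Cfsg.Agent.S2714

open Cfsg.Agent.Lib.Forms Module QuadraticMap


/-- Let T = Ω_{2m+1}(F) (m ≥ 3, |F| = p^f odd; realised as PΩ of the form x₀² + Σ xᵢ yᵢ), G = Inndiag(T) the image of the conformal orthogonal group in Aut(T), and x a field automorphism of T of prime order r. Then r divides f; C_G(x) is isomorphic to Inndiag(Ω_{2m+1}(F₀)) for a field F₀ with p^(f/r) elements; and the G-class of x is a single T-class when r is odd and the union of exactly two T-classes when r = 2. -/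
theorem result {F : Type*} [Field F] [Fintype F] {p f : ℕ} [Fact p.Prime] (hF : Fintype.card F = p ^ f) (hf : 1 ≤ f) (hodd : Odd (Fintype.card F)) {m : ℕ} (hm : 3 ≤ m) (x : MulAut (Cfsg.POmega F (Cfsg.quadFormOdd m F))) (hx : Cfsg.IsFieldAutClassPOmega (Cfsg.quadFormOdd m F) x) {r : ℕ} (hr : r.Prime) (hxr : orderOf x = r) (F₀ : Type*) [Field F₀] [Fintype F₀] (hF₀ : Fintype.card F₀ = p ^ (f / r)) :
    r ∣ f ∧ Nonempty (↥(Cfsg.inndiagPOmegaOdd m F ⊓ Subgroup.centralizer {x}) ≃* ↥(Cfsg.inndiagPOmegaOdd m F₀)) ∧ (Odd r → Cfsg.splitClassCount (Cfsg.inndiagPOmegaOdd m F) (Cfsg.Inn (Cfsg.POmega F (Cfsg.quadFormOdd m F))) x = 1) ∧ (r = 2 → Cfsg.splitClassCount (Cfsg.inndiagPOmegaOdd m F) (Cfsg.Inn (Cfsg.POmega F (Cfsg.quadFormOdd m F))) x = 2) := by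
  have h2 := two_ne_zero_of_odd_card hodd
  have hQ := nondeg_qOdd h2 m
  have h5 : 5 ≤ Fintype.card (Unit ⊕ (Fin m ⊕ Fin m)) := by simp; omega
  have ho : Odd (Fintype.card (Unit ⊕ (Fin m ⊕ Fin m))) := by simp [parity_simps]
  obtain ⟨s, h1, rfl⟩ : ∃ s : Semi (qOdd m F), s.σ ≠ 1 ∧ x = Phi _ s := by
    obtain ⟨t, σ, h1, h⟩ := exists_of_fieldClass (Phi_surjective_odd h2 hm) (qOdd_map m) hx
    exact ⟨_, σ_conj_ne_one t h1, h⟩
  obtain ⟨h3, μ, hμ⟩ := exists_normalize hQ h5 hr (hxr ▸ pow_orderOf_eq_one (Phi _ s)) h1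
  obtain ⟨j, hj⟩ := exists_embed hF h3 hF₀
  rw [← Phi_scal_mul μ s, inndiagOdd_eq, inndiagOdd_eq]
  replace h3 : orderOf (Semi.scal _ μ * s).σ = r := by simpa using h3
  replace hj : ∀ x, (Semi.scal _ μ * s).σ x = x ↔ x ∈ j.range := by simpa using hj
  obtain ⟨D, hD⟩ := desc_odd hQ (m := m) (by simp; omega) hr.pos h3 hμ hj
  exact ⟨h3 ▸ orderOf_dvd_of_card hF _, D.centralizer_odd hQ h5 h3 hμ hj hD hr.pos,
    D.split_odd_odd hQ h5 h3 hj hD ho, D.split_odd_two hQ h5 h3 hμ hj hD ho⟩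

end Cfsg.Agent.S2714
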