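import Cfsg.Statements.S2715
import Cfsg.Agent.Lib.Forms.OrthTri4

set_option autoImplicit false
open Cfsg

namespace Cfsg.Agent.S2715

open Cfsg.Agent.Lib.Forms Module QuadraticMap


/-- Let T = PΩ⁺_{2m}(F) (m ≥ 4, |F| = p^f; the form Σ xᵢ yᵢ), G = Inndiag(T) the image of the class-preserving similarities in Aut(T), and x a field automorphism of T of prime order r. Then r divides f; C_G(x) is isomorphic to Inndiag(PΩ⁺_{2m}(F₀)) for a field F₀ with p^(f/r) elements; and the G-class of x is the union of exactly c T-classes, where c = 1 if r is odd or p = 2, and otherwise (r = 2, p odd) c = 2 when m is odd and p^(f/2) ≡ 1 (mod 4), and c = 4 in the remaining cases. -/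
theorem result {F : Type*} [Field F] [Fintype F] {p f : ℕ} [Fact p.Prime] (hF : Fintype.card F = p ^ f) (hf : 1 ≤ f) {m : ℕ} (hm : 4 ≤ m) (x : MulAut (Cfsg.POmega F (Cfsg.quadFormPlus m F))) (hx : Cfsg.IsFieldAutClassPOmega (Cfsg.quadFormPlus m F) x) {r : ℕ} (hr : r.Prime) (hxr : orderOf x = r) (F₀ : Type*) [Field F₀] [Fintype F₀] (hF₀ : Fintype.card F₀ = p ^ (f / r)) :
    r ∣ f ∧ Nonempty (↥(Cfsg.inndiagPOmegaPlus m F ⊓ Subgroup.centralizer {x}) ≃* ↥(Cfsg.inndiagPOmegaPlus m F₀)) ∧ ((Odd r ∨ p = 2) → Cfsg.splitClassCount (Cfsg.inndiagPOmegaPlus m F) (Cfsg.Inn (Cfsg.POmega F (Cfsg.quadFormPlus m F))) x = 1) ∧ ((r = 2 ∧ p ≠ 2 ∧ Odd m ∧ p ^ (f / 2) % 4 = 1) → Cfsg.splitClassCount (Cfsg.inndiagPOmegaPlus m F) (Cfsg.Inn (Cfsg.POmega F (Cfsg.quadFormPlus m F))) x = 2) ∧ ((r = 2 ∧ p ≠ 2 ∧ ¬ (Odd m ∧ p ^ (f / 2) % 4 = 1)) → Cfsg.splitClassCount (Cfsg.inndiagPOmegaPlus m F) (Cfsg.Inn (Cfsg.POmega F (Cfsg.quadFormPlus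 m F))) x = 4) := by
  have hQ := nondeg_qPlus (F := F) m
  have hN := nonExc_qPlus (F := F) (m := m) (.inr (by omega))
  have hN₀ := nonExc_qPlus (F := F₀) (m := m) (.inr (by omega))
  have h5 : 5 ≤ Fintype.card (Fin m ⊕ Fin m) := by simp; omega
  obtain ⟨s, h1, hs, rfl⟩ := exists_of_fieldClass_plus' hm hx
  obtain ⟨h3, μ, hμ⟩ := exists_normalize hQ h5 hr (hxr ▸ pow_orderOf_eq_one (Phi _ s)) h1
  have hf2 : r ∣ f := h3 ▸ orderOf_dvd_of_card hF _
  obtain ⟨j, hj⟩ := exists_embed hF h3 hF₀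
  rw [inndiagPlus_eq hN, inndiagPlus_eq hN₀, ← Phi_scal_mul μ s]
  replace h3 : orderOf (Semi.scal _ μ * s).σ = r := by simpa using h3
  replace hj : ∀ x, (Semi.scal _ μ * s).σ x = x ↔ x ∈ j.range := by simpa using hj
  obtain ⟨D, hD⟩ := desc_plus hQ hN (m := m) (by omega) (by simp; omega) hr.pos h3 hμ hj (isLag_ker_funLeft_inr m)
    (by rw [par_mul hQ hN, par_scal hQ hN, hs, one_mul])
  have k : r = 2 → p ≠ 2 → Cfsg.splitClassCount ((DG hQ hN (even_card_plus m)).map (Phi _))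
      (Cfsg.Inn (Cfsg.POmega F (qPlus m F))) (Phi _ (Semi.scal _ μ * s)) =
      if Odd m ∧ p ^ (f / 2) % 4 = 1 then 2 else 4 := fun hr2 hp => by
    subst hr2
    rw [← hF₀]
    exact D.split_plus_two hQ h5 h3 hμ hj hN (even_card_plus m) (two_ne_zero_of_card hF hp)
      ((neg_mem_Om_plus (two_ne_zero_of_card hF hp) m).mpr fun h => by
        obtain ⟨k, rfl⟩ := hf2
        have := h.2
        rw [hF, mul_comm, pow_mul, _root_.sq, Nat.mul_mod] at this
        have h4 : p ^ k % 4 < 4 := Nat.mod_lt _ (by norm_num)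
        generalize p ^ k % 4 = x at this h4
        interval_cases x <;> simp at this) hD
  refine ⟨hf2, D.centralizer_even hQ h5 h3 hμ hj hD hr.pos hN _ (nondeg_qPlus m) hN₀ _, ?_,
    fun h => (k h.1 h.2.1).trans (if_pos h.2.2), fun h => (k h.1 h.2.1).trans (if_neg h.2.2)⟩
  rintro (h | h)
  · exact D.split_even_odd hQ h5 h3 hj hD hN _ h
  · exact split_even_char hQ h5 hN _ (two_eq_zero_of_card (h ▸ hF)) _

end Cfsg.Agent.S2715
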