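import Cfsg.Statements.S2716
import Cfsg.Agent.Lib.Forms.OrthField2

set_option autoImplicit false
open Cfsg

set_option maxHeartbeats 800000

namespace Cfsg.Agent.S2716

open Cfsg.Agent.Lib.Forms Module QuadraticMap


/-- Let T = PΩ⁻_{2m+2}(F) (m ≥ 3, |F| = p^f; the form Σ xᵢ yᵢ + z₁² + a z₁ z₂ + b z₂² with anisotropic binary part), G = Inndiag(T), and x a field automorphism of T of prime order r. Then r is odd and divides f; C_G(x) is isomorphic to Inndiag(PΩ⁻_{2m+2}(F₀)) for a field F₀ with p^(f/r) elements and some anisotropic binary part over F₀; and the G-class of x is a single T-class. -/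
theorem result {F : Type*} [Field F] [Fintype F] {p f : ℕ} [Fact p.Prime] (hF : Fintype.card F = p ^ f) (hf : 1 ≤ f) {m : ℕ} (hm : 3 ≤ m) (a b : F) (hab : (∀ z₁ z₂ : F, z₁ ^ 2 + a * z₁ * z₂ + b * z₂ ^ 2 = 0 → z₁ = 0 ∧ z₂ = 0)) (x : MulAut (Cfsg.POmega F (Cfsg.quadFormMinus m F a b))) (hx : Cfsg.IsFieldAutClassPOmegaMinus m x) {r : ℕ} (hr : r.Prime) (hxr : orderOf x = r) (F₀ : Type*) [Field F₀] [Fintype F₀] (hF₀ : Fintype.card F₀ = p ^ (f / r)) :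
    Odd r ∧ r ∣ f ∧ (∃ a₀ b₀ : F₀, (∀ z₁ z₂ : F₀, z₁ ^ 2 + a₀ * z₁ * z₂ + b₀ * z₂ ^ 2 = 0 → z₁ = 0 ∧ z₂ = 0) ∧ Nonempty (↥(Cfsg.inndiagPOmegaMinus m F a b ⊓ Subgroup.centralizer {x}) ≃* ↥(Cfsg.inndiagPOmegaMinus m F₀ a₀ b₀))) ∧ Cfsg.splitClassCount (Cfsg.inndiagPOmegaMinus m F a b) (Cfsg.Inn (Cfsg.POmega F (Cfsg.quadFormMinus m F a b))) x = 1 := by
  have hQ := nondeg_qMinus m (disc_ne_zero_of_anisotropic hab)
  have hN := nonExc_qMinus m hab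
  have h5 : 5 ≤ Fintype.card ((Fin m ⊕ Fin m) ⊕ Fin 2) := by simp; omega
  obtain ⟨s, h1, rfl⟩ := exists_of_fieldClassMinus hm hab hx
  obtain ⟨h3, μ, hμ⟩ := exists_normalize hQ h5 hr (hxr ▸ pow_orderOf_eq_one (Phi _ s)) h1
  obtain ⟨j, hj⟩ := exists_embed hF h3 hF₀
  obtain ⟨a₀, b₀, hab₀⟩ := exists_aniso F₀
  have hQ₀ := nondeg_qMinus m (disc_ne_zero_of_anisotropic hab₀)
  have hN₀ := nonExc_qMinus m hab₀
  rw [← Phi_scal_mul μ s, inndiagMinus_eq (by omega) hab hQ hN]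
  replace h3 : orderOf (Semi.scal _ μ * s).σ = r := by simpa using h3
  replace hj : ∀ x, (Semi.scal _ μ * s).σ x = x ↔ x ∈ j.range := by simpa using hj
  obtain ⟨D, hD⟩ := desc_minus hQ hN (m := m) (by simp; omega) hr.pos h3 hμ hj hab₀
    fun ⟨U, hU⟩ => absurd hU (not_isLag_qMinus hab)
  have ho : Odd r := Nat.not_even_iff_odd.mp fun h => by
    obtain ⟨U, hU⟩ := D.lag_minus_of_two hQ hab₀ (h3 ▸ h) hj
    exact not_isLag_qMinus hab hU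
  refine ⟨ho, h3 ▸ orderOf_dvd_of_card hF _, ⟨a₀, b₀, hab₀, ?_⟩, D.split_even_odd hQ h5 h3 hj hD hN _ ho⟩
  rw [inndiagMinus_eq (by omega) hab₀ hQ₀ hN₀]
  exact D.centralizer_even hQ h5 h3 hμ hj hD hr.pos hN _ hQ₀ hN₀ _

end Cfsg.Agent.S2716
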