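import Cfsg.Statements.S2717
import Cfsg.Agent.Lib.Forms.OrthField2

set_option autoImplicit false
open Cfsg

set_option maxHeartbeats 800000

namespace Cfsg.Agent.S2717

open Cfsg.Agent.Lib.Forms Module QuadraticMap


/-- Let T = PΩ⁺_{2m}(F) with m ≥ 5 (dimension 2m ≠ 8) and |F| = p^f, G = Inndiag(T), and x an involutory graph-field automorphism of T. Then f is even; any two involutory graph-field automorphisms of T are G-conjugate; C_G(x) is isomorphic to Inndiag(PΩ⁻_{2m}(F₀)) for a field F₀ with p^(f/2) elements (some anisotropic binary part over F₀); and the G-class of x is the union of exactly c T-classes with c = 1 if p = 2, c = 4 if p is odd, m is odd and p^(f/2) ≡ 1 (mod 4), and c = 2 otherwise. -/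
theorem result {F : Type*} [Field F] [Fintype F] {p f : ℕ} [Fact p.Prime] (hF : Fintype.card F = p ^ f) (hf : 1 ≤ f) {m : ℕ} (hm : 5 ≤ m) (x : MulAut (Cfsg.POmega F (Cfsg.quadFormPlus m F))) (hx : Cfsg.IsGraphFieldAutClassPOmegaPlus m x) (hx2 : orderOf x = 2) (F₀ : Type*) [Field F₀] [Fintype F₀] (hF₀ : Fintype.card F₀ = p ^ (f / 2)) :
    Even f ∧ (∀ y : MulAut (Cfsg.POmega F (Cfsg.quadFormPlus m F)), Cfsg.IsGraphFieldAutClassPOmegaPlus m y → orderOf y = 2 → Cfsg.IsConjUnder (Cfsg.inndiagPOmegaPlus m F) x y) ∧ (∃ a₀ b₀ : F₀, (∀ z₁ z₂ : F₀, z₁ ^ 2 + a₀ * z₁ * z₂ + b₀ * z₂ ^ 2 = 0 → z₁ = 0 ∧ z₂ = 0) ∧ Nonempty (↥(Cfsg.inndiagPOmegaPlus m F ⊓ Subgroup.centralizer {x}) ≃* ↥(Cfsg.inndiagPOmegaMinus (m - 1) F₀ a₀ b₀))) ∧ (p = 2 → Cfsg.splitClassCount (Cfsg.inndiagPOmegaPlus m F) (Cfsg.Inn (Cfsg.POmega F (Cfsg.quadFormPlus m F))) x = 1) ∧ ((p ≠ 2 ∧ Odd m ∧ p ^ (f / 2) % 4 = 1) → Cfsg.splitClassCount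 (Cfsg.inndiagPOmegaPlus m F) (Cfsg.Inn (Cfsg.POmega F (Cfsg.quadFormPlus m F))) x = 4) ∧ ((p ≠ 2 ∧ ¬ (Odd m ∧ p ^ (f / 2) % 4 = 1)) → Cfsg.splitClassCount (Cfsg.inndiagPOmegaPlus m F) (Cfsg.Inn (Cfsg.POmega F (Cfsg.quadFormPlus m F))) x = 2) := by
  have hQ := nondeg_qPlus (F := F) m
  have hN := nonExc_qPlus (F := F) (m := m) (.inr (by omega))
  have h5 : 5 ≤ Fintype.card (Fin m ⊕ Fin m) := by simp; omega
  obtain ⟨s, h1, hs, rfl⟩ := exists_of_graphFieldClass hm hN hx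
  obtain ⟨h3, μ, hμ⟩ := exists_normalize hQ h5 Nat.prime_two (hx2 ▸ pow_orderOf_eq_one (Phi _ s)) h1
  have hf2 : 2 ∣ f := h3 ▸ orderOf_dvd_of_card hF _
  rw [inndiagPlus_eq hN]
  refine ⟨even_iff_two_dvd.mpr hf2, fun y hy hy2 => ?_, ?_⟩
  · obtain ⟨t, h4, ht, rfl⟩ := exists_of_graphFieldClass hm hN hy
    have h6 := (exists_normalize hQ h5 Nat.prime_two (hy2 ▸ pow_orderOf_eq_one (Phi _ t)) h4).1
    exact conj_of_even hQ hN _ h5 Nat.prime_two (eq_of_orderOf_two hF h3 h6) h1 (hx2 ▸ pow_orderOf_eq_one (Phi _ s))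
      (hy2 ▸ pow_orderOf_eq_one (Phi _ t)) (hs.trans ht.symm)
  obtain ⟨j, hj⟩ := exists_embed hF h3 hF₀
  obtain ⟨a₀, b₀, hab₀⟩ := exists_aniso F₀
  have hQ₀ := nondeg_qMinus (m - 1) (disc_ne_zero_of_anisotropic hab₀)
  have hN₀ := nonExc_qMinus (m - 1) hab₀
  rw [← Phi_scal_mul μ s]
  replace h3 : orderOf (Semi.scal _ μ * s).σ = 2 := by simpa using h3
  replace hj : ∀ x, (Semi.scal _ μ * s).σ x = x ↔ x ∈ j.range := by simpa using hj
  obtain ⟨D, hD⟩ := desc_minus hQ hN (m := m - 1) (by simp; omega) two_pos h3 hμ hj hab₀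
    fun _ => by rw [par_mul hQ hN, par_scal hQ hN, hs, one_mul]
  have hm1 : Even (m - 1) ↔ Odd m := by rw [Nat.even_sub (by omega)]; simp
  have k : p ≠ 2 → _ := fun hp => D.split_minus_two hQ h5 h3 hμ hj hN (even_card_plus m) (two_ne_zero_of_card hF hp)
    ((neg_mem_Om_plus (two_ne_zero_of_card hF hp) m).mpr fun h => by
      obtain ⟨k, rfl⟩ := hf2
      have := h.2
      rw [hF, mul_comm, pow_mul, _root_.sq, Nat.mul_mod] at this
      have h4 : p ^ k % 4 < 4 := Nat.mod_lt _ (by norm_num)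
      generalize p ^ k % 4 = x at this h4
      interval_cases x <;> simp at this) hab₀ hD
  simp only [hm1, hF₀] at k
  refine ⟨⟨a₀, b₀, hab₀, ?_⟩, fun hp => split_even_char hQ h5 hN _ (two_eq_zero_of_card (hp ▸ hF)) _,
    fun h => (k h.1).trans (if_pos h.2), fun h => (k h.1).trans (if_neg h.2)⟩
  rw [inndiagMinus_eq (by omega) hab₀ hQ₀ hN₀]
  exact D.centralizer_even hQ h5 h3 hμ hj hD two_pos hN _ hQ₀ hN₀ _

end Cfsg.Agent.S2717
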