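import Cfsg.Statements.S2718
import Cfsg.Agent.Lib.Forms.OrthGraph

set_option autoImplicit false
open Cfsg

namespace Cfsg.Agent.S2718

open Cfsg.Agent.Lib.Forms Module QuadraticMap


/-- Let T = PΩ⁺_{2m}(F) with m ≥ 4 and |F| = q odd, G = Inndiag(T), and γ an involutory graph automorphism of T induced by a similarity (one interchanging the two classes of maximal totally singular subspaces). Then the G-class of γ is either a single T-class or the union of exactly two T-classes, and it is the union of two unless m is odd and q ≡ 3 (mod 4). -/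
theorem result {F : Type*} [Field F] [Fintype F] (hodd : Odd (Fintype.card F)) {m : ℕ} (hm : 4 ≤ m) (γ : MulAut (Cfsg.POmega F (Cfsg.quadFormPlus m F))) (hγ : Cfsg.IsSimilarityGraphAutPOmegaPlus m γ) (hγ2 : orderOf γ = 2) :
    (Cfsg.splitClassCount (Cfsg.inndiagPOmegaPlus m F) (Cfsg.Inn (Cfsg.POmega F (Cfsg.quadFormPlus m F))) γ = 1 ∨ Cfsg.splitClassCount (Cfsg.inndiagPOmegaPlus m F) (Cfsg.Inn (Cfsg.POmega F (Cfsg.quadFormPlus m F))) γ = 2) ∧ (¬ (Odd m ∧ Fintype.card F % 4 = 3) → Cfsg.splitClassCount (Cfsg.inndiagPOmegaPlus m F) (Cfsg.Inn (Cfsg.POmega F (Cfsg.quadFormPlus m F))) γ = 2) := by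
  have h2 := two_ne_zero_of_odd_card hodd
  have hQ := nondeg_qPlus (F := F) m
  have hN := nonExc_qPlus (F := F) (m := m) (.inr (by omega))
  have h5 : 5 ≤ Fintype.card (Fin m ⊕ Fin m) := by simp; omega
  obtain ⟨s, hs, h1, rfl⟩ := (exists_simil_iff (Q := qPlus m F)
    (fun g => ¬ Cfsg.PreservesSingularClasses (qPlus m F) g) γ).mp hγ
  rw [preserves_iff_par hQ hN (isLag_ker_funLeft_inr m), par_eq_dl hQ hN (isLag_ker_funLeft_inr m) hs] at h1
  have k : ¬ (Odd m ∧ Fintype.card F % 4 = 3) → _ := fun h => split_graph_two hQ hN (even_card_plus m) h2 h5 hs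
    ((Int.units_eq_one_or _).resolve_left h1) (hγ2 ▸ pow_orderOf_eq_one (Phi _ s)) (.inl ((neg_mem_Om_plus h2 m).mpr h))
  rw [inndiagPlus_eq hN]
  refine ⟨?_, k⟩
  by_cases h : Odd m ∧ Fintype.card F % 4 = 3
  · exact split_one_or_two hQ hN _ h2 h5 (mt (neg_mem_Om_plus h2 m).mp (not_not.mpr h)) _
  · exact .inr (k h)

end Cfsg.Agent.S2718
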