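import Cfsg.Statements.S2719
import Cfsg.Agent.Lib.Forms.OrthGraph

set_option autoImplicit false
open Cfsg

namespace Cfsg.Agent.S2719

open Cfsg.Agent.Lib.Forms Module QuadraticMap


/-- Let T = PΩ⁻_{2m+2}(F) with m ≥ 3 and |F| = q odd (form with anisotropic binary part z₁² + a z₁ z₂ + b z₂²), G = Inndiag(T), and γ an involutory graph automorphism of T (an automorphism in the image of the semisimilarity group, not inner-diagonal, of order 2). Then the G-class of γ is either a single T-class or the union of exactly two T-classes, and it is the union of two unless m is even and q ≡ 1 (mod 4). -/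
theorem result {F : Type*} [Field F] [Fintype F] (hodd : Odd (Fintype.card F)) {m : ℕ} (hm : 3 ≤ m) (a b : F) (hab : (∀ z₁ z₂ : F, z₁ ^ 2 + a * z₁ * z₂ + b * z₂ ^ 2 = 0 → z₁ = 0 ∧ z₂ = 0)) (γ : MulAut (Cfsg.POmega F (Cfsg.quadFormMinus m F a b))) (hγ : Cfsg.IsGraphAutClassPOmegaMinus m a b γ) (hγ2 : orderOf γ = 2) :
    (Cfsg.splitClassCount (Cfsg.inndiagPOmegaMinus m F a b) (Cfsg.Inn (Cfsg.POmega F (Cfsg.quadFormMinus m F a b))) γ = 1 ∨ Cfsg.splitClassCount (Cfsg.inndiagPOmegaMinus m F a b) (Cfsg.Inn (Cfsg.POmega F (Cfsg.quadFormMinus m F a b))) γ = 2) ∧ (¬ (Even m ∧ Fintype.card F % 4 = 1) → Cfsg.splitClassCount (Cfsg.inndiagPOmegaMinus m F a b) (Cfsg.Inn (Cfsg.POmega F (Cfsg.quadFormMinus m F a b))) γ = 2) := by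
  have h2 := two_ne_zero_of_odd_card hodd
  have hQ := nondeg_qMinus m (disc_ne_zero_of_anisotropic hab)
  have hN := nonExc_qMinus m hab
  have h5 : 5 ≤ Fintype.card ((Fin m ⊕ Fin m) ⊕ Fin 2) := by simp; omega
  obtain ⟨h3, h4, -⟩ := hγ
  obtain ⟨s, rfl⟩ : γ ∈ (Phi (qMinus m F a b)).range := gammaPOmega_eq (Q := qMinus m F a b) ▸ h3
  have h6 : Phi _ s ^ 2 = 1 := orderOf_dvd_iff_pow_eq_one.mp (dvd_of_eq hγ2)
  have hs := σ_eq_one_of_minus (by omega) hab h6
  rw [inndiagMinus_eq (by omega) hab hQ hN] at h4 ⊢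
  have h1 : dl s = -1 := (Int.units_eq_one_or _).resolve_left fun h => h4 ⟨s, mem_DG.mpr ⟨hs, h⟩, rfl⟩
  have k : ¬ (Even m ∧ Fintype.card F % 4 = 1) → _ := fun h => split_graph_two hQ hN (even_card_minus m) h2 h5 hs
    h1 h6 (by
      rw [neg_mem_Om_minus h2 m hab]
      by_cases hm : Even m
      · obtain ⟨k, hk⟩ := hodd
        exact .inl ⟨hm, by have := mt (And.intro hm) h; omega⟩
      · obtain ⟨k, rfl⟩ := Nat.not_even_iff_odd.mp hm
        exact .inr ⟨k + 1, by simp; omega⟩)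
  refine ⟨?_, k⟩
  by_cases h : Even m ∧ Fintype.card F % 4 = 1
  · exact split_one_or_two hQ hN _ h2 h5 (mt (neg_mem_Om_minus h2 m hab).mp fun h' => by omega) _
  · exact .inr (k h)

end Cfsg.Agent.S2719
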