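import Cfsg.Statements.S2725
import Cfsg.Agent.Lib.Forms.OrthOut

set_option autoImplicit false
open Cfsg

namespace Cfsg.Agent.S2725

open Cfsg.Agent.Lib.Forms Module QuadraticMap


/-- Let T = PΩ⁺_{2m}(F) with m ≥ 4 and |F| = q odd. The inner-diagonal group G = Inndiag(T) (image of the class-preserving similarities) taken modulo the inner automorphism group T is cyclic of order 2 when m is odd and q ≡ 3 (mod 4), cyclic of order 4 when m is odd and q ≡ 1 (mod 4), and elementary abelian of order 4 when m is even. -/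
theorem result {F : Type*} [Field F] [Fintype F] (hodd : Odd (Fintype.card F)) {m : ℕ} (hm : 4 ≤ m) :
    ((Odd m ∧ Fintype.card F % 4 = 3) → (∃ φ : ↥(Cfsg.inndiagPOmegaPlus m F) →* Multiplicative (ZMod 2), Function.Surjective φ ∧ φ.ker = (Cfsg.Inn (Cfsg.POmega F (Cfsg.quadFormPlus m F))).subgroupOf (Cfsg.inndiagPOmegaPlus m F))) ∧ ((Odd m ∧ Fintype.card F % 4 = 1) → (∃ φ : ↥(Cfsg.inndiagPOmegaPlus m F) →* Multiplicative (ZMod 4), Function.Surjective φ ∧ φ.ker = (Cfsg.Inn (Cfsg.POmega F (Cfsg.quadFormPlus m F))).subgroupOf (Cfsg.inndiagPOmegaPlus m F))) ∧ (Even m → (∃ φ : ↥(Cfsg.inndiagPOmegaPlus m F) →* Multiplicative (ZMod 2 × ZMod 2), Function.Surjective φ ∧ φ.ker = (Cfsg.Inn (Cfsg.POmega F (Cfsg.quadFormPlus m F))).subgroupOf (Cfsg.inndiagPOmegaPlus m F))) := by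
  have h2 := two_ne_zero_of_odd_card hodd
  have hQ := nondeg_qPlus (F := F) m
  have hN := hQ.nonExc_of_two h2
  have h5 : 5 ≤ Fintype.card (Fin m ⊕ Fin m) := by simp; omega
  have hn := neg_mem_Om_plus h2 m
  have hev := even_card_plus m
  have : Nonempty (Fin m ⊕ Fin m) := Fintype.card_pos_iff.mp (by omega)
  have hc : Fintype.card (Fin m ⊕ Fin m) / 2 = m := by simp; omega
  refine ⟨fun h => ?_, fun h => ?_, fun h => ?_⟩
  · obtain ⟨κ, k1, k2⟩ := dg_C2 hQ hN hev h2 (by rw [hn]; exact not_not.mpr h)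
    exact descend_Inn hQ h5 _ κ k1 k2 _ (inndiagPlus_eq hN)
  · obtain ⟨κ, k1, k2⟩ := dg_C4 hQ hN hev h2 (hn.mpr fun h' => by omega) (by rw [hc]; exact h.1)
    exact descend_Inn hQ h5 _ κ k1 k2 _ (inndiagPlus_eq hN)
  · obtain ⟨κ, k1, k2⟩ := dg_V4 hQ hN hev h2 (hn.mpr fun h' => Nat.not_odd_iff_even.mpr h h'.1) (by rw [hc]; exact h)
    exact descend_Inn hQ h5 _ κ k1 k2 _ (inndiagPlus_eq hN)

end Cfsg.Agent.S2725
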