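import Cfsg.Statements.S2729
import Cfsg.Agent.Lib.Forms.OrthOut

set_option autoImplicit false
open Cfsg

namespace Cfsg.Agent.S2729

open Cfsg.Agent.Lib.Forms Module QuadraticMap


/-- Let T = PΩ⁻_{2m+2}(F) with m ≥ 3 and |F| = q odd (form with anisotropic binary part). The inner-diagonal group G = Inndiag(T) (image of the class-preserving similarities) taken modulo the inner automorphism group T is cyclic of order 4 when m is even and q ≡ 3 (mod 4), and of order 2 otherwise. -/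
theorem result {F : Type*} [Field F] [Fintype F] (hodd : Odd (Fintype.card F)) {m : ℕ} (hm : 3 ≤ m) (a b : F) (hab : (∀ z₁ z₂ : F, z₁ ^ 2 + a * z₁ * z₂ + b * z₂ ^ 2 = 0 → z₁ = 0 ∧ z₂ = 0)) :
    ((Even m ∧ Fintype.card F % 4 = 3) → (∃ φ : ↥(Cfsg.inndiagPOmegaMinus m F a b) →* Multiplicative (ZMod 4), Function.Surjective φ ∧ φ.ker = (Cfsg.Inn (Cfsg.POmega F (Cfsg.quadFormMinus m F a b))).subgroupOf (Cfsg.inndiagPOmegaMinus m F a b))) ∧ (¬ (Even m ∧ Fintype.card F % 4 = 3) → (∃ φ : ↥(Cfsg.inndiagPOmegaMinus m F a b) →* Multiplicative (ZMod 2), Function.Surjective φ ∧ φ.ker = (Cfsg.Inn (Cfsg.POmega F (Cfsg.quadFormMinus m F a b))).subgroupOf (Cfsg.inndiagPOmegaMinus m F a b))) := by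
  have h2 := two_ne_zero_of_odd_card hodd
  have hQ := nondeg_qMinus m (disc_ne_zero_of_anisotropic hab)
  have hN := hQ.nonExc_of_two h2
  have h5 : 5 ≤ Fintype.card ((Fin m ⊕ Fin m) ⊕ Fin 2) := by simp; omega
  have hn := neg_mem_Om_minus h2 m hab
  have hev := even_card_minus m
  have hc : Fintype.card ((Fin m ⊕ Fin m) ⊕ Fin 2) / 2 = m + 1 := by simp; omega
  refine ⟨fun h => ?_, fun h => ?_⟩
  · obtain ⟨κ, k1, k2⟩ := dg_C4 hQ hN hev h2 (hn.mpr h) (by rw [hc]; exact h.1.add_one)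
    exact descend_Inn hQ h5 _ κ k1 k2 _ (inndiagMinus_eq (by omega) hab hQ hN)
  · obtain ⟨κ, k1, k2⟩ := dg_C2 hQ hN hev h2 (by rwa [hn])
    exact descend_Inn hQ h5 _ κ k1 k2 _ (inndiagMinus_eq (by omega) hab hQ hN)

end Cfsg.Agent.S2729
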