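import Cfsg.Statements.S2735
import Cfsg.Agent.Lib.Forms.OrthField2

set_option autoImplicit false
open Cfsg

set_option maxHeartbeats 800000

namespace Cfsg.Agent.S2735

open Cfsg.Agent.Lib.Forms Module QuadraticMap


/-- Let T = Ω_{2m+1}(F) (m ≥ 3, |F| odd) and x a field automorphism of T of prime order r. Then an element y of the coset Inndiag(T)·x (y = δ x with δ induced by a similarity of the form) has order r if and only if y is conjugate to x by an element of Inndiag(T). (T has no graph or graph-field automorphisms.) -/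
theorem result {F : Type*} [Field F] [Fintype F] (hodd : Odd (Fintype.card F)) {m : ℕ} (hm : 3 ≤ m) (x δ : MulAut (Cfsg.POmega F (Cfsg.quadFormOdd m F))) (hx : Cfsg.IsFieldAutClassPOmega (Cfsg.quadFormOdd m F) x) {r : ℕ} (hr : r.Prime) (hxr : orderOf x = r) (hδ : δ ∈ Cfsg.inndiagPOmegaOdd m F) :
    orderOf (δ * x) = r ↔ Cfsg.IsConjUnder (Cfsg.inndiagPOmegaOdd m F) x (δ * x) := by
  have h2 := two_ne_zero_of_odd_card hodd
  have hQ := nondeg_qOdd h2 m
  obtain ⟨t, σ, h1, rfl⟩ := exists_of_fieldClass (Phi_surjective_odd h2 hm) (qOdd_map m) hx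
  rw [inndiagOdd_eq] at hδ ⊢
  obtain ⟨d, hd, rfl⟩ := hδ
  refine ⟨fun h => ?_, fun h => (Lib.Aut.IsConjUnder.orderOf_eq h).trans hxr⟩
  have h3 := pow_orderOf_eq_one (Phi _ (t * fieldSemi _ σ (qOdd_map m σ) * t⁻¹))
  have h4 := pow_orderOf_eq_one (Phi _ (d * (t * fieldSemi _ σ (qOdd_map m σ) * t⁻¹)))
  have := conj_of_odd (t := d * (t * fieldSemi _ σ (qOdd_map m σ) * t⁻¹)) hQ (by simp; omega) (by simp [parity_simps]) hr (by rw [Semi.mul_σ d, show d.σ = 1 from hd, one_mul])
    (σ_conj_ne_one t h1) (hxr ▸ h3) (by rw [map_mul] at h4 ⊢; exact h ▸ h4)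
  rwa [map_mul _ d] at this

end Cfsg.Agent.S2735
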