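import Cfsg.Statements.S2736
import Cfsg.Agent.Lib.Forms.OrthField2

set_option autoImplicit false
open Cfsg

set_option maxHeartbeats 800000

namespace Cfsg.Agent.S2736

open Cfsg.Agent.Lib.Forms Module QuadraticMap


/-- Let T = PΩ⁺_{2m}(F) with m ≥ 5 (dimension ≠ 8) and x a field automorphism or a graph-field automorphism of T of prime order r. Then an element y of the coset Inndiag(T)·x (y = δ x with δ induced by a class-preserving similarity) has order r if and only if y is conjugate to x by an element of Inndiag(T). -/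
theorem result {F : Type*} [Field F] [Fintype F] {m : ℕ} (hm : 5 ≤ m) (x δ : MulAut (Cfsg.POmega F (Cfsg.quadFormPlus m F))) (hx : Cfsg.IsFieldAutClassPOmega (Cfsg.quadFormPlus m F) x ∨ Cfsg.IsGraphFieldAutClassPOmegaPlus m x) {r : ℕ} (hr : r.Prime) (hxr : orderOf x = r) (hδ : δ ∈ Cfsg.inndiagPOmegaPlus m F) :
    orderOf (δ * x) = r ↔ Cfsg.IsConjUnder (Cfsg.inndiagPOmegaPlus m F) x (δ * x) := by
  have hQ := nondeg_qPlus (F := F) m
  have hN := nonExc_qPlus (F := F) (m := m) (.inr (by omega))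
  obtain ⟨s, h1, rfl⟩ : ∃ s : Semi (qPlus m F), s.σ ≠ 1 ∧ x = Phi _ s := by
    rcases hx with hx | hx
    · obtain ⟨s, h1, -, h2⟩ := exists_of_fieldClass_plus hm hN hx
      exact ⟨s, h1, h2⟩
    · obtain ⟨s, h1, -, h2⟩ := exists_of_graphFieldClass hm hN hx
      exact ⟨s, h1, h2⟩
  rw [inndiagPlus_eq hN] at hδ ⊢
  obtain ⟨d, hd, rfl⟩ := hδ
  obtain ⟨hd1, hd2⟩ := mem_DG.mp hd
  refine ⟨fun h => ?_, fun h => (Lib.Aut.IsConjUnder.orderOf_eq h).trans hxr⟩
  have h3 := pow_orderOf_eq_one (Phi _ s)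
  have h4 := pow_orderOf_eq_one (Phi _ (d * s))
  have := conj_of_even (t := d * s) hQ hN (even_card_plus m) (by simp; omega) hr (by rw [Semi.mul_σ d, hd1, one_mul])
    h1 (hxr ▸ h3) (by rw [map_mul] at h4 ⊢; exact h ▸ h4)
    (by rw [par_mul hQ hN, par_eq_dl hQ hN (isLag_ker_funLeft_inr m) hd1, hd2, one_mul])
  rwa [map_mul _ d] at this

end Cfsg.Agent.S2736
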