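import Cfsg.Statements.S2737
import Cfsg.Agent.Lib.Forms.OrthField2

set_option autoImplicit false
open Cfsg

set_option maxHeartbeats 800000

namespace Cfsg.Agent.S2737

open Cfsg.Agent.Lib.Forms Module QuadraticMap


/-- Let T = PΩ⁻_{2m+2}(F) (m ≥ 3; form with anisotropic binary part) and x a field automorphism of T of prime order r. Then an element y of the coset Inndiag(T)·x has order r if and only if y is conjugate to x by an element of Inndiag(T). (T has no graph-field automorphisms.) -/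
theorem result {F : Type*} [Field F] [Fintype F] {m : ℕ} (hm : 3 ≤ m) (a b : F) (hab : (∀ z₁ z₂ : F, z₁ ^ 2 + a * z₁ * z₂ + b * z₂ ^ 2 = 0 → z₁ = 0 ∧ z₂ = 0)) (x δ : MulAut (Cfsg.POmega F (Cfsg.quadFormMinus m F a b))) (hx : Cfsg.IsFieldAutClassPOmegaMinus m x) {r : ℕ} (hr : r.Prime) (hxr : orderOf x = r) (hδ : δ ∈ Cfsg.inndiagPOmegaMinus m F a b) :
    orderOf (δ * x) = r ↔ Cfsg.IsConjUnder (Cfsg.inndiagPOmegaMinus m F a b) x (δ * x) := by
  have hQ := nondeg_qMinus m (disc_ne_zero_of_anisotropic hab)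
  have hN := nonExc_qMinus m hab
  obtain ⟨s, h1, rfl⟩ := exists_of_fieldClassMinus hm hab hx
  rw [inndiagMinus_eq (by omega) hab hQ hN] at hδ ⊢
  obtain ⟨d, hd, rfl⟩ := hδ
  obtain ⟨hd1, hd2⟩ := mem_DG.mp hd
  refine ⟨fun h => ?_, fun h => (Lib.Aut.IsConjUnder.orderOf_eq h).trans hxr⟩
  have h3 := pow_orderOf_eq_one (Phi _ s)
  have h4 := pow_orderOf_eq_one (Phi _ (d * s))
  have := conj_of_even (t := d * s) hQ hN (even_card_minus m) (by simp; omega) hr (by rw [Semi.mul_σ d, hd1, one_mul])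
    h1 (hxr ▸ h3) (by rw [map_mul] at h4 ⊢; exact h ▸ h4) (by simp [par, not_isLag_qMinus hab])
  rwa [map_mul _ d] at this

end Cfsg.Agent.S2737
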