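import Cfsg.Statements.S2738
import Cfsg.Agent.Lib.Misc.PSL34

set_option autoImplicit false
open Cfsg

namespace Cfsg.Agent.S2738

open Cfsg.Agent.Lib.Misc Matrix

/-- The special linear group SL(3, 4) has centre of order 3 and does not split over it: no subgroup is a complement to the centre (so SL(3, 4) is a non-split central extension of PSL(3, 4) by a group of order 3). -/
theorem result (F : Type*) [Field F] [Fintype F] (hF : Fintype.card F = 4) : Nat.card ↥(Subgroup.center (Matrix.SpecialLinearGroup (Fin 3) F)) = 3 ∧ ¬ ∃ K : Subgroup (Matrix.SpecialLinearGroup (Fin 3) F), Subgroup.IsComplement' (Subgroup.center (Matrix.SpecialLinearGroup (Fin 3) F)) K := by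
  refine ⟨card_center_sl34 hF, ?_⟩
  rintro ⟨K, hK⟩
  obtain ⟨ω, hω⟩ := f4_omega hF
  have h2 := f4_two hF
  have hω0 : ω ≠ 0 := by rintro rfl; simp at hω
  have hω3 : ω ^ 3 = 1 := f4_cube hF hω0
  have hω1 : ω ≠ 1 := by
    rintro rfl
    apply one_ne_zero (α := F)
    linear_combination hω - h2
  let P : Matrix.SpecialLinearGroup (Fin 3) F := ⟨!![0, 1, 0; 0, 0, 1; 1, 0, 0], by simp [det_fin_three]⟩
  let z : Matrix.SpecialLinearGroup (Fin 3) F := ⟨scalar (Fin 3) ω, by simp [hω3]⟩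
  have hz : z ∈ Subgroup.center (Matrix.SpecialLinearGroup (Fin 3) F) :=
    Matrix.SpecialLinearGroup.mem_center_iff.2 ⟨ω, by simpa using hω3, rfl⟩
  have hrel : P * dg hω = z * (dg hω * P) := by
    refine Subtype.ext ?_
    change P.1 * (dg hω).1 = z.1 * ((dg hω).1 * P.1)
    ext i j
    fin_cases i <;> fin_cases j <;> simp [P, z, dg, Matrix.mul_apply, Fin.sum_univ_three, diagonal]
    all_goals first | ring1 | linear_combination -hω3
  obtain ⟨⟨⟨z1, hz1⟩, ⟨k1, hk1⟩⟩, h1, -⟩ := hK.existsUnique P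
  obtain ⟨⟨⟨z2, hz2⟩, ⟨k2, hk2⟩⟩, h2', -⟩ := hK.existsUnique (dg hω)
  simp only at h1 h2'
  have hzK : z ∈ K := by
    have e1 := Subgroup.mem_center_iff.1 hz1
    have e2 := Subgroup.mem_center_iff.1 hz2
    have e3 := Subgroup.mem_center_iff.1 hz
    have : z = k1 * k2 * (k2 * k1)⁻¹ := by
      rw [← h1, ← h2'] at hrel
      have a1 : z1 * k1 * (z2 * k2) = z1 * z2 * (k1 * k2) := by
        rw [mul_assoc, ← mul_assoc k1, e2 k1]; group
      have a2 : z * (z2 * k2 * (z1 * k1)) = z1 * z2 * (z * (k2 * k1)) := by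
        calc z * (z2 * k2 * (z1 * k1)) = z * (z2 * (k2 * z1) * k1) := by group
          _ = (z * (z2 * z1)) * (k2 * k1) := by rw [e1 k2]; group
          _ = _ := by rw [e1 z2, ← e3 (z1 * z2)]; group
      rw [a1, a2, mul_left_cancel_iff] at hrel
      rw [hrel]; group
    rw [this]
    exact K.mul_mem (K.mul_mem hk1 hk2) (K.inv_mem (K.mul_mem hk2 hk1))
  have : z ∈ (⊥ : Subgroup (Matrix.SpecialLinearGroup (Fin 3) F)) := by
    rw [← disjoint_iff.1 hK.disjoint]
    exact ⟨hz, hzK⟩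
  have hz1' : z = 1 := Subgroup.mem_bot.1 this
  have h00 : z.1 0 0 = (1 : Matrix (Fin 3) (Fin 3) F) 0 0 := by rw [hz1']; rfl
  exact hω1 (by simpa [z] using h00)

end Cfsg.Agent.S2738
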