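import Cfsg.Statements.S2739
import Cfsg.Agent.Lib.Misc.PSL34

set_option autoImplicit false
open scoped Pointwise
open Cfsg

namespace Cfsg.Agent.S2739

open Cfsg.Agent.Lib.Misc Matrix

theorem aux {F : Type*} [Field F] [Fintype F] (hF : Fintype.card F = 4) {ω : F}
    (hω : ω ^ 2 + ω + 1 = 0) (X : Subgroup (Matrix.ProjectiveSpecialLinearGroup (Fin 3) F))
    (hX : Nat.card X = 3) :
    ∃ g : Matrix.ProjectiveSpecialLinearGroup (Fin 3) F,
      MulAut.conj g • Subgroup.zpowers (QuotientGroup.mk (dg hω)) = X := by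
  haveI : Fact (Nat.Prime 3) := ⟨by norm_num⟩
  haveI : IsCyclic X := isCyclic_of_prime_card hX
  obtain ⟨x, hx⟩ := (Subgroup.isCyclic_iff_exists_zpowers_eq_top X).1 inferInstance
  have ho : orderOf x = 3 := by rw [← Nat.card_zpowers, hx, hX]
  obtain ⟨y, rfl⟩ := QuotientGroup.mk_surjective x
  have hy : y ∉ Subgroup.center _ := by
    intro h
    rw [(QuotientGroup.eq_one_iff y).2 h] at ho
    simp at ho
  have hy3 : y ^ 3 ∈ Subgroup.center (Matrix.SpecialLinearGroup (Fin 3) F) := by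
    rw [← QuotientGroup.eq_one_iff, QuotientGroup.mk_pow]
    exact orderOf_dvd_iff_pow_eq_one.1 (by rw [ho])
  obtain ⟨P, hP⟩ := exists_conj_dg hF hω y hy hy3
  refine ⟨QuotientGroup.mk P, ?_⟩
  rw [← hx]
  refine (MonoidHom.map_zpowers _ _).trans ?_
  congr 1
  have : y = P * dg hω * P⁻¹ := by rw [← hP]; group
  rw [this]
  rfl

/-- In the projective special linear group PSL(3, 4) all subgroups of order 3 are conjugate. -/
theorem result (F : Type*) [Field F] [Fintype F] (hF : Fintype.card F = 4) (X Y : Subgroup (Matrix.ProjectiveSpecialLinearGroup (Fin 3) F)) (hX : Nat.card ↥X = 3) (hY : Nat.card ↥Y = 3) : ∃ g : Matrix.ProjectiveSpecialLinearGroup (Fin 3) F, MulAut.conj g • X = Y := by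
  obtain ⟨ω, hω⟩ := f4_omega hF
  obtain ⟨g, rfl⟩ := aux hF hω X hX
  obtain ⟨h, rfl⟩ := aux hF hω Y hY
  refine ⟨h * g⁻¹, ?_⟩
  rw [smul_smul, ← map_mul, inv_mul_cancel_right]

end Cfsg.Agent.S2739
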