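import Cfsg.Statements.S4423
import Cfsg.Agent.Lib.Misc.Zsig

set_option autoImplicit false
open Cfsg

namespace Cfsg.Agent.S4423

open Cfsg.Agent.Lib.Zsig

def strip (y : ℕ) : ℕ → ℕ → ℕ
  | 0, x => x
  | n + 1, x => if Nat.gcd x y = 1 then x else strip y n (x / Nat.gcd x y)

def prim (q e : ℕ) : ℕ := (List.range e).foldl (fun x i => if i = 0 then x else strip (q ^ i - 1) e x) (q ^ e - 1)

def exc : List (ℕ × ℕ) :=
  [(2, 6), (2, 4), (2, 10), (2, 12), (2, 18), (3, 4), (3, 6), (5, 6), (2, 3), (2, 8), (2, 20), (4, 3), (4, 6)]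

def good (q e m : ℕ) : Prop :=
  m ∣ q ^ e - 1 ∧ (∀ i < e, 1 ≤ i → Nat.gcd m (q ^ i - 1) = 1) ∧ 3 * e + 1 ≤ m

instance decGood (q e m : ℕ) : Decidable (good q e m) := by unfold good; infer_instance

def tot (e : ℕ) : ℕ := ((List.range e).filter fun i => Nat.gcd e i = 1).length

theorem tot_eq (e : ℕ) : tot e = e.totient := by
  rw [Nat.totient, tot, ← List.toFinset_card_of_nodup (List.nodup_range.filter _)]
  congr 1; ext i; simp [Nat.Coprime]

def chk (e t : ℕ) : Prop := e < 3 ∨ (6 < e ∧ 40 ≤ t) ∨ (3 * e ^ 2 ≤ 31 ^ t ∧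
  ∀ q < 32, q < 2 ∨ 3 * e ^ 2 ≤ (q - 1) ^ t ∨ (q, e) ∈ exc ∨ good q e (prim q e))

instance decChk (e t : ℕ) : Decidable (chk e t) := by unfold chk; infer_instance

theorem chk_all : ∀ e < 540, chk e (tot e) := by decide +kernel

theorem chk_exc : ∀ x ∈ exc, 0 < prim x.1 x.2 ∧ prim x.1 x.2 ≤ 2 * x.2 + 1 ∧
    x.1 ^ x.2 - 1 ∣ prim x.1 x.2 * (∏ i ∈ Finset.Ico 1 x.2, (x.1 ^ i - 1)) ^ 2 := by decide +kernel

/-- Size of the primitive part of `q^e - 1`. For a prime power `q` and `e ≥ 3`, call a divisor of `q^e - 1` primitive when it is coprime to `q^i - 1` for every `1 ≤ i < e`; the primitive part is the largest primitive divisor. Apart from thirteen exceptional pairs, the primitive part is at least `3e + 1`: there is a primitive divisor `m ≥ 3e + 1` unless `(q, e)` is `(2, 6)` (where every primitive divisor is 1), one of `(2,4), (2,10), (2,12), (2,18), (3,4), (3,6), (5,6)` (where the primitive part is exactly `e + 1`), or one of `(2,3), (2,8),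 (2,20), (4,3), (4,6)` (where it is exactly `2e + 1`). The statement asserts the existence of a primitive divisor `m ≥ 3e + 1` outside the thirteen pairs, and that every primitive divisor is at most `2e + 1` for the thirteen pairs. -/
theorem result (q e : ℕ) (hq : IsPrimePow q) (he : 3 ≤ e) :
    ((q, e) ∉ [(2, 6), (2, 4), (2, 10), (2, 12), (2, 18), (3, 4), (3, 6), (5, 6), (2, 3), (2, 8), (2, 20), (4, 3), (4, 6)] →
      ∃ m : ℕ, m ∣ q ^ e - 1 ∧ (∀ i : ℕ, 1 ≤ i → i < e → Nat.Coprime m (q ^ i - 1)) ∧ 3 * e + 1 ≤ m) ∧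
    ((q, e) ∈ [(2, 6), (2, 4), (2, 10), (2, 12), (2, 18), (3, 4), (3, 6), (5, 6), (2, 3), (2, 8), (2, 20), (4, 3), (4, 6)] →
      ∀ m : ℕ, m ∣ q ^ e - 1 → (∀ i : ℕ, 1 ≤ i → i < e → Nat.Coprime m (q ^ i - 1)) → m ≤ 2 * e + 1) := by
  have hq2 := hq.two_le
  refine ⟨fun h => ?_, fun h m h1 h2 => ?_⟩
  · have big : 3 * e ^ 2 < (cyc q e).natAbs → ∃ m : ℕ, m ∣ q ^ e - 1 ∧
        (∀ i : ℕ, 1 ≤ i → i < e → Nat.Coprime m (q ^ i - 1)) ∧ 3 * e + 1 ≤ m := fun hb => by
      obtain ⟨m, h1, h2, h3⟩ := exists_primitive hq2 he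
      refine ⟨m, h1, h2, ?_⟩
      by_contra h4
      have : m ≤ 3 * e := by omega
      nlinarith
    have hlt := Polynomial.sub_one_pow_totient_lt_natAbs_cyclotomic_eval (n := e) (q := q)
      (by omega) (by omega)
    by_cases he' : e < 540
    · have := chk_all e he'
      rw [tot_eq] at this
      rcases this with h1 | ⟨h1, h2⟩ | ⟨h1, h2⟩
      · omega
      · exact big (three_mul_sq_lt hq2 h1 h2)
      by_cases hq' : q < 32
      · rcases h2 q hq' with h3 | h3 | h3 | ⟨h3, h4, h5⟩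
        · omega
        · exact big (h3.trans_lt hlt)
        · exact absurd h3 h
        · exact ⟨_, h3, fun i hi hi' => h4 i hi' hi, h5⟩
      · exact big ((h1.trans (Nat.pow_le_pow_left (by omega) _)).trans_lt hlt)
    · refine big (three_mul_sq_lt hq2 (by omega) ?_)
      by_contra h1
      have h2 := totient_bound' e
      have h3 : e.totient ^ 3 ≤ 39 ^ 3 := Nat.pow_le_pow_left (by omega) _
      have h4 : 540 ^ 2 ≤ e ^ 2 := Nat.pow_le_pow_left (by omega) _
      omega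
  · obtain ⟨a1, a2, a3⟩ := chk_exc (q, e) h
    refine (Nat.le_of_dvd a1 (Nat.Coprime.dvd_of_dvd_mul_right ?_ (h1.trans a3))).trans a2
    exact (Nat.Coprime.prod_right fun i hi => h2 i (Finset.mem_Ico.mp hi).1
      (Finset.mem_Ico.mp hi).2).pow_right 2

end Cfsg.Agent.S4423
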