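import Cfsg.Statements.S5015
import Cfsg.Agent.Lib.Root.RankOne

set_option autoImplicit false
open Cfsg

namespace Cfsg.Agent.S5015

open Cfsg.Agent.Lib.Root

/-- Let a group Y act doubly transitively on a set Ω with at least three points, and suppose that the stabilizer of a point α contains a nilpotent subgroup A, normalized by that stabilizer, which acts regularly on the points other than α. Then for any y in Y moving α, the subgroups A and y A y⁻¹ are the unipotent subgroups of a rank one group, and the normal closure of A in Y (the subgroup generated by all conjugates of A) is generated by A and y A y⁻¹ alone. -/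
theorem result {Y Ω : Type*} [Group Y] [MulAction Y Ω]
    (h2 : MulAction.IsMultiplyPretransitive Y Ω 2) (hΩ : 3 ≤ ENat.card Ω) (α : Ω) (A : Subgroup Y)
    (hA : A ≤ MulAction.stabilizer Y α) (hAn : ∀ y ∈ MulAction.stabilizer Y α, Cfsg.conjBy A y = A)
    (hnil : Group.IsNilpotent A) (hreg : ∀ β γ : Ω, β ≠ α → γ ≠ α → ∃! a : Y, a ∈ A ∧ a • β = γ)
    (y : Y) (hy : y ∉ MulAction.stabilizer Y α) :
    Cfsg.IsRankOnePair A (Cfsg.conjBy A y) ∧ Subgroup.normalClosure (A : Set Y) = A ⊔ Cfsg.conjBy A y := by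
  -- conjugates of `A` only depend on the image of `α`
  have hdep : ∀ g g' : Y, g • α = g' • α → conjBy A g = conjBy A g' := by
    intro g g' e
    rw [conjBy_eq_conjBy_iff]
    apply hAn
    rw [MulAction.mem_stabilizer_iff, mul_smul, e, inv_smul_smul]
  have hyα : y • α ≠ α := hy
  have hfree : ∀ a ∈ A, ∀ β : Ω, β ≠ α → a • β = β → a = 1 := by
    intro a ha β hβ e
    obtain ⟨c, -, hc⟩ := hreg β β hβ hβ
    rw [hc a ⟨ha, e⟩, hc 1 ⟨A.one_mem, one_smul _ _⟩]
  have hAα : ∀ a ∈ A, a • α = α := fun a ha => hA ha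
  have hne : ∀ a ∈ A, ∀ β : Ω, β ≠ α → a • β ≠ α := by
    intro a ha β hβ e
    apply hβ
    rw [← inv_smul_smul a β, e, hAα _ (A.inv_mem ha)]
  -- regularity of the conjugate
  have hregB : ∀ β γ : Ω, β ≠ y • α → γ ≠ y • α → ∃ b ∈ conjBy A y, b • β = γ := by
    intro β γ hβ hγ
    obtain ⟨a, ⟨ha, e⟩, -⟩ := hreg (y⁻¹ • β) (y⁻¹ • γ) (by rwa [Ne, inv_smul_eq_iff])
      (by rwa [Ne, inv_smul_eq_iff])
    exact ⟨y * a * y⁻¹, conj_mem_conjBy ha y, by rw [mul_smul, mul_smul, e, smul_inv_smul]⟩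
  have hBfix : ∀ b ∈ conjBy A y, b • (y • α) = y • α := by
    intro b hb
    obtain ⟨a, ha, rfl⟩ := mem_conjBy'.1 hb
    rw [mul_smul, inv_smul_smul, mul_smul, hAα a ha]
  have hBfree : ∀ b ∈ conjBy A y, b • α = α → b = 1 := by
    intro b hb e
    obtain ⟨a, ha, rfl⟩ := mem_conjBy'.1 hb
    have : a = 1 := by
      refine hfree a ha (y⁻¹ • α) (by rw [Ne, inv_smul_eq_iff]; exact hyα.symm) ?_
      rw [eq_inv_smul_iff, ← mul_smul, ← mul_smul, e]
    simp [this]
  obtain ⟨γ, hγ1, hγ2⟩ : ∃ γ : Ω, γ ≠ α ∧ γ ≠ y • α := by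
    by_contra hc
    push Not at hc
    have : (Set.univ : Set Ω) ⊆ {α, y • α} := by
      intro x _
      by_cases hx : x = α
      · exact Or.inl hx
      · exact Or.inr (hc x hx)
    have h1 := Set.encard_le_encard this
    rw [Set.encard_univ] at h1
    have h2 : ({α, y • α} : Set Ω).encard ≤ 2 := by
      refine (Set.encard_insert_le _ _).trans ?_
      rw [Set.encard_singleton]; norm_num
    have := hΩ.trans (h1.trans h2)
    norm_num at this
  obtain ⟨a₀, ⟨ha₀, ea₀⟩, -⟩ := hreg (y • α) γ hyα hγ1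
  have hr : IsRankOnePair A (conjBy A y) := by
    refine r1_of_exists ?_ hnil (isNilpotent_conjBy hnil y) ?_ ?_
    · intro e
      have := hBfix a₀ (e ▸ ha₀)
      exact hγ2 (ea₀.symm.trans this)
    · intro a ha ha1
      obtain ⟨b, hb, e⟩ := hregB α (a • y • α) hyα.symm (fun e => ha1 (hfree a ha _ hyα e))
      refine ⟨b, hb, ?_, ?_⟩
      · rintro rfl
        rw [one_smul] at e
        exact hne a ha _ hyα e.symm
      · rw [conjBy_conjBy]
        exact hdep _ _ (by rw [e, mul_smul])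
    · intro b hb hb1
      obtain ⟨a, ⟨ha, e⟩, -⟩ := hreg (y • α) (b • α) hyα (fun e => hb1 (hBfree b hb e))
      refine ⟨a, ha, ?_, ?_⟩
      · rintro rfl
        rw [one_smul] at e
        have := hBfix b hb
        rw [e, smul_left_cancel_iff] at this
        exact hyα (e.trans this)
      · rw [conjBy_conjBy]
        exact hdep _ _ (by rw [← e, mul_smul])
  refine ⟨hr, le_antisymm ?_ (sup_le Subgroup.le_normalClosure ?_)⟩
  · have hall : ∀ g : Y, conjBy A g ≤ A ⊔ conjBy A y := by
      intro g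
      by_cases hg : g • α = α
      · rw [hAn g hg]; exact le_sup_left
      · obtain ⟨a, ⟨ha, e⟩, -⟩ := hreg (y • α) (g • α) hyα hg
        rw [hdep g (a * y) (by rw [← e, mul_smul]), ← conjBy_conjBy]
        exact conjBy_le_of_mem le_sup_right (Subgroup.mem_sup_left ha)
    rw [Subgroup.normalClosure, Subgroup.closure_le]
    intro x hx
    obtain ⟨a, ha, hc⟩ := Group.mem_conjugatesOfSet_iff.1 hx
    obtain ⟨g, rfl⟩ := isConj_iff.1 hc
    exact hall g (conj_mem_conjBy ha g)
  · intro b hb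
    obtain ⟨a, ha, rfl⟩ := mem_conjBy'.1 hb
    exact Subgroup.normalClosure_normal.conj_mem _ (Subgroup.le_normalClosure ha) y

end Cfsg.Agent.S5015
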