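import Cfsg.Statements.S5020
import Cfsg.Agent.Lib.Root.SL2b

set_option autoImplicit false
open Cfsg

namespace Cfsg.Agent.S5020

open Cfsg.Agent.Lib.Root

/-- Let X be a special rank one group with abelian unipotent subgroups A and B, and H = N(A) ∩ N(B) its diagonal subgroup. Then either A has at most three elements and X is isomorphic to SL₂(2), SL₂(3) or PSL₂(3); or X = X' A with the commutator subgroup X' quasisimple and the commutator subgroup ⁅A, H⁆ having more than three elements. -/
theorem result {X : Type*} [Group X] {A B : Subgroup X} (h : Cfsg.IsRankOneGroup X A B)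
    (hs : Cfsg.IsSpecialRankOnePair A B) (hab : Cfsg.HasAbelianUnipotents A B) :
    (ENat.card A ≤ 3 ∧ (Nonempty (X ≃* Matrix.SpecialLinearGroup (Fin 2) (ZMod 2)) ∨
        Nonempty (X ≃* Matrix.SpecialLinearGroup (Fin 2) (ZMod 3)) ∨
        Nonempty (X ≃* Matrix.ProjectiveSpecialLinearGroup (Fin 2) (ZMod 3)))) ∨
    (commutator X ⊔ A = ⊤ ∧ Cfsg.IsQuasisimple (commutator X) ∧
      3 < ENat.card ↥(⁅A, Cfsg.rankOneDiagonal A B⁆ : Subgroup X)) := by
  by_cases h3 : 3 < ENat.card A
  · right
    have hp : commutator X = ⊤ := by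
      have := special_perfect hs hab.1 h3
      rwa [h.1] at this
    refine ⟨by rw [hp, top_sup_eq], ?_, by rwa [special_commutator_diag hs hab.1 h3]⟩
    have hq := r1g_quasisimple h ⟨hp⟩
    rw [hp]
    exact quasisimple_of_mulEquiv Subgroup.topEquiv.symm hq
  · left
    push Not at h3
    refine ⟨h3, ?_⟩
    have hfin : Finite A := by
      by_contra hinf
      rw [not_finite_iff_infinite] at hinf
      rw [ENat.card_eq_top_of_infinite] at h3
      exact absurd h3 (by simp)
    have hcard : Nat.card A ≤ 3 := by
      rw [ENat.card_eq_coe_natCard] at h3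
      exact_mod_cast h3
    have h2 : 1 < Nat.card A := (Subgroup.one_lt_card_iff_ne_bot A).2 (r1_ne_bot h.2)
    obtain ⟨a, ha, ha1⟩ := exists_ne_one_of_ne_bot (r1_ne_bot h.2)
    obtain ⟨b, q⟩ := exists_partner h.2 ha ha1
    have key : ∀ (p : ℕ) [Fact p.Prime], Nat.card A = p →
        Nonempty (X ≃* Matrix.SpecialLinearGroup (Fin 2) (ZMod p)) ∨
        Nonempty (X ≃* Matrix.ProjectiveSpecialLinearGroup (Fin 2) (ZMod p)) := by
      intro p _ hp
      have hz : ∀ {A : Subgroup X}, Nat.card A = p → ∀ a ∈ A, a ≠ 1 → Subgroup.zpowers a = A := by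
        intro A hA a ha ha1
        have h1 := zpowers_eq_top_of_prime_card hA (g := (⟨a, ha⟩ : A)) (by simpa using ha1)
        have h2 := congrArg (Subgroup.map A.subtype) h1
        rw [MonoidHom.map_zpowers, ← MonoidHom.range_eq_map, Subgroup.range_subtype] at h2
        exact h2
      have hB : Nat.card B = p := by
        rw [← special_n_left hs q, ← hp]
        exact (Nat.card_congr (conjByEquiv A _).toEquiv).symm
      have := iso_of_psl2 (psl2_of_partner hs (p := p) q (fun c hc => by
        have := pow_card_eq_one' (G := A) (x := ⟨c, hc⟩)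
        rw [hp] at this
        exact congrArg Subtype.val this))
      rw [hz hp a ha ha1, hz hB b q.2.1 (q.ne_one' h.2), h.1] at this
      rcases this with ⟨⟨e⟩⟩ | ⟨⟨e⟩⟩
      · exact Or.inl ⟨Subgroup.topEquiv.symm.trans e⟩
      · exact Or.inr ⟨Subgroup.topEquiv.symm.trans e⟩
    have : Nat.card A = 2 ∨ Nat.card A = 3 := by omega
    rcases this with e | e
    · left
      rcases key 2 e with h1 | ⟨⟨e⟩⟩
      · exact h1
      · have hc : Subgroup.center (Matrix.SpecialLinearGroup (Fin 2) (ZMod 2)) = ⊥ := by
          rw [eq_bot_iff]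
          intro g hg
          rcases mem_center_sl2 hg with rfl | rfl
          · exact Subgroup.one_mem _
          · rw [Subgroup.mem_bot]; decide
        exact ⟨e.trans ((QuotientGroup.quotientMulEquivOfEq hc).trans QuotientGroup.quotientBot)⟩
    · right
      have : Fact (Nat.Prime 3) := ⟨by norm_num⟩
      exact key 3 e

end Cfsg.Agent.S5020
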