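import Cfsg.Statements.S5023
import Cfsg.Agent.Lib.Root.Special

set_option autoImplicit false
open Cfsg

namespace Cfsg.Agent.S5023

open Cfsg.Agent.Lib.Root

/-- Let X be a rank one group with unipotent subgroups A and B that acts faithfully on an abelian group V (written additively) with A acting quadratically: a' • (a • v − v) = a • v − v for all a, a' in A and v in V. Then A is either torsion-free or an elementary abelian p-group for some prime p. -/
theorem result {X : Type*} [Group X] {A B : Subgroup X} (h : Cfsg.IsRankOneGroup X A B)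
    {V : Type*} [AddCommGroup V] [DistribMulAction X V] (hf : ∀ x : X, (∀ v : V, x • v = v) → x = 1)
    (hq : ∀ a ∈ A, ∀ a' ∈ A, ∀ v : V, a' • (a • v - v) = a • v - v) :
    (∀ a ∈ A, a ≠ 1 → ¬ IsOfFinOrder a) ∨ ∃ p : ℕ, p.Prime ∧ Cfsg.IsElementaryAbelian p A := by
  have hA : IsMulCommutative A := by
    rw [subComm_iff]
    intro a ha a' ha'
    have : (a' * a)⁻¹ * (a * a') = 1 := by
      apply hf
      intro v
      rw [mul_smul, inv_smul_eq_iff, mul_smul, mul_smul]
      have h1 := hq a ha a' ha' v
      have h2 := hq a' ha' a ha v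
      rw [smul_sub, sub_eq_iff_eq_add] at h1 h2
      rw [h1, h2]; abel
    rw [inv_mul_eq_one] at this
    exact this.symm
  have hX : ∃ x y : X, ∃ n : V, y • (x • n - n) ≠ x • n - n := by
    by_contra hc
    push Not at hc
    apply r1_not_comm h.2
    intro a _ a' _
    have : (a' * a)⁻¹ * (a * a') = 1 := by
      apply hf
      intro v
      rw [mul_smul, inv_smul_eq_iff, mul_smul, mul_smul]
      have h1 := hc a a' v
      have h2 := hc a' a v
      rw [smul_sub, sub_eq_iff_eq_add] at h1 h2
      rw [h1, h2]; abel
    rw [inv_mul_eq_one] at this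
    exact this.symm
  rcases special_dichotomy (special_of_quadratic_group h hq hX) hA with h1 | h1
  · exact Or.inr h1
  · exact Or.inl h1.1

end Cfsg.Agent.S5023
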