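import Cfsg.Statements.S5026
import Cfsg.Agent.Lib.Root.Sub1

set_option autoImplicit false
open Cfsg

namespace Cfsg.Agent.S5026

open Cfsg.Agent.Lib.Root

/-- Let S be a degenerate set of abstract root subgroups of G (a set of abstract transvection groups) and let a, b be commuting non-identity elements of members of S with a b ≠ 1. Then the members of S centralizing a b are exactly those centralizing both a and b. -/
theorem result {G : Type*} [Group G] {S : Set (Subgroup G)} (hS : Cfsg.IsRootSubgroupSet S) (hdeg : Cfsg.IsDegenerateRootSet S)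
    {a b : G} (ha : a ∈ Cfsg.rootElements S) (hb : b ∈ Cfsg.rootElements S) (hab : a * b = b * a) (hab1 : a * b ≠ 1) :
    Cfsg.centralizingMembers S (Subgroup.zpowers (a * b)) =
      Cfsg.centralizingMembers S (Subgroup.zpowers a) ∩ Cfsg.centralizingMembers S (Subgroup.zpowers b) := by
  have hz : ∀ (C : Subgroup G) (x : G), C ≤ Subgroup.centralizer (Subgroup.zpowers x : Set G) ↔
      ∀ c ∈ C, x * c = c * x := by
    intro C x
    rw [← comm_iff_le_centralizer, comm_comm, comm_iff_le_centralizer, Subgroup.zpowers_le,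
      Subgroup.mem_centralizer_iff]
    exact ⟨fun h c hc => (h c hc).symm, fun h c hc => (h c hc).symm⟩
  have tri' : ∀ {A B : Subgroup G}, A ∈ S → B ∈ S → Comm A B ∨ IsRankOnePair A B := by
    intro A B hA hB
    rcases tri hS hA hB with h | h | h
    · exact Or.inl h
    · exact Or.inr h
    · exact absurd (psi_iff.1 h) (hdeg A hA B hB)
  obtain ⟨ha1, A, hA, haA⟩ := ha
  obtain ⟨hb1, B, hB, hbB⟩ := hb
  ext C
  simp only [centralizingMembers, Set.mem_inter_iff, Set.mem_setOf_eq, hz]
  constructor
  · rintro ⟨hC, h⟩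
    have k : ∀ c ∈ C, a * c = c * a := by
      rcases tri' hA hC with h1 | h1
      · exact h1 a haA
      exfalso
      have e : conjBy C a = conjBy C b⁻¹ := by
        rw [conjBy_eq_conjBy_iff, inv_inv, ← hab]
        exact conjBy_eq_of_commute h
      have h2 : IsRankOnePair C B :=
        r1_of_r1_conj hS hC hB (B.inv_mem hbB) (e ▸ r1_right_conj h1 haA ha1)
      have e2 : B ⊔ C = A ⊔ C := by
        rw [← sup_right_conj (r1_symm h2) (B.inv_mem hbB) (by simpa using hb1), ← e,
          sup_right_conj h1 haA ha1]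
      have hBu : B ∈ unipotentSubgroups A C :=
        mem_unip_of_r1 h1 (right_mem_unip h1) (e2 ▸ le_sup_left) (r1_symm h2)
      by_cases hAB : A = B
      · subst hAB
        exact hab1 (r1_norm h1 (A.mul_mem haA hbB) (conjBy_eq_of_commute h))
      · exact r1_not_commute (r1_of_unip h1 left_mem_unip hBu hAB) haA ha1 hbB hb1 hab
    refine ⟨⟨hC, k⟩, hC, fun c hc => ?_⟩
    have := h c hc
    rw [mul_assoc, ← mul_assoc c, ← k c hc, mul_assoc] at this
    exact mul_left_cancel this
  · rintro ⟨⟨hC, h1⟩, -, h2⟩
    refine ⟨hC, fun c hc => ?_⟩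
    rw [mul_assoc, h2 c hc, ← mul_assoc, h1 c hc, mul_assoc]

end Cfsg.Agent.S5026
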