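import Cfsg.Statements.S5027
import Cfsg.Agent.Lib.Root.Sub1

set_option autoImplicit false
open Cfsg

namespace Cfsg.Agent.S5027

open Cfsg.Agent.Lib.Root

/-- Let S be a set of abstract root subgroups of G such that every member of S has a rank one partner in S (the graph of rank one pairs on S has no isolated vertex). Then the second centre of G equals its centre. -/
theorem result {G : Type*} [Group G] {S : Set (Subgroup G)} (hS : Cfsg.IsRootSubgroupSet S)
    (hF : ∀ A ∈ S, ¬ Cfsg.IsIsolatedIn (Cfsg.FAdj S) S A) : Subgroup.upperCentralSeries G 2 = Subgroup.center G := by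
  apply le_antisymm
  · intro z hz
    refine mem_center_of_comm hS fun A hA a ha => ?_
    by_cases ha1 : a = 1
    · simp [ha1]
    obtain ⟨B, hB, hr⟩ := ni_of_not_isolated hA (hF A hA)
    have := (Subgroup.mem_upperCentralSeries_succ_iff.1 hz) a
    rw [Subgroup.upperCentralSeries_one, Subgroup.mem_center_iff] at this
    rw [← commutatorElement_eq_one_iff_mul_comm]
    refine central_translate hS hB hr (fun x _ => (this x).symm) (fun x _ => (this x).symm) ha ha1
      (hS.conj_mem A hA z) ?_
    rw [commutatorElement_def, inv_mul_cancel_right]
    exact conj_mem_conjBy ha z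
  · rw [← Subgroup.upperCentralSeries_one]
    exact Subgroup.upperCentralSeries_mono G (by norm_num)

end Cfsg.Agent.S5027
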