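import Cfsg.Statements.S5029
import Cfsg.Agent.Lib.Root.Sub1

set_option autoImplicit false
open Cfsg

namespace Cfsg.Agent.S5029

open Cfsg.Agent.Lib.Root

/-- Let S be a set of abstract root subgroups of G, A ∈ S having a rank one partner in S, and B ∈ S with C = ⁅A, B⁆ ∈ S. Then the members of S contained in AC are the conjugates of A by elements of B together with C, they partition AC, the members of S inside AC partition AC so that A is a line partner of C, and for every non-identity a ∈ A the map b ↦ a⁻¹ b⁻¹ a b is an isomorphism from B onto C. -/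
theorem result {G : Type*} [Group G] {S : Set (Subgroup G)} (hS : Cfsg.IsRootSubgroupSet S)
    {A B : Subgroup G} (hA : ¬ Cfsg.IsIsolatedIn (Cfsg.FAdj S) S A) (hAS : A ∈ S) (hB : B ∈ S) (hC : ⁅A, B⁆ ∈ S) :
    Cfsg.membersIn S (A ⊔ ⁅A, B⁆) = (fun b : G => Cfsg.conjBy A b) '' (B : Set G) ∪ {⁅A, B⁆} ∧
    Cfsg.IsSubgroupPartition (A ⊔ ⁅A, B⁆) (Cfsg.membersIn S (A ⊔ ⁅A, B⁆)) ∧
    A ∈ Cfsg.linePartners S ⁅A, B⁆ ∧
    ∀ a ∈ A, a ≠ 1 → ∃ φ : ↥B ≃* ↥⁅A, B⁆, ∀ b : ↥B, (φ b : G) = a⁻¹ * (b : G)⁻¹ * a * b := by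
  have h := psi_of_mem hS hAS hB hC
  have hN := ni_of_not_isolated hAS hA
  refine ⟨?_, h.partition hS hAS hN, line_symm hAS (h.line hS hAS hN), fun a ha ha1 => ?_⟩
  · ext D
    constructor
    · rintro ⟨hD, hle⟩
      rcases h.members hS hAS hN hD hle with ⟨b, hb, rfl⟩ | rfl
      · exact Or.inl ⟨b, hb, rfl⟩
      · exact Or.inr rfl
    · rintro (⟨b, hb, rfl⟩ | rfl)
      · exact ⟨hS.conj_mem A hAS b, conjBy_le_sup_commutator hb⟩
      · exact ⟨hC, le_sup_right⟩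
  · have hm : ∀ b : B, a⁻¹ * (b : G)⁻¹ * a * b ∈ ⁅A, B⁆ := by
      intro b
      simpa using comm_mem (A.inv_mem ha) (B.inv_mem b.2)
    let f : B →* ↥⁅A, B⁆ := MonoidHom.mk' (fun b => ⟨_, hm b⟩) (by
      intro b b'
      apply Subtype.ext
      have := comm_mul_right_of_central h.cB (A.inv_mem ha) (B.inv_mem b.2) (B.inv_mem b'.2)
      have e := self_comm hS hB b b.2 b' b'.2
      simp only [inv_inv] at this
      change a⁻¹ * ((b : G) * b')⁻¹ * a * (b * b') = _ * _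
      rw [← this, e]; group)
    refine ⟨MulEquiv.ofBijective f ⟨fun b b' e => ?_, fun c => ?_⟩, fun b => rfl⟩
    · have e' : a⁻¹ * (b : G)⁻¹ * a * b = a⁻¹ * (b' : G)⁻¹ * a * b' := congrArg Subtype.val e
      have := h.inj' hS hAS hN (A.inv_mem ha) (by simpa using ha1) (B.inv_mem b.2) (B.inv_mem b'.2)
        (by simpa using e')
      exact Subtype.ext (by simpa using this)
    · obtain ⟨b, hb, e⟩ := h.surjL a⁻¹ (A.inv_mem ha) (by simpa using ha1) c c.2
      refine ⟨⟨b⁻¹, B.inv_mem hb⟩, Subtype.ext ?_⟩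
      change a⁻¹ * (b⁻¹)⁻¹ * a * b⁻¹ = c
      rw [e]; group

end Cfsg.Agent.S5029
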