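import Cfsg.Statements.S5030
import Cfsg.Agent.Lib.Root.Sub1
import Cfsg.Agent.Lib.Root.Nilp

set_option autoImplicit false
open Cfsg

namespace Cfsg.Agent.S5030

open Cfsg.Agent.Lib.Root

open scoped commutatorElement

theorem not_r1_aux {G : Type*} [Group G] {S : Set (Subgroup G)} (hS : Cfsg.IsRootSubgroupSet S)
    {A B C : Subgroup G} (hA : A ∈ S) (hC : C ∈ S) (h1 : Psi S A B) (h2 : Psi S C B)
    (hAC : Comm A C) {b : G} (hb : b ∈ B) (hb1 : b ≠ 1) : ¬ IsRankOnePair A (conjBy C b) := by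
  intro hr
  obtain ⟨c, hc, hc1⟩ := exists_ne_one hS h1.mem
  obtain ⟨a, ha, rfl⟩ := h1.surjR b hb hb1 c hc
  have ha1 : a ≠ 1 := by rintro rfl; simp at hc1
  have hz : b * a⁻¹ * b⁻¹ ∈ conjBy A b := conj_mem_conjBy (A.inv_mem ha) b
  have := central_translate hS (hS.conj_mem C hC b) hr
    (h1.comm_conj (self_comm hS hA) hb _ hz) (hAC.conj b _ hz) ha ha1 h1.mem (by
      rw [h1.comm_conj (self_comm hS hA) hb _ hz a ha]
      simpa [mul_assoc] using hc)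
  exact ha1 (by simpa using this)

theorem comm_iff_aux {G : Type*} [Group G] {S : Set (Subgroup G)}
    {A B C : Subgroup G} (h2 : Psi S C B)
    (hAC : Comm A C) {b : G} (hb : b ∈ B) (hb1 : b ≠ 1) : Comm A (conjBy C b) ↔ Comm A ⁅C, B⁆ := by
  constructor
  · intro h
    have := hAC.sup_right h
    rw [h2.sup_conj hb hb1] at this
    exact this.mono le_rfl le_sup_right
  · intro h
    exact (hAC.sup_right h).mono le_rfl (conjBy_le_sup_commutator hb)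

theorem class_two_aux {G : Type*} [Group G] {S : Set (Subgroup G)} (hS : Cfsg.IsRootSubgroupSet S)
    {A B : Subgroup G} (hA : A ∈ S) (hB : B ∈ S) (h : ¬ IsRankOnePair A B) :
    Comm ⁅A ⊔ B, A ⊔ B⁆ (A ⊔ B) := by
  have hA' := self_comm hS hA
  have hB' := self_comm hS hB
  rcases tri hS hA hB with h1 | h1 | h1
  · have : Comm (A ⊔ B) (A ⊔ B) := (hA'.sup_right h1).sup_left (h1.symm.sup_right hB')
    exact this.mono (Subgroup.commutator_le_self _) le_rfl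
  · exact absurd h1 h
  · exact (h1.cA.sup_right h1.cB).mono (commutator_sup_le_of_class_two hA' hB' h1.cA h1.cB) le_rfl

/-- Let S be a set of abstract root subgroups of G and A, B, C ∈ S with ⁅A, B⁆ ∈ S and ⁅B, C⁆ ∈ S, where A and C are different and commute. For a non-identity b ∈ B put X = ⟨A, b⁻¹ C b⟩ and Y = ⟨b⁻¹ A b, C⟩ and R = ⟨A, B, C⟩. Then X and Y are either both abelian or both nilpotent of class exactly two; X and Y commute elementwise; XY is normal in R with R = (XY) B; and R is nilpotent. -/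
theorem result {G : Type*} [Group G] {S : Set (Subgroup G)} (hS : Cfsg.IsRootSubgroupSet S)
    {A B C : Subgroup G} (hA : A ∈ S) (hB : B ∈ S) (hC : C ∈ S) (hAB : ⁅A, B⁆ ∈ S) (hBC : ⁅B, C⁆ ∈ S)
    (hAC : C ∈ Cfsg.commutingPartners S A)
    {b : G} (hb : b ∈ B) (hb1 : b ≠ 1) :
    ((IsMulCommutative ↥(A ⊔ Cfsg.conjBy C b⁻¹) ∧ IsMulCommutative ↥(Cfsg.conjBy A b⁻¹ ⊔ C)) ∨
      ((¬ IsMulCommutative ↥(A ⊔ Cfsg.conjBy C b⁻¹) ∧
          ⁅⁅A ⊔ Cfsg.conjBy C b⁻¹, A ⊔ Cfsg.conjBy C b⁻¹⁆, A ⊔ Cfsg.conjBy C b⁻¹⁆ = ⊥) ∧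
        (¬ IsMulCommutative ↥(Cfsg.conjBy A b⁻¹ ⊔ C) ∧
          ⁅⁅Cfsg.conjBy A b⁻¹ ⊔ C, Cfsg.conjBy A b⁻¹ ⊔ C⁆, Cfsg.conjBy A b⁻¹ ⊔ C⁆ = ⊥))) ∧
    ⁅A ⊔ Cfsg.conjBy C b⁻¹, Cfsg.conjBy A b⁻¹ ⊔ C⁆ = ⊥ ∧
    (∀ r ∈ A ⊔ B ⊔ C, Cfsg.conjBy ((A ⊔ Cfsg.conjBy C b⁻¹) ⊔ (Cfsg.conjBy A b⁻¹ ⊔ C)) r =
      (A ⊔ Cfsg.conjBy C b⁻¹) ⊔ (Cfsg.conjBy A b⁻¹ ⊔ C)) ∧
    ((A ⊔ Cfsg.conjBy C b⁻¹) ⊔ (Cfsg.conjBy A b⁻¹ ⊔ C)) ⊔ B = A ⊔ B ⊔ C ∧
    Group.IsNilpotent ↥(A ⊔ B ⊔ C) := by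
  have h1 := psi_of_mem hS hA hB hAB
  have h2 := (psi_of_mem hS hB hC hBC).symm
  have hAC' : Comm A C := comm_iff.2 hAC.2.2
  have hA' := self_comm hS hA
  have hB' := self_comm hS hB
  have hC' := self_comm hS hC
  have hb' := B.inv_mem hb
  have hb1' : b⁻¹ ≠ 1 := by simpa using hb1
  have hX := class_two_aux hS hA (hS.conj_mem C hC b⁻¹) (not_r1_aux hS hA hC h1 h2 hAC' hb' hb1')
  have hY := class_two_aux hS (hS.conj_mem A hA b⁻¹) hC
    (fun h => not_r1_aux hS hC hA h2 h1 hAC'.symm hb' hb1' (r1_symm h))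
  have hXY : Comm (A ⊔ conjBy C b⁻¹) (conjBy A b⁻¹ ⊔ C) :=
    ((h1.comm_conj hA' hb').symm.sup_right hAC').sup_left
      ((hAC'.symm.conj _).sup_right (h2.comm_conj hC' hb'))
  have hiff : Comm A (conjBy C b⁻¹) ↔ Comm (conjBy A b⁻¹) C := by
    rw [comm_iff_aux h2 hAC' hb' hb1', ← comm_iff_aux h2 hAC' hb hb1, ← comm_conj_iff (g := b⁻¹),
      conjBy_inv_conjBy]
  have hab : ∀ {P Q : Subgroup G}, P ∈ S → Q ∈ S → (IsMulCommutative ↥(P ⊔ Q) ↔ Comm P Q) := by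
    intro P Q hP hQ
    rw [← comm_self_iff]
    exact ⟨fun h => h.mono le_sup_left le_sup_right, fun h =>
      ((self_comm hS hP).sup_right h).sup_left (h.symm.sup_right (self_comm hS hQ))⟩
  have hN : (A ⊔ conjBy C b⁻¹) ⊔ (conjBy A b⁻¹ ⊔ C) = (A ⊔ ⁅A, B⁆) ⊔ (C ⊔ ⁅C, B⁆) := by
    rw [← h1.sup_conj hb' hb1', ← h2.sup_conj hb' hb1']
    ac_rfl
  have hNB : ∀ {A : Subgroup G}, Psi S A B → ∀ β ∈ B, conjBy (A ⊔ ⁅A, B⁆) β = A ⊔ ⁅A, B⁆ := by
    intro A h β hβ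
    have k : ∀ β ∈ B, conjBy (A ⊔ ⁅A, B⁆) β ≤ A ⊔ ⁅A, B⁆ := by
      intro β hβ
      rw [conjBy_sup, h.cB.conjBy_eq' hβ]
      exact sup_le (conjBy_le_sup_commutator hβ) le_sup_right
    refine le_antisymm (k β hβ) ?_
    have := conjBy_mono (k β⁻¹ (B.inv_mem hβ)) β
    rwa [conjBy_conjBy_inv] at this
  have hnorm : ∀ r ∈ A ⊔ B ⊔ C, conjBy ((A ⊔ conjBy C b⁻¹) ⊔ (conjBy A b⁻¹ ⊔ C)) r =
      (A ⊔ conjBy C b⁻¹) ⊔ (conjBy A b⁻¹ ⊔ C) := by
    have : A ⊔ B ⊔ C ≤ Subgroup.normalizer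
        (((A ⊔ conjBy C b⁻¹) ⊔ (conjBy A b⁻¹ ⊔ C) : Subgroup G) : Set G) := by
      refine sup_le (sup_le ?_ ?_) ?_
      · exact (le_sup_left.trans le_sup_left).trans Subgroup.le_normalizer
      · intro β hβ
        rw [mem_normalizer_iff_conjBy, hN, conjBy_sup, hNB h1 β hβ, hNB h2 β hβ]
      · exact (le_sup_right.trans le_sup_right).trans Subgroup.le_normalizer
    exact fun r hr => mem_normalizer_iff_conjBy.1 (this hr)
  have hle : (A ⊔ conjBy C b⁻¹) ⊔ (conjBy A b⁻¹ ⊔ C) ≤ A ⊔ B ⊔ C := by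
    have hbR : b⁻¹ ∈ A ⊔ B ⊔ C := Subgroup.mem_sup_left (Subgroup.mem_sup_right hb')
    exact sup_le (sup_le (le_sup_left.trans le_sup_left) (conjBy_le_of_mem le_sup_right hbR))
      (sup_le (conjBy_le_of_mem (le_sup_left.trans le_sup_left) hbR) le_sup_right)
  refine ⟨?_, comm_iff.1 hXY, hnorm, ?_, ?_⟩
  · rw [hab hA (hS.conj_mem C hC _), hab (hS.conj_mem A hA _) hC, ← hiff]
    by_cases h : Comm A (conjBy C b⁻¹)
    · exact Or.inl ⟨h, h⟩
    · exact Or.inr ⟨⟨h, comm_iff.1 hX⟩, h, comm_iff.1 hY⟩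
  · refine le_antisymm (sup_le hle (le_sup_right.trans le_sup_left)) ?_
    exact sup_le (sup_le ((le_sup_left.trans le_sup_left).trans le_sup_left) le_sup_right)
      ((le_sup_right.trans le_sup_right).trans le_sup_left)
  · set N := (A ⊔ conjBy C b⁻¹) ⊔ (conjBy A b⁻¹ ⊔ C) with hNdef
    set R := A ⊔ B ⊔ C with hR
    have hN2 : Comm ⁅N, N⁆ N := by
      refine Comm.mono ?_ (commutator_sup_le_of_comm hXY) le_rfl
      exact (hX.sup_right (hXY.mono (Subgroup.commutator_le_self _) le_rfl)).sup_left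
        ((hXY.symm.mono (Subgroup.commutator_le_self _) le_rfl).sup_right hY)
    let N' : Subgroup R := N.subgroupOf R
    have : N'.Normal := ⟨fun n hn g => by
      have := conj_mem_conjBy (A := N) hn (g : G)
      rwa [hnorm g g.2] at this⟩
    have hmap : (⁅N', N'⁆).map R.subtype = ⁅N, N⁆ := by
      rw [Subgroup.map_commutator, Subgroup.map_subgroupOf_eq_of_le hle]
    refine nilpotent_of_class_two_normal N' (fun x hx y hy => Subtype.ext ?_) ?_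
    · exact hN2 x (hmap ▸ ⟨x, hx, rfl⟩) y hy
    let s : Set R := {x | (x : G) ∈ A ∨ (x : G) ∈ B ∨ (x : G) ∈ C}
    have hs : Subgroup.closure s = ⊤ := by
      apply Subgroup.map_injective R.subtype_injective
      rw [MonoidHom.map_closure, ← MonoidHom.range_eq_map, Subgroup.range_subtype]
      apply le_antisymm
      · rw [Subgroup.closure_le]; rintro _ ⟨x, -, rfl⟩; exact x.2
      · refine sup_le (sup_le (fun x hx => ?_) (fun x hx => ?_)) (fun x hx => ?_)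
        · exact Subgroup.subset_closure
            ⟨⟨x, Subgroup.mem_sup_left (Subgroup.mem_sup_left hx)⟩, Or.inl hx, rfl⟩
        · exact Subgroup.subset_closure
            ⟨⟨x, Subgroup.mem_sup_left (Subgroup.mem_sup_right hx)⟩, Or.inr (Or.inl hx), rfl⟩
        · exact Subgroup.subset_closure ⟨⟨x, Subgroup.mem_sup_right hx⟩, Or.inr (Or.inr hx), rfl⟩
    let π := QuotientGroup.mk' ⁅N', N'⁆
    have hs' : Subgroup.closure (π '' s) = ⊤ := by
      rw [← MonoidHom.map_closure, hs]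
      exact Subgroup.map_top_of_surjective _ (QuotientGroup.mk'_surjective _)
    have hAN : A ≤ N := le_sup_left.trans le_sup_left
    have hCN : C ≤ N := le_sup_right.trans le_sup_right
    have cen : ∀ x : R, (x : G) ∈ N → (∀ β ∈ B, (x : G) * β = β * x) →
        π x ∈ Subgroup.upperCentralSeries _ 1 := by
      intro x hx hxB
      refine mem_ucs_succ_of_closure hs' ?_
      rintro _ ⟨y, hy, rfl⟩
      rw [← map_commutatorElement, Subgroup.upperCentralSeries_zero, Subgroup.mem_bot]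
      rcases hy with hy | hy | hy
      · exact (QuotientGroup.eq_one_iff _).2 (Subgroup.commutator_mem_commutator hx (hAN hy))
      · rw [commutatorElement_eq_one_iff_mul_comm.2 (Subtype.ext (hxB y hy)), map_one]
      · exact (QuotientGroup.eq_one_iff _).2 (Subgroup.commutator_mem_commutator hx (hCN hy))
    have cen1 : ∀ x : R, (x : G) ∈ ⁅A, B⁆ → π x ∈ Subgroup.upperCentralSeries _ 1 := fun x hx =>
      cen x (hN ▸ Subgroup.mem_sup_left (Subgroup.mem_sup_right hx)) (h1.cB x hx)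
    have cen2 : ∀ x : R, (x : G) ∈ ⁅C, B⁆ → π x ∈ Subgroup.upperCentralSeries _ 1 := fun x hx =>
      cen x (hN ▸ Subgroup.mem_sup_right (Subgroup.mem_sup_right hx)) (h2.cB x hx)
    have triv : ∀ x y : R, (x : G) * y = y * x → π ⁅x, y⁆ ∈ Subgroup.upperCentralSeries _ 1 := by
      intro x y h
      rw [commutatorElement_eq_one_iff_mul_comm.2 (Subtype.ext h), map_one]
      exact Subgroup.one_mem _
    refine ⟨⟨2, ?_⟩⟩
    rw [eq_top_iff, ← hs', Subgroup.closure_le]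
    rintro _ ⟨x, hx, rfl⟩
    refine mem_ucs_succ_of_closure hs' ?_
    rintro _ ⟨y, hy, rfl⟩
    rw [← map_commutatorElement]
    rcases hx with hx | hx | hx <;> rcases hy with hy | hy | hy
    · exact triv x y (hA' _ hx _ hy)
    · exact cen1 _ (comm_mem hx hy)
    · exact triv x y (hAC' _ hx _ hy)
    · exact cen1 _ (comm_mem' hy hx)
    · exact triv x y (hB' _ hx _ hy)
    · exact cen2 _ (comm_mem' hy hx)
    · exact triv x y (hAC'.symm _ hx _ hy)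
    · exact cen2 _ (comm_mem hx hy)
    · exact triv x y (hC' _ hx _ hy)

end Cfsg.Agent.S5030
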