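import Cfsg.Statements.S5032
import Cfsg.Agent.Lib.Root.Sub2

set_option autoImplicit false
open Cfsg

namespace Cfsg.Agent.S5032

open Cfsg.Agent.Lib.Root

/-- Let S be a set of abstract root subgroups of G with more than one member. Then the graph of rank one pairs on S is connected if and only if S is a single conjugacy class of G and some member of S has a rank one partner in S. -/
theorem result {G : Type*} [Group G] {S : Set (Subgroup G)} (hS : Cfsg.IsRootSubgroupSet S) (h2 : ∃ A ∈ S, ∃ B ∈ S, A ≠ B) :
    Cfsg.IsConnectedFamily (Cfsg.FAdj S) S ↔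
      (Cfsg.IsConjClassOfSubgroups S ∧ ∃ A ∈ S, ¬ Cfsg.IsIsolatedIn (Cfsg.FAdj S) S A) := by
  constructor
  · intro h
    obtain ⟨A, hA, h3⟩ := id h2
    exact ⟨(class_of_connected hS hA h).2, A, hA, not_isolated_of_ni hA (ni_of_connected h2 h A hA)⟩
  · rintro ⟨hc, A, hA, hi⟩
    exact connected_of_class ⟨hS, hc⟩ hA (ni_of_not_isolated hA hi)

end Cfsg.Agent.S5032
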