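import Cfsg.Statements.S5033
import Cfsg.Agent.Lib.Root.Sub4

set_option autoImplicit false
open Cfsg

namespace Cfsg.Agent.S5033

open Cfsg.Agent.Lib.Root

/-- Quasisimplicity criterion for groups generated by abstract root subgroups. Let S be a set of abstract root subgroups of G with more than one member such that: the graph of rank one pairs on S is connected; no two different members of S have the same set of commuting members of S; if S is degenerate then every member of S has more than three elements; and every rank one pair in S is special. Then for every A ∈ S one has G = G' A with A ∩ G' ≠ 1, and the commutator subgroup G' is quasisimple. Moreover G is perfect if S is non-degenerate, or if some rank one pair A, B in S generates a perfect group. -/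
theorem result {G : Type*} [Group G] {S : Set (Subgroup G)} (hS : Cfsg.IsRootSubgroupSet S) (h2 : ∃ A ∈ S, ∃ B ∈ S, A ≠ B)
    (h1 : Cfsg.IsConnectedFamily (Cfsg.FAdj S) S)
    (h2' : ∀ A ∈ S, ∀ C ∈ S, A ≠ C → Cfsg.centralizingMembers S A ≠ Cfsg.centralizingMembers S C)
    (h3 : Cfsg.IsDegenerateRootSet S → ∀ A ∈ S, 3 < ENat.card A)
    (h4 : ∀ A ∈ S, ∀ B ∈ Cfsg.rankOnePartners S A, Cfsg.IsSpecialRankOnePair A B) :
    (∀ A ∈ S, commutator G ⊔ A = ⊤ ∧ A ⊓ commutator G ≠ ⊥) ∧ Cfsg.IsQuasisimple ↥(commutator G) ∧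
    (Cfsg.IsNondegenerateRootSet S → commutator G = ⊤) ∧
    ((∃ A ∈ S, ∃ B ∈ Cfsg.rankOnePartners S A, Group.IsPerfect ↥(A ⊔ B)) → commutator G = ⊤) := by
  have hN := ni_of_connected h2 h1
  obtain ⟨A, hA, -⟩ := h2
  have hc := class_of_connected hS hA h1
  obtain ⟨B, hB, hr⟩ := hN A hA
  have hp : IsDegenerateRootSet S → ∀ A ∈ S, ∀ B ∈ S, IsRankOnePair A B →
      ⁅A ⊔ B, A ⊔ B⁆ = A ⊔ B := fun hd A hA B hB hr =>
    special_perfect (h4 A hA B ⟨hB, hr⟩) (hS.commutative A hA) (h3 hd A hA)
  have hG := perfect_of_class hc hA hB hr hp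
  refine ⟨fun A hA => ⟨by rw [hG, top_sup_eq], by rw [hG, inf_top_eq]; exact hS.ne_bot A hA⟩, ?_,
    fun _ => hG, fun _ => hG⟩
  rw [hG]
  refine quasisimple_of_mulEquiv Subgroup.topEquiv.symm ⟨⟨hG⟩, isSimple_quot_center_of ?_ ?_⟩
  · intro e
    refine r1_not_comm hr fun a _ b _ => ?_
    exact Subgroup.mem_center_iff.1 (e ▸ Subgroup.mem_top b) a
  · intro N hN'
    refine (normal_dichotomy hc hp N).imp_right fun h => le_center_of_normalizes hS hN N ?_
    intro A hA n hn
    by_contra hne
    refine h2' _ (hS.conj_mem A hA n) A hA hne (Set.Subset.antisymm ?_ (csub_iff.1 (h A hA n hn)))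
    have := h _ (hS.conj_mem A hA n) n⁻¹ (N.inv_mem hn)
    rw [conjBy_inv_conjBy] at this
    exact csub_iff.1 this

end Cfsg.Agent.S5033
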