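import Cfsg.Statements.S5034
import Cfsg.Agent.Lib.Root.Sub2

set_option autoImplicit false
open Cfsg

namespace Cfsg.Agent.S5034

open Cfsg.Agent.Lib.Root

/-- Let S be a non-degenerate class of abstract root subgroups of G, A ∈ S and B a rank one partner of A. Then some line partner C of A has ⁅B, C⁆ ∈ S, and the rank one pair A, B is special. -/
theorem result {G : Type*} [Group G] {S : Set (Subgroup G)} (hS : Cfsg.IsRootSubgroupClass S) (hnd : Cfsg.IsNondegenerateRootSet S)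
    {A B : Subgroup G} (hA : A ∈ S) (hB : B ∈ Cfsg.rankOnePartners S A) :
    (∃ C ∈ Cfsg.linePartners S A, C ∈ Cfsg.commutatorPartners S B) ∧ Cfsg.IsSpecialRankOnePair A B := by
  have hN := ni_all_of_class hS hA ⟨B, hB.1, hB.2⟩
  obtain ⟨-, -, P, hP, Q, hQ, h⟩ := hnd
  obtain ⟨C, hC⟩ := exists_line_of_psi hS hN hP (psi_iff.2 h) hA
  obtain ⟨Q, hQ, h1, h2, h3⟩ := exists_line_psi_of_line hS.1 hA hC hB.1 hB.2
  exact ⟨⟨Q, hQ, line_mem hQ, h1.symm.mem⟩,
    special_of_module hS.1 hA hB.1 hB.2 (line_comm hQ) h1 h2 h3⟩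

end Cfsg.Agent.S5034
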