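import Cfsg.Statements.S5035
import Cfsg.Agent.Lib.Root.Sub2

set_option autoImplicit false
open Cfsg

namespace Cfsg.Agent.S5035

open Cfsg.Agent.Lib.Root

theorem comm_map {G H : Type*} [Group G] [Group H] (f : G →* H) {A B : Subgroup G} (h : Comm A B) :
    Comm (A.map f) (B.map f) := by
  rintro _ ⟨a, ha, rfl⟩ _ ⟨b, hb, rfl⟩
  rw [← map_mul, ← map_mul, h a ha b hb]

theorem psi_map {G H : Type*} [Group G] [Group H] (f : G →* H) {S : Set (Subgroup G)}
    {A B : Subgroup G} (h : Psi S A B) :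
    Psi ((fun A : Subgroup G => A.map f) '' S) (A.map f) (B.map f) := by
  have e := Subgroup.map_commutator A B f
  refine ⟨⟨_, h.mem, e⟩, e ▸ comm_map f h.cA, e ▸ comm_map f h.cB, ?_, ?_⟩
  · rintro _ ⟨a, ha, rfl⟩ ha1 c hc
    rw [← e] at hc
    obtain ⟨c, hc, rfl⟩ := hc
    obtain ⟨b, hb, rfl⟩ := h.surjL a ha (fun e => ha1 (by simp [e])) c hc
    exact ⟨f b, ⟨b, hb, rfl⟩, by simp⟩
  · rintro _ ⟨a, ha, rfl⟩ ha1 c hc
    rw [← e] at hc
    obtain ⟨c, hc, rfl⟩ := hc
    obtain ⟨b, hb, rfl⟩ := h.surjR a ha (fun e => ha1 (by simp [e])) c hc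
    exact ⟨f b, ⟨b, hb, rfl⟩, by simp⟩

/-- Let S be a set of abstract root subgroups of G whose graph of rank one pairs is connected, and f a homomorphism from G onto a group H. Then either the images of the members of S form a set of abstract root subgroups of H whose graph of rank one pairs is again connected, or H equals the image of a member of S. -/
theorem result {G H : Type*} [Group G] [Group H] {S : Set (Subgroup G)} (hS : Cfsg.IsRootSubgroupSet S)
    (hc : Cfsg.IsConnectedFamily (Cfsg.FAdj S) S) (f : G →* H) (hf : Function.Surjective f) :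
    (Cfsg.IsRootSubgroupSet ((fun A : Subgroup G => A.map f) '' S) ∧
      Cfsg.IsConnectedFamily (Cfsg.FAdj ((fun A : Subgroup G => A.map f) '' S)) ((fun A : Subgroup G => A.map f) '' S)) ∨
    ∃ A ∈ S, A.map f = ⊤ := by
  have hgen : (⨆ A ∈ S, A.map f) = ⊤ := by
    have := congrArg (Subgroup.map f) hS.generates
    rw [← MonoidHom.range_eq_map, MonoidHom.range_eq_top.2 hf] at this
    simpa only [Subgroup.map_iSup] using this
  have hgen' : (⨆ A ∈ (fun A : Subgroup G => A.map f) '' S, A) = ⊤ := by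
    rw [iSup_image, hgen]
  rcases S.eq_empty_or_nonempty with rfl | ⟨A₀, hA₀⟩
  · left
    refine ⟨⟨?_, ?_, hgen', ?_, ?_⟩, ?_⟩ <;> simp [IsConnectedFamily]
  by_cases hall : ∀ A ∈ S, ∀ B ∈ S, IsRankOnePair A B → A.map f = B.map f
  · right
    refine ⟨A₀, hA₀, eq_top_iff.2 (hgen ▸ iSup₂_le fun B hB => le_of_eq ?_)⟩
    have := hc A₀ hA₀ B hB
    clear hB
    induction this with
    | refl => rfl
    | tail _ h ih => rw [← hall _ h.1 _ h.2.1 h.2.2, ih]
  push Not at hall
  obtain ⟨A, hA, B, hB, hr, hne⟩ := hall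
  have hcl := class_of_connected hS hA hc
  have hkA : ∀ a ∈ A, f a = 1 → a = 1 := by
    intro a ha h1
    by_contra ha1
    obtain ⟨b, hb, -, e⟩ := r1_exists hr ha ha1
    have := congrArg (Subgroup.map f) e
    rw [map_conjBy, map_conjBy, h1, conjBy_one, conjBy_eq_iff,
      conjBy_of_mem (Subgroup.inv_mem _ (Subgroup.mem_map_of_mem f hb))] at this
    exact hne this
  have hk : ∀ C ∈ S, ∀ a ∈ C, f a = 1 → a = 1 := by
    intro C hC c hc h1
    obtain ⟨g, rfl⟩ := hcl.2.2 A hA C hC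
    obtain ⟨a, ha, rfl⟩ := mem_conjBy'.1 hc
    rw [hkA a ha (by simpa using h1)]; simp
  have hT : IsRootSubgroupSet ((fun A : Subgroup G => A.map f) '' S) := by
    refine ⟨?_, ?_, hgen', ?_, ?_⟩
    · rintro _ ⟨C, hC, rfl⟩
      exact comm_self_iff.1 (comm_map f (self_comm hS hC))
    · rintro _ ⟨C, hC, rfl⟩ e
      obtain ⟨c, hc, hc1⟩ := exists_ne_one hS hC
      refine hc1 (hk C hC c hc ?_)
      rw [← Subgroup.mem_bot, ← e]
      exact Subgroup.mem_map_of_mem f hc
    · rintro _ ⟨C, hC, rfl⟩ g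
      obtain ⟨g, rfl⟩ := hf g
      exact ⟨_, hS.conj_mem C hC g, map_conjBy _ _ _⟩
    · rintro _ ⟨C, hC, rfl⟩ _ ⟨D, hD, rfl⟩
      rcases tri hS hC hD with h | h | h
      · exact Or.inl (comm_iff.1 (comm_map f h))
      · by_cases e : C.map f = D.map f
        · left
          rw [← comm_iff]
          simp only [← e]
          exact comm_map f (self_comm hS hC)
        · exact Or.inr (Or.inl (r1_map f h (hk C hC) (hk D hD) e))
      · exact Or.inr (Or.inr (psi_iff.1 (psi_map f h)))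
  left
  refine ⟨hT, connected_of_class (A := A.map f) ⟨hT, ⟨_, A, hA, rfl⟩, ?_⟩ ⟨A, hA, rfl⟩
    ⟨_, ⟨B, hB, rfl⟩, r1_map f hr hkA (hk B hB) hne⟩⟩
  rintro _ ⟨C, hC, rfl⟩ _ ⟨D, hD, rfl⟩
  obtain ⟨g, rfl⟩ := hcl.2.2 C hC D hD
  exact ⟨f g, map_conjBy _ _ _⟩

end Cfsg.Agent.S5035
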