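import Cfsg.Statements.S5036
import Cfsg.Agent.Lib.Root.Sub3

set_option autoImplicit false
open Cfsg

namespace Cfsg.Agent.S5036

open Cfsg.Agent.Lib.Root

theorem conjBy_centralizer {G : Type*} [Group G] (U : Subgroup G) (g : G) :
    conjBy (Subgroup.centralizer (U : Set G)) g = Subgroup.centralizer (conjBy U g : Set G) := by
  ext x
  rw [mem_conjBy, Subgroup.mem_centralizer_iff, Subgroup.mem_centralizer_iff]
  constructor
  · intro h y hy
    have := h _ (mem_conjBy.1 hy)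
    calc y * x = g * (g⁻¹ * y * g * (g⁻¹ * x * g)) * g⁻¹ := by group
      _ = _ := by rw [this]; group
  · intro h y hy
    have := h _ (conj_mem_conjBy hy g)
    calc y * (g⁻¹ * x * g) = g⁻¹ * (g * y * g⁻¹ * x) * g := by group
      _ = _ := by rw [this]; group

theorem inf_centralizer_eq {G : Type*} [Group G] {S : Set (Subgroup G)}
    (hS : Cfsg.IsRootSubgroupSet S) {A C D : Subgroup G} (h : Psi S D C) (hAC : Comm A C)
    (hAD : Comm A D) : (A ⊔ C) ⊓ Subgroup.centralizer (D : Set G) = A := by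
  refine le_antisymm (fun x hx => ?_) (le_inf le_sup_left (comm_iff_le_centralizer.1 hAD))
  obtain ⟨a, ha, c, hc, rfl⟩ := hAC.mem_sup.1 hx.1
  have hx2 := Subgroup.mem_centralizer_iff.1 hx.2
  by_cases hc1 : c = 1
  · simpa [hc1] using ha
  exfalso
  obtain ⟨e, he, he1⟩ := exists_ne_one hS h.mem
  obtain ⟨d, hd, rfl⟩ := h.surjR c hc hc1 e he
  apply he1
  have h1 := hx2 d hd
  rw [← mul_assoc, ← hAD a ha d hd, mul_assoc, mul_assoc, mul_left_cancel_iff] at h1
  rw [h1]; group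

/-- Let S be a set of abstract root subgroups of G, A, B ∈ S with C = ⁅A, B⁆ ∈ S, and D ∈ S with ⁅D, C⁆ = A. Put X = ⟨B, D⟩ and N = AC. Then B, D form a rank one pair; the conjugates of A under X are the conjugates of C under X, namely the conjugates of A by elements of B together with C, equally the conjugates of C by elements of D together with A, and they partition N; and the centralizer of N in X is central in X. -/
theorem result {G : Type*} [Group G] {S : Set (Subgroup G)} (hS : Cfsg.IsRootSubgroupSet S)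
    {A B D : Subgroup G} (hA : A ∈ S) (hB : B ∈ S) (hC : ⁅A, B⁆ ∈ S) (hD : D ∈ S) (hDC : ⁅D, ⁅A, B⁆⁆ = A) :
    Cfsg.IsRankOnePair B D ∧
    {E | ∃ x ∈ B ⊔ D, E = Cfsg.conjBy A x} = {E | ∃ x ∈ B ⊔ D, E = Cfsg.conjBy ⁅A, B⁆ x} ∧
    {E | ∃ x ∈ B ⊔ D, E = Cfsg.conjBy A x} = (fun b : G => Cfsg.conjBy A b) '' (B : Set G) ∪ {⁅A, B⁆} ∧
    {E | ∃ x ∈ B ⊔ D, E = Cfsg.conjBy A x} = (fun d : G => Cfsg.conjBy ⁅A, B⁆ d) '' (D : Set G) ∪ {A} ∧
    Cfsg.IsSubgroupPartition (A ⊔ ⁅A, B⁆) {E | ∃ x ∈ B ⊔ D, E = Cfsg.conjBy A x} ∧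
    ∀ x ∈ (B ⊔ D) ⊓ Subgroup.centralizer ((A ⊔ ⁅A, B⁆ : Subgroup G) : Set G), ∀ y ∈ B ⊔ D, x * y = y * x := by
  have h1 := psi_of_mem hS hA hB hC
  have h2 := psi_of_mem hS hD hC (hDC.symm ▸ hA)
  have hr := r1_of_double_psi hS hB hD h1 h2 hDC
  set C := ⁅A, B⁆ with hCdef
  have hAD : Comm A D := hDC ▸ h2.cA
  have hAC : Comm A C := h1.cA.symm
  have cD : (A ⊔ C) ⊓ Subgroup.centralizer (D : Set G) = A := inf_centralizer_eq hS h2 hAC hAD
  have cB : (A ⊔ C) ⊓ Subgroup.centralizer (B : Set G) = C := by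
    rw [sup_comm]; exact inf_centralizer_eq hS h1.symm hAC.symm h1.cB
  have nB : ∀ b ∈ B, conjBy (A ⊔ C) b = A ⊔ C := by
    intro b hb
    by_cases hb1 : b = 1
    · rw [hb1, conjBy_one]
    have e := h1.sup_conj (B.inv_mem hb) (inv_ne_one.2 hb1)
    rw [← hCdef] at e
    rw [← e, conjBy_sup, conjBy_conjBy_inv, e, sup_comm, h1.sup_conj hb hb1]
  have nD : ∀ d ∈ D, conjBy (A ⊔ C) d = A ⊔ C := by
    intro d hd
    by_cases hd1 : d = 1
    · rw [hd1, conjBy_one]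
    have hCD : ⁅C, D⁆ = A := by rw [Subgroup.commutator_comm, hDC]
    have e := h2.symm.sup_conj (D.inv_mem hd) (inv_ne_one.2 hd1)
    rw [hCD] at e
    rw [sup_comm A C, ← e, conjBy_sup, conjBy_conjBy_inv, e, sup_comm, h2.symm.sup_conj hd hd1, hCD]
  have nX : ∀ x ∈ B ⊔ D, conjBy (A ⊔ C) x = A ⊔ C := by
    intro x hx
    have : B ⊔ D ≤ Subgroup.normalizer ((A ⊔ C : Subgroup G) : Set G) :=
      sup_le (fun b hb => mem_normalizer_iff_conjBy.2 (nB b hb))
        (fun b hb => mem_normalizer_iff_conjBy.2 (nD b hb))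
    exact mem_normalizer_iff_conjBy.1 (this hx)
  have fA : ∀ x ∈ B ⊔ D, conjBy A x = (A ⊔ C) ⊓ Subgroup.centralizer (conjBy D x : Set G) := by
    intro x hx
    conv_lhs => rw [← cD]
    rw [conjBy_inf, nX x hx, conjBy_centralizer]
  have fC : ∀ x ∈ B ⊔ D, conjBy C x = (A ⊔ C) ⊓ Subgroup.centralizer (conjBy B x : Set G) := by
    intro x hx
    conv_lhs => rw [← cB]
    rw [conjBy_inf, nX x hx, conjBy_centralizer]
  have eA : {E | ∃ x ∈ B ⊔ D, E = Cfsg.conjBy A x} =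
      (fun U : Subgroup G => (A ⊔ C) ⊓ Subgroup.centralizer (U : Set G)) ''
        unipotentSubgroups B D := by
    ext E
    constructor
    · rintro ⟨x, hx, rfl⟩
      exact ⟨_, unip_conj_mem (right_mem_unip hr) hx, (fA x hx).symm⟩
    · rintro ⟨U, hU, rfl⟩
      rw [unip_symm hr] at hU
      obtain ⟨x, hx, rfl⟩ := hU
      rw [sup_comm] at hx
      exact ⟨x, hx, (fA x hx).symm⟩
  have eC : {E | ∃ x ∈ B ⊔ D, E = Cfsg.conjBy C x} =
      (fun U : Subgroup G => (A ⊔ C) ⊓ Subgroup.centralizer (U : Set G)) ''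
        unipotentSubgroups B D := by
    ext E
    constructor
    · rintro ⟨x, hx, rfl⟩
      exact ⟨_, unip_conj_mem left_mem_unip hx, (fC x hx).symm⟩
    · rintro ⟨U, ⟨x, hx, rfl⟩, rfl⟩
      exact ⟨x, hx, (fC x hx).symm⟩
  have e1 : {E | ∃ x ∈ B ⊔ D, E = Cfsg.conjBy A x} =
      (fun b : G => Cfsg.conjBy A b) '' (B : Set G) ∪ {C} := by
    rw [eA]
    ext E
    constructor
    · rintro ⟨U, hU, rfl⟩
      rcases (mem_unip_iff hr).1 hU with rfl | ⟨b, hb, rfl⟩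
      · exact Or.inr cB
      · exact Or.inl ⟨b, hb, fA b (Subgroup.mem_sup_left hb)⟩
    · rintro (⟨b, hb, rfl⟩ | rfl)
      · exact ⟨_, unip_conj_mem (right_mem_unip hr) (Subgroup.mem_sup_left hb),
          (fA b (Subgroup.mem_sup_left hb)).symm⟩
      · exact ⟨B, left_mem_unip, cB⟩
  have e2 : {E | ∃ x ∈ B ⊔ D, E = Cfsg.conjBy A x} =
      (fun d : G => Cfsg.conjBy C d) '' (D : Set G) ∪ {A} := by
    rw [eA]
    ext E
    constructor
    · rintro ⟨U, hU, rfl⟩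
      rcases (mem_unip_iff' hr).1 hU with rfl | ⟨b, hb, rfl⟩
      · exact Or.inr cD
      · exact Or.inl ⟨b, hb, fC b (Subgroup.mem_sup_right hb)⟩
    · rintro (⟨b, hb, rfl⟩ | rfl)
      · exact ⟨_, unip_conj_mem left_mem_unip (Subgroup.mem_sup_right hb),
          (fC b (Subgroup.mem_sup_right hb)).symm⟩
      · exact ⟨D, right_mem_unip hr, cD⟩
  have hAC1 : ∀ a ∈ A, a ∈ C → a = 1 := by
    intro a ha hc
    by_contra ha1
    obtain ⟨e, he, he1⟩ := exists_ne_one hS h1.mem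
    obtain ⟨b, hb, rfl⟩ := h1.surjL a ha ha1 e he
    apply he1
    rw [h1.cB a hc b hb]; group
  refine ⟨hr, eA.trans eC.symm, e1, e2, ⟨?_, fun x hx _ => ?_, ?_⟩, ?_⟩
  · rw [eA]; rintro _ ⟨U, -, rfl⟩; exact inf_le_left
  · rw [e1]
    rcases h1.cover hx with h | ⟨b, hb, h⟩
    · exact ⟨C, Or.inr rfl, h⟩
    · exact ⟨_, Or.inl ⟨b, hb, rfl⟩, h⟩
  · rw [eA]
    rintro _ ⟨U, hU, rfl⟩ _ ⟨V, hV, rfl⟩ hne
    have hUV : U ≠ V := fun e => hne (by rw [e])
    rw [eq_bot_iff]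
    intro x hx
    have h3 : U ⊔ V ≤ Subgroup.centralizer {x} :=
      sup_le (fun y hy => Subgroup.mem_centralizer_singleton_iff.2 (hx.1.2 y hy))
        (fun y hy => Subgroup.mem_centralizer_singleton_iff.2 (hx.2.2 y hy))
    rw [sup_eq_of_unip hr hU hV hUV] at h3
    refine hAC1 x (cD ▸ ⟨hx.1.1, fun y hy => ?_⟩) (cB ▸ ⟨hx.1.1, fun y hy => ?_⟩)
    · exact Subgroup.mem_centralizer_singleton_iff.1 (h3 (Subgroup.mem_sup_right hy))
    · exact Subgroup.mem_centralizer_singleton_iff.1 (h3 (Subgroup.mem_sup_left hy))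
  · intro x hx
    rcases r1_normal_dichotomy hr (N := Subgroup.centralizer ((A ⊔ C : Subgroup G) : Set G))
      (fun x hx => by rw [conjBy_centralizer, nX x hx]) with ⟨n, hn, hn', e⟩ | h
    · exfalso
      have := fC n hn'
      rw [e, cD, conjBy_eq_of_commute fun c hc => (hn c (Subgroup.mem_sup_right hc)).symm] at this
      exact h1.ne_comm hS this.symm
    · exact h x hx.2 hx.1

end Cfsg.Agent.S5036
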