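import Cfsg.Statements.S5037
import Cfsg.Agent.Lib.Root.Sub3

set_option autoImplicit false
open Cfsg

namespace Cfsg.Agent.S5037

open Cfsg.Agent.Lib.Root

/-- Let S be a class of abstract root subgroups of G that is either degenerate or non-degenerate (so either the commutator case never occurs, or all three cases occur), and A ≠ C members of S. If every member of S commuting with A commutes with C, then A and C have the same commuting members of S; and if every rank one partner of A is a rank one partner of C, then A and C commute and have the same rank one partners. -/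
theorem result {G : Type*} [Group G] {S : Set (Subgroup G)} (hS : Cfsg.IsRootSubgroupClass S)
    (hdn : Cfsg.IsDegenerateRootSet S ∨ Cfsg.IsNondegenerateRootSet S)
    {A C : Subgroup G} (hA : A ∈ S) (hC : C ∈ S) (hAC : A ≠ C) :
    (Cfsg.centralizingMembers S A ⊆ Cfsg.centralizingMembers S C →
      Cfsg.centralizingMembers S A = Cfsg.centralizingMembers S C) ∧
    (Cfsg.rankOnePartners S A ⊆ Cfsg.rankOnePartners S C →
      ⁅A, C⁆ = ⊥ ∧ Cfsg.rankOnePartners S A = Cfsg.rankOnePartners S C) := by
  by_cases hN : ∃ X ∈ S, NI S X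
  · obtain ⟨X, hX, hN⟩ := hN
    have hN := ni_all_of_class hS hX hN
    refine ⟨fun h => Set.Subset.antisymm h
      (csub_iff.1 ((csub_iff.2 h).symm hS.1 hA hC (hN C hC))), fun h => ⟨?_, ?_⟩⟩
    · exact comm_iff.1 ((osub_iff.2 h).comm hS.1 hA hC hN)
    · exact Set.Subset.antisymm h (osub_iff.1 ((osub_iff.2 h).symm hS.1 hA hC hN))
  · have hc : ∀ X ∈ S, ∀ Y ∈ S, Comm X Y := by
      intro X hX Y hY
      rcases tri hS.1 hX hY with h | h | h
      · exact h
      · exact absurd ⟨X, hX, Y, hY, h⟩ hN
      · rcases hdn with hd | ⟨-, ⟨U, hU, V, hV, h⟩, -⟩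
        · exact absurd (psi_iff.1 h) (hd X hX Y hY)
        · exact absurd ⟨U, hU, V, hV, h⟩ hN
    refine ⟨fun h => Set.Subset.antisymm h (csub_iff.1 fun X hX _ => hc X hX A hA),
      fun h => ⟨comm_iff.1 (hc A hA C hC), Set.Subset.antisymm h fun X hX => ?_⟩⟩
    exact absurd ⟨C, hC, X, hX.1, hX.2⟩ hN

end Cfsg.Agent.S5037
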