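import Cfsg.Statements.S5038
import Cfsg.Agent.Lib.Root.Sub3

set_option autoImplicit false
open Cfsg

namespace Cfsg.Agent.S5038

open Cfsg.Agent.Lib.Root

theorem key {G : Type*} [Group G] {S : Set (Subgroup G)} (hS : Cfsg.IsRootSubgroupSet S)
    {A B : Subgroup G} (hA : A ∈ S) (hN : NI S A) (hB : B ∈ Cfsg.linePartners S A) :
    ∃ Q ∈ linePartners S A, A ⊔ Q = A ⊔ B ∧ ∃ E ∈ normalizingMembers S (A ⊔ B),
      (∀ e ∈ E, conjBy Q e = Q) ∧ (∀ P ∈ S, P ≤ A ⊔ B → P ≠ Q → ∃ e ∈ E, P = conjBy A e) ∧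
      ∃ P ∈ S, P ≤ A ⊔ B ∧ P ≠ Q ∧ P ≠ A := by
  obtain ⟨D, hD, hr⟩ := id hN
  obtain ⟨Q, hQ, hle, q1, q2, q3, q4, q5⟩ := line_lemma' hS hA hB hD hr
  have hl := q2.line hS hA hN
  rw [q3] at hl
  have h1 : ∀ e ∈ ⁅Q, D⁆, conjBy (A ⊔ B) e ≤ A ⊔ B := by
    intro e he
    rw [← q4, conjBy_sup, q1.cA.conjBy_eq he]
    refine sup_le ?_ le_sup_right
    have := conjBy_le_sup_commutator (A := A) he
    rwa [q3] at this
  refine ⟨Q, hl, q4, ⁅Q, D⁆, ⟨q1.mem, fun e he => mem_normalizer_iff_conjBy.2 ?_⟩,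
    fun e he => q1.cA.conjBy_eq he, fun P hP h1 h2 => (q5 P hP h1 h2).1, ?_⟩
  · refine le_antisymm (h1 e he) ?_
    have := conjBy_mono (h1 e⁻¹ (Subgroup.inv_mem _ he)) e
    rwa [conjBy_conjBy_inv] at this
  · obtain ⟨e, he, he1⟩ := exists_ne_one hS q1.mem
    refine ⟨_, hS.conj_mem A hA e, (conjBy_mono le_sup_left e).trans (h1 e he), fun h => ?_,
      q2.conj_ne hS hN he he1⟩
    rw [conjBy_eq_iff, q1.cA.conjBy_eq (Subgroup.inv_mem _ he)] at h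
    exact line_ne hl h.symm

/-- Let S be a set of abstract root subgroups of G in which every member has a rank one partner, A ∈ S and B a line partner of A. Then the subgroup generated by the members of S normalizing AB permutes the members of S inside AB doubly transitively by conjugation. -/
theorem result {G : Type*} [Group G] {S : Set (Subgroup G)} (hS : Cfsg.IsRootSubgroupSet S)
    (hF : ∀ A ∈ S, ¬ Cfsg.IsIsolatedIn (Cfsg.FAdj S) S A) {A B : Subgroup G} (hA : A ∈ S) (hB : B ∈ Cfsg.linePartners S A) :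
    ∀ C₁ ∈ Cfsg.membersIn S (A ⊔ B), ∀ C₂ ∈ Cfsg.membersIn S (A ⊔ B), ∀ D₁ ∈ Cfsg.membersIn S (A ⊔ B),
      ∀ D₂ ∈ Cfsg.membersIn S (A ⊔ B), C₁ ≠ C₂ → D₁ ≠ D₂ →
        ∃ x ∈ ⨆ E ∈ Cfsg.normalizingMembers S (A ⊔ B), E, Cfsg.conjBy C₁ x = D₁ ∧ Cfsg.conjBy C₂ x = D₂ := by
  have hN : ∀ A ∈ S, NI S A := fun A hA => ni_of_not_isolated hA (hF A hA)
  obtain ⟨Q, hQ, e1, E, hE, f1, t1, P, hP, p1, p2, p3⟩ := key hS hA (hN A hA) hB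
  obtain ⟨Q', hQ', -, E', hE', f2, t2, -⟩ :=
    key hS (line_mem hQ) (hN Q (line_mem hQ)) (line_symm hA hQ)
  rw [sup_comm Q A, e1] at hE' t2
  set H := ⨆ E ∈ Cfsg.normalizingMembers S (A ⊔ B), E with hH
  have hEH : E ≤ H := le_iSup₂_of_le E hE le_rfl
  have hEH' : E' ≤ H := le_iSup₂_of_le E' hE' le_rfl
  have hHn : ∀ x ∈ H, conjBy (A ⊔ B) x = A ⊔ B := fun x hx =>
    mem_normalizer_iff_conjBy.1 ((iSup₂_le fun E hE => hE.2 : H ≤ _) hx)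
  have hAQ : ∃ x ∈ H, conjBy A x = Q := by
    by_cases h : A = Q'
    · obtain ⟨e, he, h1⟩ := t1 P hP p1 p2
      obtain ⟨e', he', h2⟩ := t2 P hP p1 (h ▸ p3)
      exact ⟨e'⁻¹ * e, H.mul_mem (H.inv_mem (hEH' he')) (hEH he),
        conjBy_eq_conjBy_iff.1 (h1.symm.trans h2)⟩
    · obtain ⟨e', he', h2⟩ := t2 A hA le_sup_left h
      exact ⟨e'⁻¹, H.inv_mem (hEH' he'), by rw [h2, conjBy_inv_conjBy]⟩
  have main : ∀ C₁ ∈ Cfsg.membersIn S (A ⊔ B), ∀ C₂ ∈ Cfsg.membersIn S (A ⊔ B), C₁ ≠ C₂ →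
      ∃ x ∈ H, conjBy C₁ x = Q ∧ conjBy C₂ x = A := by
    intro C₁ h1 C₂ h2 hne
    have : ∃ x ∈ H, conjBy C₁ x = Q := by
      by_cases h : C₁ = Q
      · exact ⟨1, H.one_mem, by rw [conjBy_one, h]⟩
      · obtain ⟨e, he, h3⟩ := t1 C₁ h1.1 h1.2 h
        obtain ⟨x, hx, h4⟩ := hAQ
        refine ⟨x * e⁻¹, H.mul_mem hx (H.inv_mem (hEH he)), ?_⟩
        rw [h3, conjBy_conjBy, inv_mul_cancel_right, h4]
    obtain ⟨x, hx, h3⟩ := this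
    obtain ⟨e, he, h4⟩ := t1 (conjBy C₂ x) (hS.conj_mem _ h2.1 x)
      (hHn x hx ▸ conjBy_mono h2.2 x) (fun h => hne (conjBy_inj.1 (h3.trans h.symm)))
    refine ⟨e⁻¹ * x, H.mul_mem (H.inv_mem (hEH he)) hx, ?_, ?_⟩
    · rw [← conjBy_conjBy, h3, f1 _ (E.inv_mem he)]
    · rw [← conjBy_conjBy, h4, conjBy_inv_conjBy]
  intro C₁ h1 C₂ h2 D₁ h3 D₂ h4 hC hD
  obtain ⟨x, hx, a1, a2⟩ := main C₁ h1 C₂ h2 hC
  obtain ⟨y, hy, b1, b2⟩ := main D₁ h3 D₂ h4 hD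
  refine ⟨y⁻¹ * x, H.mul_mem (H.inv_mem hy) hx, ?_, ?_⟩
  · rw [← conjBy_conjBy, a1, ← b1, conjBy_inv_conjBy]
  · rw [← conjBy_conjBy, a2, ← b2, conjBy_inv_conjBy]

end Cfsg.Agent.S5038
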