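import Cfsg.Statements.S5039
import Cfsg.Agent.Lib.Root.Degen
import Cfsg.Agent.S5034
import Cfsg.Agent.Lib.Root.SL2b

set_option autoImplicit false
universe u
open Cfsg

namespace Cfsg.Agent.S5039

open Cfsg.Agent.Lib.Root

/-- Let S be a class of abstract root subgroups of G containing two different commuting members. Suppose that, in case S is degenerate and every element of every member of S has order at most 3, the following holds: for every A ∈ S and every rank one partner B of A there are subgroups A₀ ≤ A and B₀ ≤ B generating an image of SL₂(k) with central kernel, k a field with at least four elements, A₀ and B₀ being the images of the unitriangular subgroups. Then every rank one pair A, B in S is special. -/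
theorem result {G : Type u} [Group G] {S : Set (Subgroup G)} (hS : Cfsg.IsRootSubgroupClass S)
    (hcomm : ∃ A ∈ S, ∃ C ∈ S, A ≠ C ∧ ⁅A, C⁆ = ⊥)
    (hH : Cfsg.IsDegenerateRootSet S → (∀ A ∈ S, ∀ a ∈ A, 0 < orderOf a ∧ orderOf a ≤ 3) →
      ∀ A ∈ S, ∀ B ∈ Cfsg.rankOnePartners S A, ∃ A₀ B₀ : Subgroup G, A₀ ≤ A ∧ B₀ ≤ B ∧
        ∃ (k : Type u) (_ : Field k), 3 < ENat.card k ∧ Cfsg.IsPSL2PairOver k A₀ B₀)
    {A B : Subgroup G} (hA : A ∈ S) (hB : B ∈ Cfsg.rankOnePartners S A) : Cfsg.IsSpecialRankOnePair A B := by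
  by_cases hd : IsDegenerateRootSet S
  swap
  · refine (Cfsg.Agent.S5034.result hS ⟨hcomm, ⟨A, hA, B, hB.1, hB.2⟩, ?_⟩ hA hB).2
    unfold IsDegenerateRootSet at hd
    push Not at hd
    exact hd
  have r := hB.2
  have sc := fun X hX => self_comm hS.1 (A := X) hX
  have dich : ∀ X ∈ S, ∀ Y ∈ S, Comm X Y ∨ IsRankOnePair X Y := fun X hX Y hY =>
    (tri hS.1 hX hY).imp_right fun h => h.resolve_right fun h => hd X hX Y hY (psi_iff.1 h)
  by_cases h1 : ∃ C ∈ S, Comm A C ∧ A ≠ C ∧ IsRankOnePair C B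
  · obtain ⟨C, hC, h1, h2, h3⟩ := h1
    exact special_of_common (sc A hA) (sc B hB.1) (sc C hC) h1 h2 r h3
  by_cases h2 : ∀ a ∈ A, a⁻¹ = a
  · refine special_of_inv r fun a b p => ?_
    obtain ⟨g, hg⟩ := hS.2.2 A hA B hB.1
    have hb := p.2.1
    rw [hg] at hb
    obtain ⟨c, hc, rfl⟩ := mem_conjBy'.1 hb
    rw [h2 a p.1, show (g * c * g⁻¹)⁻¹ = g * c⁻¹ * g⁻¹ by group, h2 c hc]
    exact p
  exfalso
  obtain ⟨D, hD, F, hF, c1, c2, c3, c4⟩ : ∃ D ∈ S, ∃ F ∈ S, Comm D A ∧ D ≠ A ∧
      IsRankOnePair D F ∧ IsRankOnePair A F := by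
    by_contra hcon
    obtain ⟨A0, hA0, C0, hC0, hne, hc⟩ := hcomm
    obtain ⟨g, rfl⟩ := hS.2.2 A hA A0 hA0
    obtain ⟨C, rfl⟩ : ∃ C, C0 = conjBy C g := ⟨conjBy C0 g⁻¹, (conjBy_conjBy_inv _ _).symm⟩
    have hC : C ∈ S := by simpa [conjBy_inv_conjBy] using hS.1.conj_mem _ hC0 g⁻¹
    have key : ∀ X, FReach S A X → X = A ∨ IsRankOnePair A X := by
      intro X hX
      induction hX with
      | refl => exact Or.inl rfl
      | tail _ h ih =>
        rcases ih with rfl | ih
        · exact Or.inr h.2.2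
        · rcases dich A hA _ h.2.1 with h3 | h3
          · by_contra h4
            push Not at h4
            exact hcon ⟨_, h.2.1, _, h.1, h3.symm, h4.1, r1_symm h.2.2, ih⟩
          · exact Or.inr h3
    rcases key C (connected_of_class hS hA ⟨B, hB.1, r⟩ A hA C hC) with h | h
    · exact hne (by rw [h])
    · exact r1_not_comm h (comm_conj_iff.1 (comm_iff.2 hc))
  obtain ⟨x, hx, y, hy, z, hz, h⟩ : ∃ x ∈ A, ∃ y ∈ A, ∃ z ∈ A, x ≠ 1 ∧ y ≠ 1 ∧ z ≠ 1 ∧ y * x ≠ 1 ∧
      z * x ≠ 1 ∧ z * y ≠ 1 ∧ z * (y * x) ≠ 1 := by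
    by_cases h3 : ∀ A ∈ S, ∀ a ∈ A, 0 < orderOf a ∧ orderOf a ≤ 3
    · obtain ⟨A0, B0, hA0, -, k, _, hk, φ, -, hker, rfl, -⟩ := hH hd h3 A hA B hB
      push Not at h2
      obtain ⟨a, ha, ha2⟩ := h2
      have ha3 : a * (a * a) = 1 := by
        have h4 := h3 A hA a ha
        have h5 := pow_orderOf_eq_one a
        have h6 : a * a ≠ 1 := fun e => ha2 (inv_eq_of_mul_eq_one_right e)
        obtain ⟨h7, h8⟩ := h4
        interval_cases orderOf a
        · rw [pow_one] at h5; simp [h5] at h6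
        · exact absurd (by rwa [pow_two] at h5) h6
        · rwa [pow_succ', pow_two] at h5
      obtain ⟨t, ht⟩ : ∃ t : k, φ (xu t) ∉ ({1, a, a * a} : Set G) := by
        by_contra hcon
        push Not at hcon
        have hinj : Function.Injective (fun t : k => (⟨φ (xu t), hcon t⟩ : ({1, a, a * a} : Set G))) := by
          intro s t hst
          have e : φ (xu s) = φ (xu t) := congrArg Subtype.val hst
          by_contra hne
          apply xu_mul_xl_not_mem_center (s - t) 0 (sub_ne_zero.2 hne)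
          rw [stRel_sl2.y_zero, mul_one]
          apply hker
          rw [MonoidHom.mem_ker, sub_eq_add_neg, xu_add, stRel_sl2.x_neg, map_mul, map_inv, e,
            mul_inv_cancel]
        have := (ENat.card_le_card_of_injective hinj).trans
          (Set.encard_insert_le _ _ |>.trans (add_le_add_left (Set.encard_insert_le _ _) 1))
        rw [Set.encard_singleton] at this
        exact absurd (hk.trans_le this) (by decide)
      simp only [Set.mem_insert_iff, Set.mem_singleton_iff, not_or] at ht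
      have e1 : φ (xu t) * a ≠ 1 := fun e =>
        ht.2.2 ((eq_inv_of_mul_eq_one_left e).trans (eq_inv_of_mul_eq_one_right ha3).symm)
      exact ⟨a, ha, a, ha, φ (xu t), hA0 ⟨_, mem_upper.2 ⟨t, rfl⟩, rfl⟩,
        fun e => ha2 (by simp [e]), fun e => ha2 (by simp [e]), ht.1,
        fun e => ha2 (inv_eq_of_mul_eq_one_right e), e1, e1,
        fun e => ht.2.1 ((eq_inv_of_mul_eq_one_left e).trans (eq_inv_of_mul_eq_one_left ha3).symm)⟩
    · push Not at h3
      obtain ⟨X, hX, a, ha, h3⟩ := h3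
      obtain ⟨g, rfl⟩ := hS.2.2 X hX A hA
      have key : ∀ m, 0 < m → m ≤ 3 → (g * a * g⁻¹) ^ m ≠ 1 := by
        intro m h4 h5 e
        rw [conj_pow] at e
        have e' : a ^ m = 1 := by simpa using e
        have h6 := orderOf_le_of_pow_eq_one h4 e'
        have := h3 (isOfFinOrder_iff_pow_eq_one.2 ⟨m, h4, e'⟩).orderOf_pos
        omega
      have m := conj_mem_conjBy ha g
      have k1 := key 1 (by omega) (by omega)
      have k2 := key 2 (by omega) (by omega)
      have k3 := key 3 (by omega) (by omega)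
      rw [pow_one] at k1
      rw [pow_two] at k2
      rw [pow_succ', pow_two] at k3
      exact ⟨_, m, _, m, _, m, k1, k1, k1, k2, k2, k2, k3⟩
  obtain ⟨g, hg⟩ := hS.2.2 A hA F hF
  have cj : ∀ {u : G}, u ≠ 1 → g * u * g⁻¹ ≠ 1 := fun hu e => hu (by simpa using e)
  have cm : ∀ u v : G, g * u * g⁻¹ * (g * v * g⁻¹) = g * (u * v) * g⁻¹ := fun u v => by group
  refine false_of_block (sc A hA) (sc D hD) (sc F hF) c1 c2 c3 c4 r (fun g h3 h4 => ?_)
    (hg ▸ conj_mem_conjBy hx g) (hg ▸ conj_mem_conjBy hy g) (hg ▸ conj_mem_conjBy hz g)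
    (cj h.1) (cj h.2.1) (cj h.2.2.1) (by rw [cm]; exact cj h.2.2.2.1)
    (by rw [cm]; exact cj h.2.2.2.2.1) (by rw [cm]; exact cj h.2.2.2.2.2.1)
    (by rw [cm, cm]; exact cj h.2.2.2.2.2.2)
  exact (dich _ (hS.1.conj_mem D hD g) B hB.1).resolve_right fun h5 =>
    h1 ⟨_, hS.1.conj_mem D hD g, h3.symm, h4.symm, h5⟩

end Cfsg.Agent.S5039
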