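import Cfsg.Statements.S5040
import Cfsg.Agent.Lib.Root.Sub4

set_option autoImplicit false
open Cfsg

namespace Cfsg.Agent.S5040

open Cfsg.Agent.Lib.Root

/-- Let S be a non-degenerate class of abstract root subgroups of G and Δ a weak TI-subset of S. Then the members of Δ commute with one another elementwise. -/
theorem result {G : Type*} [Group G] {S : Set (Subgroup G)} (hS : Cfsg.IsRootSubgroupClass S) (hnd : Cfsg.IsNondegenerateRootSet S)
    {Δ : Set (Subgroup G)} (hΔ : Cfsg.IsWeakTISubset S Δ) : Cfsg.IsAbelianFamily Δ := by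
  obtain ⟨hsub, -, hne, hti⟩ := hΔ
  have hN := ni_of_nondeg hS hnd
  let U : Subgroup G :=
    { carrier := {g | ∀ A, A ∈ Δ ↔ conjBy A g ∈ Δ}
      one_mem' := fun A => by rw [conjBy_one]
      mul_mem' := fun {x y} hx hy A => by rw [← conjBy_conjBy, ← hx, ← hy]
      inv_mem' := fun {x} hx A => by rw [hx (conjBy A x⁻¹), conjBy_conjBy_inv] }
  have k1 : ∀ A ∈ Δ, ∀ C ∈ S, Comm A C → C ≤ U := by
    intro A hA C hC hc d hd
    by_cases hd1 : d = 1
    · rw [hd1]; exact U.one_mem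
    rcases hti d ⟨hd1, C, hC, hd⟩ with h | h
    · intro B
      refine ⟨fun hB => h ▸ ⟨B, hB, rfl⟩, fun hB => ?_⟩
      rw [← h] at hB
      obtain ⟨B', hB', e⟩ := hB
      rwa [← conjBy_inj.1 e]
    · exact absurd hA (Set.disjoint_left.1 h ⟨A, hA, hc.conjBy_eq' hd⟩)
  have k2 : ∀ A ∈ Δ, ∀ B ∈ Δ, ¬ IsRankOnePair A B := by
    intro A hA B hB hr
    have hU : U = ⊤ := eq_top_of_lines_le hS hnd (hsub hA) (hsub hB) hr
      (fun C hC => k1 A hA C (line_mem hC) (line_comm hC))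
      (k1 B hB B (hsub hB) (self_comm hS.1 (hsub hB)))
    refine hne (Set.Subset.antisymm hsub fun C hC => ?_)
    obtain ⟨g, rfl⟩ := hS.2.2 A (hsub hA) C hC
    exact ((hU ▸ Subgroup.mem_top g : g ∈ U) A).1 hA
  intro A hA B hB
  rcases tri hS.1 (hsub hA) (hsub hB) with h | h | h
  · exact h
  · exact absurd h (k2 A hA B hB)
  exfalso
  obtain ⟨D, hD, hr⟩ := hN _ h.mem
  obtain ⟨Q, hQ, hle, q1, q2, q3, -⟩ := line_lemma' hS.1 h.mem
    (line_symm (hsub hA) (h.line hS.1 (hsub hA) (hN A (hsub hA)))) hD hr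
  rw [sup_comm] at hle
  rcases h.members hS.1 (hsub hA) (hN A (hsub hA)) hQ hle with ⟨b, hb, rfl⟩ | e
  · have hBU := k1 B hB B (hsub hB) (self_comm hS.1 (hsub hB))
    have hA' := (hBU hb A).1 hA
    have h' := h.conj hS.1 b
    have e1 : ⁅conjBy A b, B⁆ = ⁅A, B⁆ := by
      conv_lhs => rw [← conjBy_of_mem hb]
      rw [← conjBy_commutator, h.cB.conjBy_eq' hb]
    rw [conjBy_of_mem hb] at h'
    have hr' := r1_of_double_psi hS.1 (hsub hB) q1.mem h' (e1 ▸ q2.symm)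
      (by rw [e1, Subgroup.commutator_comm, q3])
    obtain ⟨e, he, he1⟩ := exists_ne_one hS.1 q1.mem
    exact k2 B hB _ ((k1 _ hA' _ q1.mem q1.cA.symm he B).1 hB) (r1_right_conj (r1_symm hr') he he1)
  · exact q2.ne_comm hS.1 (e.symm.trans q3.symm)

end Cfsg.Agent.S5040
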