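import Cfsg.Statements.S5043
import Cfsg.Agent.Lib.Root.MatSL

set_option autoImplicit false
open Matrix
open Cfsg

namespace Cfsg.Agent.S5043

open Cfsg.Agent.Lib.Root

/-- Let k be a field and n a natural number. In SL_{n+3}(k) (so in every dimension at least 3) the conjugates of the root subgroup of elementary transvections 1 + c E₁₂ (c ∈ k) — that is, the groups of transvections attached to an incident point–hyperplane pair — form a non-degenerate class of abstract k-root subgroups of SL_{n+3}(k) whose graph of rank one pairs is connected. -/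
theorem result (k : Type*) [Field k] (n : ℕ) :
    Cfsg.IsRootSubgroupClass {A : Subgroup (Matrix.SpecialLinearGroup (Fin (n + 3)) k) |
        ∃ g : Matrix.SpecialLinearGroup (Fin (n + 3)) k,
          A = Cfsg.conjBy (Subgroup.closure {t : Matrix.SpecialLinearGroup (Fin (n + 3)) k |
            ∃ c : k, (t : Matrix (Fin (n + 3)) (Fin (n + 3)) k) = Matrix.transvection 0 1 c}) g} ∧
    Cfsg.IsNondegenerateRootSet {A : Subgroup (Matrix.SpecialLinearGroup (Fin (n + 3)) k) |
        ∃ g : Matrix.SpecialLinearGroup (Fin (n + 3)) k,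
          A = Cfsg.conjBy (Subgroup.closure {t : Matrix.SpecialLinearGroup (Fin (n + 3)) k |
            ∃ c : k, (t : Matrix (Fin (n + 3)) (Fin (n + 3)) k) = Matrix.transvection 0 1 c}) g} ∧
    Cfsg.IsKRootSubgroupSet k {A : Subgroup (Matrix.SpecialLinearGroup (Fin (n + 3)) k) |
        ∃ g : Matrix.SpecialLinearGroup (Fin (n + 3)) k,
          A = Cfsg.conjBy (Subgroup.closure {t : Matrix.SpecialLinearGroup (Fin (n + 3)) k |
            ∃ c : k, (t : Matrix (Fin (n + 3)) (Fin (n + 3)) k) = Matrix.transvection 0 1 c}) g} ∧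
    Cfsg.IsConnectedFamily (Cfsg.FAdj {A : Subgroup (Matrix.SpecialLinearGroup (Fin (n + 3)) k) |
        ∃ g : Matrix.SpecialLinearGroup (Fin (n + 3)) k,
          A = Cfsg.conjBy (Subgroup.closure {t : Matrix.SpecialLinearGroup (Fin (n + 3)) k |
            ∃ c : k, (t : Matrix (Fin (n + 3)) (Fin (n + 3)) k) = Matrix.transvection 0 1 c}) g})
      {A : Subgroup (Matrix.SpecialLinearGroup (Fin (n + 3)) k) |
        ∃ g : Matrix.SpecialLinearGroup (Fin (n + 3)) k,
          A = Cfsg.conjBy (Subgroup.closure {t : Matrix.SpecialLinearGroup (Fin (n + 3)) k |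
            ∃ c : k, (t : Matrix (Fin (n + 3)) (Fin (n + 3)) k) = Matrix.transvection 0 1 c}) g} := by
  have h := matFam_SL (n := Fin (n + 3)) (F := k)
  have hc := connected_SL (n := Fin (n + 3)) (F := k) (by simp)
  have hR := h.kRootSet gen_SL
  have h01 : (0 : Fin (n + 3)) ≠ 1 := by simp
  have h12 : (1 : Fin (n + 3)) ≠ 2 := by
    simp [Fin.ext_iff, Nat.mod_eq_of_lt (show 2 < n + 3 by omega)]
  have h02 : (0 : Fin (n + 3)) ≠ 2 := by
    simp [Fin.ext_iff, Nat.mod_eq_of_lt (show 2 < n + 3 by omega)]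
  have hx := single_mem_XSL (F := k) h01
  have hcl := class_of_connected hR.1 ⟨_, hx, rfl⟩ hc
  have e0 : Subgroup.closure {t : Matrix.SpecialLinearGroup (Fin (n + 3)) k |
      ∃ c : k, (t : Matrix (Fin (n + 3)) (Fin (n + 3)) k) = Matrix.transvection 0 1 c} =
      TS (RingHom.id k) (jSL (Fin (n + 3)) k) (single 0 1 1) := by
    simp [TS, jSL_apply, Matrix.transvection]
  have e : {A : Subgroup (Matrix.SpecialLinearGroup (Fin (n + 3)) k) |
        ∃ g : Matrix.SpecialLinearGroup (Fin (n + 3)) k,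
          A = Cfsg.conjBy (Subgroup.closure {t : Matrix.SpecialLinearGroup (Fin (n + 3)) k |
            ∃ c : k, (t : Matrix (Fin (n + 3)) (Fin (n + 3)) k) = Matrix.transvection 0 1 c}) g} =
      fam (RingHom.id k) (jSL (Fin (n + 3)) k) (XSL _ k) := by
    rw [e0]
    ext A
    exact ⟨fun ⟨g, hg⟩ => hg ▸ h.conj_mem ⟨_, hx, rfl⟩ g, fun hA => hcl.2.2 _ ⟨_, hx, rfl⟩ A hA⟩
  rw [e]
  refine ⟨hcl, ?_, hR, hc⟩
  have hy := single_mem_XSL (F := k) h12
  have hp := (h.psi hx hy (by simp [h02.symm]) (by simp [h02.symm])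
    (by simpa [h02.symm] using single_mem_XSL (F := k) h02)).2
  refine ⟨⟨_, ⟨_, hx, rfl⟩, _, hp.mem, hp.ne_comm hR.1, comm_iff.1 hp.cA.symm⟩,
    ⟨_, ⟨_, hx, rfl⟩, _, ⟨_, single_mem_XSL h01.symm, rfl⟩, h.r1 hx (single_mem_XSL h01.symm)
      ⟨1, one_ne_zero, by simp, by simp⟩⟩, ⟨_, ⟨_, hx, rfl⟩, _, ⟨_, hy, rfl⟩, psi_iff.1 hp⟩⟩

end Cfsg.Agent.S5043
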