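import Cfsg.Statements.S5045
import Cfsg.Agent.Lib.Root.Inv2

set_option autoImplicit false
open Cfsg

namespace Cfsg.Agent.S5045

open Cfsg.Agent.Lib.Root

/-- Let G be a finite group generated by a set D of root involutions, and W the set of members of D whose product with every other member of D has even order or is trivial (the isolated vertices of the odd-order-product graph on D). Then W is conjugation-invariant and generates a normal 2-subgroup of G meeting D in exactly W; the commutator of two members of D lying in different connected components of that graph, each with more than one member, lies in the subgroup generated by W; and for a in such a component, every member of D commuting with a, different from a and with product with a in D, lies in that component or in W. -/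
theorem result {G : Type*} [Group G] [Finite G] {D : Set G} (hD : Cfsg.IsRootInvolutionSet D) :
    (∀ w ∈ {w | Cfsg.IsIsolatedElem (Cfsg.OddAdj D) D w}, ∀ g : G, g * w * g⁻¹ ∈ {w | Cfsg.IsIsolatedElem (Cfsg.OddAdj D) D w}) ∧
    (Subgroup.closure {w | Cfsg.IsIsolatedElem (Cfsg.OddAdj D) D w}).Normal ∧
    IsPGroup 2 ↥(Subgroup.closure {w | Cfsg.IsIsolatedElem (Cfsg.OddAdj D) D w}) ∧
    (Subgroup.closure {w | Cfsg.IsIsolatedElem (Cfsg.OddAdj D) D w} : Set G) ∩ D = {w | Cfsg.IsIsolatedElem (Cfsg.OddAdj D) D w} ∧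
    (∀ a ∈ D, ∀ b ∈ D, (∃ a' ∈ Cfsg.elemComponentOf (Cfsg.OddAdj D) D a, a' ≠ a) →
      (∃ b' ∈ Cfsg.elemComponentOf (Cfsg.OddAdj D) D b, b' ≠ b) →
      Cfsg.elemComponentOf (Cfsg.OddAdj D) D a ≠ Cfsg.elemComponentOf (Cfsg.OddAdj D) D b →
        a * b * a⁻¹ * b⁻¹ ∈ Subgroup.closure {w | Cfsg.IsIsolatedElem (Cfsg.OddAdj D) D w}) ∧
    (∀ a ∈ D, (∃ a' ∈ Cfsg.elemComponentOf (Cfsg.OddAdj D) D a, a' ≠ a) →
      Cfsg.productPartners D a ⊆ Cfsg.elemComponentOf (Cfsg.OddAdj D) D a ∪ {w | Cfsg.IsIsolatedElem (Cfsg.OddAdj D) D w}) := by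
  have hconj : ∀ w ∈ {w | Cfsg.IsIsolatedElem (Cfsg.OddAdj D) D w}, ∀ g : G,
      g * w * g⁻¹ ∈ {w | Cfsg.IsIsolatedElem (Cfsg.OddAdj D) D w} := by
    intro w hw g
    rw [Set.mem_setOf_eq, isolated_iff] at hw ⊢
    refine ⟨hD.conj_mem w hw.1 g, fun x hx h => hw.2 _ (hD.conj_mem x hx g⁻¹) ?_⟩
    have := h.conj g⁻¹
    simpa [mul_assoc] using this
  have hn := Lib.Invol.normal_closure_of_conj_closed hconj
  have hP : IsPGroup 2 ↥(Subgroup.closure {w | Cfsg.IsIsolatedElem (Cfsg.OddAdj D) D w}) := by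
    refine Lib.Invol.isPGroup_closure_of_pairs hconj fun a ha b hb => ?_
    rw [Set.mem_setOf_eq, isolated_iff] at ha hb
    exact pgroup_pair (ri_sq hD ha.1) (ri_sq hD hb.1) (ri_pow4 hD ha.1 hb.1 (ha.2 b hb.1))
  have hni : ∀ a, (∃ a' ∈ Cfsg.elemComponentOf (Cfsg.OddAdj D) D a, a' ≠ a) → ∃ x ∈ D, OA a x :=
    fun a ⟨a', h1, h2⟩ => exists_oa_of_reach h1.2 h2
  have hcol : ∀ a c, (∃ x ∈ D, OA a x) → Col D a c →
      ¬ Cfsg.IsIsolatedElem (Cfsg.OddAdj D) D c → Relation.ReflTransGen (OddAdj D) a c := by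
    rintro a c ⟨x, hx, hax⟩ l hc
    rw [isolated_iff] at hc
    push Not at hc
    obtain ⟨y, hy, hcy⟩ := hc l.right
    exact l.reach hD hx hy hax hcy
  refine ⟨hconj, hn, hP, ?_, ?_, ?_⟩
  · ext d
    constructor
    · rintro ⟨hd, hdD⟩
      rw [Set.mem_setOf_eq, isolated_iff]
      refine ⟨hdD, fun x hx h => ?_⟩
      obtain ⟨k, hk⟩ := Lib.Invol.exists_pow_conj_of_odd (ri_sq hD hdD) (ri_sq hD hx) h.2
      have hxm := hn.conj_mem d hd ((d * x) ^ k)
      rw [hk] at hxm
      exact h.1 (ri_eq_of_mul hD hdD (eq_one_of_odd_pgroup hP (mul_mem hd hxm) h.2))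
    · intro hd
      exact ⟨Subgroup.subset_closure hd, hd.1⟩
  · intro a ha b hb h1 h2 hne
    have hnr : ¬ Relation.ReflTransGen (OddAdj D) a b := by
      intro h
      apply hne
      ext x
      exact ⟨fun hx => ⟨hx.1, (oddReach_symm h).trans hx.2⟩, fun hx => ⟨hx.1, h.trans hx.2⟩⟩
    rcases ri_tri hD ha hb with h | h | h
    · rw [h.eq]; simp
    · exact absurd (Relation.ReflTransGen.single ⟨ha, hb, h⟩) hnr
    · rw [ri_inv hD ha, ri_inv hD hb]
      refine Subgroup.subset_closure ?_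
      by_contra hc
      exact hnr ((hcol a _ (hni a h1) (col_cm hD ha hb h) hc).trans
        (oddReach_symm (hcol b _ (hni b h2) (col_cm' hD ha hb h) hc)))
  · intro a ha h1 e he
    have l : Col D a e := ⟨ha, he.1.1, he.1.2.1.symm, he.1.2.1 ▸ he.2⟩
    by_cases hc : Cfsg.IsIsolatedElem (Cfsg.OddAdj D) D e
    · exact Or.inr hc
    · exact Or.inl ⟨l.right, hcol a e (hni a h1) l hc⟩

end Cfsg.Agent.S5045
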