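import Cfsg.Statements.S5046
import Cfsg.Agent.Lib.Root.Inv2

set_option autoImplicit false
open Cfsg

namespace Cfsg.Agent.S5046

open Cfsg.Agent.Lib.Root

/-- Let G be a finite group generated by a set D of root involutions whose odd-order-product graph is connected, and d ∈ D. Then the members e of D with the same commuting members as d are exactly those for which the union of the commuting members of d and the members whose product with d has order 4 equals the corresponding union for e. -/
theorem result {G : Type*} [Group G] [Finite G] {D : Set G} (hD : Cfsg.IsRootInvolutionSet D)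
    (hc : Cfsg.IsConnectedSet (Cfsg.OddAdj D) D) {d : G} (hd : d ∈ D) :
    Cfsg.sameCommutingClass D d =
      {e | e ∈ D ∧ Cfsg.commutingMembers D d ∪ Cfsg.fourPartners D d = Cfsg.commutingMembers D e ∪ Cfsg.fourPartners D e} := by
  ext e
  simp only [sameCommutingClass, Set.mem_setOf_eq]
  refine and_congr_right fun he => ?_
  rw [commutingMembers_eq_iff hD hc hd he, union_eq_diff hD hd, union_eq_diff hD he]
  constructor
  · intro h; rw [h]
  · intro h
    ext x
    have := Set.ext_iff.mp h x
    constructor
    · intro hx
      by_contra hx'
      exact (this.mpr ⟨hx.1, hx'⟩).2 hx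
    · intro hx
      by_contra hx'
      exact (this.mp ⟨hx.1, hx'⟩).2 hx

end Cfsg.Agent.S5046
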