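import Cfsg.Statements.S5049
import Cfsg.Agent.Lib.Root.Inv2

set_option autoImplicit false
open Cfsg

namespace Cfsg.Agent.S5049

open Cfsg.Agent.Lib.Root

/-- Let G be a finite group generated by a set D of odd transpositions (root involutions with no product of order 4), Q = O₂(G), and for a ∈ D let Q_a be the commutator subgroup of Q with a. Then every member of D commuting with a centralizes Q_a; and for b ∈ D with ab of odd order greater than 1, the centralizer of ab in Q is the intersection of the centralizers of a and b in Q. -/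
theorem result {G : Type*} [Group G] [Finite G] {D : Set G} (hD : Cfsg.IsOddTranspositionSet D) {a : G} (ha : a ∈ D) :
    (∀ e ∈ Cfsg.commutingMembers D a, ∀ q ∈ ⁅Cfsg.pCore 2 G, Subgroup.zpowers a⁆, e * q = q * e) ∧
    (∀ b ∈ Cfsg.oddPartners D a,
      Cfsg.pCore 2 G ⊓ Subgroup.centralizer {a * b} = Cfsg.pCore 2 G ⊓ Subgroup.centralizer {a} ⊓ Subgroup.centralizer {b}) := by
  have hR := hD.1
  have hP := pCore_isPGroup' (G := G) 2
  have hn : (pCore 2 G).Normal := inferInstance
  have key : ∀ a ∈ D, ∀ e ∈ D, Commute e a → ∀ q ∈ pCore 2 G, Commute e (q * a * q⁻¹) := by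
    intro a ha e he hea q hq
    have hq' := hR.conj_mem a ha q
    rcases ri_tri hR he hq' with h | h | h
    · exact h
    · exfalso
      have h1 : (e * (q * a * q⁻¹)) ^ 2 ∈ pCore 2 G := by
        rw [← QuotientGroup.eq_one_iff]
        have hq1 : ((q : G) : G ⧸ pCore 2 G) = 1 := (QuotientGroup.eq_one_iff q).mpr hq
        have : (((e * (q * a * q⁻¹)) ^ 2 : G) : G ⧸ pCore 2 G) = (((e * a) ^ 2 : G) : G ⧸ pCore 2 G) := by
          simp [hq1]
        rw [this, hea.mul_pow, pow_two, pow_two, ri_sq hR he, ri_sq hR ha]; simp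
      have h2 := eq_one_of_odd_pgroup hP h1 (h.2.of_dvd_nat (orderOf_pow_dvd _))
      exact h.1 (ri_eq_of_mul hR he (eq_one_of_odd_pow h.2 1 (by simpa using h2)))
    · exact absurd h (hD.2 e he _ hq')
  constructor
  · intro e he q hq
    have : ⁅Cfsg.pCore 2 G, Subgroup.zpowers a⁆ ≤ Subgroup.centralizer {e} := by
      rw [Subgroup.commutator_le]
      rintro p hp _ ⟨k, rfl⟩
      rw [Subgroup.mem_centralizer_singleton_iff]
      have h1 : Commute e (p * a ^ k * p⁻¹) := by
        rw [← conj_zpow]; exact (key a ha e he.1 he.2 p hp).zpow_right k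
      have h2 : Commute e (a ^ k)⁻¹ := (Commute.zpow_right he.2 k).inv_right
      exact (h1.mul_right h2).symm
    exact (Subgroup.mem_centralizer_singleton_iff.mp (this hq)).symm
  · intro b hb
    have hab : OA a b := ⟨hb.2.1.symm, hb.2.2⟩
    ext q
    simp only [Subgroup.mem_inf, Subgroup.mem_centralizer_singleton_iff]
    constructor
    · rintro ⟨hq, hc⟩
      have c1 := key a ha a ha rfl q hq
      have c2 := key b hb.1 b hb.1 rfl q hq
      have e1 : (q * a * q⁻¹) * (q * b * q⁻¹) = a * b := by
        calc (q * a * q⁻¹) * (q * b * q⁻¹) = q * (a * b) * q⁻¹ := by group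
          _ = a * b := by rw [hc]; group
      have e2 : a * (q * a * q⁻¹) = b * (q * b * q⁻¹) := by
        have h2 := ri_sq hR (hR.conj_mem b hb.1 q)
        calc a * (q * a * q⁻¹) = a * ((q * a * q⁻¹) * (q * b * q⁻¹)) * (q * b * q⁻¹) := by
              rw [mul_assoc a, mul_assoc (q * a * q⁻¹), h2, mul_one]
          _ = b * (q * b * q⁻¹) := by rw [e1, ri_cancel hR ha]
      have hz := ri_CT hR ha hb.1 hab (z := a * (q * a * q⁻¹)) ((Commute.refl a).mul_left c1.symm)
        (by rw [e2]; exact (Commute.refl b).mul_left c2.symm)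
        (by rw [ri_cancel hR ha]; exact hR.conj_mem a ha q)
      have ha' := ri_eq_of_mul hR ha hz
      have hb' := ri_eq_of_mul hR hb.1 (e2 ▸ hz)
      refine ⟨⟨hq, ?_⟩, ?_⟩
      · conv_rhs => rw [ha']
        group
      · conv_rhs => rw [hb']
        group
    · rintro ⟨⟨hq, h1⟩, h2⟩
      exact ⟨hq, (Commute.mul_right h1 h2)⟩

end Cfsg.Agent.S5049
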