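import Cfsg.Statements.S5055
import Cfsg.Agent.Lib.Root.Inv4

set_option autoImplicit false
open Cfsg

namespace Cfsg.Agent.S5055

open Cfsg.Agent.Lib.Root
open scoped commutatorElement

/-- The Root Structure Theorem for root involutions. Let G be a finite group with O₂(G) = 1 and trivial centre, generated by a non-degenerate class D of root involutions such that for every d ∈ D the members of D with the same commuting members as d, together with 1, form a subgroup E(d). For d ∈ D let M_d be the subgroup generated by d and the members e ≠ d of D commuting with d with ed ∈ D, let W_d be the set of members of D commuting with d that have no partner with product of odd order among the members commuting with d, and let N_d be the subgroup generated by W_d. Then N_d = M_d; the members of D in N_d are d and the e just described; the commutator subgroup of N_d is E(d); and the members of D central in N_d are exactly those with the same commuting members as d. -/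
theorem result {G : Type*} [Group G] [Finite G] {D : Set G} (hD : Cfsg.IsNondegenerateRootInvolutionSet D)
    (hcl : Cfsg.IsRootInvolutionClass D) (hO : Cfsg.pCore 2 G = ⊥) (hZ : Subgroup.center G = ⊥)
    (hE : ∀ d ∈ D, (Cfsg.sameCommutingSubgroup D d : Set G) = Cfsg.sameCommutingClass D d ∪ {1}) {d : G} (hd : d ∈ D) :
    Subgroup.closure {w | Cfsg.IsIsolatedElem (Cfsg.OddAdj (Cfsg.commutingMembers D d)) (Cfsg.commutingMembers D d) w} =
      Subgroup.closure (Cfsg.productPartners D d ∪ {d}) ∧
    D ∩ (Subgroup.closure (Cfsg.productPartners D d ∪ {d}) : Set G) = Cfsg.productPartners D d ∪ {d} ∧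
    ⁅Subgroup.closure (Cfsg.productPartners D d ∪ {d}), Subgroup.closure (Cfsg.productPartners D d ∪ {d})⁆ =
      Cfsg.sameCommutingSubgroup D d ∧
    Cfsg.sameCommutingClass D d = {e | e ∈ D ∧ e ∈ Subgroup.closure (Cfsg.productPartners D d ∪ {d}) ∧
      ∀ y ∈ Subgroup.closure (Cfsg.productPartners D d ∪ {d}), e * y = y * e} := by
  have hR := hD.1
  have hc : IsConnectedSet (OddAdj D) D := odd_connected_of_class hR hcl.2.2 hD.2.2.1
  have hS : ∀ d ∈ D, ∀ e, e ∈ sameCommutingClass D d ↔ e ∈ D ∧ ASet D e = ASet D d := by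
    intro d hd e
    exact and_congr_right fun he => (commutingMembers_eq_iff hR hc hd he).trans eq_comm
  have hE' : HE D := by
    intro a ha b hb hab
    have h1 : a * b ∈ (sameCommutingSubgroup D a : Set G) :=
      mul_mem (Subgroup.subset_closure ((hS a ha a).mpr ⟨ha, rfl⟩))
        (Subgroup.subset_closure ((hS a ha b).mpr ⟨hb, hab.symm⟩))
    rw [hE a ha] at h1
    rcases h1 with h1 | h1
    · exact Or.inr ((hS a ha _).mp h1)
    · exact Or.inl (ri_eq_of_mul hR ha h1)
  have hW : productPartners D d ∪ {d} = WSet D d := by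
    ext w
    constructor
    · rintro (hw | rfl)
      · exact Col.mem_wset hR ⟨hd, hw.1.1, hw.1.2.1.symm, hw.1.2.1 ▸ hw.2⟩
      · exact self_mem_wset hR hd
    · intro hw
      rcases col_of_wset hR hc hE' hd hw with h | l
      · exact Or.inr h
      · exact Or.inl ⟨⟨l.right, l.comm.symm, (l.ne hR).symm⟩, l.symm.mul⟩
  have hI : {w | Cfsg.IsIsolatedElem (Cfsg.OddAdj (Cfsg.commutingMembers D d))
      (Cfsg.commutingMembers D d) w} = WSet D d := by
    ext w
    rw [Set.mem_setOf_eq, isolated_iff]
    exact ⟨fun h => ⟨h.1.1, h.1.2, fun x hx hxd => h.2 x ⟨hx, hxd⟩⟩,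
      fun h => ⟨⟨h.1, h.2.1⟩, fun x hx => h.2.2 x hx.1 hx.2⟩⟩
  rw [hI, hW]
  have hcen : ∀ e ∈ D, ASet D e = ASet D d → ∀ y ∈ Subgroup.closure (WSet D d), Commute y e := by
    intro e he h y hy
    rw [wset_congr hR hc hd he h.symm] at hy
    exact commute_of_mem_wclosure hy
  have hcen2 : ∀ e ∈ sameCommutingSubgroup D d, ∀ y ∈ Subgroup.closure (WSet D d), Commute y e := by
    intro e he y hy
    have he' : e ∈ (sameCommutingSubgroup D d : Set G) := he
    rw [hE d hd] at he'
    rcases he' with h | h
    · exact hcen e h.1 ((hS d hd e).mp h).2 y hy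
    · rw [show e = 1 from h]; exact Commute.one_right y
  refine ⟨rfl, ?_, le_antisymm ?_ ?_, ?_⟩
  · ext x
    exact ⟨fun hx => mem_wset_of_closure hR hx.1 hx.2, fun hx => ⟨hx.1, Subgroup.subset_closure hx⟩⟩
  · have gen : ∀ a ∈ WSet D d, ∀ b ∈ WSet D d, ⁅a, b⁆ ∈ sameCommutingSubgroup D d := by
      intro a ha b hb
      by_cases hab : Commute a b
      · rw [commutatorElement_eq_one_iff_commute.mpr hab]; exact one_mem _
      have h1 : ASet D a ≠ ASet D d := fun h =>
        hab (hcen a ha.1 h b (Subgroup.subset_closure hb)).symm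
      have h2 := ((nice_of_wset hR hc hE' hd ha h1).2.2 b hb).resolve_left hab
      have e1 : ⁅a, b⁆ = cm a b := by
        rw [commutatorElement_def, ri_inv hR ha.1, ri_inv hR hb.1]; rfl
      rw [e1]
      exact Subgroup.subset_closure
        ((hS d hd _).mpr ⟨cm_mem hR ha.1 hb.1 (four_of_wset hR ha hb hab), h2⟩)
    have step : ∀ b ∈ Subgroup.closure (WSet D d),
        (∀ a ∈ WSet D d, ⁅a, b⁆ ∈ sameCommutingSubgroup D d) →
        ∀ a ∈ Subgroup.closure (WSet D d), ⁅a, b⁆ ∈ sameCommutingSubgroup D d := by
      intro b _ h a ha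
      induction ha using Subgroup.closure_induction'' with
      | mem x hx => exact h x hx
      | inv_mem x hx => rw [ri_inv hR hx.1]; exact h x hx
      | one => simp
      | mul x y hx _ ihx ihy =>
        have : ⁅x * y, b⁆ = ⁅y, b⁆ * ⁅x, b⁆ := by
          calc ⁅x * y, b⁆ = (x * ⁅y, b⁆) * x⁻¹ * ⁅x, b⁆ := by
                simp only [commutatorElement_def]; group
            _ = _ := by rw [(hcen2 _ ihy x hx).eq]; group
        rw [this]; exact mul_mem ihy ihx
    rw [Subgroup.commutator_le]
    intro a ha b hb
    refine step b hb (fun x hx => ?_) a ha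
    rw [← commutatorElement_inv]
    refine inv_mem (step x (Subgroup.subset_closure hx) (fun y hy => gen y hy x hx) b hb)
  · rw [sameCommutingSubgroup, Subgroup.closure_le]
    intro e he
    obtain ⟨he, h⟩ := (hS d hd e).mp he
    obtain ⟨a, ha, b, hb, h4⟩ := hD.2.2.2
    obtain ⟨g, rfl⟩ := hcl.2.2 _ (cm_mem hR ha hb h4) e he
    have h1 := ((col_cm hR ha hb h4).conj hR g).symm.mem_wset hR
    have h2 := ((col_cm' hR ha hb h4).conj hR g).symm.mem_wset hR
    rw [wset_congr hR hc he hd h] at h1 h2
    have := Subgroup.commutator_mem_commutator (Subgroup.subset_closure h1) (Subgroup.subset_closure h2)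
    rw [commutatorElement_def, ri_inv hR h1.1, ri_inv hR h2.1] at this
    rw [cm_conj]
    exact this
  · ext e
    rw [hS d hd]
    constructor
    · rintro ⟨he, h⟩
      exact ⟨he, Subgroup.subset_closure (mem_wset_of_same hR hc hd (self_mem_wset hR hd) he h),
        fun y hy => (hcen e he h y hy).symm⟩
    · rintro ⟨he, h1, h2⟩
      refine ⟨he, ?_⟩
      by_contra hne
      have n := nice_of_wset hR hc hE' hd (mem_wset_of_closure hR he h1) hne
      obtain ⟨f, hf, h4, -⟩ := n.exists_f hR hc hE' hd hd rfl
      exact ri_not_four_of_comm hR he hf.1 (h2 f (Subgroup.subset_closure hf)) h4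

end Cfsg.Agent.S5055
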