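import Cfsg.Statements.S5057
import Cfsg.Agent.Lib.Root.Inv1

set_option autoImplicit false
open Cfsg

namespace Cfsg.Agent.S5057

open Cfsg.Agent.Lib.Root

set_option maxRecDepth 100000 in
theorem aux : ∀ g : Equiv.Perm (Fin 6), (∀ x, g (g (g x)) = x) ∨ (∀ x, g (g (g (g x))) = x) ∨
    (∀ x, g (g (g (g (g x)))) = x) ∨ Equiv.Perm.sign g ≠ 1 := by
  decide +kernel

theorem le_five (g : alternatingGroup (Fin 6)) : orderOf g ≤ 5 := by
  have key : ∀ n, 0 < n → n ≤ 5 → (g : Equiv.Perm (Fin 6)) ^ n = 1 → orderOf g ≤ 5 :=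
    fun n h1 h2 h => (orderOf_le_of_pow_eq_one h1 (Subtype.ext h)).trans h2
  rcases aux g with h | h | h | h
  · exact key 3 (by omega) (by omega) (Equiv.ext h)
  · exact key 4 (by omega) (by omega) (Equiv.ext h)
  · exact key 5 (by omega) (by omega) (Equiv.ext h)
  · exact absurd g.2 h

theorem ct (g : alternatingGroup (Fin 6)) (h : orderOf g = 2) :
    (g : Equiv.Perm (Fin 6)).cycleType = {2, 2} := by
  have h' : orderOf (g : Equiv.Perm (Fin 6)) = 2 := by rwa [Subgroup.orderOf_coe]
  obtain ⟨n, hn⟩ := Equiv.Perm.cycleType_prime_order (σ := (g : Equiv.Perm (Fin 6)))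
    (by rw [h']; exact Nat.prime_two)
  rw [h'] at hn
  have h1 := Equiv.Perm.sum_cycleType_le (g : Equiv.Perm (Fin 6))
  have h2 := Equiv.Perm.sign_of_cycleType (g : Equiv.Perm (Fin 6))
  rw [Equiv.Perm.mem_alternatingGroup.1 g.2] at h2
  rw [hn] at h1 h2 ⊢
  simp at h1
  have : n ≤ 2 := by omega
  interval_cases n
  · exact absurd h2 (by decide)
  · rfl
  · exact absurd h2 (by decide)

/-- The involutions of the alternating group of degree 6 form a class of root involutions (a single conjugacy class of involutions generating the group, any two of which commute, have product of odd order, or have product of order 4 whose square is again an involution of the class), and the product of any two of them has order at most 5. -/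
theorem result :
    Cfsg.IsRootInvolutionClass {g : ↥(alternatingGroup (Fin 6)) | orderOf g = 2} ∧
    ∀ d ∈ {g : ↥(alternatingGroup (Fin 6)) | orderOf g = 2}, ∀ e ∈ {g : ↥(alternatingGroup (Fin 6)) | orderOf g = 2},
      orderOf (d * e) ≤ 5 := by
  have hconj : ∀ d ∈ {g : ↥(alternatingGroup (Fin 6)) | orderOf g = 2},
      ∀ g : ↥(alternatingGroup (Fin 6)),
      g * d * g⁻¹ ∈ {g : ↥(alternatingGroup (Fin 6)) | orderOf g = 2} :=
    fun d hd g => (Lib.Invol.orderOf_conj' g d).trans hd
  let t : alternatingGroup (Fin 6) := ⟨Equiv.swap 0 1 * Equiv.swap 2 3, by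
    rw [Equiv.Perm.mem_alternatingGroup]; decide⟩
  have ht : orderOf t = 2 := Lib.Invol.orderOf_two_of (by decide) (by decide)
  refine ⟨⟨⟨fun d hd => hd, ?_, hconj, fun a ha b hb => ?_⟩, ⟨t, ht⟩, fun a ha b hb => ?_⟩,
    fun d _ e _ => le_five _⟩
  · have := alternatingGroup.isSimpleGroup (α := Fin 6) (by simp)
    refine ((Lib.Invol.normal_closure_of_conj_closed hconj).eq_bot_or_eq_top).resolve_left fun h => ?_
    have h1 : t ∈ Subgroup.closure {g : ↥(alternatingGroup (Fin 6)) | orderOf g = 2} :=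
      Subgroup.subset_closure ht
    rw [h, Subgroup.mem_bot] at h1
    exact Lib.Invol.ne_one_of_orderOf_two ht h1
  · have h1 := le_five (a * b)
    have h2 := orderOf_pos (a * b)
    have h3 : orderOf (a * b) = 2 → a * b = b * a := fun h => by
      rw [← Lib.Invol.inv_eq_of_orderOf_two h, mul_inv_rev, Lib.Invol.inv_eq_of_orderOf_two ha,
        Lib.Invol.inv_eq_of_orderOf_two hb]
    have h4 : orderOf (a * b) = 4 → orderOf ((a * b) ^ 2) = 2 := fun h => by
      rw [orderOf_pow_of_dvd (by omega) (by rw [h]; omega), h]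
    interval_cases h : orderOf (a * b)
    · exact Or.inr (Or.inl (by decide))
    · exact Or.inl (h3 rfl)
    · exact Or.inr (Or.inl (by decide))
    · exact Or.inr (Or.inr ⟨rfl, h4 rfl⟩)
    · exact Or.inr (Or.inl (by decide))
  · obtain ⟨g, hg⟩ := isConj_iff.1 (alternatingGroup.isConj_of (σ := a) (τ := b)
      (Equiv.Perm.isConj_iff_cycleType_eq.2 ((ct a ha).trans (ct b hb).symm))
      (by rw [← Equiv.Perm.sum_cycleType, ct a ha]; simp))
    exact ⟨g, hg.symm⟩

end Cfsg.Agent.S5057
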