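import Cfsg.Statements.S5058
import Cfsg.Agent.Lib.Root.MatSL

set_option autoImplicit false
open Matrix
open Cfsg

namespace Cfsg.Agent.S5058

open Cfsg.Agent.Lib.Root

/-- Let F be a finite field of characteristic 2 and n a natural number. Then the transvections of SL_{n+3}(F) (so in every dimension at least 3) (the conjugates of the elementary matrices 1 + c E₁₂, c ≠ 0) form a class of root involutions of SL_{n+3}(F); when F has two elements they form a class of {3,4}⁺-transpositions (every product of odd order has order 1 or 3). -/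
theorem result (F : Type*) [Field F] [Fintype F] [CharP F 2] (n : ℕ) :
    Cfsg.IsRootInvolutionClass {t : Matrix.SpecialLinearGroup (Fin (n + 3)) F | ∃ c : F, c ≠ 0 ∧
        ∃ g : Matrix.SpecialLinearGroup (Fin (n + 3)) F, ((g⁻¹ * t * g : Matrix.SpecialLinearGroup (Fin (n + 3)) F) :
          Matrix (Fin (n + 3)) (Fin (n + 3)) F) = Matrix.transvection 0 1 c} ∧
    (Fintype.card F = 2 → Cfsg.IsThreeFourPlusTranspositionSet {t : Matrix.SpecialLinearGroup (Fin (n + 3)) F | ∃ c : F, c ≠ 0 ∧
        ∃ g : Matrix.SpecialLinearGroup (Fin (n + 3)) F, ((g⁻¹ * t * g : Matrix.SpecialLinearGroup (Fin (n + 3)) F) :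
          Matrix (Fin (n + 3)) (Fin (n + 3)) F) = Matrix.transvection 0 1 c}) := by
  have h := matFam_SL (n := Fin (n + 3)) (F := F)
  have hc := connected_SL (n := Fin (n + 3)) (F := F) (by simp)
  have hR := h.kRootSet gen_SL
  have h01 : (0 : Fin (n + 3)) ≠ 1 := by simp
  have h12 : (1 : Fin (n + 3)) ≠ 2 := by
    simp [Fin.ext_iff, Nat.mod_eq_of_lt (show 2 < n + 3 by omega)]
  have h02 : (0 : Fin (n + 3)) ≠ 2 := by
    simp [Fin.ext_iff, Nat.mod_eq_of_lt (show 2 < n + 3 by omega)]
  have hx := single_mem_XSL (F := F) h01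
  have hcl := class_of_connected hR.1 ⟨_, hx, rfl⟩ hc
  have ht : ∀ c : F, Matrix.transvection (0 : Fin (n + 3)) 1 c = 1 + c • single 0 1 (1 : F) := by
    intro c; simp [Matrix.transvection]
  have e : {t : Matrix.SpecialLinearGroup (Fin (n + 3)) F | ∃ c : F, c ≠ 0 ∧
        ∃ g : Matrix.SpecialLinearGroup (Fin (n + 3)) F, ((g⁻¹ * t * g : Matrix.SpecialLinearGroup (Fin (n + 3)) F) :
          Matrix (Fin (n + 3)) (Fin (n + 3)) F) = Matrix.transvection 0 1 c} =
      elts (jSL (Fin (n + 3)) F) (XSL _ F) := by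
    ext t
    constructor
    · rintro ⟨c, hc0, g, hg⟩
      have := h.elts_conj (a := g⁻¹ * t * g) ⟨_, h.smul _ hx c hc0, hg.trans (ht c)⟩ g
      simpa [mul_assoc] using this
    · intro htm
      have h1 := h.elts_ne_one htm
      obtain ⟨x, hx', ex⟩ := htm
      obtain ⟨g, hg⟩ := hcl.2.2 _ ⟨_, hx, rfl⟩ _ ⟨x, hx', rfl⟩
      have h2 := h.elts_mem_TS hx' ex
      rw [hg, mem_conjBy, mem_TS (h.sq _ hx)] at h2
      obtain ⟨c, hc⟩ := h2
      refine ⟨c, fun h0 => h1 ?_, g, hc.trans (ht c).symm⟩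
      have := (h.eq_one_iff hx hc).2 h0
      calc t = g * (g⁻¹ * t * g) * g⁻¹ := by group
        _ = 1 := by rw [this]; group
  have key : ∀ t ∈ elts (jSL (Fin (n + 3)) F) (XSL _ F),
      IsConj (SpecialLinearGroup.transvection h01 (1 : F)) t := by
    intro t htm
    rw [← e] at htm
    obtain ⟨c, hc0, g, hg⟩ := htm
    have e1 : g⁻¹ * t * g = SpecialLinearGroup.transvection h01 c := Subtype.ext hg
    have e2 : SpecialLinearGroup.diag2n h02 c hc0 * SpecialLinearGroup.transvection h01 (1 : F) =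
        SpecialLinearGroup.transvection h01 c * SpecialLinearGroup.diag2n h02 c hc0 := by
      apply h.inj
      rw [map_mul, map_mul]
      simp only [jSL_apply, SpecialLinearGroup.transvection_coe, SpecialLinearGroup.diag2n_coe,
        mul_add, add_mul, mul_one, one_mul, add_right_inj]
      ext a b
      simp only [diagonal_mul, mul_diagonal, single_apply]
      by_cases ha : 0 = a ∧ 1 = b
      · obtain ⟨rfl, rfl⟩ := ha; simp [h12]
      · simp [ha]
    refine isConj_iff.2 ⟨g * SpecialLinearGroup.diag2n h02 c hc0, ?_⟩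
    rw [mul_assoc g, e2, ← e1]; group
  rw [e]
  refine ⟨⟨h.rootInv gen_SL, ?_, fun a ha b hb => ?_⟩, fun h2 => h.threeFour gen_SL fun s hs => ?_⟩
  · obtain ⟨g, hg⟩ := h.ex _ hx
    exact ⟨g, _, hx, hg⟩
  · obtain ⟨g, hg⟩ := isConj_iff.1 ((key a ha).symm.trans (key b hb))
    exact ⟨g, hg.symm⟩
  · have := FiniteField.pow_card_sub_one_eq_one s hs
    simpa [h2] using this

end Cfsg.Agent.S5058
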