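import Cfsg.Statements.S5060
import Cfsg.Agent.Lib.Root.Gen2

set_option autoImplicit false
open Cfsg

namespace Cfsg.Agent.S5060

open Cfsg.Agent.Lib.Root

/-- Let k ⊆ K be fields with the characteristic of k not 2 and k not of order 3, and let α ∈ K be a non-zero element algebraic over k. Then the subgroup of SL₂(K) generated by the upper unitriangular matrices with entry c and the lower unitriangular matrices with entry cα, c ranging over k, is exactly the group of matrices of SL₂(K) with all entries in k(α). -/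
theorem result {k K : Type*} [Field k] [Field K] [Algebra k K] (hk2 : ringChar k ≠ 2) (hk3 : Nat.card k ≠ 3)
    (α : K) (hα : IsAlgebraic k α) (hα0 : α ≠ 0) :
    (Subgroup.closure ({g : Matrix.SpecialLinearGroup (Fin 2) K | ∃ c : k, (g : Matrix (Fin 2) (Fin 2) K) = !![1, algebraMap k K c; 0, 1]} ∪
        {g : Matrix.SpecialLinearGroup (Fin 2) K | ∃ c : k, (g : Matrix (Fin 2) (Fin 2) K) = !![1, 0; algebraMap k K c * α, 1]}) :
      Set (Matrix.SpecialLinearGroup (Fin 2) K)) =
    {g : Matrix.SpecialLinearGroup (Fin 2) K | ∀ i j : Fin 2, (g : Matrix (Fin 2) (Fin 2) K) i j ∈ IntermediateField.adjoin k ({α} : Set K)} := by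
  set F := IntermediateField.adjoin k ({α} : Set K) with hF
  let ψ : Matrix.SpecialLinearGroup (Fin 2) F →* Matrix.SpecialLinearGroup (Fin 2) K :=
    Matrix.SpecialLinearGroup.map (algebraMap F K)
  have hr : {g : Matrix.SpecialLinearGroup (Fin 2) K | ∀ i j : Fin 2,
      (g : Matrix (Fin 2) (Fin 2) K) i j ∈ F} = ψ.range := by
    ext g
    constructor
    · intro hg
      refine ⟨⟨Matrix.of fun i j => ⟨g i j, hg i j⟩, ?_⟩, ?_⟩
      · apply (algebraMap F K).injective
        rw [RingHom.map_det, map_one]
        exact g.det_coe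
      · ext i j; rfl
    · rintro ⟨g, rfl⟩ i j
      exact (g i j).2
  rw [hr]
  congr 1
  apply le_antisymm
  · rw [Subgroup.closure_le, ← hr]
    rintro g (⟨c, hc⟩ | ⟨c, hc⟩) i j <;> rw [hc] <;> fin_cases i <;> fin_cases j <;>
      simp [F.algebraMap_mem, F.mul_mem _ (IntermediateField.mem_adjoin_simple_self k α)]
  · rw [MonoidHom.range_eq_map, Subgroup.map_le_iff_le_comap, top_le_iff]
    refine sl2_closure_eq_top hk2 hk3 (IntermediateField.adjoin.powerBasis hα.isIntegral)
      (fun e => hα0 (congrArg Subtype.val e)) _ (fun c => ?_) (fun c => ?_)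
    · refine Subgroup.subset_closure (Or.inl ⟨c, ?_⟩)
      ext i j
      fin_cases i <;> fin_cases j <;> simp [ψ]
    · refine Subgroup.subset_closure (Or.inr ⟨c, ?_⟩)
      ext i j
      fin_cases i <;> fin_cases j <;> simp [ψ]

end Cfsg.Agent.S5060
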