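import Cfsg.Statements.S5063
import Cfsg.Agent.Lib.Root.Quad6

set_option autoImplicit false
universe u
open Cfsg

namespace Cfsg.Agent.S5063

open Cfsg.Agent.Lib.Root

/-- Let k be a field of characteristic not 2 with k not of order 3, M a finite-dimensional k-vector space and G ≤ GL(M) such that (G, M) is a quadratic pair (M irreducible for G, and G generated by its quadratically acting elements σ whose scalar family 1 + c(σ − 1), c ∈ k, lies in G). Write 𝒬_d for the quadratic elements of G of minimal commutator rank, E(σ) for the subgroup generated by the members of 𝒬_d with the same fixed space and commutator space as σ, and Σ for the set of these subgroups. Then G is a central product of finitely many quasisimple normal subgroups G₁, …, G_s (pairwise commuting and together generating G), each generated by the quadratic elements of G it contains, and every quadratic element of G lies in one of them. -/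
theorem result {k : Type u} [Field k] (hk2 : ringChar k ≠ 2) (hk3 : Nat.card k ≠ 3)
    {M : Type u} [AddCommGroup M] [Module k M] [FiniteDimensional k M]
    {G : Subgroup (LinearMap.GeneralLinearGroup k M)} (hG : Cfsg.IsQuadraticPair G) :
    ∃ (s : ℕ) (Gi : Fin s → Subgroup (LinearMap.GeneralLinearGroup k M)),
      (∀ i, Gi i ≤ G ∧ ∀ g ∈ G, Cfsg.conjBy (Gi i) g = Gi i) ∧ (∀ i j, i ≠ j → ⁅Gi i, Gi j⁆ = ⊥) ∧ (⨆ i, Gi i) = G ∧
      (∀ i, Cfsg.IsQuasisimple ↥(Gi i) ∧ Subgroup.closure (Cfsg.quadraticElements G ∩ (Gi i : Set (LinearMap.GeneralLinearGroup k M))) = Gi i) ∧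
      Cfsg.quadraticElements G ⊆ ⋃ i, (Gi i : Set (LinearMap.GeneralLinearGroup k M)) := by
  obtain ⟨ι, _, Gi, h1, h2, h3, h4⟩ := exists_central_product hk2 hk3 (noUnip_of_irred hG.1) hG.2.ge
  obtain ⟨s, ⟨e⟩⟩ := Finite.exists_equiv_fin ι
  have l1 : ∀ i, Gi i ≤ G := fun i => h2 ▸ le_iSup Gi i
  refine ⟨s, fun i => Gi (e.symm i), fun i => ⟨l1 _, fun g hg => mem_normalizer_iff_conjBy.1 ?_⟩,
    fun i j h => comm_iff.1 (h1 _ _ fun e' => h (e.symm.injective e')),
    by rw [← h2]; exact e.symm.iSup_comp, fun i => ⟨(h3 _).1, le_antisymm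
      ((Subgroup.closure_le _).2 Set.inter_subset_right) ((h3 _).2.trans (Subgroup.closure_mono
        (Set.subset_inter (quad_mono (l1 _)) fun _ h => h.1)))⟩, fun σ hσ => ?_⟩
  · rw [← h2] at hg
    refine (iSup_le fun j => ?_ : ⨆ j, Gi j ≤ _) hg
    by_cases c : j = e.symm i
    · rw [c]; exact Subgroup.le_normalizer
    · exact fun g hg => mem_normalizer_iff_conjBy.2 ((h1 _ _ c).conjBy_eq hg)
  obtain ⟨hr, r0⟩ := mem_quad_iff.1 hσ
  have h5 := h4 _ hr
  set r : Module.End k M := (σ : Module.End k M) - 1 with hrdef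
  have : ∃ i, ES (Gi i) r ≠ ⊥ := by
    by_contra hn
    push Not at hn
    simp [hn, r0] at h5
  obtain ⟨j, hj⟩ := this
  obtain ⟨v, hv, v0⟩ := Submodule.exists_mem_ne_zero_of_ne_bot hj
  let W : Submodule k M := ⨆ g ∈ Gi j, (LinearMap.range v).map (g : Module.End k M)
  have cm : ∀ i, i ≠ j → ∀ g ∈ Gi i, ∀ w ∈ ES (Gi j) r, ∀ m,
      (g : Module.End k M) (w m) = w ((g : Module.End k M) m) := by
    intro i hi g hg w hw m
    obtain ⟨g', hg', e'⟩ := (ES.nz hw).one_add
    have := congrArg (fun t : GLM k M => (t : Module.End k M) m) (h1 i j hi g hg g' hg')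
    simpa [e'] using this
  have hW : W = ⊤ := by
    refine (hG.1.2 W fun g hg => ?_).resolve_left fun e0 => v0 ?_
    · rw [← h2] at hg
      refine Subgroup.iSup_induction _ (C := fun g : GLM k M => ∀ w ∈ W, (g : M →ₗ[k] M) w ∈ W) hg
        (fun i g hg => ?_) (fun w hw => hw) fun x y hx hy w hw => hx _ (hy w hw)
      change W ≤ W.comap _
      refine iSup₂_le fun g' hg' => ?_
      rintro _ ⟨_, ⟨m, rfl⟩, rfl⟩
      by_cases c : i = j
      · subst c
        exact (le_iSup₂_of_le (g * g') ((Gi i).mul_mem hg hg') le_rfl :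
          (LinearMap.range v).map _ ≤ W) ⟨_, ⟨m, rfl⟩, rfl⟩
      · refine (le_iSup₂_of_le g' hg' le_rfl : (LinearMap.range v).map _ ≤ W)
          ⟨_, ⟨(g : Module.End k M) m, rfl⟩, ?_⟩
        rw [← cm i c g hg v hv, ← Module.End.mul_apply, ← Units.val_mul, ← h1 i j c g hg g' hg']
        rfl
    · rw [← LinearMap.range_eq_bot, eq_bot_iff, ← e0]
      exact le_iSup₂_of_le 1 (Gi j).one_mem fun m hm => ⟨m, hm, rfl⟩
  have h6 : ⨆ i, ES (Gi i) r ≤ ES (Gi j) r := by
    refine iSup_le fun i u hu => ?_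
    by_cases c : i = j
    · rwa [← c]
    have : W ≤ LinearMap.ker u := by
      refine iSup₂_le fun g hg => ?_
      rintro _ ⟨_, ⟨m, rfl⟩, rfl⟩
      obtain ⟨g', hg', e'⟩ := (ES.nz hu).one_add
      have a1 := congrArg (fun t : GLM k M => (t : Module.End k M) (v m)) (h1 i j c g' hg' g hg)
      have a2 : u (v m) = 0 :=
        hu.2.1 (Submodule.mem_sup_right (ES.range_le hv ⟨m, rfl⟩))
      simpa [e', a2] using a1
    rw [hW, top_le_iff, LinearMap.ker_eq_top] at this
    rw [this]; exact Submodule.zero_mem _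
  refine Set.mem_iUnion.2 ⟨e j, ?_⟩
  simp only [Equiv.symm_apply_apply, SetLike.mem_coe]
  exact InG.mem (by simpa [hrdef] using (ES.nz (h6 h5)).one_add)

end Cfsg.Agent.S5063
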