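import Cfsg.Statements.S5064
import Cfsg.Agent.Lib.Root.Quad5

set_option autoImplicit false
universe u
open Cfsg

namespace Cfsg.Agent.S5064

open Cfsg.Agent.Lib.Root

/-- Let k be a field of characteristic not 2 with k not of order 3, M a finite-dimensional k-vector space and G ≤ GL(M) such that (G, M) is a quadratic pair (M irreducible for G, and G generated by its quadratically acting elements σ whose scalar family 1 + c(σ − 1), c ∈ k, lies in G). Write 𝒬_d for the quadratic elements of G of minimal commutator rank, E(σ) for the subgroup generated by the members of 𝒬_d with the same fixed space and commutator space as σ, and Σ for the set of these subgroups. If σ, τ ∈ 𝒬_d and the subgroup H generated by their two scalar families does not act unipotently on M, then H is isomorphic to SL₂ over a simple algebraic extension k(λ) of k. -/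
theorem result {k : Type u} [Field k] (hk2 : ringChar k ≠ 2) (hk3 : Nat.card k ≠ 3)
    {M : Type u} [AddCommGroup M] [Module k M] [FiniteDimensional k M]
    {G : Subgroup (LinearMap.GeneralLinearGroup k M)} (hG : Cfsg.IsQuadraticPair G)
    {σ τ : LinearMap.GeneralLinearGroup k M} (hσ : σ ∈ Cfsg.minimalQuadraticElements G) (hτ : τ ∈ Cfsg.minimalQuadraticElements G)
    (hH : ¬ Cfsg.IsUnipotentOn (Subgroup.closure (Cfsg.scalarFamily σ ∪ Cfsg.scalarFamily τ))) :
    ∃ (K : Type u) (_ : Field K) (_ : Algebra k K) (lam : K), IsAlgebraic k lam ∧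
      IntermediateField.adjoin k ({lam} : Set K) = ⊤ ∧
      Nonempty (↥(Subgroup.closure (Cfsg.scalarFamily σ ∪ Cfsg.scalarFamily τ)) ≃* Matrix.SpecialLinearGroup (Fin 2) K) := by
  have hx := mem_min_iff.1 hσ
  have hy := mem_min_iff.1 hτ
  have h0 : Op ((σ : Module.End k M) - 1) ((τ : Module.End k M) - 1) := by
    by_contra hn
    refine hH (unip_mono (unip_of_not_op hk2 hk3 hn hx hy) ((Subgroup.closure_le _).2 ?_))
    rintro g (⟨c, hc⟩ | ⟨c, hc⟩)
    · refine Subgroup.mem_sup_left (mem_EG.2 ?_)
      rw [hc, add_sub_cancel_left]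
      exact Submodule.smul_mem _ _ (self_mem_ES hx.1)
    · refine Subgroup.mem_sup_right (mem_EG.2 ?_)
      rw [hc, add_sub_cancel_left]
      exact Submodule.smul_mem _ _ (self_mem_ES hy.1)
  obtain ⟨f, hf, ι, F, h1, h2, h3, h4, h5, h6, h7, h8, h9⟩ := exists_field' hk2 hk3 hx hy h0
  obtain ⟨φ, a1, a2, -, a4⟩ := exists_sl2_hom ι h2 h3 hx.1.1 (ES.nz h8).1 h5 h6 h7
  have b1 : ∀ c : k, (φ (xu (algebraMap k _ c)) : Module.End k M) =
      1 + c • ((σ : Module.End k M) - 1) := fun c => by
    rw [a1, ← mul_one (algebraMap k _ c), h4, smul_mul_assoc, h6]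
  have b2 : ∀ c : k, (φ (xl (algebraMap k _ c * AdjoinRoot.root f)) : Module.End k M) =
      1 + c • ((τ : Module.End k M) - 1) := fun c => by
    rw [a2, h4, smul_mul_assoc, h9]
  have pb := AdjoinRoot.powerBasis hf.out.ne_zero
  have hfin := pb.finite
  refine ⟨AdjoinRoot f, inferInstance, inferInstance, AdjoinRoot.root f,
    Algebra.IsAlgebraic.isAlgebraic _, ?_, ⟨?_⟩⟩
  · rw [← IntermediateField.toSubalgebra_inj,
      IntermediateField.adjoin_simple_toSubalgebra_of_isAlgebraic (Algebra.IsAlgebraic.isAlgebraic _),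
      AdjoinRoot.adjoinRoot_eq_top]
    rfl
  · refine (MulEquiv.subgroupCongr ?_).trans (MonoidHom.ofInjective (a4 hx.2.1)).symm
    apply le_antisymm
    · rw [Subgroup.closure_le]
      rintro g (⟨c, hc⟩ | ⟨c, hc⟩)
      · exact ⟨_, Units.ext ((b1 c).trans hc.symm)⟩
      · exact ⟨_, Units.ext ((b2 c).trans hc.symm)⟩
    · rw [MonoidHom.range_eq_map, Subgroup.map_le_iff_le_comap, top_le_iff]
      exact sl2_closure_eq_top hk2 hk3 (AdjoinRoot.powerBasis hf.out.ne_zero) h1 _
        (fun c => Subgroup.subset_closure (Or.inl ⟨c, b1 c⟩))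
        (fun c => Subgroup.subset_closure (Or.inr ⟨c, b2 c⟩))

end Cfsg.Agent.S5064
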