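import Cfsg.Statements.S5065
import Cfsg.Agent.Lib.Root.Quad5

set_option autoImplicit false
universe u
open Cfsg

namespace Cfsg.Agent.S5065

open Cfsg.Agent.Lib.Root

/-- Let k be a field of characteristic not 2 with k not of order 3, M a finite-dimensional k-vector space and G ≤ GL(M) such that (G, M) is a quadratic pair (M irreducible for G, and G generated by its quadratically acting elements σ whose scalar family 1 + c(σ − 1), c ∈ k, lies in G). Write 𝒬_d for the quadratic elements of G of minimal commutator rank, E(σ) for the subgroup generated by the members of 𝒬_d with the same fixed space and commutator space as σ, and Σ for the set of these subgroups. For σ, τ ∈ 𝒬_d put A = E(σ), B = E(τ) and X = ⟨A, B⟩. Then either X acts unipotently on M, or A and B are the unipotent subgroups of a special rank one group X; in the latter case X contains exactly one central involution acting as −1 on the commutator space [M, X] and trivially on the fixed space C_M(X), and M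 is the direct sum of C_M(X) and [M, X]. -/
theorem result {k : Type u} [Field k] (hk2 : ringChar k ≠ 2) (hk3 : Nat.card k ≠ 3)
    {M : Type u} [AddCommGroup M] [Module k M] [FiniteDimensional k M]
    {G : Subgroup (LinearMap.GeneralLinearGroup k M)} (hG : Cfsg.IsQuadraticPair G)
    {σ τ : LinearMap.GeneralLinearGroup k M} (hσ : σ ∈ Cfsg.minimalQuadraticElements G) (hτ : τ ∈ Cfsg.minimalQuadraticElements G) :
    Cfsg.IsUnipotentOn (Cfsg.sameActionSubgroup G σ ⊔ Cfsg.sameActionSubgroup G τ) ∨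
    (Cfsg.IsSpecialRankOnePair (Cfsg.sameActionSubgroup G σ) (Cfsg.sameActionSubgroup G τ) ∧
      (∃! i : LinearMap.GeneralLinearGroup k M, i ∈ Cfsg.sameActionSubgroup G σ ⊔ Cfsg.sameActionSubgroup G τ ∧ i ≠ 1 ∧ i * i = 1 ∧
        (∀ x ∈ Cfsg.sameActionSubgroup G σ ⊔ Cfsg.sameActionSubgroup G τ, i * x = x * i) ∧
        (∀ m ∈ Cfsg.commutatorSubmodule (Cfsg.sameActionSubgroup G σ ⊔ Cfsg.sameActionSubgroup G τ), (i : M →ₗ[k] M) m = -m) ∧
        (∀ m ∈ Cfsg.fixedSubmodule (Cfsg.sameActionSubgroup G σ ⊔ Cfsg.sameActionSubgroup G τ), (i : M →ₗ[k] M) m = m)) ∧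
      IsCompl (Cfsg.fixedSubmodule (Cfsg.sameActionSubgroup G σ ⊔ Cfsg.sameActionSubgroup G τ))
        (Cfsg.commutatorSubmodule (Cfsg.sameActionSubgroup G σ ⊔ Cfsg.sameActionSubgroup G τ))) := by
  have hx := mem_min_iff.1 hσ
  have hy := mem_min_iff.1 hτ
  rw [sameAction_eq hσ, sameAction_eq hτ]
  generalize (σ : Module.End k M) - 1 = x at hx
  generalize (τ : Module.End k M) - 1 = y at hy
  by_cases h : Op x y
  swap
  · exact Or.inl (unip_of_not_op hk2 hk3 h hx hy)
  right
  rw [fixed_EG_sup hx.1 hy.1, comm_EG_sup hx.1 hy.1]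
  obtain ⟨F, hF, h1, h2⟩ := exists_pair hk2 hk3 hx hy h
  have F0 : F ≠ 0 := fun e => hx.2.1 (by rw [← h1, e, zero_mul, mul_zero])
  rw [← hy.ker_of_mem_ES hF F0, ← hy.range_of_mem_ES hF F0]
  obtain ⟨φ, a1, a2, a3⟩ := exists_hom_of_pair hx.1.1 (ES.nz hF).1 h1 h2
  have xx : ∀ m, x (x m) = 0 := LinearMap.congr_fun hx.1.1
  have FF : ∀ m, F (F m) = 0 := LinearMap.congr_fun (ES.nz hF).1
  have h1' : ∀ m, x (F (x m)) = x m := LinearMap.congr_fun h1
  have h2' : ∀ m, F (x (F m)) = F m := LinearMap.congr_fun h2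
  have e1 : ∀ m ∈ LinearMap.range x ⊔ LinearMap.range F, x (F m) + F (x m) = m := by
    intro m hm
    obtain ⟨_, ⟨m1, rfl⟩, _, ⟨m2, rfl⟩, rfl⟩ := Submodule.mem_sup.1 hm
    simp [xx, FF, h1', h2']
  have e2 : ∀ m, m - (x (F m) + F (x m)) ∈ LinearMap.ker x ⊓ LinearMap.ker F := by
    intro m
    constructor <;> simp [xx, FF, h1', h2']
  have e3 : ∀ m, x (F m) + F (x m) ∈ LinearMap.range x ⊔ LinearMap.range F := fun m =>
    Submodule.add_mem_sup ⟨_, rfl⟩ ⟨_, rfl⟩
  have i1 : ∀ m ∈ LinearMap.range x ⊔ LinearMap.range F, (φ (-1) : Module.End k M) m = -m := by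
    intro m hm
    simp [a3, e1 m hm]
  have i2 : ∀ m ∈ LinearMap.ker x ⊓ LinearMap.ker F, (φ (-1) : Module.End k M) m = m := by
    intro m hm
    have b1 : x m = 0 := hm.1
    have b2 : F m = 0 := hm.2
    simp [a3, b1, b2]
  have hext : ∀ r s : Module.End k M, (∀ m ∈ LinearMap.range x ⊔ LinearMap.range F, r m = s m) →
      (∀ m ∈ LinearMap.ker x ⊓ LinearMap.ker F, r m = s m) → r = s := by
    intro r s c1 c2
    ext m
    rw [← sub_add_cancel m (x (F m) + F (x m)), map_add r, map_add s, c1 _ (e3 m), c2 _ (e2 m)]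
  refine ⟨h.special hk2 hk3 hx hy, ⟨φ (-1), ⟨?_, fun e => ?_, ?_, fun g hg => ?_, i1, i2⟩, ?_⟩, ?_, ?_⟩
  · have : (⊤ : Subgroup (Matrix.SpecialLinearGroup (Fin 2) k)) ≤ (EG G x ⊔ EG G y).comap φ := by
      rw [← upper_sup_lower]
      refine sup_le (fun g hg => ?_) (fun g hg => ?_)
      · obtain ⟨t, rfl⟩ := mem_upper.1 hg
        refine Subgroup.mem_sup_left (mem_EG.2 ?_)
        rw [a1, add_sub_cancel_left]
        exact Submodule.smul_mem _ _ (self_mem_ES hx.1)
      · obtain ⟨t, rfl⟩ := mem_lower.1 hg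
        refine Subgroup.mem_sup_right (mem_EG.2 ?_)
        rw [a2, add_sub_cancel_left]
        exact Submodule.smul_mem _ _ hF
    exact this trivial
  · apply hx.2.1
    ext m
    have := i1 (x m) (Submodule.mem_sup_left ⟨m, rfl⟩)
    rw [e, Units.val_one, Module.End.one_apply, eq_neg_iff_add_eq_zero, ← two_smul k] at this
    exact (smul_eq_zero.1 this).resolve_left (Ring.two_ne_zero hk2)
  · rw [← map_mul]; simp
  · have c1 : ∀ m, (g : Module.End k M) m - m ∈ LinearMap.range x ⊔ LinearMap.range F := by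
      intro m
      rw [hy.range_of_mem_ES hF F0, ← comm_EG_sup hx.1 hy.1]
      exact (le_iSup₂_of_le g hg le_rfl : LinearMap.range ((g : M →ₗ[k] M) - 1) ≤ _) ⟨m, rfl⟩
    have c2 : ∀ m ∈ LinearMap.ker x ⊓ LinearMap.ker F, (g : Module.End k M) m = m := by
      intro m hm
      rw [hy.ker_of_mem_ES hF F0, ← fixed_EG_sup hx.1 hy.1] at hm
      exact sub_eq_zero.1 ((iInf₂_le g hg : _ ≤ LinearMap.ker ((g : M →ₗ[k] M) - 1)) hm)
    refine Units.ext (hext _ _ (fun m hm => ?_) (fun m hm => ?_))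
    · simp only [Units.val_mul, Module.End.mul_apply]
      rw [i1 m hm, i1 _ (by simpa using Submodule.add_mem _ (c1 m) hm), map_neg]
    · simp only [Units.val_mul, Module.End.mul_apply]
      rw [i2 m hm, c2 m hm, i2 m hm]
  · rintro j ⟨-, -, -, -, j1, j2⟩
    exact Units.ext (hext _ _ (fun m hm => (j1 m hm).trans (i1 m hm).symm)
      (fun m hm => (j2 m hm).trans (i2 m hm).symm))
  · rw [Submodule.disjoint_def]
    intro m m1 m2
    have b1 : x m = 0 := m1.1
    have b2 : F m = 0 := m1.2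
    rw [← e1 m m2, b1, b2]; simp
  · rw [codisjoint_iff, eq_top_iff]
    intro m _
    rw [← sub_add_cancel m (x (F m) + F (x m))]
    exact Submodule.add_mem_sup (e2 m) (e3 m)

end Cfsg.Agent.S5065
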