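import Cfsg.Statements.S5067
import Cfsg.Agent.Lib.Root.Unip

set_option autoImplicit false
open Cfsg

namespace Cfsg.Agent.S5067

open Cfsg.Agent.Lib.Root

open scoped commutatorElement in
theorem key {P : Type*} [Group P] [Group.IsNilpotent P] (hna : ¬ IsMulCommutative P)
    {E : Subgroup P} (hE : IsMulCommutative ↥E) :
    Group.nilpotencyClass ↥(Subgroup.normalClosure (E : Set P)) < Group.nilpotencyClass P := by
  set N := Subgroup.normalClosure (E : Set P)
  have hK : (commutator P ⊔ E).Normal := Subgroup.Normal.of_commutator_le _ le_sup_left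
  have hN : N ≤ commutator P ⊔ E := Subgroup.normalClosure_le_normal (SetLike.coe_subset_coe.2 le_sup_right)
  set L := (⊤ : Subgroup P).lowerCentralSeries 2 with hL
  have h1 : ⁅N, N⁆ ≤ L := by
    rw [Subgroup.commutator_le]
    intro x hx y hy
    obtain ⟨c, hc, e, he, rfl⟩ := Subgroup.mem_sup_of_normal_left.1 (hN hx)
    obtain ⟨c', hc', e', he', rfl⟩ := Subgroup.mem_sup_of_normal_left.1 (hN hy)
    have hcen : ∀ c ∈ commutator P, ∀ g : P, Commute (c : P ⧸ L) g := by
      intro c hc g
      rw [← commutatorElement_eq_one_iff_commute]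
      exact (QuotientGroup.eq_one_iff ⁅c, g⁆).2 (Subgroup.commutator_mem_commutator hc trivial)
    have hee : Commute (e : P ⧸ L) e' := by
      change (e : P ⧸ L) * e' = e' * e
      rw [← QuotientGroup.mk_mul, subComm_iff.1 hE e he e' he', QuotientGroup.mk_mul]
    rw [← QuotientGroup.eq_one_iff]
    change ⁅((c * e : P) : P ⧸ L), ((c' * e' : P) : P ⧸ L)⁆ = 1
    rw [commutatorElement_eq_one_iff_commute]
    exact (hcen c hc _).mul_left (((hcen c' hc' _).symm).mul_right hee)
  have h2 : ∀ i, N.lowerCentralSeries (i + 1) ≤ (⊤ : Subgroup P).lowerCentralSeries (i + 2) := by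
    intro i
    induction i with
    | zero => exact h1
    | succ i ih => exact Subgroup.commutator_mono ih le_top
  have h3 : 2 ≤ Group.nilpotencyClass P := by
    by_contra h
    apply hna
    have := Subgroup.lowerCentralSeries_eq_bot_iff_nilpotencyClass_le.2
      (show Group.nilpotencyClass P ≤ 1 by omega)
    refine ⟨⟨fun a b => ?_⟩⟩
    rw [← commutatorElement_eq_one_iff_mul_comm, ← Subgroup.mem_bot, ← this]
    exact Subgroup.commutator_mem_commutator trivial trivial
  obtain ⟨i, hi⟩ : ∃ i, Group.nilpotencyClass P = i + 2 := ⟨_, (Nat.sub_add_cancel h3).symm⟩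
  have h4 := h2 i
  rw [← hi, Subgroup.lowerCentralSeries_nilpotencyClass, le_bot_iff,
    ← Subgroup.top_subtype_lowerCentralSeries, Subgroup.map_eq_bot_iff_of_injective _ N.subtype_injective,
    Subgroup.lowerCentralSeries_eq_bot_iff_nilpotencyClass_le] at h4
  omega

/-- Let P be a non-abelian nilpotent p-group (every element of p-power order; P possibly infinite) generated by two abelian subgroups E and F. Then the normal closure of E in P, and likewise that of F, has nilpotency class strictly smaller than that of P. -/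
theorem result {P : Type*} [Group P] {p : ℕ} [Fact p.Prime] (hP : IsPGroup p P) [Group.IsNilpotent P]
    (hna : ¬ IsMulCommutative P) {E F : Subgroup P} (hE : IsMulCommutative ↥E) (hF : IsMulCommutative ↥F) (hgen : E ⊔ F = ⊤) :
    Group.nilpotencyClass ↥(Subgroup.normalClosure (E : Set P)) < Group.nilpotencyClass P ∧
    Group.nilpotencyClass ↥(Subgroup.normalClosure (F : Set P)) < Group.nilpotencyClass P := by
  exact ⟨key hna hE, key hna hF⟩

end Cfsg.Agent.S5067
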