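import Cfsg.Statements.S5070
import Cfsg.Agent.Lib.Root.MatEnd
import Cfsg.Agent.Lib.Invol.SpTransvection

set_option autoImplicit false
open Matrix
open Cfsg

namespace Cfsg.Agent.S5070

open Cfsg.Agent.Lib.Root

open Cfsg.Agent.Lib.Invol Cfsg.Agent.Lib.GL.Alt

variable {F : Type*} [Field F] {m : ℕ}

/-- the nilpotent parts of the transvections -/
def XSp (m : ℕ) (F : Type*) [Field F] : Set (Module.End F (Fin m ⊕ Fin m → F)) :=
  {x | ∃ p, p ≠ 0 ∧ ∃ c : F, c ≠ 0 ∧ ∀ v, x v = (c * sympBilin m F v p) • p}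

/-- the basic one -/
noncomputable def xp (p : Fin m ⊕ Fin m → F) : Module.End F (Fin m ⊕ Fin m → F) :=
  ((sympBilin m F).flip p).smulRight p

theorem xp_apply (p v : Fin m ⊕ Fin m → F) : xp p v = sympBilin m F v p • p := rfl

theorem xp_mem {p : Fin m ⊕ Fin m → F} (hp : p ≠ 0) : xp p ∈ XSp m F :=
  ⟨p, hp, 1, one_ne_zero, fun v => by rw [one_mul]; rfl⟩

theorem exists_ne {p : Fin m ⊕ Fin m → F} (hp : p ≠ 0) : ∃ v, sympBilin m F v p ≠ 0 := by
  by_contra h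
  push Not at h
  exact hp (eq_zero_of_sympBilin h)

theorem hyp {x y : Module.End F (Fin m ⊕ Fin m → F)} {p q : Fin m ⊕ Fin m → F} {c d : F}
    (hc : c ≠ 0) (hd : d ≠ 0) (hx : ∀ v, x v = (c * sympBilin m F v p) • p)
    (hy : ∀ v, y v = (d * sympBilin m F v q) • q) (h : sympBilin m F q p ≠ 0) :
    Hyp (RingHom.id F) x y := by
  refine ⟨-(c * d * sympBilin m F q p ^ 2), by simp [hc, hd, h], LinearMap.ext fun v => ?_,
    LinearMap.ext fun v => ?_⟩
  · simp only [Module.End.mul_apply, hx, hy, map_smul, LinearMap.smul_apply, smul_eq_mul,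
      sympBilin_swap p q, RingHom.id_apply]
    module
  · simp only [Module.End.mul_apply, hx, hy, map_smul, LinearMap.smul_apply, smul_eq_mul,
      sympBilin_swap p q, RingHom.id_apply]
    module

theorem dich {x y : Module.End F (Fin m ⊕ Fin m → F)} (hx : x ∈ XSp m F) (hy : y ∈ XSp m F) :
    x * y = y * x ∨ Hyp (RingHom.id F) x y := by
  obtain ⟨p, -, c, hc, hx⟩ := hx
  obtain ⟨q, -, d, hd, hy⟩ := hy
  by_cases h : sympBilin m F q p = 0
  · left
    refine LinearMap.ext fun v => ?_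
    simp [hx, hy, sympBilin_swap p q, h]
  · exact Or.inr (hyp hc hd hx hy h)

theorem matFam : MatFam (RingHom.id F) (jEnd (Matrix.symplecticGroup (Fin m) F).subtype)
    (XSp m F) := by
  refine ⟨jEnd_inj Subtype.val_injective, ?_, ?_, ?_, ?_, ?_,
    fun x hx y hy => (dich hx hy).imp_right Or.inl⟩
  · rintro x ⟨p, -, c, -, hx⟩
    exact LinearMap.ext fun v => by simp [hx, sympBilin_self]
  · rintro x ⟨p, hp, c, hc, hx⟩ rfl
    obtain ⟨v, hv⟩ := exists_ne hp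
    exact smul_ne_zero (mul_ne_zero hc hv) hp (hx v).symm
  · rintro x ⟨p, hp, c, hc, hx⟩ d hd
    exact ⟨p, hp, d * c, mul_ne_zero hd hc, fun v => by simp [hx, smul_smul, mul_assoc]⟩
  · rintro x ⟨p, -, c, -, hx⟩
    exact ⟨spT p c, LinearMap.ext fun v => by
      rw [jEnd_apply, LinearMap.add_apply, hx]; exact spT_mulVec p v c⟩
  · rintro x ⟨p, hp, c, hc, hx⟩ g
    refine ⟨g.1 *ᵥ p, mulVec_ne_zero (Matrix.symplecticGroup (Fin m) F).subtype g hp, c, hc,
      fun v => ?_⟩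
    rw [Module.End.mul_apply, Module.End.mul_apply, hx, map_smul, jEnd_apply, jEnd_apply,
      ← sp_bilin g]
    congr 3
    exact congrArg _ (mulVec_inv_mulVec (Matrix.symplecticGroup (Fin m) F).subtype g v)

theorem TS_eq {x : Module.End F (Fin m ⊕ Fin m → F)} {p : Fin m ⊕ Fin m → F} {c : F} (hc : c ≠ 0)
    (hx : ∀ v, x v = (c * sympBilin m F v p) • p) :
    TS (RingHom.id F) (jEnd (Matrix.symplecticGroup (Fin m) F).subtype) x =
      TS (RingHom.id F) (jEnd (Matrix.symplecticGroup (Fin m) F).subtype) (xp p) := by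
  rw [← TS_smul (x := xp p) hc]
  congr 1
  exact LinearMap.ext fun v => by simp [hx, xp_apply, smul_smul]

/-- Let F be a field, m a natural number and V = F^{2(m+1)} with the standard non-degenerate alternating form f(u, v) = uᵀ J v. For a non-zero vector p let T(p) be the group of symplectic transvections v ↦ v + c f(v, p) p, c ∈ F. Then the subgroups T(p), p ≠ 0, generate the symplectic group Sp_{2(m+1)}(F) and form a degenerate class of abstract F-root subgroups of it (any two of them either commute elementwise or are the unipotent subgroups of a rank one group that is an image of SL₂(F) with central kernel, never the commutator case), and their graph of rank one pairs is connected. -/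
theorem result (F : Type*) [Field F] (m : ℕ) :
    Cfsg.IsRootSubgroupClass {A : Subgroup ↥(Matrix.symplecticGroup (Fin (m + 1)) F) | ∃ p : Fin (m + 1) ⊕ Fin (m + 1) → F, p ≠ 0 ∧
        A = Subgroup.closure {g : ↥(Matrix.symplecticGroup (Fin (m + 1)) F) | ∃ c : F, ∀ v : Fin (m + 1) ⊕ Fin (m + 1) → F,
          (g : Matrix (Fin (m + 1) ⊕ Fin (m + 1)) (Fin (m + 1) ⊕ Fin (m + 1)) F) *ᵥ v =
            v + (c * (v ⬝ᵥ (Matrix.J (Fin (m + 1)) F *ᵥ p))) • p}} ∧
    Cfsg.IsDegenerateRootSet {A : Subgroup ↥(Matrix.symplecticGroup (Fin (m + 1)) F) | ∃ p : Fin (m + 1) ⊕ Fin (m + 1) → F, p ≠ 0 ∧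
        A = Subgroup.closure {g : ↥(Matrix.symplecticGroup (Fin (m + 1)) F) | ∃ c : F, ∀ v : Fin (m + 1) ⊕ Fin (m + 1) → F,
          (g : Matrix (Fin (m + 1) ⊕ Fin (m + 1)) (Fin (m + 1) ⊕ Fin (m + 1)) F) *ᵥ v =
            v + (c * (v ⬝ᵥ (Matrix.J (Fin (m + 1)) F *ᵥ p))) • p}} ∧
    Cfsg.IsKRootSubgroupSet F {A : Subgroup ↥(Matrix.symplecticGroup (Fin (m + 1)) F) | ∃ p : Fin (m + 1) ⊕ Fin (m + 1) → F, p ≠ 0 ∧
        A = Subgroup.closure {g : ↥(Matrix.symplecticGroup (Fin (m + 1)) F) | ∃ c : F, ∀ v : Fin (m + 1) ⊕ Fin (m + 1) → F,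
          (g : Matrix (Fin (m + 1) ⊕ Fin (m + 1)) (Fin (m + 1) ⊕ Fin (m + 1)) F) *ᵥ v =
            v + (c * (v ⬝ᵥ (Matrix.J (Fin (m + 1)) F *ᵥ p))) • p}} ∧
    Cfsg.IsConnectedFamily (Cfsg.FAdj {A : Subgroup ↥(Matrix.symplecticGroup (Fin (m + 1)) F) | ∃ p : Fin (m + 1) ⊕ Fin (m + 1) → F, p ≠ 0 ∧
        A = Subgroup.closure {g : ↥(Matrix.symplecticGroup (Fin (m + 1)) F) | ∃ c : F, ∀ v : Fin (m + 1) ⊕ Fin (m + 1) → F,
          (g : Matrix (Fin (m + 1) ⊕ Fin (m + 1)) (Fin (m + 1) ⊕ Fin (m + 1)) F) *ᵥ v =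
            v + (c * (v ⬝ᵥ (Matrix.J (Fin (m + 1)) F *ᵥ p))) • p}})
      {A : Subgroup ↥(Matrix.symplecticGroup (Fin (m + 1)) F) | ∃ p : Fin (m + 1) ⊕ Fin (m + 1) → F, p ≠ 0 ∧
        A = Subgroup.closure {g : ↥(Matrix.symplecticGroup (Fin (m + 1)) F) | ∃ c : F, ∀ v : Fin (m + 1) ⊕ Fin (m + 1) → F,
          (g : Matrix (Fin (m + 1) ⊕ Fin (m + 1)) (Fin (m + 1) ⊕ Fin (m + 1)) F) *ᵥ v =
            v + (c * (v ⬝ᵥ (Matrix.J (Fin (m + 1)) F *ᵥ p))) • p}} := by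
  have h := matFam (m := m + 1) (F := F)
  have e0 : ∀ p : Fin (m + 1) ⊕ Fin (m + 1) → F,
      Subgroup.closure {g : ↥(Matrix.symplecticGroup (Fin (m + 1)) F) | ∃ c : F, ∀ v : Fin (m + 1) ⊕ Fin (m + 1) → F,
          (g : Matrix (Fin (m + 1) ⊕ Fin (m + 1)) (Fin (m + 1) ⊕ Fin (m + 1)) F) *ᵥ v =
            v + (c * (v ⬝ᵥ (Matrix.J (Fin (m + 1)) F *ᵥ p))) • p} =
      TS (RingHom.id F) (jEnd (Matrix.symplecticGroup (Fin (m + 1)) F).subtype) (xp p) := by
    intro p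
    simp only [TS, jEnd_eq_iff, xp_apply, smul_smul, sympBilin_apply]
    rfl
  have e : {A : Subgroup ↥(Matrix.symplecticGroup (Fin (m + 1)) F) | ∃ p : Fin (m + 1) ⊕ Fin (m + 1) → F, p ≠ 0 ∧
        A = Subgroup.closure {g : ↥(Matrix.symplecticGroup (Fin (m + 1)) F) | ∃ c : F, ∀ v : Fin (m + 1) ⊕ Fin (m + 1) → F,
          (g : Matrix (Fin (m + 1) ⊕ Fin (m + 1)) (Fin (m + 1) ⊕ Fin (m + 1)) F) *ᵥ v =
            v + (c * (v ⬝ᵥ (Matrix.J (Fin (m + 1)) F *ᵥ p))) • p}} =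
      fam (RingHom.id F) (jEnd (Matrix.symplecticGroup (Fin (m + 1)) F).subtype) (XSp (m + 1) F) := by
    ext A
    simp only [e0]
    exact ⟨fun ⟨p, hp, hA⟩ => ⟨_, xp_mem hp, hA⟩,
      fun ⟨x, ⟨p, hp, c, hc, hx⟩, hA⟩ => ⟨p, hp, hA.trans (TS_eq hc hx)⟩⟩
  rw [e]
  have hg : gen (fam (RingHom.id F) (jEnd (Matrix.symplecticGroup (Fin (m + 1)) F).subtype)
      (XSp (m + 1) F)) = ⊤ := by
    rw [← h.closure_elts, eq_top_iff, ← closure_spT]
    refine Subgroup.closure_mono ?_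
    rintro _ ⟨p, hp, c, hc, rfl⟩
    refine ⟨_, h.smul _ (xp_mem hp) c hc, jEnd_eq_iff.2 fun v => ?_⟩
    rw [xp_apply, smul_smul]
    exact spT_mulVec p v c
  have hc : IsConnectedFamily (FAdj (fam (RingHom.id F)
      (jEnd (Matrix.symplecticGroup (Fin (m + 1)) F).subtype) (XSp (m + 1) F)))
      (fam (RingHom.id F) (jEnd (Matrix.symplecticGroup (Fin (m + 1)) F).subtype)
        (XSp (m + 1) F)) := by
    rintro _ ⟨x, hx, rfl⟩ _ ⟨y, hy, rfl⟩
    obtain ⟨p, hp, c, hc, hx'⟩ := id hx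
    obtain ⟨q, hq, d, hd, hy'⟩ := id hy
    obtain ⟨u, h1, h2⟩ := exists_two_ne ((sympBilin (m + 1) F).flip p).toAddMonoidHom
      ((sympBilin (m + 1) F).flip q).toAddMonoidHom (exists_ne hp) (exists_ne hq)
    have hu : u ≠ 0 := by rintro rfl; simp at h1
    exact h.reach_two hx hy (xp_mem hu)
      (hyp hc one_ne_zero hx' (fun v => by rw [one_mul]; rfl) h1)
      (hyp hd one_ne_zero hy' (fun v => by rw [one_mul]; rfl) h2)
  have hR := h.kRootSet hg
  exact ⟨class_of_connected hR.1 ⟨_, xp_mem (p := fun _ => 1) (fun e => one_ne_zero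
    (congrFun e (.inl 0))), rfl⟩ hc, h.degenerate fun x hx y hy => dich hx hy, hR, hc⟩

end Cfsg.Agent.S5070
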