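import Cfsg.Statements.S5071
import Cfsg.Agent.Lib.Root.MatEnd
import Cfsg.Agent.Lib.GL.HermBasis

set_option autoImplicit false
open Matrix
open Cfsg

namespace Cfsg.Agent.S5071

open Cfsg.Agent.Lib.Root

open Cfsg.Agent.Lib.GL.Herm

section
variable {F L : Type*} [Field F] [Field L] {n q : ℕ} {σ : F →+* F} {ι : L →+* F}

/-- the nilpotent parts of the transvections -/
def XU (n : ℕ) (σ : F →+* F) : Set (Module.End F (Fin n → F)) :=
  {x | ∃ p, p ≠ 0 ∧ stdHerm (Fin n) σ p p = 0 ∧ ∃ c : F, c ≠ 0 ∧ σ c = -c ∧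
    ∀ v, x v = (c * stdHerm (Fin n) σ v p) • p}

/-- the basic one -/
noncomputable def xp (σ : F →+* F) (c : F) (p : Fin n → F) : Module.End F (Fin n → F) :=
  c • ((stdHerm (Fin n) σ).flip p).smulRight p

theorem xp_apply (c : F) (p v : Fin n → F) : xp σ c p v = (c * stdHerm (Fin n) σ v p) • p := by
  rw [mul_smul]; rfl

/-- the matrices of the group -/
def fU (n : ℕ) (F : Type*) [Field F] (q : ℕ) : SU n F q →* Matrix (Fin n) (Fin n) F :=
  (jSL (Fin n) F).comp (SU n F q).subtype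

theorem slToMat_mk (M : Matrix (Fin n) (Fin n) F) (h : M.det = 1) : slToMat n F ⟨M, h⟩ = M := rfl

theorem su_herm (hq : ∀ a, σ a = a ^ q) (g : SU n F q) (u v : Fin n → F) :
    stdHerm (Fin n) σ (fU n F q g *ᵥ u) (fU n F q g *ᵥ v) = stdHerm (Fin n) σ u v := by
  rw [stdHerm_eq_hermForm hq, stdHerm_eq_hermForm hq]
  exact g.2 u v

variable (hσ : IsInvol σ) (hι : ∀ a, σ a = a ↔ ∃ t, ι t = a)
include hσ

theorem exists_ne {p : Fin n → F} (hp : p ≠ 0) : ∃ v, stdHerm (Fin n) σ v p ≠ 0 := by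
  by_contra h
  push Not at h
  exact hp ((isHerm_stdHerm hσ _).nondeg p h)

include hι

theorem hyp {x y : Module.End F (Fin n → F)} {p r : Fin n → F} {c d : F}
    (hc : c ≠ 0) (hd : d ≠ 0) (hc' : σ c = -c) (hd' : σ d = -d)
    (hx : ∀ v, x v = (c * stdHerm (Fin n) σ v p) • p)
    (hy : ∀ v, y v = (d * stdHerm (Fin n) σ v r) • r) (h : stdHerm (Fin n) σ r p ≠ 0) :
    Hyp ι x y := by
  have hh := (isHerm_stdHerm hσ (Fin n)).herm r p
  obtain ⟨t, ht⟩ := (hι (c * d * stdHerm (Fin n) σ r p * stdHerm (Fin n) σ p r)).1 (by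
    rw [hh]; simp only [map_mul, hc', hd', hσ.invol]; ring)
  refine ⟨t, ?_, LinearMap.ext fun v => ?_, LinearMap.ext fun v => ?_⟩
  · rintro rfl
    rw [map_zero, hh] at ht
    simp [hc, hd, h] at ht
  · simp only [Module.End.mul_apply, hx, hy, map_smul, LinearMap.smul_apply, smul_eq_mul, ht]
    module
  · simp only [Module.End.mul_apply, hx, hy, map_smul, LinearMap.smul_apply, smul_eq_mul, ht]
    module

theorem dich {x y : Module.End F (Fin n → F)} (hx : x ∈ XU n σ) (hy : y ∈ XU n σ) :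
    x * y = y * x ∨ Hyp ι x y := by
  obtain ⟨p, -, -, c, hc, hc', hx⟩ := hx
  obtain ⟨r, -, -, d, hd, hd', hy⟩ := hy
  by_cases h : stdHerm (Fin n) σ r p = 0
  · left
    refine LinearMap.ext fun v => ?_
    simp [hx, hy, (isHerm_stdHerm hσ (Fin n)).herm r p, h]
  · exact Or.inr (hyp hσ hι hc hd hc' hd' hx hy h)

theorem matFam (hq : ∀ a, σ a = a ^ q) : MatFam ι (jEnd (fU n F q)) (XU n σ) := by
  have hH := isHerm_stdHerm hσ (Fin n)
  refine ⟨jEnd_inj (Subtype.val_injective.comp Subtype.val_injective), ?_, ?_, ?_, ?_, ?_,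
    fun x hx y hy => (dich hσ hι hx hy).imp_right Or.inl⟩
  · rintro x ⟨p, -, hp, c, -, -, hx⟩
    exact LinearMap.ext fun v => by simp [hx, hp]
  · rintro x ⟨p, hp, -, c, hc, -, hx⟩ rfl
    obtain ⟨v, hv⟩ := exists_ne hσ hp
    exact smul_ne_zero (mul_ne_zero hc hv) hp (hx v).symm
  · rintro x ⟨p, hp, hp', c, hc, hc', hx⟩ d hd
    exact ⟨p, hp, hp', ι d * c, mul_ne_zero (by simpa using hd) hc,
      by rw [map_mul, hc', (hι _).2 ⟨d, rfl⟩, mul_neg],
      fun v => by simp [hx, smul_smul, mul_assoc]⟩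
  · rintro x ⟨p, -, hp, c, -, hc, hx⟩
    have e : ∀ v, (fun i => σ (p i)) ⬝ᵥ v = stdHerm (Fin n) σ v p := fun v => by
      rw [dotProduct_comm]; rfl
    have e2 : ∀ v, (1 + vecMulVec (c • p) (fun i => σ (p i))) *ᵥ v = v + x v := fun v => by
      rw [add_mulVec, one_mulVec, vecMulVec_mulVec, e, hx, op_smul_eq_smul, smul_smul, mul_comm]
    refine ⟨⟨⟨1 + vecMulVec (c • p) (fun i => σ (p i)), ?_⟩, fun u v => ?_⟩,
      LinearMap.ext fun v => e2 v⟩
    · rw [det_one_add_vv, e, map_smul]; simp [hp]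
    · rw [← stdHerm_eq_hermForm hq, ← stdHerm_eq_hermForm hq]
      rw [slToMat_mk, e2, e2, hx, hx]
      simp only [map_add, map_smul, LinearMap.add_apply, LinearMap.smul_apply, smul_eq_mul,
        LinearMap.map_smulₛₗ, hp, map_mul, hc, hH.herm v p]
      ring
  · rintro x ⟨p, hp, hp', c, hc, hc', hx⟩ g
    refine ⟨fU n F q g *ᵥ p, mulVec_ne_zero _ g hp, by rw [su_herm hq, hp'], c, hc, hc',
      fun v => ?_⟩
    rw [Module.End.mul_apply, Module.End.mul_apply, hx, map_smul, jEnd_apply, jEnd_apply,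
      ← su_herm hq g, mulVec_inv_mulVec]

theorem TS_eq {x : Module.End F (Fin n → F)} {p : Fin n → F} {c δ : F} (hc : c ≠ 0) (hc' : σ c = -c)
    (hδ : δ ≠ 0) (hδ' : σ δ = -δ) (hx : ∀ v, x v = (c * stdHerm (Fin n) σ v p) • p) :
    TS ι (jEnd (fU n F q)) x = TS ι (jEnd (fU n F q)) (xp σ δ p) := by
  obtain ⟨t, ht⟩ := (hι (c / δ)).1 (by rw [map_div₀, hc', hδ', neg_div_neg_eq])
  have ht0 : t ≠ 0 := by
    rintro rfl
    rw [map_zero] at ht
    exact div_ne_zero hc hδ ht.symm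
  rw [← TS_smul (x := xp σ δ p) ht0]
  congr 1
  refine LinearMap.ext fun v => ?_
  rw [hx, LinearMap.smul_apply, xp_apply, smul_smul, ht, ← mul_assoc, div_mul_cancel₀ _ hδ]

theorem set_eq (hq : ∀ a, σ a = a ^ q) {p : Fin n → F} (hp : p ≠ 0)
    (hp' : stdHerm (Fin n) σ p p = 0) {δ : F} (hδ : δ ≠ 0) (hδ' : σ δ = -δ) (g : SU n F q) :
    ((∀ v, ∃ c : F, fU n F q g *ᵥ v = v + c • p) ∧
      ∀ v, hermForm n F q v p = 0 → fU n F q g *ᵥ v = v) ↔
    ∃ t, jEnd (fU n F q) g = 1 + ι t • xp σ δ p := by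
  simp only [jEnd_eq_iff, xp_apply, smul_smul, ← stdHerm_eq_hermForm hq]
  constructor
  · rintro ⟨h1, h2⟩
    obtain ⟨u, hu⟩ : ∃ u, stdHerm (Fin n) σ u p = 1 := by
      obtain ⟨u, hu⟩ := exists_ne hσ hp
      exact ⟨(stdHerm (Fin n) σ u p)⁻¹ • u, by simp [hu]⟩
    obtain ⟨c, hc⟩ := h1 u
    have h3 := su_herm hq g u u
    rw [hc] at h3
    simp only [map_add, map_smul, LinearMap.add_apply, LinearMap.smul_apply, smul_eq_mul,
      LinearMap.map_smulₛₗ, hp', (isHerm_stdHerm hσ (Fin n)).herm u p, hu, map_one] at h3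
    obtain ⟨t, ht⟩ := (hι (c / δ)).1 (by
      rw [map_div₀, hδ', show σ c = -c by linear_combination h3, neg_div_neg_eq])
    refine ⟨t, fun v => ?_⟩
    have h4 := h2 (v - stdHerm (Fin n) σ v p • u) (by simp [hu])
    rw [mulVec_sub, mulVec_smul, hc, sub_eq_iff_eq_add] at h4
    rw [h4, ht, ← mul_assoc, div_mul_cancel₀ _ hδ]
    module
  · rintro ⟨t, ht⟩
    exact ⟨fun v => ⟨_, ht v⟩, fun v hv => by simp [ht, hv]⟩

theorem connected (hq : ∀ a, σ a = a ^ q) :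
    IsConnectedFamily (FAdj (fam ι (jEnd (fU n F q)) (XU n σ))) (fam ι (jEnd (fU n F q)) (XU n σ)) := by
  have h := matFam (n := n) hσ hι hq
  have hH := isHerm_stdHerm hσ (Fin n)
  rintro _ ⟨x, hx, rfl⟩ _ ⟨y, hy, rfl⟩
  obtain ⟨p, hp, hp', c, hc, hc', hx'⟩ := id hx
  obtain ⟨r, hr, hr', d, hd, hd', hy'⟩ := id hy
  by_cases hrp : stdHerm (Fin n) σ r p = 0
  swap
  · exact h.reach hx hy (hyp hσ hι hc hd hc' hd' hx' hy' hrp)
  obtain ⟨u, h1, h2⟩ := exists_two_ne ((stdHerm (Fin n) σ).flip p).toAddMonoidHom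
    ((stdHerm (Fin n) σ).flip r).toAddMonoidHom (exists_ne hσ hp) (exists_ne hσ hr)
  change stdHerm (Fin n) σ u p ≠ 0 at h1
  change stdHerm (Fin n) σ u r ≠ 0 at h2
  obtain ⟨a, ha⟩ := hσ.exists_trace_eq (t := -stdHerm (Fin n) σ u u) (by rw [map_neg, ← hH.herm])
  have h1' : σ (stdHerm (Fin n) σ u p) ≠ 0 := by simpa using h1
  set w := u + (a / σ (stdHerm (Fin n) σ u p)) • p with hw
  have e1 : stdHerm (Fin n) σ w p = stdHerm (Fin n) σ u p := by simp [hw, hp']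
  have e2 : stdHerm (Fin n) σ w r = stdHerm (Fin n) σ u r := by simp [hw, hH.herm r p, hrp]
  have e3 : stdHerm (Fin n) σ w w = 0 := by
    simp only [hw, map_add, map_smul, LinearMap.add_apply, LinearMap.smul_apply, smul_eq_mul,
      LinearMap.map_smulₛₗ, hp', hH.herm u p, map_div₀, hσ.invol]
    field_simp
    linear_combination (σ (stdHerm (Fin n) σ u p) * stdHerm (Fin n) σ u p) * ha
  have hw0 : w ≠ 0 := by
    intro e
    rw [e] at e1
    exact h1 (by simpa using e1.symm)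
  exact h.reach_two hx hy ⟨w, hw0, e3, c, hc, hc', xp_apply c w⟩
    (hyp hσ hι hc hc hc' hc' hx' (xp_apply c w) (e1 ▸ h1))
    (hyp hσ hι hd hc hd' hc' hy' (xp_apply c w) (e2 ▸ h2))

end

/-- Let F be a finite field with q² elements, n a natural number, and h the Hermitian form Σ uᵢ vᵢ^q on F^{n+2}. For a non-zero isotropic vector p let T(p) be the group of unitary transvections with centre ⟨p⟩: the elements of SU_{n+2}(q) moving every vector by a multiple of p and fixing every vector perpendicular to p. Let Σ be the set of these T(p) and G₀ the subgroup they generate. Then, viewed inside G₀, the members of Σ form a degenerate class of abstract k-root subgroups of G₀ for some field k with q elements (any two commute or are the unipotent subgroups of a rank one group that is an image of SL₂(k) with central kernel, never the commutator case), and their graph of rank one pairs is connected. -/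
theorem result (F : Type*) [Field F] [Fintype F] (q n : ℕ) (hF : Fintype.card F = q ^ 2) :
    Cfsg.IsRootSubgroupClass ((fun A : Subgroup ↥(Cfsg.SU (n + 2) F q) => A.subgroupOf (⨆ B ∈ {A : Subgroup ↥(Cfsg.SU (n + 2) F q) | ∃ p : Fin (n + 2) → F, p ≠ 0 ∧ Cfsg.hermForm (n + 2) F q p p = 0 ∧
          A = Subgroup.closure {g : ↥(Cfsg.SU (n + 2) F q) |
            (∀ v : Fin (n + 2) → F, ∃ c : F, ((g : Matrix.SpecialLinearGroup (Fin (n + 2)) F) : Matrix (Fin (n + 2)) (Fin (n + 2)) F) *ᵥ v = v + c • p) ∧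
            ∀ v : Fin (n + 2) → F, Cfsg.hermForm (n + 2) F q v p = 0 →
              ((g : Matrix.SpecialLinearGroup (Fin (n + 2)) F) : Matrix (Fin (n + 2)) (Fin (n + 2)) F) *ᵥ v = v}}, B)) ''
      {A : Subgroup ↥(Cfsg.SU (n + 2) F q) | ∃ p : Fin (n + 2) → F, p ≠ 0 ∧ Cfsg.hermForm (n + 2) F q p p = 0 ∧
          A = Subgroup.closure {g : ↥(Cfsg.SU (n + 2) F q) |
            (∀ v : Fin (n + 2) → F, ∃ c : F, ((g : Matrix.SpecialLinearGroup (Fin (n + 2)) F) : Matrix (Fin (n + 2)) (Fin (n + 2)) F) *ᵥ v = v + c • p) ∧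
            ∀ v : Fin (n + 2) → F, Cfsg.hermForm (n + 2) F q v p = 0 →
              ((g : Matrix.SpecialLinearGroup (Fin (n + 2)) F) : Matrix (Fin (n + 2)) (Fin (n + 2)) F) *ᵥ v = v}}) ∧
    Cfsg.IsDegenerateRootSet ((fun A : Subgroup ↥(Cfsg.SU (n + 2) F q) => A.subgroupOf (⨆ B ∈ {A : Subgroup ↥(Cfsg.SU (n + 2) F q) | ∃ p : Fin (n + 2) → F, p ≠ 0 ∧ Cfsg.hermForm (n + 2) F q p p = 0 ∧
          A = Subgroup.closure {g : ↥(Cfsg.SU (n + 2) F q) |
            (∀ v : Fin (n + 2) → F, ∃ c : F, ((g : Matrix.SpecialLinearGroup (Fin (n + 2)) F) : Matrix (Fin (n + 2)) (Fin (n + 2)) F) *ᵥ v = v + c • p) ∧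
            ∀ v : Fin (n + 2) → F, Cfsg.hermForm (n + 2) F q v p = 0 →
              ((g : Matrix.SpecialLinearGroup (Fin (n + 2)) F) : Matrix (Fin (n + 2)) (Fin (n + 2)) F) *ᵥ v = v}}, B)) ''
      {A : Subgroup ↥(Cfsg.SU (n + 2) F q) | ∃ p : Fin (n + 2) → F, p ≠ 0 ∧ Cfsg.hermForm (n + 2) F q p p = 0 ∧
          A = Subgroup.closure {g : ↥(Cfsg.SU (n + 2) F q) |
            (∀ v : Fin (n + 2) → F, ∃ c : F, ((g : Matrix.SpecialLinearGroup (Fin (n + 2)) F) : Matrix (Fin (n + 2)) (Fin (n + 2)) F) *ᵥ v = v + c • p) ∧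
            ∀ v : Fin (n + 2) → F, Cfsg.hermForm (n + 2) F q v p = 0 →
              ((g : Matrix.SpecialLinearGroup (Fin (n + 2)) F) : Matrix (Fin (n + 2)) (Fin (n + 2)) F) *ᵥ v = v}}) ∧
    (∃ (L : Type) (_ : Field L) (_ : Fintype L), Fintype.card L = q ∧ Cfsg.IsKRootSubgroupSet L ((fun A : Subgroup ↥(Cfsg.SU (n + 2) F q) => A.subgroupOf (⨆ B ∈ {A : Subgroup ↥(Cfsg.SU (n + 2) F q) | ∃ p : Fin (n + 2) → F, p ≠ 0 ∧ Cfsg.hermForm (n + 2) F q p p = 0 ∧
          A = Subgroup.closure {g : ↥(Cfsg.SU (n + 2) F q) |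
            (∀ v : Fin (n + 2) → F, ∃ c : F, ((g : Matrix.SpecialLinearGroup (Fin (n + 2)) F) : Matrix (Fin (n + 2)) (Fin (n + 2)) F) *ᵥ v = v + c • p) ∧
            ∀ v : Fin (n + 2) → F, Cfsg.hermForm (n + 2) F q v p = 0 →
              ((g : Matrix.SpecialLinearGroup (Fin (n + 2)) F) : Matrix (Fin (n + 2)) (Fin (n + 2)) F) *ᵥ v = v}}, B)) ''
      {A : Subgroup ↥(Cfsg.SU (n + 2) F q) | ∃ p : Fin (n + 2) → F, p ≠ 0 ∧ Cfsg.hermForm (n + 2) F q p p = 0 ∧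
          A = Subgroup.closure {g : ↥(Cfsg.SU (n + 2) F q) |
            (∀ v : Fin (n + 2) → F, ∃ c : F, ((g : Matrix.SpecialLinearGroup (Fin (n + 2)) F) : Matrix (Fin (n + 2)) (Fin (n + 2)) F) *ᵥ v = v + c • p) ∧
            ∀ v : Fin (n + 2) → F, Cfsg.hermForm (n + 2) F q v p = 0 →
              ((g : Matrix.SpecialLinearGroup (Fin (n + 2)) F) : Matrix (Fin (n + 2)) (Fin (n + 2)) F) *ᵥ v = v}})) ∧
    Cfsg.IsConnectedFamily (Cfsg.FAdj ((fun A : Subgroup ↥(Cfsg.SU (n + 2) F q) => A.subgroupOf (⨆ B ∈ {A : Subgroup ↥(Cfsg.SU (n + 2) F q) | ∃ p : Fin (n + 2) → F, p ≠ 0 ∧ Cfsg.hermForm (n + 2) F q p p = 0 ∧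
          A = Subgroup.closure {g : ↥(Cfsg.SU (n + 2) F q) |
            (∀ v : Fin (n + 2) → F, ∃ c : F, ((g : Matrix.SpecialLinearGroup (Fin (n + 2)) F) : Matrix (Fin (n + 2)) (Fin (n + 2)) F) *ᵥ v = v + c • p) ∧
            ∀ v : Fin (n + 2) → F, Cfsg.hermForm (n + 2) F q v p = 0 →
              ((g : Matrix.SpecialLinearGroup (Fin (n + 2)) F) : Matrix (Fin (n + 2)) (Fin (n + 2)) F) *ᵥ v = v}}, B)) ''
      {A : Subgroup ↥(Cfsg.SU (n + 2) F q) | ∃ p : Fin (n + 2) → F, p ≠ 0 ∧ Cfsg.hermForm (n + 2) F q p p = 0 ∧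
          A = Subgroup.closure {g : ↥(Cfsg.SU (n + 2) F q) |
            (∀ v : Fin (n + 2) → F, ∃ c : F, ((g : Matrix.SpecialLinearGroup (Fin (n + 2)) F) : Matrix (Fin (n + 2)) (Fin (n + 2)) F) *ᵥ v = v + c • p) ∧
            ∀ v : Fin (n + 2) → F, Cfsg.hermForm (n + 2) F q v p = 0 →
              ((g : Matrix.SpecialLinearGroup (Fin (n + 2)) F) : Matrix (Fin (n + 2)) (Fin (n + 2)) F) *ᵥ v = v}})) ((fun A : Subgroup ↥(Cfsg.SU (n + 2) F q) => A.subgroupOf (⨆ B ∈ {A : Subgroup ↥(Cfsg.SU (n + 2) F q) | ∃ p : Fin (n + 2) → F, p ≠ 0 ∧ Cfsg.hermForm (n + 2) F q p p = 0 ∧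
          A = Subgroup.closure {g : ↥(Cfsg.SU (n + 2) F q) |
            (∀ v : Fin (n + 2) → F, ∃ c : F, ((g : Matrix.SpecialLinearGroup (Fin (n + 2)) F) : Matrix (Fin (n + 2)) (Fin (n + 2)) F) *ᵥ v = v + c • p) ∧
            ∀ v : Fin (n + 2) → F, Cfsg.hermForm (n + 2) F q v p = 0 →
              ((g : Matrix.SpecialLinearGroup (Fin (n + 2)) F) : Matrix (Fin (n + 2)) (Fin (n + 2)) F) *ᵥ v = v}}, B)) ''
      {A : Subgroup ↥(Cfsg.SU (n + 2) F q) | ∃ p : Fin (n + 2) → F, p ≠ 0 ∧ Cfsg.hermForm (n + 2) F q p p = 0 ∧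
          A = Subgroup.closure {g : ↥(Cfsg.SU (n + 2) F q) |
            (∀ v : Fin (n + 2) → F, ∃ c : F, ((g : Matrix.SpecialLinearGroup (Fin (n + 2)) F) : Matrix (Fin (n + 2)) (Fin (n + 2)) F) *ᵥ v = v + c • p) ∧
            ∀ v : Fin (n + 2) → F, Cfsg.hermForm (n + 2) F q v p = 0 →
              ((g : Matrix.SpecialLinearGroup (Fin (n + 2)) F) : Matrix (Fin (n + 2)) (Fin (n + 2)) F) *ᵥ v = v}}) := by
  obtain ⟨σ, hq, hσ⟩ := exists_isInvol hF
  let K := RingHom.eqLocusField σ (RingHom.id F)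
  let ι : Shrink.{0} K →+* F := K.subtype.comp (Shrink.ringEquiv.{0} K).toRingHom
  have hι : ∀ a, σ a = a ↔ ∃ t, ι t = a := by
    intro a
    constructor
    · intro h
      exact ⟨(Shrink.ringEquiv.{0} K).symm ⟨a, h⟩, by simp [ι]⟩
    · rintro ⟨t, rfl⟩
      exact (Shrink.ringEquiv.{0} K t).2
  obtain ⟨δ, hδ, hδ'⟩ := hσ.exists_skew
  have h := matFam (n := n + 2) hσ hι hq
  have hc := connected (n := n + 2) hσ hι hq
  have e : {A : Subgroup ↥(Cfsg.SU (n + 2) F q) | ∃ p : Fin (n + 2) → F, p ≠ 0 ∧ Cfsg.hermForm (n + 2) F q p p = 0 ∧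
          A = Subgroup.closure {g : ↥(Cfsg.SU (n + 2) F q) |
            (∀ v : Fin (n + 2) → F, ∃ c : F, ((g : Matrix.SpecialLinearGroup (Fin (n + 2)) F) : Matrix (Fin (n + 2)) (Fin (n + 2)) F) *ᵥ v = v + c • p) ∧
            ∀ v : Fin (n + 2) → F, Cfsg.hermForm (n + 2) F q v p = 0 →
              ((g : Matrix.SpecialLinearGroup (Fin (n + 2)) F) : Matrix (Fin (n + 2)) (Fin (n + 2)) F) *ᵥ v = v}} =
      fam ι (jEnd (fU (n + 2) F q)) (XU (n + 2) σ) := by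
    ext A
    constructor
    · rintro ⟨p, hp, hp', rfl⟩
      rw [← stdHerm_eq_hermForm hq] at hp'
      exact ⟨xp σ δ p, ⟨p, hp, hp', δ, hδ, hδ', xp_apply δ p⟩,
        congrArg Subgroup.closure (Set.ext (set_eq hσ hι hq hp hp' hδ hδ'))⟩
    · rintro ⟨x, ⟨p, hp, hp', c, hc, hc', hx⟩, rfl⟩
      refine ⟨p, hp, by rwa [← stdHerm_eq_hermForm hq], (TS_eq hσ hι hc hc' hδ hδ' hx).trans ?_⟩
      exact (congrArg Subgroup.closure (Set.ext (set_eq hσ hι hq hp hp' hδ hδ'))).symm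
  rw [e]
  obtain ⟨a, ha⟩ := hσ.exists_norm_eq (a := -1) (by simp)
  have hp : (Fin.cons 1 (Fin.cons a 0) : Fin (n + 2) → F) ≠ 0 := fun e =>
    one_ne_zero (congrFun e 0)
  have hx : xp σ δ (Fin.cons 1 (Fin.cons a 0) : Fin (n + 2) → F) ∈ XU (n + 2) σ :=
    ⟨_, hp, by simp [stdHerm_apply, Fin.sum_univ_succ, ha], δ, hδ, hδ', xp_apply δ _⟩
  refine ⟨h.preRoot.class_of_connected ⟨_, hx, rfl⟩ hc,
    h.degenerate_inner fun x hx y hy => dich hσ hι hx hy,
    ⟨Shrink.{0} K, inferInstance, Fintype.ofFinite _, ?_, h.kRootSet_inner⟩, connected_inner hc⟩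
  rw [← @Nat.card_eq_fintype_card _ (_), Nat.card_congr (equivShrink.{0} K).symm]
  exact hσ.card_fixed hF

end Cfsg.Agent.S5071
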