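import Cfsg.Statements.S5072
import Cfsg.Agent.Lib.Root.MatEnd
import Cfsg.Agent.Lib.Forms.QuadMatrix

set_option autoImplicit false
open Matrix
open Cfsg

namespace Cfsg.Agent.S5072

open Cfsg.Agent.Lib.Root

open Cfsg.Agent.Lib.Forms QuadraticMap

section
variable {F V : Type*} [Field F] [AddCommGroup V] [Module F V] {Q : QuadraticForm F V}

/-- a basis of a singular line -/
structure Sing (Q : QuadraticForm F V) (p r : V) : Prop where
  li : ∀ s t : F, s • p + t • r = 0 → s = 0 ∧ t = 0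
  qp : Q p = 0
  qr : Q r = 0
  pr : polar Q p r = 0

theorem Sing.li' {p r : V} (h : Sing Q p r) : LinearIndependent F ![p, r] :=
  LinearIndependent.pair_iff.2 h.li

theorem Sing.symm {p r : V} (h : Sing Q p r) : Sing Q r p :=
  ⟨fun s t e => (h.li t s (by rwa [add_comm])).symm, h.qr, h.qp, by rw [polar_comm, h.pr]⟩

theorem Sing.rp {p r : V} (h : Sing Q p r) : polar Q r p = 0 := h.symm.pr
theorem Sing.pp {p r : V} (h : Sing Q p r) : polar Q p p = 0 := by rw [polar_self', h.qp, mul_zero]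
theorem Sing.rr {p r : V} (h : Sing Q p r) : polar Q r r = 0 := h.symm.pp

theorem Sing.ne {p r : V} (h : Sing Q p r) : p ≠ 0 := by
  rintro rfl
  exact one_ne_zero (h.li 1 0 (by simp)).1

theorem Sing.q_comb {p r : V} (h : Sing Q p r) (s t : F) : Q (s • p + t • r) = 0 := by
  simp [Q_add, Q_smul, h.qp, h.qr, h.pr]

/-- the nilpotent part of a Siegel transformation -/
def sg (Q : QuadraticForm F V) (p r : V) : Module.End F V :=
  ((polarBilin Q).flip p).smulRight r - ((polarBilin Q).flip r).smulRight p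

theorem sg_apply (p r v : V) : sg Q p r v = polar Q v p • r - polar Q v r • p := rfl

theorem sg_swap (p r : V) : sg Q r p = -sg Q p r := by simp [sg]

theorem sg_comb (p r : V) (a b c d : F) :
    sg Q (a • p + b • r) (c • p + d • r) = (a * d - b * c) • sg Q p r := by
  refine LinearMap.ext fun v => ?_
  simp only [sg_apply, LinearMap.smul_apply, polar_add_right, polar_smul_right, smul_eq_mul]
  module

theorem Sing.comb {p r : V} (h : Sing Q p r) {a b c d : F} (hd : a * d - b * c ≠ 0) :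
    Sing Q (a • p + b • r) (c • p + d • r) := by
  refine ⟨fun s t e => ?_, h.q_comb _ _, h.q_comb _ _, by simp [h.qp, h.qr, h.pr, h.rp]⟩
  obtain ⟨h1, h2⟩ := h.li (s * a + t * c) (s * b + t * d) (by rw [← e]; module)
  exact ⟨mul_right_cancel₀ hd (by linear_combination d * h1 - c * h2),
    mul_right_cancel₀ hd (by linear_combination a * h2 - b * h1)⟩

theorem sg_eq_zero {p r : V} (h : ¬ ∀ s t : F, s • p + t • r = 0 → s = 0 ∧ t = 0) :
    sg Q p r = 0 := by
  push Not at h
  obtain ⟨s, t, e, h⟩ := h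
  by_cases hs : s = 0
  · have : r = 0 := by simpa [hs, h hs] using e
    simp [this, sg]
  · have h1 := sg_comb (Q := Q) p r s t 0 1
    rw [e] at h1
    simpa [sg, hs] using h1.symm

/-- the family -/
def XO (Q : QuadraticForm F V) : Set (Module.End F V) := {x | ∃ p r, Sing Q p r ∧ x = sg Q p r}

theorem smul_mem {x : Module.End F V} (hx : x ∈ XO Q) {c : F} (hc : c ≠ 0) : c • x ∈ XO Q := by
  obtain ⟨p, r, h, rfl⟩ := hx
  exact ⟨_, _, h.comb (a := c) (b := 0) (c := 0) (d := 1) (by simpa using hc), by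
    rw [sg_comb]; simp⟩

theorem sg_triple (p r p' r' : V) : sg Q p r * sg Q p' r' * sg Q p r =
    (polar Q p r' * polar Q r p' - polar Q p p' * polar Q r r') • sg Q p r := by
  refine LinearMap.ext fun v => ?_
  simp only [Module.End.mul_apply, sg_apply, LinearMap.smul_apply, polar_sub_left, polar_smul_left,
    smul_eq_mul, polar_comm Q p' p, polar_comm Q p' r, polar_comm Q r' p, polar_comm Q r' r]
  module

theorem sg_triple' (p r p' r' : V) : sg Q p' r' * sg Q p r * sg Q p' r' =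
    (polar Q p r' * polar Q r p' - polar Q p p' * polar Q r r') • sg Q p' r' := by
  rw [sg_triple, polar_comm Q p' p, polar_comm Q p' r, polar_comm Q r' p, polar_comm Q r' r,
    mul_comm (polar Q r p')]

theorem hyp {p r p' r' : V} (h : polar Q p r' * polar Q r p' - polar Q p p' * polar Q r r' ≠ 0) :
    Hyp (RingHom.id F) (sg Q p r) (sg Q p' r') :=
  ⟨_, h, sg_triple p r p' r', sg_triple' p r p' r'⟩

theorem lie_aux {p r p' r' : V} (h : Sing Q p r) (h' : Sing Q p' r') (ha : polar Q p p' ≠ 0)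
    (hd : polar Q p r' * polar Q r p' - polar Q p p' * polar Q r r' = 0) :
    sg Q p r * sg Q p' r' - sg Q p' r' * sg Q p r = 0 ∨
      sg Q p r * sg Q p' r' - sg Q p' r' * sg Q p r ∈ XO Q := by
  have e : sg Q p r * sg Q p' r' - sg Q p' r' * sg Q p r = (polar Q p p')⁻¹ •
      sg Q ((-polar Q r p') • p + polar Q p p' • r) ((-polar Q p r') • p' + polar Q p p' • r') := by
    have hd' : polar Q r r' = polar Q p r' * polar Q r p' / polar Q p p' := by
      field_simp; linear_combination -hd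
    refine LinearMap.ext fun v => ?_
    simp only [Module.End.mul_apply, sg_apply, LinearMap.smul_apply, LinearMap.sub_apply,
      polar_sub_left, polar_smul_left, polar_add_right, polar_smul_right,
      smul_eq_mul, polar_comm Q p' p, polar_comm Q p' r, polar_comm Q r' p, polar_comm Q r' r, hd']
    match_scalars <;> field_simp <;> ring
  rw [e]
  by_cases hl : ∀ s t : F, s • ((-polar Q r p') • p + polar Q p p' • r) +
      t • ((-polar Q p r') • p' + polar Q p p' • r') = 0 → s = 0 ∧ t = 0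
  · refine Or.inr (smul_mem ⟨_, _, ⟨hl, h.q_comb _ _, h'.q_comb _ _, ?_⟩, rfl⟩ (inv_ne_zero ha))
    simp only [polar_add_left, polar_smul_left, polar_add_right, polar_smul_right, smul_eq_mul]
    linear_combination (-polar Q p p') * hd
  · left; rw [sg_eq_zero hl, smul_zero]

theorem neg_mem_iff {x : Module.End F V} : (-x = 0 ∨ -x ∈ XO Q) → (x = 0 ∨ x ∈ XO Q) := by
  rintro (h | h)
  · exact Or.inl (neg_eq_zero.1 h)
  · exact Or.inr (by simpa using smul_mem h (c := -1) (by simp))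

theorem lie {p r p' r' : V} (h : Sing Q p r) (h' : Sing Q p' r')
    (hd : polar Q p r' * polar Q r p' - polar Q p p' * polar Q r r' = 0) :
    sg Q p r * sg Q p' r' - sg Q p' r' * sg Q p r = 0 ∨
      sg Q p r * sg Q p' r' - sg Q p' r' * sg Q p r ∈ XO Q := by
  by_cases ha : polar Q p p' = 0
  swap
  · exact lie_aux h h' ha hd
  by_cases hb : polar Q p r' = 0
  swap
  · apply neg_mem_iff
    have := lie_aux h h'.symm hb (by linear_combination -hd)
    rwa [sg_swap p' r', mul_neg, neg_mul, neg_sub_neg, ← neg_sub] at this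
  by_cases hc : polar Q r p' = 0
  swap
  · apply neg_mem_iff
    have := lie_aux h.symm h' hc (by linear_combination -hd)
    rwa [sg_swap p r, mul_neg, neg_mul, neg_sub_neg, ← neg_sub] at this
  by_cases he : polar Q r r' = 0
  swap
  · have := lie_aux h.symm h'.symm he (by linear_combination hd)
    rwa [sg_swap p r, sg_swap p' r', neg_mul_neg, neg_mul_neg] at this
  left
  refine LinearMap.ext fun v => ?_
  simp [sg_apply, polar_comm Q p' p, polar_comm Q p' r, polar_comm Q r' p, polar_comm Q r' r,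
    ha, hb, hc, he]

variable {G : Type*} [Group G] (e : G ≃* OG Q) {j : G →* Module.End F V}
  (hj : ∀ g v, j g v = (e g).1 v) [FiniteDimensional F V] (hQ : Nondeg Q)
include hQ

theorem Sing.dual {p r : V} (h : Sing Q p r) (a b : F) :
    ∃ z, polar Q p z = a ∧ polar Q r z = b := by
  obtain ⟨z, hz⟩ := hQ.exists_polar_eq h.li' ![a, b]
  exact ⟨z, hz 0, hz 1⟩

include hj

theorem matFam : MatFam (RingHom.id F) j (XO Q) := by
  refine ⟨fun a b h => e.injective (OG.ext' fun v => by rw [← hj, ← hj, h]), ?_, ?_,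
    fun x hx c hc => smul_mem hx hc, ?_, ?_, ?_⟩
  · rintro _ ⟨p, r, h, rfl⟩
    exact LinearMap.ext fun v => by simp [sg_apply, h.qp, h.qr, h.pr, h.rp]
  · rintro _ ⟨p, r, h, rfl⟩ e
    obtain ⟨z, h1, h2⟩ := h.dual hQ 1 0
    have := congrArg (fun f : Module.End F V => f z) e
    simp [sg_apply, polar_comm Q z, h1, h2] at this
    exact h.symm.ne this
  · rintro _ ⟨p, r, h, rfl⟩
    refine ⟨e.symm (eich Q p r), LinearMap.ext fun v => ?_⟩
    rw [hj, e.apply_symm_apply, eich_apply h.qp h.pr, h.qr]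
    simp [sg_apply, add_sub_assoc]
  · rintro _ ⟨p, r, h, rfl⟩ g
    refine ⟨(e g).1 p, (e g).1 r, ⟨fun s t h1 => h.li s t ((e g).1.injective (by simpa using h1)),
      by simp [h.qp], by simp [h.qr], by simp [h.pr]⟩, LinearMap.ext fun v => ?_⟩
    simp only [Module.End.mul_apply, hj, sg_apply, map_inv, OG.polar_inv, map_sub, map_smul]
  · rintro _ ⟨p, r, h, rfl⟩ _ ⟨p', r', h', rfl⟩
    by_cases hd : polar Q p r' * polar Q r p' - polar Q p p' * polar Q r r' = 0
    · rcases lie h h' hd with h1 | h1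
      · exact Or.inl (sub_eq_zero.1 h1)
      · exact Or.inr (Or.inr ⟨by rw [sg_triple, hd, zero_smul], by rw [sg_triple', hd, zero_smul],
          h1⟩)
    · exact Or.inr (Or.inl (hyp hd))

theorem set_eq {p r : V} (h : Sing Q p r) (g : G) :
    (∀ v, polar Q v p = 0 → polar Q v r = 0 → (e g).1 v = v) ↔
      ∃ c : F, j g = 1 + RingHom.id F c • sg Q p r := by
  constructor
  · intro hg
    obtain ⟨u, u1, u2⟩ := h.dual hQ 1 0
    obtain ⟨w, w1, w2⟩ := h.dual hQ 0 1
    have k1 : ∀ v, (e g).1 (v - polar Q v p • u - polar Q v r • w) =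
        v - polar Q v p • u - polar Q v r • w := fun v =>
      hg _ (by simp [polar_comm Q u, polar_comm Q w, u1, w1])
        (by simp [polar_comm Q u, polar_comm Q w, u2, w2])
    have k2 : ∀ y, (e g).1 y = y + (polar Q ((e g).1 y - y) u • p + polar Q ((e g).1 y - y) w • r) := by
      intro y
      rw [← sub_eq_iff_eq_add']
      refine hQ.eq_of_polar fun v => ?_
      have := polar_fix_res (k1 v) (sub_mem_resSp (e g) y)
      generalize (e g).1 y - y = z at this ⊢
      simp only [polar_sub_left, polar_smul_left, polar_add_left, smul_eq_mul, polar_comm Q v,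
        polar_comm Q u, polar_comm Q w] at this ⊢
      linear_combination this
    have k3 : ∀ y, polar Q ((e g).1 y - y) u * polar Q y p + polar Q ((e g).1 y - y) w * polar Q y r
        = 0 := by
      intro y
      have := (e g).2 y
      rw [k2 y, Q_add, h.q_comb] at this
      simp only [polar_add_right, polar_smul_right, smul_eq_mul] at this
      linear_combination this
    have a1 := k3 u
    have a2 := k3 w
    have a3 := k3 (u + w)
    have b1 := k2 u
    have b2 := k2 w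
    rw [map_add, add_sub_add_comm] at a3
    generalize (e g).1 u - u = u' at a1 a3 b1
    generalize (e g).1 w - w = w' at a2 a3 b2
    simp only [polar_add_left, polar_comm Q u, polar_comm Q w, u1, u2, w1, w2, mul_one, mul_zero,
      add_zero, zero_add] at a1 a2 a3
    rw [a1, a2, zero_add, add_zero] at a3
    refine ⟨polar Q u' w, LinearMap.ext fun v => ?_⟩
    have := k1 v
    rw [map_sub, map_sub, map_smul, map_smul, b1, b2, a1, a2, eq_neg_of_add_eq_zero_left a3,
      sub_sub, sub_eq_iff_eq_add] at this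
    rw [hj, this]
    simp only [LinearMap.add_apply, Module.End.one_apply, LinearMap.smul_apply, sg_apply,
      RingHom.id_apply]
    module
  · rintro ⟨c, hc⟩ v h1 h2
    rw [← hj, hc]; simp [sg_apply, h1, h2]

theorem reach0 {p r r' : V} (h : Sing Q p r) (h' : Sing Q p r') (hr : polar Q r r' = 0) :
    FReach (fam (RingHom.id F) j (XO Q)) (TS (RingHom.id F) j (sg Q p r))
      (TS (RingHom.id F) j (sg Q p r')) := by
  obtain ⟨u, u0, u1, u2⟩ : ∃ u, polar Q p u = 0 ∧ polar Q r u ≠ 0 ∧ polar Q r' u ≠ 0 := by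
    obtain ⟨u, u1, u2⟩ := h.dual hQ 0 1
    obtain ⟨w, w1, w2⟩ := h'.dual hQ 0 1
    by_cases a1 : polar Q r' u = 0
    · by_cases a2 : polar Q r w = 0
      · exact ⟨u + w, by simp [u1, w1], by simp [u2, a2], by simp [w2, a1]⟩
      · exact ⟨w, w1, a2, by simp [w2]⟩
    · exact ⟨u, u1, by simp [u2], a1⟩
  obtain ⟨s, s0, s1, s2, s3⟩ : ∃ s, Q s = 0 ∧ polar Q p s = 0 ∧ polar Q r s ≠ 0 ∧ polar Q r' s ≠ 0 := by
    refine ⟨u - (Q u / polar Q r u) • r, ?_, by simp [u0, h.pr], by simpa [h.qr] using u1,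
      by simpa [polar_comm Q r' r, hr] using u2⟩
    rw [Q_sub, Q_smul, h.qr, polar_smul_right, polar_comm Q u, smul_eq_mul, div_mul_cancel₀ _ u1]
    ring
  have hps : Sing Q p s := by
    refine ⟨fun a b hab => ?_, h.qp, s0, s1⟩
    have hb : b = 0 := by simpa [h.rp, s2] using congrArg (polar Q r) hab
    simpa [hb, h.ne] using hab
  obtain ⟨z, z1, z2⟩ := hps.dual hQ 1 0
  have e1 : polar Q p (z - Q z • p) = 1 := by simp [z1, h.qp]
  have hqs : Sing Q (z - Q z • p) s := by
    refine ⟨fun a b hab => ?_, ?_, s0, by simp [polar_comm Q z, z2, s1]⟩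
    · have ha : a = 0 := by
        have := congrArg (polar Q p) hab
        rwa [polar_add_right, polar_smul_right, polar_smul_right, e1, s1, polar_zero_right,
          smul_zero, add_zero, smul_eq_mul, mul_one] at this
      simpa [ha, hps.symm.ne] using hab
    · rw [Q_sub, Q_smul, h.qp, polar_smul_right, polar_comm Q z, z1]; simp
  exact (matFam e hj hQ).reach_two ⟨p, r, h, rfl⟩ ⟨p, r', h', rfl⟩ ⟨_, _, hqs, rfl⟩
    (hyp (by simpa [e1, s1] using s2)) (hyp (by simpa [e1, s1] using s3))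

variable (h3 : ∀ p r, Sing Q p r → ∃ t z, Q t = 0 ∧ polar Q p t = 0 ∧ polar Q r t = 0 ∧
  polar Q p z = 0 ∧ polar Q r z = 0 ∧ polar Q t z = 1)
include h3

theorem reach1 {p r r' : V} (h : Sing Q p r) (h' : Sing Q p r') :
    FReach (fam (RingHom.id F) j (XO Q)) (TS (RingHom.id F) j (sg Q p r))
      (TS (RingHom.id F) j (sg Q p r')) := by
  by_cases hr : polar Q r r' = 0
  · exact reach0 e hj hQ h h' hr
  obtain ⟨t, z, t0, t1, t2, z1, z2, z3⟩ := h3 p r h
  have hs : Sing Q p (t - (polar Q t r' / polar Q r r') • r) := by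
    refine ⟨fun a b hab => ?_, h.qp, ?_, by simp [t1, h.pr]⟩
    · have hb : b = 0 := by simpa [z1, z2, z3] using congrArg (fun v => polar Q v z) hab
      simpa [hb, h.ne] using hab
    · simp [Q_sub, Q_smul, t0, h.qr, polar_comm Q t r, t2]
  exact (reach0 e hj hQ h hs (by simp [t2, h.qr])).trans (reach0 e hj hQ hs h' (by simp [hr]))

omit hQ hj h3 [FiniteDimensional F V] in
theorem rebase {p r : V} (h : Sing Q p r) {a b : F} (hab : a • p + b • r ≠ 0) :
    ∃ s, Sing Q (a • p + b • r) s ∧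
      TS (RingHom.id F) j (sg Q (a • p + b • r) s) = TS (RingHom.id F) j (sg Q p r) := by
  by_cases ha : a = 0
  · have hb : a * 0 - b * 1 ≠ 0 := by
      intro e; apply hab; simp [ha, show b = 0 by simpa using e]
    exact ⟨_, h.comb hb, by rw [sg_comb]; exact TS_smul (ι := RingHom.id F) hb⟩
  · have hb : a * 1 - b * 0 ≠ 0 := by simpa using ha
    exact ⟨_, h.comb hb, by rw [sg_comb]; exact TS_smul (ι := RingHom.id F) hb⟩

theorem connected : IsConnectedFamily (FAdj (fam (RingHom.id F) j (XO Q)))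
    (fam (RingHom.id F) j (XO Q)) := by
  rintro _ ⟨_, ⟨p, r, h, rfl⟩, rfl⟩ _ ⟨_, ⟨p', r', h', rfl⟩, rfl⟩
  obtain ⟨a, b, hab, hp⟩ : ∃ a b : F, a • p + b • r ≠ 0 ∧ polar Q (a • p + b • r) p' = 0 := by
    by_cases h1 : polar Q p p' = 0
    · exact ⟨1, 0, by simpa using h.ne, by simpa using h1⟩
    · exact ⟨-polar Q r p', polar Q p p', fun e => h1 (h.li _ _ e).2, by simp [mul_comm]⟩
  obtain ⟨s, hs, e1⟩ := rebase (j := j) h hab
  rw [← e1]
  generalize a • p + b • r = x at hab hp hs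
  by_cases hl : ∀ s t : F, s • x + t • p' = 0 → s = 0 ∧ t = 0
  · have hx : Sing Q x p' := ⟨hl, hs.qp, h'.qp, hp⟩
    refine (reach1 e hj hQ h3 hs hx).trans ?_
    have : TS (RingHom.id F) j (sg Q x p') = TS (RingHom.id F) j (sg Q p' x) := by
      rw [sg_swap, ← neg_one_smul F]
      exact TS_smul (ι := RingHom.id F) (neg_ne_zero.2 one_ne_zero)
    rw [this]
    exact reach1 e hj hQ h3 hx.symm h'
  · push Not at hl
    obtain ⟨c, d, hcd, hne⟩ := hl
    have hc : c ≠ 0 := by
      rintro rfl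
      simp [hne rfl, h'.ne] at hcd
    have hx : x = (-d / c) • p' + (0 : F) • r' := by
      apply smul_right_injective V hc
      simp only [zero_smul, add_zero, smul_smul, mul_div_cancel₀ _ hc, neg_smul]
      exact eq_neg_of_add_eq_zero_left hcd
    subst hx
    obtain ⟨s', hs', e2⟩ := rebase (j := j) h' hab
    rw [← e2]
    exact reach1 e hj hQ h3 hs hs'

end

theorem idx3 {F : Type*} [Field F] (m : ℕ) (p r : Fin (m + 3) ⊕ Fin (m + 3) → F)
    (h : Sing (qPlus (m + 3) F) p r) : ∃ t z, qPlus (m + 3) F t = 0 ∧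
      polar (qPlus (m + 3) F) p t = 0 ∧ polar (qPlus (m + 3) F) r t = 0 ∧
      polar (qPlus (m + 3) F) p z = 0 ∧ polar (qPlus (m + 3) F) r z = 0 ∧
      polar (qPlus (m + 3) F) t z = 1 := by
  have h02 : (0 : Fin (m + 3)) ≠ 2 := by
    simp [Fin.ext_iff, Nat.mod_eq_of_lt (show 2 < m + 3 by omega)]
  have h12 : (1 : Fin (m + 3)) ≠ 2 := by
    simp [Fin.ext_iff, Nat.mod_eq_of_lt (show 2 < m + 3 by omega)]
  have h0 : Sing (qPlus (m + 3) F) (Pi.single (.inl 0) 1) (Pi.single (.inl 1) 1) := by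
    refine ⟨fun s t e => ⟨by simpa using congrFun e (.inl 0), by simpa using congrFun e (.inl 1)⟩,
      by simp [qPlus_apply], by simp [qPlus_apply], by simp [polar_qPlus]⟩
  obtain ⟨g, rfl, rfl⟩ := (nondeg_qPlus (m + 3)).witt_pair h0.li' h.li' (by rw [h0.pr, h.pr])
    (by rw [h0.qp, h.qp]) (by rw [h0.qr, h.qr])
  refine ⟨g.1 (Pi.single (.inl 2) 1), g.1 (Pi.single (.inr 2) 1), ?_, ?_, ?_, ?_, ?_, ?_⟩ <;>
    simp only [OG.map_Q, OG.map_polar] <;>
    simp [qPlus_apply, polar_qPlus, Pi.single_apply, h02, h12, h02.symm, h12.symm]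

/-- Let F be a field, m a natural number and V = F^{2(m+3)} with the hyperbolic quadratic form q(x, y) = Σ xᵢ yᵢ (non-degenerate, Witt index m + 3 ≥ 3). For a singular line ℓ (a 2-dimensional subspace on which q vanishes) let T(ℓ) be the group of isometries of q fixing every vector of ℓ^⊥ (the Siegel transvection group of ℓ), let Σ be the set of these groups and G₀ the subgroup they generate. Then, viewed inside G₀, the members of Σ form a set of abstract F-root subgroups of G₀ (any two commute, or are the unipotent subgroups of a rank one group that is an image of SL₂(F) with central kernel, or satisfy the commutator case), and their graph of rank one pairs is connected. -/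
theorem result (F : Type*) [Field F] (m : ℕ) :
    Cfsg.IsKRootSubgroupSet F ((fun A : Subgroup ↥(Cfsg.isometryGroup F (Cfsg.quadFormPlus (m + 3) F)) => A.subgroupOf (⨆ B ∈ {A : Subgroup ↥(Cfsg.isometryGroup F (Cfsg.quadFormPlus (m + 3) F)) | ∃ p r : Fin (m + 3) ⊕ Fin (m + 3) → F, LinearIndependent F ![p, r] ∧
          Cfsg.quadFormPlus (m + 3) F p = 0 ∧ Cfsg.quadFormPlus (m + 3) F r = 0 ∧
          Cfsg.quadFormPlus (m + 3) F (p + r) = 0 ∧
          A = Subgroup.closure {σ : ↥(Cfsg.isometryGroup F (Cfsg.quadFormPlus (m + 3) F)) | ∀ v : Fin (m + 3) ⊕ Fin (m + 3) → F,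
            Cfsg.quadFormPlus (m + 3) F (v + p) - Cfsg.quadFormPlus (m + 3) F v - Cfsg.quadFormPlus (m + 3) F p = 0 →
            Cfsg.quadFormPlus (m + 3) F (v + r) - Cfsg.quadFormPlus (m + 3) F v - Cfsg.quadFormPlus (m + 3) F r = 0 →
              ((σ : Matrix.GeneralLinearGroup (Fin (m + 3) ⊕ Fin (m + 3)) F) : Matrix (Fin (m + 3) ⊕ Fin (m + 3)) (Fin (m + 3) ⊕ Fin (m + 3)) F) *ᵥ v = v}}, B)) ''
      {A : Subgroup ↥(Cfsg.isometryGroup F (Cfsg.quadFormPlus (m + 3) F)) | ∃ p r : Fin (m + 3) ⊕ Fin (m + 3) → F, LinearIndependent F ![p, r] ∧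
          Cfsg.quadFormPlus (m + 3) F p = 0 ∧ Cfsg.quadFormPlus (m + 3) F r = 0 ∧
          Cfsg.quadFormPlus (m + 3) F (p + r) = 0 ∧
          A = Subgroup.closure {σ : ↥(Cfsg.isometryGroup F (Cfsg.quadFormPlus (m + 3) F)) | ∀ v : Fin (m + 3) ⊕ Fin (m + 3) → F,
            Cfsg.quadFormPlus (m + 3) F (v + p) - Cfsg.quadFormPlus (m + 3) F v - Cfsg.quadFormPlus (m + 3) F p = 0 →
            Cfsg.quadFormPlus (m + 3) F (v + r) - Cfsg.quadFormPlus (m + 3) F v - Cfsg.quadFormPlus (m + 3) F r = 0 →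
              ((σ : Matrix.GeneralLinearGroup (Fin (m + 3) ⊕ Fin (m + 3)) F) : Matrix (Fin (m + 3) ⊕ Fin (m + 3)) (Fin (m + 3) ⊕ Fin (m + 3)) F) *ᵥ v = v}}) ∧
    Cfsg.IsConnectedFamily (Cfsg.FAdj {A : Subgroup ↥(Cfsg.isometryGroup F (Cfsg.quadFormPlus (m + 3) F)) | ∃ p r : Fin (m + 3) ⊕ Fin (m + 3) → F, LinearIndependent F ![p, r] ∧
          Cfsg.quadFormPlus (m + 3) F p = 0 ∧ Cfsg.quadFormPlus (m + 3) F r = 0 ∧
          Cfsg.quadFormPlus (m + 3) F (p + r) = 0 ∧
          A = Subgroup.closure {σ : ↥(Cfsg.isometryGroup F (Cfsg.quadFormPlus (m + 3) F)) | ∀ v : Fin (m + 3) ⊕ Fin (m + 3) → F,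
            Cfsg.quadFormPlus (m + 3) F (v + p) - Cfsg.quadFormPlus (m + 3) F v - Cfsg.quadFormPlus (m + 3) F p = 0 →
            Cfsg.quadFormPlus (m + 3) F (v + r) - Cfsg.quadFormPlus (m + 3) F v - Cfsg.quadFormPlus (m + 3) F r = 0 →
              ((σ : Matrix.GeneralLinearGroup (Fin (m + 3) ⊕ Fin (m + 3)) F) : Matrix (Fin (m + 3) ⊕ Fin (m + 3)) (Fin (m + 3) ⊕ Fin (m + 3)) F) *ᵥ v = v}})
      {A : Subgroup ↥(Cfsg.isometryGroup F (Cfsg.quadFormPlus (m + 3) F)) | ∃ p r : Fin (m + 3) ⊕ Fin (m + 3) → F, LinearIndependent F ![p, r] ∧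
          Cfsg.quadFormPlus (m + 3) F p = 0 ∧ Cfsg.quadFormPlus (m + 3) F r = 0 ∧
          Cfsg.quadFormPlus (m + 3) F (p + r) = 0 ∧
          A = Subgroup.closure {σ : ↥(Cfsg.isometryGroup F (Cfsg.quadFormPlus (m + 3) F)) | ∀ v : Fin (m + 3) ⊕ Fin (m + 3) → F,
            Cfsg.quadFormPlus (m + 3) F (v + p) - Cfsg.quadFormPlus (m + 3) F v - Cfsg.quadFormPlus (m + 3) F p = 0 →
            Cfsg.quadFormPlus (m + 3) F (v + r) - Cfsg.quadFormPlus (m + 3) F v - Cfsg.quadFormPlus (m + 3) F r = 0 →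
              ((σ : Matrix.GeneralLinearGroup (Fin (m + 3) ⊕ Fin (m + 3)) F) : Matrix (Fin (m + 3) ⊕ Fin (m + 3)) (Fin (m + 3) ⊕ Fin (m + 3)) F) *ᵥ v = v}} := by
  let j := jEnd ((Units.coeHom _).comp (isometryGroup F (qPlus (m + 3) F)).subtype)
  have hj : ∀ g v, j g v = (toOG (qPlus (m + 3) F) g).1 v := fun _ _ => rfl
  have hQ := nondeg_qPlus (F := F) (m + 3)
  have e : {A : Subgroup ↥(Cfsg.isometryGroup F (Cfsg.quadFormPlus (m + 3) F)) | ∃ p r : Fin (m + 3) ⊕ Fin (m + 3) → F, LinearIndependent F ![p, r] ∧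
          Cfsg.quadFormPlus (m + 3) F p = 0 ∧ Cfsg.quadFormPlus (m + 3) F r = 0 ∧
          Cfsg.quadFormPlus (m + 3) F (p + r) = 0 ∧
          A = Subgroup.closure {σ : ↥(Cfsg.isometryGroup F (Cfsg.quadFormPlus (m + 3) F)) | ∀ v : Fin (m + 3) ⊕ Fin (m + 3) → F,
            Cfsg.quadFormPlus (m + 3) F (v + p) - Cfsg.quadFormPlus (m + 3) F v - Cfsg.quadFormPlus (m + 3) F p = 0 →
            Cfsg.quadFormPlus (m + 3) F (v + r) - Cfsg.quadFormPlus (m + 3) F v - Cfsg.quadFormPlus (m + 3) F r = 0 →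
              ((σ : Matrix.GeneralLinearGroup (Fin (m + 3) ⊕ Fin (m + 3)) F) : Matrix (Fin (m + 3) ⊕ Fin (m + 3)) (Fin (m + 3) ⊕ Fin (m + 3)) F) *ᵥ v = v}} =
      fam (RingHom.id F) j (XO (qPlus (m + 3) F)) := by
    ext A
    constructor
    · rintro ⟨p, r, h1, h2, h3, h4, rfl⟩
      have h : Sing (qPlus (m + 3) F) p r := ⟨LinearIndependent.pair_iff.1 h1, h2, h3, by
        simp only [polar, coe_qPlus, h2, h3, h4, sub_zero]⟩
      exact ⟨_, ⟨p, r, h, rfl⟩, congrArg Subgroup.closure (Set.ext (set_eq _ hj hQ h))⟩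
    · rintro ⟨_, ⟨p, r, h, rfl⟩, rfl⟩
      exact ⟨p, r, h.li', h.qp, h.qr, by simpa [coe_qPlus] using h.q_comb 1 1,
        (congrArg Subgroup.closure (Set.ext (set_eq _ hj hQ h))).symm⟩
  rw [e]
  exact ⟨(matFam _ hj hQ).kRootSet_inner, connected _ hj hQ (idx3 m)⟩

end Cfsg.Agent.S5072
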