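import Cfsg.Statements.S5073
import Cfsg.Agent.Lib.Root.Quad5

set_option autoImplicit false
universe u
open Cfsg

namespace Cfsg.Agent.S5073

open Cfsg.Agent.Lib.Root

/-- Let k be a field of characteristic not 2 with k not of order 3, M a finite-dimensional k-vector space and G ≤ GL(M) such that (G, M) is a quadratic pair (M irreducible for G, and G generated by its quadratically acting elements σ whose scalar family 1 + c(σ − 1), c ∈ k, lies in G). Write 𝒬_d for the quadratic elements of G of minimal commutator rank, E(σ) for the subgroup generated by the members of 𝒬_d with the same fixed space and commutator space as σ, and Σ for the set of these subgroups. Let E, F ∈ Σ. If some non-identity element of E commutes with some non-identity element of F, or some non-identity element of E normalizes F, then E and F commute elementwise. -/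
theorem result {k : Type u} [Field k] (hk2 : ringChar k ≠ 2) (hk3 : Nat.card k ≠ 3)
    {M : Type u} [AddCommGroup M] [Module k M] [FiniteDimensional k M]
    {G : Subgroup (LinearMap.GeneralLinearGroup k M)} (hG : Cfsg.IsQuadraticPair G)
    {E F : Subgroup (LinearMap.GeneralLinearGroup k M)} (hE : E ∈ Cfsg.quadraticRootSubgroups G) (hF : F ∈ Cfsg.quadraticRootSubgroups G)
    (h : (∃ e ∈ E, e ≠ 1 ∧ ∃ f ∈ F, f ≠ 1 ∧ e * f = f * e) ∨ E ⊓ Subgroup.normalizer (F : Set (LinearMap.GeneralLinearGroup k M)) ≠ ⊥) :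
    ⁅E, F⁆ = ⊥ := by
  obtain ⟨x, hx, rfl⟩ := mem_roots_iff.1 hE
  obtain ⟨y, hy, rfl⟩ := mem_roots_iff.1 hF
  have hO := noUnip_of_irred hG.1
  rw [← comm_iff]
  by_contra hc
  by_cases ho : Op x y
  · have hr := (ho.special hk2 hk3 hx hy).1
    rcases h with ⟨e, he, e1, f, hf, f1, h⟩ | h
    · exact r1_not_commute hr he e1 hf f1 h
    · obtain ⟨e, he, e1⟩ := exists_ne_one_of_ne_bot h
      exact e1 (r1_norm hr he.1 (mem_normalizer_iff_conjBy.1 he.2))
  obtain ⟨w, hw, w1, w2, e, s0, s1, s2⟩ := psi_struct hk2 hk3 hO ho hx hy hc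
  rcases h with ⟨e, he, e1, f, hf, f1, h⟩ | h
  · exact (s0 e he f hf h).elim e1 f1
  · obtain ⟨a, ha, a1⟩ := exists_ne_one_of_ne_bot h
    have hp := psi_of_not_op hk2 hk3 hO ho hx hy hc
    have c0 := un_mem_EG (self_mem_ES hw.1)
    obtain ⟨b, hb, c1⟩ := s1 a ha.1 a1 _ c0
    have c2 : un w hw.1.1 ∈ EG G y := by
      rw [c1]
      refine Subgroup.mul_mem _ ?_ (Subgroup.inv_mem _ hb)
      rw [← mem_normalizer_iff_conjBy.1 ha.2]
      exact conj_mem_conjBy hb a
    rcases s0 a ha.1 _ c2 (hp.cA _ (e ▸ c0) a ha.1).symm with h | h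
    · exact a1 h
    · exact un_ne_one _ hw.2.1 h

end Cfsg.Agent.S5073
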